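import Mathlib
import Cfsg.Agent.S0256

set_option autoImplicit false

/-!
# GL_4(2) has a subgroup isomorphic to A_7
-/

namespace Cfsg.Agent.Lib.helper13.A7a

/-- `GL_4(F)`, `|F| = 2`, has a subgroup isomorphic to the alternating group of degree 7
(from `PSL_4(2) ≅ A_8`). -/
theorem exists_A7 {F : Type*} [Field F] [Fintype F] (hF : Fintype.card F = 2) :
    ∃ H : Subgroup (Matrix.GeneralLinearGroup (Fin 4) F),
      Nonempty (H ≃* alternatingGroup (Fin 7)) := by
  classical
  obtain ⟨e⟩ := Cfsg.Agent.S0256.result hF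
  have hc : Subgroup.center (Matrix.SpecialLinearGroup (Fin 4) F) = ⊥ := by
    rw [eq_bot_iff]
    intro A hA
    obtain ⟨r, hr, hrA⟩ := Matrix.SpecialLinearGroup.mem_center_iff.mp hA
    have h01 : r = 0 ∨ r = 1 := by
      by_contra h
      rw [not_or] at h
      have : 2 < Fintype.card F :=
        Fintype.two_lt_card_iff.mpr ⟨0, 1, r, zero_ne_one, Ne.symm h.1, Ne.symm h.2⟩
      omega
    rcases h01 with rfl | rfl
    · simp at hr
    · rw [Subgroup.mem_bot]
      apply Subtype.ext
      rw [← hrA]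
      simp
  let q : Matrix.SpecialLinearGroup (Fin 4) F →* Matrix.ProjectiveSpecialLinearGroup (Fin 4) F :=
    QuotientGroup.mk' _
  have hq : Function.Bijective q := by
    refine ⟨?_, QuotientGroup.mk'_surjective _⟩
    rw [← MonoidHom.ker_eq_bot_iff, QuotientGroup.ker_mk', hc]
  let qe : Matrix.SpecialLinearGroup (Fin 4) F ≃* Matrix.ProjectiveSpecialLinearGroup (Fin 4) F :=
    MulEquiv.ofBijective q hq
  let f : Fin 7 ≃ {x : Fin 8 // x ≠ Fin.last 7} := finSuccAboveEquiv (Fin.last 7)
  let ι0 : alternatingGroup (Fin 7) →* Equiv.Perm (Fin 8) :=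
    (Equiv.Perm.extendDomainHom f).comp (alternatingGroup (Fin 7)).subtype
  have hι0 : ∀ σ, ι0 σ ∈ alternatingGroup (Fin 8) := by
    intro σ
    rw [Equiv.Perm.mem_alternatingGroup]
    show Equiv.Perm.sign (Equiv.Perm.extendDomain (σ : Equiv.Perm (Fin 7)) f) = 1
    rw [Equiv.Perm.sign_extendDomain]
    exact Equiv.Perm.mem_alternatingGroup.mp σ.2
  let ι : alternatingGroup (Fin 7) →* alternatingGroup (Fin 8) := ι0.codRestrict _ hι0
  have hι : Function.Injective ι := by
    intro a b hab
    have : ι0 a = ι0 b := congrArg Subtype.val hab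
    exact Subtype.ext (Equiv.Perm.extendDomainHom_injective f this)
  let φ : alternatingGroup (Fin 7) →* Matrix.GeneralLinearGroup (Fin 4) F :=
    Matrix.SpecialLinearGroup.toGL.comp (qe.symm.toMonoidHom.comp (e.symm.toMonoidHom.comp ι))
  have hφ : Function.Injective φ := by
    intro a b hab
    apply hι
    apply e.symm.injective
    apply qe.symm.injective
    exact Matrix.SpecialLinearGroup.toGL_injective hab
  exact ⟨φ.range, ⟨(MonoidHom.ofInjective hφ).symm⟩⟩

end Cfsg.Agent.Lib.helper13.A7a
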