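import Mathlib

set_option autoImplicit false
set_option linter.unusedSectionVars false
set_option linter.unusedVariables false
set_option linter.style.longLine false

/-!
Recognition of the dihedral group of order eight: a group of order eight with a non-central
involution.
-/

namespace Cfsg.Agent.Lib.helper13.D8

/-- the action of the dihedral group of order eight on the vertices of the square -/
def act : DihedralGroup 4 → Equiv.Perm (ZMod 4)
  | DihedralGroup.r i => Equiv.addRight i
  | DihedralGroup.sr i => (Equiv.neg (ZMod 4)).trans (Equiv.addRight (-i))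

theorem act_mul : ∀ a b : DihedralGroup 4, act (a * b) = act a * act b := by decide

theorem act_one : act 1 = 1 := by decide

/-- the action as a homomorphism -/
def actHom : DihedralGroup 4 →* Equiv.Perm (ZMod 4) where
  toFun := act
  map_one' := act_one
  map_mul' := act_mul

theorem act_inj : Function.Injective actHom := by
  intro a b h
  have h' : act a = act b := h
  revert a b
  decide

theorem fac24 : 2 ^ (Nat.factorization 24 2) = 8 := by
  have h : (24 : ℕ) = 2 ^ 3 * 3 := by norm_num
  rw [h, Nat.factorization_mul (by norm_num) (by norm_num), Nat.Prime.factorization_pow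
    Nat.prime_two]
  simp [Nat.factorization_eq_zero_of_not_dvd]

/-- a group of order eight with a non-central involution is dihedral -/
theorem d8_of_card {G : Type*} [Group G] (hG : Nat.card G = 8) (h g : G) (hh : h * h = 1)
    (hgh : g * h * g⁻¹ ≠ h) : Nonempty (G ≃* DihedralGroup 4) := by
  classical
  have : Finite G := Nat.finite_of_card_ne_zero (by rw [hG]; norm_num)
  have hne : h ≠ 1 := by
    rintro rfl
    simp at hgh
  have hord : orderOf h = 2 := orderOf_eq_prime (by rw [pow_two]; exact hh) hne
  obtain ⟨H, hH⟩ : ∃ H : Subgroup G, H = Subgroup.zpowers h := ⟨_, rfl⟩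
  have hHcard : Nat.card H = 2 := by rw [hH, Nat.card_zpowers, hord]
  have hidx : H.index = 4 := by
    have h1 := H.card_mul_index
    rw [hHcard, hG] at h1
    omega
  have hmemH : ∀ x ∈ H, x = 1 ∨ x = h := by
    intro x hx
    rw [hH] at hx
    obtain ⟨k, rfl⟩ := Subgroup.mem_zpowers_iff.1 hx
    have hk := Int.emod_add_mul_ediv k 2
    have h2 : h ^ (2 : ℤ) = 1 := by
      rw [zpow_ofNat, pow_two]
      exact hh
    rcases Int.emod_two_eq_zero_or_one k with hk0 | hk1
    · left
      rw [← hk, hk0, zero_add, zpow_mul, h2, one_zpow]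
    · right
      rw [← hk, hk1, zpow_add, zpow_one, zpow_mul, h2, one_zpow, mul_one]
  have hker : (MulAction.toPermHom G (G ⧸ H)).ker = ⊥ := by
    rw [← Subgroup.normalCore_eq_ker, eq_bot_iff]
    intro x hx
    rcases hmemH x (Subgroup.normalCore_le H hx) with rfl | rfl
    · exact Subgroup.one_mem _
    · exfalso
      have h1 : g * x * g⁻¹ ∈ H.normalCore :=
        (inferInstance : H.normalCore.Normal).conj_mem x hx g
      rcases hmemH _ (Subgroup.normalCore_le H h1) with h2 | h2
      · apply hne
        have h3 : x = g⁻¹ * (g * x * g⁻¹) * g := by group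
        rw [h3, h2]
        group
      · exact hgh h2
  have hinj : Function.Injective (MulAction.toPermHom G (G ⧸ H)) :=
    (MonoidHom.ker_eq_bot_iff _).1 hker
  have hcardQ : Nat.card (G ⧸ H) = 4 := hidx
  obtain ⟨e⟩ : Nonempty ((G ⧸ H) ≃ ZMod 4) := ⟨Finite.equivFinOfCardEq hcardQ⟩
  obtain ⟨ρ, hρ⟩ : ∃ ρ : G →* Equiv.Perm (ZMod 4), ρ =
      (e.permCongrHom).toMonoidHom.comp (MulAction.toPermHom G (G ⧸ H)) := ⟨_, rfl⟩
  have hinj' : Function.Injective ρ := by
    rw [hρ]
    exact (e.permCongrHom).injective.comp hinj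
  have hcardS : Nat.card (Equiv.Perm (ZMod 4)) = 24 := by
    rw [Nat.card_perm, Nat.card_zmod]
    rfl
  have hfac : 2 ^ (Nat.card (Equiv.Perm (ZMod 4))).factorization 2 = 8 := by
    rw [hcardS]
    exact fac24
  have hc1 : Nat.card ↥ρ.range = 2 ^ (Nat.card (Equiv.Perm (ZMod 4))).factorization 2 := by
    rw [hfac, ← hG]
    exact (Nat.card_congr (MonoidHom.ofInjective hinj').toEquiv).symm
  have hc2 : Nat.card ↥actHom.range = 2 ^ (Nat.card (Equiv.Perm (ZMod 4))).factorization 2 := by
    rw [hfac, ← Nat.card_congr (MonoidHom.ofInjective act_inj).toEquiv, DihedralGroup.nat_card]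
  exact ⟨(MonoidHom.ofInjective hinj').trans
    ((MulEquiv.subgroupCongr (Sylow.coe_ofCard ρ.range hc1).symm).trans
      ((Sylow.equiv (Sylow.ofCard ρ.range hc1) (Sylow.ofCard actHom.range hc2)).trans
        ((MulEquiv.subgroupCongr (Sylow.coe_ofCard actHom.range hc2)).trans
          (MonoidHom.ofInjective act_inj).symm)))⟩

/-- quotient version: a normal subgroup of index eight with a non-central involution modulo it -/
theorem d8_quot {G : Type*} [Group G] (N : Subgroup G) [N.Normal] (hN : N.index = 8) (h g : G)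
    (hh : h * h ∈ N) (hgh : g * h * g⁻¹ * h⁻¹ ∉ N) :
    ∃ φ : G →* DihedralGroup 4, Function.Surjective φ ∧ φ.ker = N := by
  have hcard : Nat.card (G ⧸ N) = 8 := hN
  obtain ⟨e⟩ := d8_of_card hcard (QuotientGroup.mk h : G ⧸ N) (QuotientGroup.mk g)
    (by
      rw [← QuotientGroup.mk_mul]
      exact (QuotientGroup.eq_one_iff _).2 hh)
    (by
      intro hc
      apply hgh
      rw [← QuotientGroup.eq_one_iff, QuotientGroup.mk_mul, QuotientGroup.mk_mul,
        QuotientGroup.mk_mul, QuotientGroup.mk_inv, QuotientGroup.mk_inv, hc, mul_inv_cancel])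
  refine ⟨e.toMonoidHom.comp (QuotientGroup.mk' N),
    e.surjective.comp (QuotientGroup.mk'_surjective N), ?_⟩
  ext x
  rw [MonoidHom.mem_ker, MonoidHom.comp_apply]
  show e (QuotientGroup.mk x) = 1 ↔ x ∈ N
  rw [EmbeddingLike.map_eq_one_iff, QuotientGroup.eq_one_iff]

end Cfsg.Agent.Lib.helper13.D8
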