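import Mathlib
import Cfsg.Prelude.Def_LieTypeDatum
import Cfsg.Agent.Lib.helper4.OrthSimple
import Cfsg.Agent.Lib.helper4.OrthIdx
import Cfsg.Agent.Lib.helper4.QSim

set_option autoImplicit false
set_option linter.unusedSectionVars false
set_option linter.unusedVariables false
set_option linter.style.longLine false

/-!
Automorphisms of `PΩ(Q)` induced by similarities: the conjugation homomorphism and its kernel.
-/

namespace Cfsg.Agent.Lib.helper13.OA

open Matrix

section conj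

variable {F : Type*} [Field F] {ι : Type} [Fintype ι] [DecidableEq ι]

theorem mem_isom_iff (Qf : (ι → F) → F) (x : GL ι F) :
    x ∈ Cfsg.isometryGroup F Qf ↔ ∀ u, Qf ((x : Matrix ι ι F) *ᵥ u) = Qf u :=
  ⟨fun h u => h u u, fun h u _ => h u⟩

theorem conj_mem_isom (Qf : (ι → F) → F) (g : GL ι F)
    (hg : g ∈ Cfsg.Geo.quadSimilarityGroup Qf) (x : GL ι F) (hx : x ∈ Cfsg.isometryGroup F Qf) :
    g * x * g⁻¹ ∈ Cfsg.isometryGroup F Qf := by
  rw [mem_isom_iff] at hx ⊢
  obtain ⟨c, hc⟩ := hg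
  intro u
  have h1 := hc ((x : Matrix ι ι F) *ᵥ (((g⁻¹ : GL ι F) : Matrix ι ι F) *ᵥ u))
  have h2 := hc (((g⁻¹ : GL ι F) : Matrix ι ι F) *ᵥ u)
  rw [Matrix.mulVec_mulVec, ← Units.val_mul, mul_inv_cancel, Units.val_one,
    Matrix.one_mulVec] at h2
  rw [Units.val_mul, Units.val_mul, ← Matrix.mulVec_mulVec, ← Matrix.mulVec_mulVec, h1, hx, ← h2]

theorem isom_le_sim (Qf : (ι → F) → F) :
    Cfsg.isometryGroup F Qf ≤ Cfsg.Geo.quadSimilarityGroup Qf := by
  intro x hx
  rw [mem_isom_iff] at hx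
  exact ⟨1, fun v => by rw [hx, Units.val_one, one_mul]⟩

/-- conjugation by a similarity on the isometry group -/
def conjO (Qf : (ι → F) → F) (g : ↥(Cfsg.Geo.quadSimilarityGroup Qf)) :
    ↥(Cfsg.isometryGroup F Qf) ≃* ↥(Cfsg.isometryGroup F Qf) where
  toFun x := ⟨(g : GL ι F) * x * (g : GL ι F)⁻¹, conj_mem_isom Qf g g.2 x x.2⟩
  invFun x := ⟨(g : GL ι F)⁻¹ * x * (g : GL ι F), by
    have h := conj_mem_isom Qf (g : GL ι F)⁻¹ (inv_mem g.2) x x.2
    rwa [inv_inv] at h⟩
  left_inv x := Subtype.ext (by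
    show (g : GL ι F)⁻¹ * ((g : GL ι F) * x * (g : GL ι F)⁻¹) * (g : GL ι F) = x
    group)
  right_inv x := Subtype.ext (by
    show (g : GL ι F) * ((g : GL ι F)⁻¹ * x * (g : GL ι F)) * (g : GL ι F)⁻¹ = x
    group)
  map_mul' x y := Subtype.ext (by
    show (g : GL ι F) * ((x : GL ι F) * (y : GL ι F)) * (g : GL ι F)⁻¹ =
      ((g : GL ι F) * x * (g : GL ι F)⁻¹) * ((g : GL ι F) * y * (g : GL ι F)⁻¹)
    group)

theorem conjO_coe (Qf : (ι → F) → F) (g : ↥(Cfsg.Geo.quadSimilarityGroup Qf))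
    (x : ↥(Cfsg.isometryGroup F Qf)) :
    ((conjO Qf g x : ↥(Cfsg.isometryGroup F Qf)) : GL ι F) =
      (g : GL ι F) * x * (g : GL ι F)⁻¹ := rfl

theorem mem_comm_of_equiv {G : Type*} [Group G] (e : G ≃* G) {x : G} (hx : x ∈ commutator G) :
    e x ∈ commutator G := by
  have h := (inferInstance : (commutator G).Characteristic).fixed e
  rw [← h] at hx
  exact hx

/-- conjugation by a similarity on `Ω` -/
def conjΩ (Qf : (ι → F) → F) (g : ↥(Cfsg.Geo.quadSimilarityGroup Qf)) :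
    ↥(Cfsg.Omega F Qf) ≃* ↥(Cfsg.Omega F Qf) where
  toFun s := ⟨conjO Qf g s, mem_comm_of_equiv (conjO Qf g) s.2⟩
  invFun s := ⟨(conjO Qf g).symm s, mem_comm_of_equiv (conjO Qf g).symm s.2⟩
  left_inv s := Subtype.ext ((conjO Qf g).symm_apply_apply _)
  right_inv s := Subtype.ext ((conjO Qf g).apply_symm_apply _)
  map_mul' s t := Subtype.ext (map_mul (conjO Qf g) _ _)

theorem conjΩ_coe (Qf : (ι → F) → F) (g : ↥(Cfsg.Geo.quadSimilarityGroup Qf))
    (s : ↥(Cfsg.Omega F Qf)) :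
    (((conjΩ Qf g s : ↥(Cfsg.Omega F Qf)) : ↥(Cfsg.isometryGroup F Qf)) : GL ι F) =
      (g : GL ι F) * ((s : ↥(Cfsg.isometryGroup F Qf)) : GL ι F) * (g : GL ι F)⁻¹ := rfl

theorem omega_ext (Qf : (ι → F) → F) (s t : ↥(Cfsg.Omega F Qf))
    (h : (((s : ↥(Cfsg.isometryGroup F Qf)) : GL ι F) : Matrix ι ι F) =
      (((t : ↥(Cfsg.isometryGroup F Qf)) : GL ι F) : Matrix ι ι F)) : s = t :=
  Subtype.ext (Subtype.ext (Units.ext h))

theorem map_center_eq' {H : Type*} [Group H] (e : H ≃* H) :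
    (Subgroup.center H).map (e : H →* H) = Subgroup.center H := by
  ext x
  constructor
  · rintro ⟨y, hy, rfl⟩
    have hy' : y ∈ Subgroup.center H := hy
    rw [Subgroup.mem_center_iff] at hy'
    show e y ∈ Subgroup.center H
    rw [Subgroup.mem_center_iff]
    intro g
    obtain ⟨g', rfl⟩ := e.surjective g
    rw [← map_mul, ← map_mul, hy' g']
  · intro hx
    rw [Subgroup.mem_center_iff] at hx
    refine ⟨e.symm x, ?_, e.apply_symm_apply x⟩
    show e.symm x ∈ Subgroup.center H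
    rw [Subgroup.mem_center_iff]
    intro g
    apply e.injective
    rw [map_mul, map_mul, e.apply_symm_apply, hx]

/-- an automorphism of `Ω` induces an automorphism of `PΩ` -/
def liftAut (Qf : (ι → F) → F) (e : ↥(Cfsg.Omega F Qf) ≃* ↥(Cfsg.Omega F Qf)) :
    MulAut (Cfsg.POmega F Qf) :=
  QuotientGroup.congr _ _ e (map_center_eq' e)

theorem liftAut_mk (Qf : (ι → F) → F) (e : ↥(Cfsg.Omega F Qf) ≃* ↥(Cfsg.Omega F Qf))
    (s : ↥(Cfsg.Omega F Qf)) :
    liftAut Qf e (QuotientGroup.mk s) = QuotientGroup.mk (e s) := rfl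

theorem exists_rep (Qf : (ι → F) → F) (x : Cfsg.POmega F Qf) :
    ∃ s : ↥(Cfsg.Omega F Qf), x = QuotientGroup.mk s := by
  induction x using QuotientGroup.induction_on with
  | H s => exact ⟨s, rfl⟩

/-- conjugation by similarities on `PΩ` -/
def conjAut (Qf : (ι → F) → F) :
    ↥(Cfsg.Geo.quadSimilarityGroup Qf) →* MulAut (Cfsg.POmega F Qf) where
  toFun g := liftAut Qf (conjΩ Qf g)
  map_one' := by
    apply MulEquiv.ext
    intro x
    obtain ⟨s, rfl⟩ := exists_rep Qf x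
    rw [liftAut_mk]
    congr 1
    apply Subtype.ext
    apply Subtype.ext
    rw [conjΩ_coe]
    show (1 : GL ι F) * _ * (1 : GL ι F)⁻¹ = _
    group
  map_mul' a b := by
    apply MulEquiv.ext
    intro x
    obtain ⟨s, rfl⟩ := exists_rep Qf x
    rw [MulAut.mul_apply, liftAut_mk, liftAut_mk, liftAut_mk]
    congr 1
    apply Subtype.ext
    apply Subtype.ext
    rw [conjΩ_coe, conjΩ_coe, conjΩ_coe]
    show ((a : GL ι F) * (b : GL ι F)) * _ * ((a : GL ι F) * (b : GL ι F))⁻¹ = _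
    group

theorem conjAut_mk (Qf : (ι → F) → F) (g : ↥(Cfsg.Geo.quadSimilarityGroup Qf))
    (s : ↥(Cfsg.Omega F Qf)) :
    conjAut Qf g (QuotientGroup.mk s) = QuotientGroup.mk (conjΩ Qf g s) := rfl

theorem map_refl (M : Matrix ι ι F) : M.map (RingEquiv.refl F) = M := by
  ext i j
  rfl

theorem conjAut_induced (Qf : (ι → F) → F) (g : ↥(Cfsg.Geo.quadSimilarityGroup Qf)) :
    Cfsg.IsInducedBySemilinearPOmega Qf (g : GL ι F) (RingEquiv.refl F) (conjAut Qf g) := by
  intro s s' h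
  rw [conjAut_mk]
  congr 1
  apply omega_ext
  rw [conjΩ_coe, Units.val_mul, Units.val_mul, h, map_refl]

theorem eq_conjAut_of_induced (Qf : (ι → F) → F) (g : ↥(Cfsg.Geo.quadSimilarityGroup Qf))
    (β : MulAut (Cfsg.POmega F Qf))
    (h : Cfsg.IsInducedBySemilinearPOmega Qf (g : GL ι F) (RingEquiv.refl F) β) :
    β = conjAut Qf g := by
  apply MulEquiv.ext
  intro x
  obtain ⟨s, rfl⟩ := exists_rep Qf x
  rw [conjAut_mk]
  apply h s
  rw [conjΩ_coe, Units.val_mul, Units.val_mul, map_refl]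

end conj

section kernel

open Cfsg.Agent.Lib.helper4

variable {F : Type*} [Field F] {ι : Type} [Fintype ι] [DecidableEq ι]

theorem conjΩ_eq_of_conjAut_eq_one (Qf : (ι → F) → F)
    (hperf : commutator ↥(Cfsg.Omega F Qf) = ⊤) (g : ↥(Cfsg.Geo.quadSimilarityGroup Qf))
    (hg : conjAut Qf g = 1) (s : ↥(Cfsg.Omega F Qf)) : conjΩ Qf g s = s := by
  have hz : ∀ s : ↥(Cfsg.Omega F Qf),
      s⁻¹ * conjΩ Qf g s ∈ Subgroup.center ↥(Cfsg.Omega F Qf) := by
    intro s
    have h1 : conjAut Qf g (QuotientGroup.mk s) = QuotientGroup.mk s := by rw [hg]; rfl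
    rw [conjAut_mk] at h1
    exact QuotientGroup.eq.1 h1.symm
  let ζ : ↥(Cfsg.Omega F Qf) →* ↥(Subgroup.center ↥(Cfsg.Omega F Qf)) :=
    MonoidHom.mk' (fun s => ⟨s⁻¹ * conjΩ Qf g s, hz s⟩) (by
      intro s t
      apply Subtype.ext
      show (s * t)⁻¹ * conjΩ Qf g (s * t) = (s⁻¹ * conjΩ Qf g s) * (t⁻¹ * conjΩ Qf g t)
      have hc := Subgroup.mem_center_iff.1 (hz s) t⁻¹
      rw [map_mul]
      calc (s * t)⁻¹ * (conjΩ Qf g s * conjΩ Qf g t)
          = t⁻¹ * (s⁻¹ * conjΩ Qf g s) * conjΩ Qf g t := by group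
        _ = (s⁻¹ * conjΩ Qf g s) * t⁻¹ * conjΩ Qf g t := by rw [hc]
        _ = (s⁻¹ * conjΩ Qf g s) * (t⁻¹ * conjΩ Qf g t) := by group)
  have h2 : s ∈ ζ.ker := by
    have h3 : commutator ↥(Cfsg.Omega F Qf) ≤ ζ.ker := by
      rw [commutator_def, Subgroup.commutator_le]
      intro a _ b _
      rw [MonoidHom.mem_ker, map_commutatorElement]
      apply Subtype.ext
      have hc := Subgroup.mem_center_iff.1 (ζ a).2 (ζ b : ↥(Cfsg.Omega F Qf))
      show (ζ a : ↥(Cfsg.Omega F Qf)) * (ζ b : ↥(Cfsg.Omega F Qf)) *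
        (ζ a : ↥(Cfsg.Omega F Qf))⁻¹ * (ζ b : ↥(Cfsg.Omega F Qf))⁻¹ = 1
      rw [← hc]
      group
    rw [hperf] at h3
    exact h3 (Subgroup.mem_top s)
  have h4 : s⁻¹ * conjΩ Qf g s = 1 := congrArg Subtype.val (MonoidHom.mem_ker.1 h2)
  exact (inv_mul_eq_one.1 h4).symm

/-- a matrix commuting with all of `Ω` maps every singular vector to a multiple of itself
(after `helper4`'s `central_sing`, for arbitrary matrices) -/
theorem comm_sing [Fintype F] (hn : 6 ≤ Fintype.card ι) (Q : QuadraticForm F (ι → F))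
    (hQ : (QuadraticMap.polarBilin Q).Nondegenerate) (M : Matrix ι ι F)
    (hM : ∀ g ∈ Cfsg.Omega F ⇑Q, M * mat Q g = mat Q g * M) (e : ι → F) (he0 : e ≠ 0)
    (hQe : Q e = 0) : ∃ a : F, M.mulVec e = a • e := by
  classical
  have hh : Fintype.card F ≠ 2 ∨ Fintype.card ι ≠ 4 := Or.inr (by omega)
  obtain ⟨f, hQf, hef⟩ := exists_hyp_partner Q hQ e he0 hQe
  have hfe : QuadraticMap.polar (⇑Q) f e = 1 := by rw [QuadraticMap.polar_comm, hef]
  have hH : GoodSub Q (Submodule.span F {e, f}) := hyp_good Q e f hQe hQf hef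
  have hHdim : Module.finrank F ↥(Submodule.span F {e, f}) ≤ 2 := by
    have h3 := finrank_span_finset_le_card (R := F) ({e, f} : Finset (ι → F))
    rw [Finset.coe_pair] at h3
    exact h3.trans Finset.card_le_two
  obtain ⟨x₃, hx₃, x₂, hx₂, hQ3, hQ2, h32, hli⟩ := exists_anti_pair Q hQ _ hH (by omega)
  rw [mem_orthSub] at hx₃ hx₂
  have he3 := hx₃ e (Submodule.subset_span (by simp))
  have hf3 := hx₃ f (Submodule.subset_span (by simp))
  have he2 := hx₂ e (Submodule.subset_span (by simp))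
  have hf2 := hx₂ f (Submodule.subset_span (by simp))
  have key : ∀ w : ι → F, Q w ≠ 0 → QuadraticMap.polar (⇑Q) w e = 0 →
      ∃ a b : F, M.mulVec e = a • e + b • w := by
    intro w hw hwe
    obtain ⟨x, hxe, hwx⟩ : ∃ x, QuadraticMap.polar (⇑Q) e x = 0 ∧
        QuadraticMap.polar (⇑Q) w x ≠ 0 := by
      by_contra hcon
      push Not at hcon
      have h1 : w ∈ orthSub Q (orthSub Q (Submodule.span F {e})) := by
        rw [mem_orthSub]
        intro a ha
        rw [QuadraticMap.polar_comm]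
        exact hcon a ((mem_orthSub Q _ a).mp ha e (Submodule.mem_span_singleton_self e))
      rw [orthSub_orthSub Q hQ] at h1
      obtain ⟨t, rfl⟩ := Submodule.mem_span_singleton.mp h1
      exact hw (by rw [QuadraticMap.map_smul, hQe, smul_zero])
    have hT : reflEl Q w * reflEl Q (w + e) ∈ Cfsg.Omega F ⇑Q :=
      siegel_pair_mem hh Q hQ e w hQe hwe hw
    have hcomm := hM _ hT
    have h1 : M.mulVec ((mat Q (reflEl Q w * reflEl Q (w + e))).mulVec x)
        = (mat Q (reflEl Q w * reflEl Q (w + e))).mulVec (M.mulVec x) := by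
      rw [Matrix.mulVec_mulVec, Matrix.mulVec_mulVec, hcomm]
    have hTx : ∀ y, (mat Q (reflEl Q w * reflEl Q (w + e))).mulVec y
        = y + ((Q w)⁻¹ * QuadraticMap.polar (⇑Q) e y) • w
          - ((Q w)⁻¹ * (QuadraticMap.polar (⇑Q) w y + QuadraticMap.polar (⇑Q) e y)) • e :=
      fun y => siegel_pair_mulVec Q e w hQe hwe hw y
    rw [hTx x, hTx (M.mulVec x), hxe] at h1
    simp only [mul_zero, zero_smul, add_zero, Matrix.mulVec_sub, Matrix.mulVec_smul] at h1
    obtain ⟨d, hd⟩ : ∃ d, d = (Q w)⁻¹ * QuadraticMap.polar (⇑Q) w x := ⟨_, rfl⟩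
    have hd0 : d ≠ 0 := by rw [hd]; exact mul_ne_zero (inv_ne_zero hw) hwx
    rw [← hd] at h1
    obtain ⟨A, hA⟩ : ∃ A, A = (Q w)⁻¹ * QuadraticMap.polar (⇑Q) e (M.mulVec x) :=
      ⟨_, rfl⟩
    obtain ⟨B, hB⟩ : ∃ B, B = (Q w)⁻¹ * (QuadraticMap.polar (⇑Q) w (M.mulVec x)
        + QuadraticMap.polar (⇑Q) e (M.mulVec x)) := ⟨_, rfl⟩
    rw [← hA, ← hB] at h1
    have h2 : d • M.mulVec e = B • e - A • w := by
      have h3 : d • M.mulVec e
          = M.mulVec x - (M.mulVec x - d • M.mulVec e) := by abel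
      rw [h3, h1]
      abel
    refine ⟨d⁻¹ * B, -(d⁻¹ * A), ?_⟩
    have h4 : M.mulVec e = d⁻¹ • (d • M.mulVec e) := by
      rw [smul_smul, inv_mul_cancel₀ hd0, one_smul]
    rw [h4, h2, smul_sub, smul_smul, smul_smul, neg_smul]
    abel
  obtain ⟨a₁, b₁, h1⟩ := key x₃ (by rw [hQ3]; exact one_ne_zero)
    (by rw [QuadraticMap.polar_comm]; exact he3)
  obtain ⟨a₂, b₂, h2⟩ := key x₂ (by rw [hQ2]; exact neg_ne_zero.mpr one_ne_zero)
    (by rw [QuadraticMap.polar_comm]; exact he2)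
  have h3 : (a₁ - a₂) • e + b₁ • x₃ + (-b₂) • x₂ = 0 := by
    have h4 : a₁ • e + b₁ • x₃ = a₂ • e + b₂ • x₂ := by rw [← h1, ← h2]
    have h5 : (a₁ - a₂) • e + b₁ • x₃ + (-b₂) • x₂
        = (a₁ • e + b₁ • x₃) - (a₂ • e + b₂ • x₂) := by module
    rw [h5, h4, sub_self]
  have h6 : a₁ - a₂ = 0 := by
    have h7 : QuadraticMap.polar (⇑Q) f ((a₁ - a₂) • e + b₁ • x₃ + (-b₂) • x₂) = 0 := by
      rw [h3, QuadraticMap.polar_zero_right]
    rw [QuadraticMap.polar_add_right, QuadraticMap.polar_add_right,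
      QuadraticMap.polar_smul_right, QuadraticMap.polar_smul_right,
      QuadraticMap.polar_smul_right, hfe, hf3, hf2] at h7
    simpa using h7
  rw [h6, zero_smul, zero_add] at h3
  have hb₁ := (hli b₁ (-b₂) h3).1
  exact ⟨a₁, by rw [h1, hb₁, zero_smul, add_zero]⟩

/-- a matrix mapping every singular vector to a multiple of itself is scalar -/
theorem scalar_of_sing [Fintype F] (h2 : (2 : F) ≠ 0) (hn : 6 ≤ Fintype.card ι)
    (Q : QuadraticForm F (ι → F)) (hQ : (QuadraticMap.polarBilin Q).Nondegenerate)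
    (M : Matrix ι ι F)
    (hM : ∀ e : ι → F, e ≠ 0 → Q e = 0 → ∃ a : F, M.mulVec e = a • e) :
    ∃ a : F, ∀ v : ι → F, M.mulVec v = a • v := by
  classical
  obtain ⟨e, -, he0, hQe⟩ := exists_sing_in Q ⊤ (by
    rw [finrank_top, Module.finrank_fintype_fun_eq_card]
    omega)
  obtain ⟨f, hQf, hef⟩ := exists_hyp_partner Q hQ e he0 hQe
  have hfe : QuadraticMap.polar (⇑Q) f e = 1 := by rw [QuadraticMap.polar_comm, hef]
  have hee : QuadraticMap.polar (⇑Q) e e = 0 := by rw [polar_self_eq, hQe, mul_zero]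
  have hff : QuadraticMap.polar (⇑Q) f f = 0 := by rw [polar_self_eq, hQf, mul_zero]
  have hf0 : f ≠ 0 := by
    rintro rfl
    rw [QuadraticMap.polar_zero_right] at hef
    exact zero_ne_one hef
  obtain ⟨a, ha⟩ := hM e he0 hQe
  obtain ⟨b, hb⟩ := hM f hf0 hQf
  have key1 : ∀ w : ι → F, QuadraticMap.polar (⇑Q) e w = 0 → QuadraticMap.polar (⇑Q) f w = 0 →
      Q w ≠ 0 → M.mulVec w = a • w ∧ b = a := by
    intro w hew hfw hw
    obtain ⟨c, hc⟩ : ∃ c, c = Q w := ⟨_, rfl⟩
    have hc0 : c ≠ 0 := by rw [hc]; exact hw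
    have hww : QuadraticMap.polar (⇑Q) w w = 2 * c := by rw [polar_self_eq, hc]
    have hwe : QuadraticMap.polar (⇑Q) w e = 0 := by rw [QuadraticMap.polar_comm]; exact hew
    have hwf : QuadraticMap.polar (⇑Q) w f = 0 := by rw [QuadraticMap.polar_comm]; exact hfw
    have hs1 : Q ((1 : F) • e + (-c) • f + w) = 0 := by
      rw [Q_hyp Q e f w hQe hQf hef hew hfw, ← hc]; ring
    have hs2 : Q ((-1 : F) • e + c • f + w) = 0 := by
      rw [Q_hyp Q e f w hQe hQf hef hew hfw, ← hc]; ring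
    have hs10 : (1 : F) • e + (-c) • f + w ≠ 0 := by
      intro h
      have h3 : QuadraticMap.polar (⇑Q) f ((1 : F) • e + (-c) • f + w) = 1 := by
        rw [QuadraticMap.polar_add_right, QuadraticMap.polar_add_right,
          QuadraticMap.polar_smul_right, QuadraticMap.polar_smul_right, hfe, hff, hfw]
        simp
      rw [h, QuadraticMap.polar_zero_right] at h3
      exact zero_ne_one h3
    have hs20 : (-1 : F) • e + c • f + w ≠ 0 := by
      intro h
      have h3 : QuadraticMap.polar (⇑Q) f ((-1 : F) • e + c • f + w) = -1 := by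
        rw [QuadraticMap.polar_add_right, QuadraticMap.polar_add_right,
          QuadraticMap.polar_smul_right, QuadraticMap.polar_smul_right, hfe, hff, hfw]
        simp
      rw [h, QuadraticMap.polar_zero_right] at h3
      exact (neg_ne_zero.2 one_ne_zero) h3.symm
    obtain ⟨l1, hl1⟩ := hM _ hs10 hs1
    obtain ⟨l2, hl2⟩ := hM _ hs20 hs2
    rw [Matrix.mulVec_add, Matrix.mulVec_add, Matrix.mulVec_smul, Matrix.mulVec_smul, ha, hb]
      at hl1 hl2
    have hD : ((1 : F) • a • e + (-c) • b • f + M.mulVec w) -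
        ((-1 : F) • a • e + c • b • f + M.mulVec w) =
        l1 • ((1 : F) • e + (-c) • f + w) - l2 • ((-1 : F) • e + c • f + w) := by
      rw [hl1, hl2]
    have e1 := congrArg (fun y => QuadraticMap.polar (⇑Q) w y) hD
    have e2 := congrArg (fun y => QuadraticMap.polar (⇑Q) f y) hD
    have e3 := congrArg (fun y => QuadraticMap.polar (⇑Q) e y) hD
    simp only [QuadraticMap.polar_add_right, QuadraticMap.polar_sub_right,
      QuadraticMap.polar_smul_right, hwe, hwf, hww, hfe, hff, hfw, hee, hef, hew,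
      smul_eq_mul] at e1 e2 e3
    have h12 : l1 = l2 := by
      have h5 : (l1 - l2) * (2 * c) = 0 := by linear_combination -e1
      rcases mul_eq_zero.1 h5 with h | h
      · exact sub_eq_zero.1 h
      · exact absurd h (mul_ne_zero h2 hc0)
    subst h12
    have hl : l1 = a := by
      apply mul_left_cancel₀ h2
      linear_combination -e2
    have hba : b = a := by
      apply mul_left_cancel₀ (mul_ne_zero h2 hc0)
      rw [hl] at e3
      linear_combination -e3
    refine ⟨?_, hba⟩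
    have h6 : M.mulVec w = l1 • ((1 : F) • e + (-c) • f + w) -
        ((1 : F) • a • e + (-c) • b • f) := eq_sub_of_add_eq' hl1
    rw [h6, hl, hba]
    module
  have key2 : ∀ w : ι → F, QuadraticMap.polar (⇑Q) e w = 0 → QuadraticMap.polar (⇑Q) f w = 0 →
      Q w = 0 → M.mulVec w = a • w := by
    intro w hew hfw hw
    by_cases hw0 : w = 0
    · rw [hw0, Matrix.mulVec_zero, smul_zero]
    · obtain ⟨aw, haw⟩ := hM w hw0 hw
      have hwe : QuadraticMap.polar (⇑Q) w e = 0 := by rw [QuadraticMap.polar_comm]; exact hew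
      have h1 : Q (w + e) = 0 := by rw [Q_add_sing Q e w hQe hwe, hw]
      have h10 : w + e ≠ 0 := by
        intro h
        have h3 : QuadraticMap.polar (⇑Q) f (w + e) = 1 := by
          rw [QuadraticMap.polar_add_right, hfw, hfe, zero_add]
        rw [h, QuadraticMap.polar_zero_right] at h3
        exact zero_ne_one h3
      obtain ⟨μ, hμ⟩ := hM (w + e) h10 h1
      rw [Matrix.mulVec_add, haw, ha] at hμ
      have e2 := congrArg (fun y => QuadraticMap.polar (⇑Q) f y) hμ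
      simp only [QuadraticMap.polar_add_right, QuadraticMap.polar_smul_right, hfe, hfw,
        smul_eq_mul] at e2
      have hμa : μ = a := by linear_combination -e2
      rw [hμa, smul_add] at hμ
      rw [haw]
      exact add_right_cancel hμ
  have hHdim : Module.finrank F ↥(Submodule.span F {e, f}) ≤ 2 := by
    have h3 := finrank_span_finset_le_card (R := F) ({e, f} : Finset (ι → F))
    rw [Finset.coe_pair] at h3
    exact h3.trans Finset.card_le_two
  have hK : 2 * Module.finrank F ↥(Submodule.span F {e, f}) < Fintype.card ι := by omega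
  obtain ⟨u, hu, hQu⟩ := exists_nonsing_perp Q hQ (Submodule.span F {e, f}) hK
  rw [mem_orthSub_span] at hu
  have hba : b = a := (key1 u (hu e (by simp)) (hu f (by simp)) hQu).2
  refine ⟨a, fun v => ?_⟩
  obtain ⟨w, hw⟩ : ∃ w, w = v - QuadraticMap.polar (⇑Q) f v • e -
      QuadraticMap.polar (⇑Q) e v • f := ⟨_, rfl⟩
  have hew : QuadraticMap.polar (⇑Q) e w = 0 := by
    rw [hw, QuadraticMap.polar_sub_right, QuadraticMap.polar_sub_right,
      QuadraticMap.polar_smul_right, QuadraticMap.polar_smul_right, hee, hef]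
    simp
  have hfw : QuadraticMap.polar (⇑Q) f w = 0 := by
    rw [hw, QuadraticMap.polar_sub_right, QuadraticMap.polar_sub_right,
      QuadraticMap.polar_smul_right, QuadraticMap.polar_smul_right, hfe, hff]
    simp
  have hMw : M.mulVec w = a • w := by
    by_cases hQw : Q w = 0
    · exact key2 w hew hfw hQw
    · exact (key1 w hew hfw hQw).1
  have hv : v = w + QuadraticMap.polar (⇑Q) f v • e + QuadraticMap.polar (⇑Q) e v • f := by
    rw [hw]; abel
  rw [hv, Matrix.mulVec_add, Matrix.mulVec_add, Matrix.mulVec_smul, Matrix.mulVec_smul, hMw, ha,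
    hb, hba]
  module

/-- the kernel of the conjugation action on `PΩ` consists of scalars -/
theorem scalar_of_conjAut_eq_one [Fintype F] (h2 : (2 : F) ≠ 0) (hn : 6 ≤ Fintype.card ι)
    (Q : QuadraticForm F (ι → F)) (hQ : (QuadraticMap.polarBilin Q).Nondegenerate)
    (g : ↥(Cfsg.Geo.quadSimilarityGroup (⇑Q))) (hg : conjAut (⇑Q) g = 1) :
    ∃ a : F, ∀ v : ι → F, ((g : GL ι F) : Matrix ι ι F).mulVec v = a • v := by
  apply scalar_of_sing h2 hn Q hQ
  apply comm_sing hn Q hQ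
  intro s hs
  have h1 := conjΩ_eq_of_conjAut_eq_one (⇑Q) (omega_perfect hn Q hQ) g hg ⟨s, hs⟩
  have h3 : (g : GL ι F) * (s : GL ι F) * (g : GL ι F)⁻¹ = (s : GL ι F) := by
    have h4 := congrArg (fun t : ↥(Cfsg.Omega F ⇑Q) =>
      ((t : ↥(Cfsg.isometryGroup F ⇑Q)) : GL ι F)) h1
    exact h4
  have h5 : (g : GL ι F) * (s : GL ι F) = (s : GL ι F) * (g : GL ι F) :=
    mul_inv_eq_iff_eq_mul.1 h3
  exact congrArg (fun t : GL ι F => (t : Matrix ι ι F)) h5

theorem conjAut_eq_one_of_scalar (Qf : (ι → F) → F) (g : ↥(Cfsg.Geo.quadSimilarityGroup Qf))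
    (a : F) (hg : ∀ v : ι → F, ((g : GL ι F) : Matrix ι ι F).mulVec v = a • v) :
    conjAut Qf g = 1 := by
  apply MulEquiv.ext
  intro x
  obtain ⟨s, rfl⟩ := exists_rep Qf x
  rw [conjAut_mk]
  show _ = QuotientGroup.mk s
  congr 1
  apply Subtype.ext
  apply Subtype.ext
  rw [conjΩ_coe]
  have hga : ((g : GL ι F) : Matrix ι ι F) = a • (1 : Matrix ι ι F) := by
    apply Matrix.mulVec_injective
    funext v
    rw [hg, Matrix.smul_mulVec, Matrix.one_mulVec]
  have hcomm : (g : GL ι F) * ((s : ↥(Cfsg.isometryGroup F Qf)) : GL ι F) =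
      ((s : ↥(Cfsg.isometryGroup F Qf)) : GL ι F) * (g : GL ι F) := by
    apply Units.ext
    rw [Units.val_mul, Units.val_mul, hga, Matrix.smul_mul, Matrix.mul_smul, Matrix.one_mul,
      Matrix.mul_one]
  rw [hcomm, mul_inv_cancel_right]

end kernel

end Cfsg.Agent.Lib.helper13.OA
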