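import Mathlib
import Cfsg.Prelude.Def_LieTypeDatum
import Cfsg.Agent.Lib.helper13.UnitaryQuad

set_option autoImplicit false
set_option linter.unusedSectionVars false
set_option linter.unusedVariables false
set_option linter.style.longLine false

/-!
Projective similarity groups of quadratic forms: transport along linear equivalences, and the
type of the sum-of-squares form over a finite field of odd order.
-/

namespace Cfsg.Agent.Lib.helper13.GF

open Matrix

variable {F : Type*} [Field F]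

section conj

variable {ι ι' : Type} [Fintype ι] [DecidableEq ι] [Fintype ι'] [DecidableEq ι']

theorem rect_mul (P : Matrix ι' ι F) (P' : Matrix ι ι' F) (h2 : P' * P = 1)
    (A B : Matrix ι ι F) : (P * A * P') * (P * B * P') = P * (A * B) * P' := by
  calc (P * A * P') * (P * B * P') = P * A * (P' * P) * B * P' := by
        simp only [Matrix.mul_assoc]
    _ = P * (A * B) * P' := by
        rw [h2, Matrix.mul_one]
        simp only [Matrix.mul_assoc]

theorem rect_cancel (P : Matrix ι' ι F) (P' : Matrix ι ι' F) (h2 : P' * P = 1)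
    (A : Matrix ι ι F) : P' * (P * A * P') * P = A := by
  calc P' * (P * A * P') * P = (P' * P) * A * (P' * P) := by simp only [Matrix.mul_assoc]
    _ = A := by rw [h2, Matrix.one_mul, Matrix.mul_one]

/-- conjugation by an invertible rectangular matrix -/
def conjRect (P : Matrix ι' ι F) (P' : Matrix ι ι' F) (h1 : P * P' = 1) (h2 : P' * P = 1) :
    GL ι F ≃* GL ι' F where
  toFun a := ⟨P * (a : Matrix ι ι F) * P', P * ((a⁻¹ : GL ι F) : Matrix ι ι F) * P', by
      rw [rect_mul P P' h2, Units.mul_inv, Matrix.mul_one, h1], by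
      rw [rect_mul P P' h2, Units.inv_mul, Matrix.mul_one, h1]⟩
  invFun b := ⟨P' * (b : Matrix ι' ι' F) * P, P' * ((b⁻¹ : GL ι' F) : Matrix ι' ι' F) * P, by
      rw [rect_mul P' P h1, Units.mul_inv, Matrix.mul_one, h2], by
      rw [rect_mul P' P h1, Units.inv_mul, Matrix.mul_one, h2]⟩
  left_inv a := by
    apply Units.ext
    exact rect_cancel P P' h2 _
  right_inv b := by
    apply Units.ext
    exact rect_cancel P' P h1 _
  map_mul' a b := by
    apply Units.ext
    exact (rect_mul P P' h2 _ _).symm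

theorem conjRect_coe (P : Matrix ι' ι F) (P' : Matrix ι ι' F) (h1 : P * P' = 1) (h2 : P' * P = 1)
    (a : GL ι F) : ((conjRect P P' h1 h2 a : GL ι' F) : Matrix ι' ι' F) = P * (a : Matrix ι ι F) * P' :=
  rfl

theorem conjRect_scalars (P : Matrix ι' ι F) (P' : Matrix ι ι' F) (h1 : P * P' = 1)
    (h2 : P' * P = 1) (a : GL ι F) :
    a ∈ Cfsg.Geo.scalars ι F ↔ conjRect P P' h1 h2 a ∈ Cfsg.Geo.scalars ι' F := by
  rw [Cfsg.Geo.mem_scalars_iff, Cfsg.Geo.mem_scalars_iff]
  constructor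
  · rintro ⟨c, hc⟩
    refine ⟨c, ?_⟩
    rw [conjRect_coe, hc, Matrix.mul_smul, Matrix.mul_one, Matrix.smul_mul, h1]
  · rintro ⟨c, hc⟩
    refine ⟨c, ?_⟩
    rw [conjRect_coe] at hc
    have h3 := congrArg (fun M : Matrix ι' ι' F => P' * M * P) hc
    rw [rect_cancel P P' h2, Matrix.mul_smul, Matrix.mul_one, Matrix.smul_mul, h2] at h3
    exact h3

/-- isomorphic projective quotients from an isomorphism of the ambient general linear groups -/
theorem projQuot_congr (H₁ : Subgroup (GL ι F)) (H₂ : Subgroup (GL ι' F))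
    (Θ : GL ι F ≃* GL ι' F) (hH : ∀ a, a ∈ H₁ ↔ Θ a ∈ H₂)
    (hS : ∀ a, a ∈ Cfsg.Geo.scalars ι F ↔ Θ a ∈ Cfsg.Geo.scalars ι' F) :
    Nonempty (Cfsg.projQuot H₁ ≃* Cfsg.projQuot H₂) := by
  let φ₀ : ↥H₁ →* ↥H₂ :=
    (Θ.toMonoidHom.comp H₁.subtype).codRestrict H₂ (fun a => (hH a.1).1 a.2)
  have hφ₀ : ∀ a : ↥H₁, ((φ₀ a : ↥H₂) : GL ι' F) = Θ (a : GL ι F) := fun a => rfl
  let φ : ↥H₁ →* Cfsg.projQuot H₂ := (QuotientGroup.mk' _).comp φ₀
  have hφ : ∀ a : ↥H₁, φ a = QuotientGroup.mk (φ₀ a) := fun a => rfl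
  have hsurj : Function.Surjective φ := by
    intro y
    obtain ⟨b, rfl⟩ := QuotientGroup.mk_surjective y
    obtain ⟨a, ha⟩ := Θ.surjective b.1
    refine ⟨⟨a, (hH a).2 (by rw [ha]; exact b.2)⟩, ?_⟩
    rw [hφ]
    congr 1
    exact Subtype.ext ha
  have hker : φ.ker = (Cfsg.Geo.scalars ι F).subgroupOf H₁ := by
    ext a
    rw [MonoidHom.mem_ker, Subgroup.mem_subgroupOf, hS, hφ, QuotientGroup.eq_one_iff,
      Subgroup.mem_subgroupOf, hφ₀]
  exact ⟨(QuotientGroup.quotientMulEquivOfEq hker).symm.trans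
    (QuotientGroup.quotientKerEquivOfSurjective φ hsurj)⟩

/-- the projective similarity groups of similar quadratic forms are isomorphic -/
theorem pgo_congr (Q : (ι → F) → F) (Q' : (ι' → F) → F) (g : (ι → F) ≃ₗ[F] (ι' → F)) (c : F)
    (hc : c ≠ 0) (h : ∀ v, Q' (g v) = c * Q v) :
    Nonempty (Cfsg.PGO F Q ≃* Cfsg.PGO F Q') := by
  obtain ⟨P, hP⟩ : ∃ P : Matrix ι' ι F, ∀ v, P *ᵥ v = g v :=
    ⟨LinearMap.toMatrix' (g : (ι → F) →ₗ[F] (ι' → F)), fun v => LinearMap.toMatrix'_mulVec _ v⟩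
  obtain ⟨P', hP'⟩ : ∃ P' : Matrix ι ι' F, ∀ v, P' *ᵥ v = g.symm v :=
    ⟨LinearMap.toMatrix' (g.symm : (ι' → F) →ₗ[F] (ι → F)),
      fun v => LinearMap.toMatrix'_mulVec _ v⟩
  have h1 : P * P' = 1 := by
    apply Matrix.mulVec_injective
    funext v
    rw [← Matrix.mulVec_mulVec, hP', hP, LinearEquiv.apply_symm_apply, Matrix.one_mulVec]
  have h2 : P' * P = 1 := by
    apply Matrix.mulVec_injective
    funext v
    rw [← Matrix.mulVec_mulVec, hP, hP', LinearEquiv.symm_apply_apply, Matrix.one_mulVec]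
  have hΘ : ∀ (a : GL ι F) (v : ι → F),
      ((conjRect P P' h1 h2 a : GL ι' F) : Matrix ι' ι' F) *ᵥ (g v) =
        g ((a : Matrix ι ι F) *ᵥ v) := by
    intro a v
    rw [conjRect_coe, ← Matrix.mulVec_mulVec, ← Matrix.mulVec_mulVec, hP', hP,
      LinearEquiv.symm_apply_apply]
  apply projQuot_congr _ _ (conjRect P P' h1 h2) _ (conjRect_scalars P P' h1 h2)
  intro a
  constructor
  · rintro ⟨d, hd⟩
    refine ⟨d, fun w => ?_⟩
    obtain ⟨v, rfl⟩ := g.surjective w
    rw [hΘ, h, hd, h]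
    ring
  · rintro ⟨d, hd⟩
    refine ⟨d, fun v => ?_⟩
    have h3 := hd (g v)
    rw [hΘ, h, h] at h3
    apply mul_left_cancel₀ hc
    rw [h3]
    ring

/-- the projective similarity groups of similar two-argument forms are isomorphic -/
theorem psim_congr (f : (ι → F) → (ι → F) → F) (f' : (ι' → F) → (ι' → F) → F)
    (g : (ι → F) ≃ₗ[F] (ι' → F)) (c : F) (hc : c ≠ 0)
    (h : ∀ u v, f' (g u) (g v) = c * f u v) :
    Nonempty (Cfsg.projQuot (Cfsg.Geo.similarityGroup f) ≃*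
      Cfsg.projQuot (Cfsg.Geo.similarityGroup f')) := by
  obtain ⟨P, hP⟩ : ∃ P : Matrix ι' ι F, ∀ v, P *ᵥ v = g v :=
    ⟨LinearMap.toMatrix' (g : (ι → F) →ₗ[F] (ι' → F)), fun v => LinearMap.toMatrix'_mulVec _ v⟩
  obtain ⟨P', hP'⟩ : ∃ P' : Matrix ι ι' F, ∀ v, P' *ᵥ v = g.symm v :=
    ⟨LinearMap.toMatrix' (g.symm : (ι' → F) →ₗ[F] (ι → F)),
      fun v => LinearMap.toMatrix'_mulVec _ v⟩
  have h1 : P * P' = 1 := by
    apply Matrix.mulVec_injective
    funext v
    rw [← Matrix.mulVec_mulVec, hP', hP, LinearEquiv.apply_symm_apply, Matrix.one_mulVec]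
  have h2 : P' * P = 1 := by
    apply Matrix.mulVec_injective
    funext v
    rw [← Matrix.mulVec_mulVec, hP, hP', LinearEquiv.symm_apply_apply, Matrix.one_mulVec]
  have hΘ : ∀ (a : GL ι F) (v : ι → F),
      ((conjRect P P' h1 h2 a : GL ι' F) : Matrix ι' ι' F) *ᵥ (g v) =
        g ((a : Matrix ι ι F) *ᵥ v) := by
    intro a v
    rw [conjRect_coe, ← Matrix.mulVec_mulVec, ← Matrix.mulVec_mulVec, hP', hP,
      LinearEquiv.symm_apply_apply]
  apply projQuot_congr _ _ (conjRect P P' h1 h2) _ (conjRect_scalars P P' h1 h2)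
  intro a
  constructor
  · rintro ⟨d, hd⟩
    refine ⟨d, fun w w' => ?_⟩
    obtain ⟨v, rfl⟩ := g.surjective w
    obtain ⟨v', rfl⟩ := g.surjective w'
    rw [hΘ, hΘ, h, hd, h]
    ring
  · rintro ⟨d, hd⟩
    refine ⟨d, fun v v' => ?_⟩
    have h3 := hd (g v) (g v')
    rw [hΘ, hΘ, h, h] at h3
    apply mul_left_cancel₀ hc
    rw [h3]
    ring

end conj

/-! ### the sum-of-squares form -/

/-- the sum-of-squares form -/
def SS {ι : Type} [Fintype ι] (v : ι → F) : F := ∑ k, v k ^ 2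

theorem ss_sum (m : ℕ) (v : Fin m ⊕ Fin m → F) :
    SS v = ∑ k : Fin m, (v (Sum.inl k) ^ 2 + v (Sum.inr k) ^ 2) := by
  unfold SS
  rw [Fintype.sum_sum_type, Finset.sum_add_distrib]

/-- when `-1` is a square, the sum of squares is hyperbolic -/
theorem ss_plus_of_sq (m : ℕ) (h2 : (2 : F) ≠ 0) (i : F) (hi : i ^ 2 = -1) :
    ∃ g : (Fin m ⊕ Fin m → F) ≃ₗ[F] (Fin m ⊕ Fin m → F),
      ∀ v, SS v = Cfsg.quadFormPlus m F (g v) := by
  let f : (Fin m ⊕ Fin m → F) →ₗ[F] (Fin m ⊕ Fin m → F) :=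
    { toFun := fun x => Sum.elim (fun k => x (Sum.inl k) + i * x (Sum.inr k))
        (fun k => x (Sum.inl k) - i * x (Sum.inr k))
      map_add' := by
        intro x y
        funext k
        rcases k with k | k
        · simp only [Sum.elim_inl, Pi.add_apply]; ring
        · simp only [Sum.elim_inr, Pi.add_apply]; ring
      map_smul' := by
        intro c x
        funext k
        rcases k with k | k
        · simp only [Sum.elim_inl, Pi.smul_apply, smul_eq_mul, RingHom.id_apply]; ring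
        · simp only [Sum.elim_inr, Pi.smul_apply, smul_eq_mul, RingHom.id_apply]; ring }
  have hf1 : ∀ x k, f x (Sum.inl k) = x (Sum.inl k) + i * x (Sum.inr k) := fun x k => rfl
  have hf2 : ∀ x k, f x (Sum.inr k) = x (Sum.inl k) - i * x (Sum.inr k) := fun x k => rfl
  have hi0 : i ≠ 0 := by
    rintro rfl
    rw [zero_pow two_ne_zero] at hi
    exact one_ne_zero (neg_eq_zero.1 hi.symm)
  have hinj : Function.Injective f := by
    rw [injective_iff_map_eq_zero]
    intro x hx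
    have key : ∀ k, x (Sum.inl k) = 0 ∧ x (Sum.inr k) = 0 := by
      intro k
      have h1 := congrFun hx (Sum.inl k)
      have h3 := congrFun hx (Sum.inr k)
      rw [hf1] at h1
      rw [hf2] at h3
      simp only [Pi.zero_apply] at h1 h3
      have h4 : (2 : F) * x (Sum.inl k) = 0 := by linear_combination h1 + h3
      have h5 : x (Sum.inl k) = 0 := (mul_eq_zero.1 h4).resolve_left h2
      rw [h5, zero_add] at h1
      exact ⟨h5, (mul_eq_zero.1 h1).resolve_left hi0⟩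
    funext k
    rcases k with k | k
    · exact (key k).1
    · exact (key k).2
  refine ⟨LinearEquiv.ofInjectiveEndo f hinj, fun v => ?_⟩
  rw [LinearEquiv.coe_ofInjectiveEndo, ss_sum]
  unfold Cfsg.quadFormPlus
  apply Finset.sum_congr rfl
  intro k _
  rw [hf1, hf2]
  linear_combination (v (Sum.inr k)) ^ 2 * hi

/-- when `-1` is not a square, the sum of squares comes from a unitary form -/
theorem ss_unitary [Fintype F] (m : ℕ) (hodd : Odd (Fintype.card F))
    (hns : ¬ IsSquare (-1 : F)) :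
    (Even m → ∃ c : F, c ≠ 0 ∧ ∃ g : (Fin m ⊕ Fin m → F) ≃ₗ[F] (Fin m ⊕ Fin m → F),
      ∀ v, Cfsg.quadFormPlus m F (g v) = c * SS v) ∧
    (Odd m → ∃ ζ : F, (∀ t : F, t ^ 2 + t + ζ ≠ 0) ∧ ∃ c : F, c ≠ 0 ∧
      ∃ g : (Fin m ⊕ Fin m → F) ≃ₗ[F] ((Fin (m - 1) ⊕ Fin (m - 1)) ⊕ Fin 2 → F),
        ∀ v, Cfsg.quadFormMinus (m - 1) F 1 ζ (g v) = c * SS v) := by
  classical
  obtain ⟨q, hF⟩ : ∃ q, Fintype.card F = q := ⟨_, rfl⟩
  rw [hF] at hodd
  obtain ⟨p, hp⟩ := CharP.exists F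
  haveI := hp
  have hpp : p.Prime := CharP.char_is_prime F p
  haveI : Fact p.Prime := ⟨hpp⟩
  obtain ⟨a, -, ha⟩ := FiniteField.card F p
  have ha0 : 2 * (a : ℕ) ≠ 0 := by
    have := a.pos
    omega
  haveI : Fintype (GaloisField p (2 * (a : ℕ))) := Fintype.ofFinite _
  have hK : Fintype.card (GaloisField p (2 * (a : ℕ))) = q ^ 2 := by
    rw [← Nat.card_eq_fintype_card, GaloisField.card p _ ha0, ← hF, ha, ← pow_mul, mul_comm]
  obtain ⟨K, _, _, hK⟩ : ∃ (K : Type) (_ : Field K) (_ : Fintype K), Fintype.card K = q ^ 2 :=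
    ⟨GaloisField p (2 * (a : ℕ)), inferInstance, inferInstance, hK⟩
  obtain ⟨ι⟩ := exists_ringHom hF hK
  letI : Algebra F K := ι.toAlgebra
  have hsq : IsSquare (-1 : K) := by
    rw [FiniteField.isSquare_neg_one_iff, hK]
    obtain ⟨t, rfl⟩ := hodd
    have : (2 * t + 1) ^ 2 = 4 * (t ^ 2 + t) + 1 := by ring
    rw [this]
    omega
  obtain ⟨i, hi⟩ := hsq
  have hi2 : i ^ 2 = -1 := by rw [pow_two, ← hi]
  have hiF : ∀ t : F, algebraMap F K t ≠ i := by
    intro t ht
    apply hns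
    refine ⟨t, ?_⟩
    apply (algebraMap F K).injective
    rw [map_neg, map_one, map_mul, ht, ← hi]
  have hiq : i ^ q = -i := by
    have h1 : (i ^ q) ^ 2 = i ^ 2 := by
      rw [← pow_mul, mul_comm, pow_mul, hi2, hodd.neg_one_pow]
    have h2 : (i ^ q - i) * (i ^ q + i) = 0 := by linear_combination h1
    rcases mul_eq_zero.1 h2 with h3 | h3
    · exfalso
      obtain ⟨t, ht⟩ := fix_mem hF i (sub_eq_zero.1 h3)
      exact hiF t ht
    · exact eq_neg_of_add_eq_zero_left h3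
  -- the coordinate map
  let f : (Fin m ⊕ Fin m → F) →ₗ[F] (Fin m → K) :=
    { toFun := fun x k => algebraMap F K (x (Sum.inl k)) + algebraMap F K (x (Sum.inr k)) * i
      map_add' := by
        intro x y
        funext k
        simp only [Pi.add_apply, map_add]
        ring
      map_smul' := by
        intro c x
        funext k
        simp only [Pi.smul_apply, smul_eq_mul, map_mul, RingHom.id_apply, Algebra.smul_def]
        ring }
  have hf : ∀ x k, f x k
      = algebraMap F K (x (Sum.inl k)) + algebraMap F K (x (Sum.inr k)) * i := fun x k => rfl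
  have hinj : Function.Injective f := by
    rw [injective_iff_map_eq_zero]
    intro x hx
    have key : ∀ k, x (Sum.inl k) = 0 ∧ x (Sum.inr k) = 0 := by
      intro k
      have h1 := congrFun hx k
      rw [hf] at h1
      simp only [Pi.zero_apply] at h1
      by_cases hb : x (Sum.inr k) = 0
      · rw [hb, map_zero, zero_mul, add_zero] at h1
        exact ⟨(map_eq_zero (algebraMap F K)).1 h1, hb⟩
      · exfalso
        apply hiF (-(x (Sum.inl k)) / x (Sum.inr k))
        have hb' : algebraMap F K (x (Sum.inr k)) ≠ 0 := by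
          rw [Ne, map_eq_zero]
          exact hb
        rw [map_div₀, map_neg, div_eq_iff hb']
        linear_combination -h1
    funext k
    rcases k with k | k
    · exact (key k).1
    · exact (key k).2
  have hrank : Module.finrank F (Fin m ⊕ Fin m → F) = Module.finrank F (Fin m → K) := by
    rw [finrank_fun_ext hF hK, Module.finrank_pi, Fintype.card_sum, Fintype.card_fin]
    ring
  obtain ⟨Ξ, hΞ⟩ : ∃ Ξ : (Fin m ⊕ Fin m → F) ≃ₗ[F] (Fin m → K), ∀ x, Ξ x = f x :=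
    ⟨LinearEquiv.ofInjectiveOfFinrankEq f hinj hrank, fun x => rfl⟩
  have hnm : ∀ x k, nmF hF hK (f x k) = x (Sum.inl k) ^ 2 + x (Sum.inr k) ^ 2 := by
    intro x k
    apply (algebraMap F K).injective
    rw [nmF_spec, hf, pow_q_add (F := F) hF, mul_pow, pow_q_algebraMap hF, pow_q_algebraMap hF, hiq,
      map_add, map_pow, map_pow]
    linear_combination (-(algebraMap F K (x (Sum.inr k))) ^ 2) * hi2
  have hne1 : (1 : K) ≠ 0 := one_ne_zero
  obtain ⟨lam, hlam⟩ : ∃ lam : Module.Dual F K, lam 1 ≠ 0 := by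
    by_contra h
    push Not at h
    exact hne1 ((Module.forall_dual_apply_eq_zero_iff F (1 : K)).mp h)
  have hQ : ∀ x, QU hF lam m (Ξ x) = lam 1 * SS x := by
    intro x
    rw [QU_eq hF hK, mul_comm, hΞ]
    congr 1
    rw [ss_sum]
    exact Finset.sum_congr rfl (fun k _ => hnm x k)
  obtain ⟨h1, h2⟩ := unitary_type hF hK lam hlam m
  constructor
  · intro hm
    obtain ⟨g, hg⟩ := h1 hm
    exact ⟨lam 1, hlam, Ξ.trans g, fun v => by
      rw [LinearEquiv.trans_apply, ← hg, hQ]⟩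
  · intro hm
    obtain ⟨ζ, hζ, g, hg⟩ := h2 hm
    exact ⟨ζ, hζ, lam 1, hlam, Ξ.trans g, fun v => by
      rw [LinearEquiv.trans_apply, ← hg, hQ]⟩

theorem two_ne_zero_of_odd [Fintype F] (hodd : Odd (Fintype.card F)) : (2 : F) ≠ 0 := by
  intro h
  have h3 : ringChar F = 2 := by
    rw [← Nat.cast_ofNat, ringChar.spec] at h
    exact (Nat.prime_dvd_prime_iff_eq (CharP.char_is_prime F (ringChar F)) Nat.prime_two).1 h
  have h4 := FiniteField.even_card_of_char_two h3
  rw [Nat.odd_iff] at hodd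
  omega

/-- the type of the sum-of-squares form in even dimension over a finite field of odd order -/
theorem ss_type [Fintype F] (m : ℕ) (hodd : Odd (Fintype.card F)) :
    (IsSquare (-1 : F) ∨ Even m →
      ∃ c : F, c ≠ 0 ∧ ∃ g : (Fin m ⊕ Fin m → F) ≃ₗ[F] (Fin m ⊕ Fin m → F),
        ∀ v, Cfsg.quadFormPlus m F (g v) = c * SS v) ∧
    (¬ IsSquare (-1 : F) ∧ Odd m → ∃ ζ : F, (∀ t : F, t ^ 2 + t + ζ ≠ 0) ∧ ∃ c : F, c ≠ 0 ∧
      ∃ g : (Fin m ⊕ Fin m → F) ≃ₗ[F] ((Fin (m - 1) ⊕ Fin (m - 1)) ⊕ Fin 2 → F),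
        ∀ v, Cfsg.quadFormMinus (m - 1) F 1 ζ (g v) = c * SS v) := by
  have h2 : (2 : F) ≠ 0 := two_ne_zero_of_odd hodd
  constructor
  · intro h
    by_cases hs : IsSquare (-1 : F)
    · obtain ⟨i, hi⟩ := hs
      obtain ⟨g, hg⟩ := ss_plus_of_sq m h2 i (by rw [pow_two, ← hi])
      exact ⟨1, one_ne_zero, g, fun v => by rw [one_mul, hg]⟩
    · exact (ss_unitary m hodd hs).1 (h.resolve_left hs)
  · rintro ⟨hs, hm⟩
    exact (ss_unitary m hodd hs).2 hm

/-- reindexing `Fin n` as `Fin m ⊕ Fin m` -/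
theorem exists_reindex {n m : ℕ} (hnm : n = 2 * m) :
    ∃ R : (Fin n → F) ≃ₗ[F] (Fin m ⊕ Fin m → F), ∃ e : Fin m ⊕ Fin m ≃ Fin n,
      ∀ v k, R v k = v (e k) := by
  obtain ⟨e⟩ : Nonempty (Fin m ⊕ Fin m ≃ Fin n) :=
    ⟨finSumFinEquiv.trans (finCongr (by omega))⟩
  exact ⟨LinearEquiv.funCongrLeft F F e, e, fun v k => rfl⟩

theorem ss_pgo_plus [Fintype F] (hodd : Odd (Fintype.card F)) {n m : ℕ} (hnm : n = 2 * m)
    (h : IsSquare (-1 : F) ∨ Even m) :
    Nonempty (Cfsg.PGO F (SS : (Fin n → F) → F) ≃* Cfsg.PGO F (Cfsg.quadFormPlus m F)) := by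
  obtain ⟨R, e, hR⟩ := exists_reindex (F := F) hnm
  obtain ⟨c, hc, g, hg⟩ := (ss_type m hodd).1 h
  apply pgo_congr _ _ (R.trans g) c hc
  intro v
  rw [LinearEquiv.trans_apply, hg]
  congr 1
  unfold SS
  rw [← Equiv.sum_comp e]
  exact Finset.sum_congr rfl (fun k _ => by rw [hR])

theorem ss_pgo_minus [Fintype F] (hodd : Odd (Fintype.card F)) {n m : ℕ} (hnm : n = 2 * m)
    (h : ¬ IsSquare (-1 : F) ∧ Odd m) :
    ∃ ζ : F, (∀ t : F, t ^ 2 + t + ζ ≠ 0) ∧
      Nonempty (Cfsg.PGO F (SS : (Fin n → F) → F) ≃*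
        Cfsg.PGO F (Cfsg.quadFormMinus (m - 1) F 1 ζ)) := by
  obtain ⟨R, e, hR⟩ := exists_reindex (F := F) hnm
  obtain ⟨ζ, hζ, c, hc, g, hg⟩ := (ss_type m hodd).2 h
  refine ⟨ζ, hζ, ?_⟩
  apply pgo_congr _ _ (R.trans g) c hc
  intro v
  rw [LinearEquiv.trans_apply, hg]
  congr 1
  unfold SS
  rw [← Equiv.sum_comp e]
  exact Finset.sum_congr rfl (fun k _ => by rw [hR])

theorem aniso_of_irred (ζ : F) (hζ : ∀ t : F, t ^ 2 + t + ζ ≠ 0) (z₁ z₂ : F)
    (h : z₁ ^ 2 + 1 * z₁ * z₂ + ζ * z₂ ^ 2 = 0) : z₁ = 0 ∧ z₂ = 0 := by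
  by_cases hz : z₂ = 0
  · rw [hz] at h
    refine ⟨?_, hz⟩
    have h1 : z₁ ^ 2 = 0 := by linear_combination h
    exact pow_eq_zero_iff two_ne_zero |>.1 h1
  · exfalso
    apply hζ (z₁ / z₂)
    field_simp
    linear_combination h

theorem parity_iff [Fintype F] (hodd : Odd (Fintype.card F)) {n m : ℕ} (hnm : n = 2 * m) :
    Even (n * (Fintype.card F - 1) / 4) ↔ (IsSquare (-1 : F) ∨ Even m) := by
  rw [FiniteField.isSquare_neg_one_iff]
  obtain ⟨t, ht⟩ := hodd
  rw [ht, hnm]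
  have h1 : 2 * m * (2 * t + 1 - 1) / 4 = m * t := by
    have : 2 * m * (2 * t + 1 - 1) = 4 * (m * t) := by
      rw [Nat.add_sub_cancel]
      ring
    rw [this, Nat.mul_div_cancel_left _ (by norm_num)]
  rw [h1, Nat.even_mul]
  constructor
  · rintro (h | h)
    · exact Or.inr h
    · left
      obtain ⟨s, rfl⟩ := h
      omega
  · rintro (h | h)
    · right
      rw [Nat.even_iff]
      omega
    · exact Or.inl h

end Cfsg.Agent.Lib.helper13.GF
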