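import Mathlib
import Cfsg.Prelude.Def_LieTypeDatum
import Cfsg.Agent.Lib.helper13.PSLnCent

set_option autoImplicit false

/-!
Involutory graph-field automorphisms of `PSL_n(F)`: conjugacy, centralizer `PGU_n`, class
splitting.
-/

namespace Cfsg.Agent.Lib.helper13.PN

open Matrix

variable {F : Type*} [Field F] {n : ℕ}

/-- the `p^(f/2)`-power map as an involutory automorphism -/
theorem exists_frob_equiv [Fintype F] {p f : ℕ} [Fact p.Prime] (hF : Fintype.card F = p ^ f)
    (hf2 : Even f) (hf : 1 ≤ f) :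
    ∃ τ : F ≃+* F, (∀ a, τ a = a ^ (p ^ (f / 2))) ∧ τ ≠ 1 ∧ τ * τ = 1 := by
  classical
  have hp := (Fact.out : p.Prime)
  obtain ⟨p', hp'⟩ := CharP.exists F
  obtain ⟨k, hp'prime, hcard⟩ := FiniteField.card F p'
  have hpp : p = p' := by
    have h1 : p ∣ p' ^ (k : ℕ) := by
      rw [← hcard, hF]
      exact dvd_pow_self p (by omega)
    exact (Nat.prime_dvd_prime_iff_eq hp hp'prime).mp (hp.dvd_of_dvd_pow h1)
  subst hpp
  have : ExpChar F p := ExpChar.prime hp
  obtain ⟨q, hq⟩ : ∃ q, q = p ^ (f / 2) := ⟨_, rfl⟩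
  obtain ⟨j, hj⟩ := hf2
  have hj1 : 1 ≤ j := by omega
  have hfj : f / 2 = j := by omega
  have hq2 : Fintype.card F = q * q := by
    rw [hF, hq, hfj, ← pow_add, hj]
  have hq_ge : 2 ≤ q := by
    rw [hq, hfj]
    calc 2 ≤ p := hp.two_le
      _ = p ^ 1 := (pow_one p).symm
      _ ≤ p ^ j := Nat.pow_le_pow_right hp.pos hj1
  let τ₀ : F →+* F := iterateFrobenius F p (f / 2)
  have hτ₀ : ∀ a, τ₀ a = a ^ q := by
    intro a
    rw [hq]
    exact iterateFrobenius_def p (f / 2) a
  have hinv : ∀ a, τ₀ (τ₀ a) = a := by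
    intro a
    rw [hτ₀, hτ₀, ← pow_mul, ← hq2]
    exact FiniteField.pow_card a
  let τ : F ≃+* F := RingEquiv.ofRingHom τ₀ τ₀ (RingHom.ext hinv) (RingHom.ext hinv)
  have hτ : ∀ a, τ a = a ^ q := fun a => hτ₀ a
  refine ⟨τ, fun a => by rw [hτ a, hq], ?_, ?_⟩
  · intro h1
    obtain ⟨ζ, hζ⟩ := IsCyclic.exists_generator (α := Fˣ)
    have hord : orderOf ζ = q * q - 1 := by
      rw [orderOf_eq_card_of_forall_mem_zpowers hζ, Nat.card_eq_fintype_card, Fintype.card_units,
        hq2]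
    have h : (ζ : F) ^ q = (ζ : F) := by
      rw [← hτ, h1]; rfl
    have h1 : ζ ^ (q - 1) = 1 := by
      apply Units.ext
      rw [Units.val_pow_eq_pow_val, Units.val_one]
      have h2 : (ζ : F) ^ (q - 1) * (ζ : F) = (ζ : F) := by
        rw [← pow_succ]
        have : q - 1 + 1 = q := by omega
        rw [this, h]
      have h3 : (ζ : F) ≠ 0 := ζ.ne_zero
      have h4 : ((ζ : F) ^ (q - 1) - 1) * (ζ : F) = 0 := by linear_combination h2
      rcases mul_eq_zero.mp h4 with h5 | h5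
      · linear_combination h5
      · exact absurd h5 h3
    have h2 := orderOf_dvd_of_pow_eq_one h1
    rw [hord] at h2
    have h3 := Nat.le_of_dvd (by omega) h2
    have h5 : 2 * q ≤ q * q := Nat.mul_le_mul_right q hq_ge
    omega
  · apply RingEquiv.ext
    intro a
    exact hinv a

/-- the automorphism group of a finite field has at most one involution -/
theorem ringAut_invol_unique [Fintype F] {p f : ℕ} [Fact p.Prime] (hF : Fintype.card F = p ^ f)
    (hf : 1 ≤ f) (σ τ : F ≃+* F) (hσ : orderOf σ = 2) (hτ : orderOf τ = 2) : σ = τ := by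
  classical
  obtain ⟨e⟩ := PSL2Aut.ringAut_equiv hF hf
  have hfin : Finite (F ≃+* F) :=
    Finite.of_injective (fun e : F ≃+* F => (e : F → F)) DFunLike.coe_injective
  have : Fintype (F ≃+* F) := Fintype.ofFinite _
  have hcyc : IsCyclic (F ≃+* F) :=
    isCyclic_of_surjective e.symm.toMonoidHom e.symm.surjective
  have h2 : 2 ∣ Fintype.card (F ≃+* F) := by
    rw [← hσ]; exact orderOf_dvd_card
  have h1 := IsCyclic.card_orderOf_eq_totient (α := F ≃+* F) h2
  rw [Nat.totient_two, Finset.card_eq_one] at h1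
  obtain ⟨a, ha⟩ := h1
  have hσa : σ ∈ ({a} : Finset (F ≃+* F)) := by rw [← ha]; simp [hσ]
  have hτa : τ ∈ ({a} : Finset (F ≃+* F)) := by rw [← ha]; simp [hτ]
  rw [Finset.mem_singleton] at hσa hτa
  rw [hσa, hτa]

/-! ### the twisted inverse-transpose `θ(g) = σ(g⁻ᵀ)` on `GL_n` -/

theorem itGL_itGL (h : GL (Fin n) F) : itGL (itGL h) = h := by
  apply Units.ext
  rw [itGL_coe, ← map_inv, itGL_coe, inv_inv, Matrix.transpose_transpose]

theorem itGL_map (σ : F ≃+* F) (h : GL (Fin n) F) :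
    itGL (Matrix.GeneralLinearGroup.map (σ : F →+* F) h) =
      Matrix.GeneralLinearGroup.map (σ : F →+* F) (itGL h) := by
  apply Units.ext
  rw [itGL_coe, ← map_inv]
  ext i j
  rfl

theorem map_map_invol (σ : F ≃+* F) (hσ2 : σ * σ = 1) (h : GL (Fin n) F) :
    Matrix.GeneralLinearGroup.map (σ : F →+* F) (Matrix.GeneralLinearGroup.map (σ : F →+* F) h) =
      h := by
  apply Units.ext
  ext i j
  exact congrArg (fun τ : F ≃+* F => τ (h i j)) hσ2

theorem theta_theta (σ : F ≃+* F) (hσ2 : σ * σ = 1) (h : GL (Fin n) F) :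
    Matrix.GeneralLinearGroup.map (σ : F →+* F)
      (itGL (Matrix.GeneralLinearGroup.map (σ : F →+* F) (itGL h))) = h := by
  rw [itGL_map, itGL_itGL, map_map_invol σ hσ2]

theorem itGL_scalar (a : Fˣ) :
    itGL (Matrix.GeneralLinearGroup.scalar (Fin n) a) =
      Matrix.GeneralLinearGroup.scalar (Fin n) a⁻¹ := by
  apply Units.ext
  rw [itGL_coe, ← map_inv, Matrix.GeneralLinearGroup.coe_scalar, Matrix.scalar_apply,
    Matrix.diagonal_transpose]

/-- an element of `GL_n` whose conjugation commutes with a graph-field involution is, up to a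
scalar, fixed by the twisted inverse-transpose -/
theorem comm_gf_fixed [Finite F] (hn : 2 ≤ n) (σ : F ≃+* F) (hσ1 : σ ≠ 1) (hσ2 : σ * σ = 1)
    (g : GL (Fin n) F)
    (h : (conjAut g : MulAut (PSLn n F)) * (fieldAut σ * itAut) =
      (fieldAut σ * itAut) * conjAut g) :
    ∃ a : Fˣ, Matrix.GeneralLinearGroup.map (σ : F →+* F)
      (itGL (Matrix.GeneralLinearGroup.scalar (Fin n) a * g)) =
        Matrix.GeneralLinearGroup.scalar (Fin n) a * g := by
  have hord : orderOf σ = 2 := orderOf_eq_prime (by rw [pow_two, hσ2]) hσ1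
  have hσσ : ∀ a : F, σ (σ a) = a := fun a => congrArg (fun τ : F ≃+* F => τ a) hσ2
  rw [gf_conj] at h
  have h1 : (conjAut (g⁻¹ * Matrix.GeneralLinearGroup.map (σ : F →+* F) (itGL g)) :
      MulAut (PSLn n F)) = 1 := by
    rw [map_mul, map_inv, ← mul_right_cancel h, inv_mul_cancel]
  rw [conjAut_eq_one_iff hn, Matrix.GeneralLinearGroup.center_eq_range_scalar] at h1
  obtain ⟨μ, hμ⟩ := h1
  have hθg : Matrix.GeneralLinearGroup.map (σ : F →+* F) (itGL g) =
      Matrix.GeneralLinearGroup.scalar (Fin n) μ * g := by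
    rw [Matrix.GeneralLinearGroup.scalar_commute, hμ, mul_inv_cancel_left]
  have hfix : σ (μ : F) = μ := by
    have h2 := theta_theta σ hσ2 g
    rw [hθg, map_mul, map_mul, itGL_scalar, Matrix.GeneralLinearGroup.map_scalar, hθg,
      ← mul_assoc, ← map_mul] at h2
    have h3 : Matrix.GeneralLinearGroup.scalar (Fin n)
        (Units.map ((σ : F →+* F) : F →* F) μ⁻¹ * μ) =
        Matrix.GeneralLinearGroup.scalar (Fin n) 1 := by
      rw [map_one]
      exact mul_eq_right.1 h2
    have h4 := scalar_inj (by omega) _ _ h3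
    have h5 : σ ((μ : F)⁻¹) * (μ : F) = 1 := by
      have := congrArg (fun u : Fˣ => (u : F)) h4
      simpa using this
    rw [map_inv₀] at h5
    have h6 : σ (μ : F) ≠ 0 := by
      intro h0
      rw [h0, _root_.inv_zero, zero_mul] at h5
      exact zero_ne_one h5
    field_simp at h5
    exact h5.symm
  obtain ⟨c, hc0, hc⟩ := H90.norm_surj σ 2 (by norm_num) hord (μ : F) hfix μ.ne_zero
  rw [Finset.prod_range_succ, Finset.prod_range_one, pow_zero, pow_one] at hc
  refine ⟨Units.mk0 c hc0, ?_⟩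
  rw [map_mul, map_mul, itGL_scalar, Matrix.GeneralLinearGroup.map_scalar, hθg, ← mul_assoc,
    ← map_mul]
  congr 2
  apply Units.ext
  show σ (c⁻¹) * (μ : F) = c
  have hσc : σ c ≠ 0 := by
    intro h0
    apply hc0
    have := congrArg σ h0
    rw [hσσ, map_zero] at this
    exact this
  rw [map_inv₀, ← hc]
  have e1 : (1 : F ≃+* F) c = c := rfl
  rw [e1]
  field_simp

/-- the general unitary group as the fixed points of the twisted inverse-transpose -/
theorem mem_GU_iff (σ : F ≃+* F) (hσ2 : σ * σ = 1) (q : ℕ) (hq : ∀ a, σ a = a ^ q)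
    (g : GL (Fin n) F) :
    g ∈ Cfsg.GU n F q ↔ Matrix.GeneralLinearGroup.map (σ : F →+* F) (itGL g) = g := by
  have hσσ : ∀ a : F, σ (σ a) = a := fun a => congrArg (fun τ : F ≃+* F => τ a) hσ2
  have hherm : ∀ u v : Fin n → F, Cfsg.hermForm n F q u v = u ⬝ᵥ (fun i => σ (v i)) := by
    intro u v
    unfold Cfsg.hermForm
    simp only [dotProduct, hq]
  have hmem : g ∈ Cfsg.GU n F q ↔ ∀ u v : Fin n → F,
      Cfsg.hermForm n F q ((g : Matrix (Fin n) (Fin n) F) *ᵥ u)
        ((g : Matrix (Fin n) (Fin n) F) *ᵥ v) = Cfsg.hermForm n F q u v := Iff.rfl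
  obtain ⟨A, hA⟩ : ∃ A : Matrix (Fin n) (Fin n) F, A = (g : Matrix (Fin n) (Fin n) F) := ⟨_, rfl⟩
  -- both sides are equivalent to `Aᵀ * σ(A) = 1`
  have key1 : (∀ u v : Fin n → F, Cfsg.hermForm n F q (A *ᵥ u) (A *ᵥ v) =
      Cfsg.hermForm n F q u v) ↔ A.transpose * A.map σ = 1 := by
    constructor
    · intro h
      ext a b
      have h1 := h (E a) (E b)
      rw [hherm, hherm] at h1
      rw [Matrix.mul_apply, Matrix.one_apply]
      have e1 : (A *ᵥ (E a : Fin n → F)) ⬝ᵥ (fun i => σ ((A *ᵥ (E b : Fin n → F)) i)) =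
          ∑ i, A.transpose a i * A.map σ i b := by
        simp only [dotProduct, mulVec_E, Matrix.transpose_apply, Matrix.map_apply]
      have e2 : (E a : Fin n → F) ⬝ᵥ (fun i => σ ((E b : Fin n → F) i)) =
          if a = b then 1 else 0 := by
        have : (fun i => σ ((E b : Fin n → F) i)) = (E b : Fin n → F) := by
          funext i
          by_cases hi : i = b
          · subst hi; simp [E]
          · simp [E, hi]
        rw [this, E_dot]
      rw [← e1, h1, e2]
    · intro h u v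
      rw [hherm, hherm, H90.map_mulVec' σ A v]
      have e1 : ∀ w : Fin n → F, (A *ᵥ u) ⬝ᵥ w = u ⬝ᵥ (A.transpose *ᵥ w) := by
        intro w
        rw [Matrix.mulVec_transpose, dotProduct_comm, Matrix.dotProduct_mulVec, dotProduct_comm]
      rw [e1, Matrix.mulVec_mulVec, h, Matrix.one_mulVec]
  have key2 : A.transpose * A.map σ = 1 ↔
      Matrix.GeneralLinearGroup.map (σ : F →+* F) (itGL g) = g := by
    have hmm : ∀ M : Matrix (Fin n) (Fin n) F, (M.map σ).map σ = M := by
      intro M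
      ext i j
      exact hσσ _
    constructor
    · intro h
      apply Units.ext
      show (((itGL g : GL (Fin n) F) : Matrix (Fin n) (Fin n) F)).map σ = _
      rw [itGL_coe]
      have h1 : ((g⁻¹ : GL (Fin n) F) : Matrix (Fin n) (Fin n) F) = (A.map σ).transpose := by
        have h2 : (A.map σ).transpose * A = 1 := by
          have := congrArg Matrix.transpose h
          rw [Matrix.transpose_mul, Matrix.transpose_transpose, Matrix.transpose_one] at this
          exact this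
        have h3 : (A.map σ).transpose * A * ((g⁻¹ : GL (Fin n) F) : Matrix (Fin n) (Fin n) F) =
            ((g⁻¹ : GL (Fin n) F) : Matrix (Fin n) (Fin n) F) := by rw [h2, one_mul]
        rw [mul_assoc, hA, Units.mul_inv, mul_one] at h3
        rw [← h3, hA]
      rw [h1, Matrix.transpose_transpose, hmm, hA]
    · intro h
      have h1 := congrArg (fun u : GL (Fin n) F => (u : Matrix (Fin n) (Fin n) F)) h
      have h2 : ((g⁻¹ : GL (Fin n) F) : Matrix (Fin n) (Fin n) F).transpose.map σ = A := by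
        rw [hA]; exact h1
      have h3 : ((g⁻¹ : GL (Fin n) F) : Matrix (Fin n) (Fin n) F).transpose = A.map σ := by
        rw [← h2, hmm]
      rw [← h3, ← Matrix.transpose_mul, hA, Units.inv_mul, Matrix.transpose_one]
  rw [hmem, ← hA, key1, key2]

theorem comm_of_gf_fixed (σ : F ≃+* F) (g : GL (Fin n) F)
    (hg : Matrix.GeneralLinearGroup.map (σ : F →+* F) (itGL g) = g) :
    (conjAut g : MulAut (PSLn n F)) * (fieldAut σ * itAut) = (fieldAut σ * itAut) * conjAut g := by
  rw [gf_conj, hg]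

theorem scalars_eq_center :
    Cfsg.Geo.scalars (Fin n) F = Subgroup.center (GL (Fin n) F) := by
  rw [Matrix.GeneralLinearGroup.center_eq_range_scalar]
  rfl

/-- **the centralizer of an involutory graph-field automorphism in `Inndiag`** -/
theorem gf_centralizer_iso [Finite F] (hn : 2 ≤ n) (d : GL (Fin n) F) (σ : F ≃+* F) (hσ1 : σ ≠ 1)
    (hσ2 : σ * σ = 1) (q : ℕ) (hq : ∀ a, σ a = a ^ q) :
    Nonempty (↥(Cfsg.inndiagPSL n F ⊓
        Subgroup.centralizer {conjAut d * (fieldAut σ * itAut) * (conjAut d)⁻¹}) ≃*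
      Cfsg.PGU n F q) := by
  obtain ⟨C, hC⟩ : ∃ C : Subgroup (MulAut (PSLn n F)), C = Cfsg.inndiagPSL n F ⊓
      Subgroup.centralizer {conjAut d * (fieldAut σ * itAut) * (conjAut d)⁻¹} := ⟨_, rfl⟩
  rw [← hC]
  let Ψ₀ : ↥(Cfsg.GU n F q) →* MulAut (PSLn n F) :=
    conjAut.comp ((MulAut.conj d).toMonoidHom.comp (Cfsg.GU n F q).subtype)
  have hΨ₀ : ∀ g₀ : ↥(Cfsg.GU n F q), Ψ₀ g₀ = conjAut (d * (g₀ : GL (Fin n) F) * d⁻¹) :=
    fun g₀ => rfl
  have hmemC : ∀ g₀, Ψ₀ g₀ ∈ C := by
    intro g₀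
    rw [hC, hΨ₀]
    refine ⟨(mem_inndiag _).2 ⟨_, rfl⟩, (mem_cent_iff _ _ _).2 ?_⟩
    have e1 : d⁻¹ * (d * (g₀ : GL (Fin n) F) * d⁻¹) * d = g₀ := by group
    rw [e1]
    exact comm_of_gf_fixed σ _ ((mem_GU_iff σ hσ2 q hq _).1 g₀.2)
  let Ψ : ↥(Cfsg.GU n F q) →* ↥C := Ψ₀.codRestrict C hmemC
  have hΨ : ∀ g₀, (Ψ g₀ : MulAut (PSLn n F)) = Ψ₀ g₀ := fun g₀ => rfl
  have hsurj : Function.Surjective Ψ := by
    rintro ⟨β, hβ⟩
    rw [hC] at hβ
    obtain ⟨hβ1, hβ2⟩ := hβ
    obtain ⟨b, rfl⟩ := (mem_inndiag β).1 hβ1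
    have hc := (mem_cent_iff d b (fieldAut σ * itAut)).1 hβ2
    obtain ⟨a, ha⟩ := comm_gf_fixed hn σ hσ1 hσ2 (d⁻¹ * b * d) hc
    refine ⟨⟨Matrix.GeneralLinearGroup.scalar (Fin n) a * (d⁻¹ * b * d),
      (mem_GU_iff σ hσ2 q hq _).2 ha⟩, Subtype.ext ?_⟩
    rw [hΨ, hΨ₀]
    show conjAut (d * (Matrix.GeneralLinearGroup.scalar (Fin n) a * (d⁻¹ * b * d)) * d⁻¹) =
      conjAut b
    have e1 : d * (Matrix.GeneralLinearGroup.scalar (Fin n) a * (d⁻¹ * b * d)) * d⁻¹ =
        Matrix.GeneralLinearGroup.scalar (Fin n) a * b := by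
      rw [← mul_assoc, ← Matrix.GeneralLinearGroup.scalar_commute a d]
      group
    rw [e1, conjAut_scalar_mul]
  have hker : Ψ.ker = (Cfsg.Geo.scalars (Fin n) F).subgroupOf (Cfsg.GU n F q) := by
    ext g₀
    rw [MonoidHom.mem_ker, Subgroup.mem_subgroupOf, scalars_eq_center]
    have h1 : Ψ g₀ = 1 ↔ Ψ₀ g₀ = 1 := by
      constructor
      · intro h; rw [← hΨ, h]; rfl
      · intro h; exact Subtype.ext (by rw [hΨ, h]; rfl)
    rw [h1, hΨ₀, conjAut_eq_one_iff hn]
    constructor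
    · intro h
      have h2 := Subgroup.Normal.conj_mem
        (inferInstance : (Subgroup.center (GL (Fin n) F)).Normal) _ h d⁻¹
      have e : d⁻¹ * (d * (g₀ : GL (Fin n) F) * d⁻¹) * d⁻¹⁻¹ = g₀ := by group
      rw [e] at h2
      exact h2
    · intro h
      exact Subgroup.Normal.conj_mem
        (inferInstance : (Subgroup.center (GL (Fin n) F)).Normal) _ h d
  exact ⟨(QuotientGroup.quotientKerEquivOfSurjective Ψ hsurj).symm.trans
    (QuotientGroup.quotientMulEquivOfEq hker)⟩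

theorem det_itGL (g : GL (Fin n) F) :
    Matrix.GeneralLinearGroup.det (itGL g) = (Matrix.GeneralLinearGroup.det g)⁻¹ := by
  apply Units.ext
  show ((itGL g : GL (Fin n) F) : Matrix (Fin n) (Fin n) F).det = _
  rw [itGL_coe, Matrix.det_transpose, ← map_inv]
  rfl

theorem theta_dgn (σ : F ≃+* F) (u : Fˣ) (hu : σ (u : F) * u = 1) :
    Matrix.GeneralLinearGroup.map (σ : F →+* F) (itGL (dgn n F u)) = dgn n F u := by
  apply Units.ext
  ext i j
  show σ (((itGL (dgn n F u) : GL (Fin n) F) : Matrix (Fin n) (Fin n) F) i j) = _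
  rw [itGL_coe, ← map_inv, dgn_coe, dgn_coe, Matrix.diagonal_transpose, Matrix.diagonal_apply,
    Matrix.diagonal_apply]
  by_cases hij : i = j
  · rw [if_pos hij, if_pos hij]
    by_cases hi : (i : ℕ) = 0
    · rw [if_pos hi, if_pos hi, Units.val_inv_eq_inv_val, map_inv₀]
      exact inv_eq_of_mul_eq_one_left (by rw [mul_comm]; exact hu)
    · rw [if_neg hi, if_neg hi, map_one]
  · rw [if_neg hij, if_neg hij, map_zero]

theorem card_quot_map_mk {Z : Type*} [CommGroup Z] (P V : Subgroup Z) :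
    Nat.card ((Z ⧸ P) ⧸ V.map (QuotientGroup.mk' P)) = (V ⊔ P).index := by
  show (V.map (QuotientGroup.mk' P)).index = _
  rw [Subgroup.index_map, QuotientGroup.ker_mk',
    MonoidHom.range_eq_top.2 (QuotientGroup.mk'_surjective _), Subgroup.index_top, mul_one]

/-- **class splitting of an involutory graph-field automorphism** -/
theorem gf_split_count [Fintype F] {p f : ℕ} [Fact p.Prime] (hF : Fintype.card F = p ^ f)
    (hf : 1 ≤ f) (hn : 2 ≤ n) (d : GL (Fin n) F) (σ : F ≃+* F) (hσ1 : σ ≠ 1) (hσ2 : σ * σ = 1) :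
    Cfsg.splitClassCount (Cfsg.inndiagPSL n F) (Cfsg.Inn (PSLn n F))
      (conjAut d * (fieldAut σ * itAut) * (conjAut d)⁻¹) = Nat.gcd n (p ^ (f / 2) - 1) := by
  classical
  have hord : orderOf σ = 2 := orderOf_eq_prime (by rw [pow_two, hσ2]) hσ1
  have hσσ : ∀ a : F, σ (σ a) = a := fun a => congrArg (fun τ : F ≃+* F => τ a) hσ2
  rw [split_psl hn]
  obtain ⟨Nm, hNm⟩ : ∃ Nm : Fˣ →* Fˣ, ∀ u, Nm u = u * Units.map ((σ : F →+* F) : F →* F) u :=
    ⟨MonoidHom.id Fˣ * Units.map ((σ : F →+* F) : F →* F), fun u => rfl⟩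
  have hNmval : ∀ u : Fˣ, ((Nm u : Fˣ) : F) = (u : F) * σ (u : F) := by
    intro u; rw [hNm]; rfl
  have hmap : Subgroup.map (detQ n F)
      ((Subgroup.centralizer {conjAut d * (fieldAut σ * itAut) * (conjAut d)⁻¹}).comap conjAut) =
      Nm.ker.map (QuotientGroup.mk' (powMonoidHom n : Fˣ →* Fˣ).range) := by
    ext q
    constructor
    · rintro ⟨γ, hγ, rfl⟩
      have hc := (mem_cent_iff d γ (fieldAut σ * itAut)).1 hγ
      obtain ⟨a, ha⟩ := comm_gf_fixed hn σ hσ1 hσ2 (d⁻¹ * γ * d) hc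
      have hdet : Matrix.GeneralLinearGroup.det
          (Matrix.GeneralLinearGroup.scalar (Fin n) a * (d⁻¹ * γ * d)) =
          a ^ n * Matrix.GeneralLinearGroup.det γ := by
        rw [map_mul, map_mul, map_mul, map_inv, Matrix.GeneralLinearGroup.det_scalar,
          Fintype.card_fin]
        congr 1
        rw [mul_comm (Matrix.GeneralLinearGroup.det d)⁻¹, inv_mul_cancel_right]
      refine ⟨Matrix.GeneralLinearGroup.det
        (Matrix.GeneralLinearGroup.scalar (Fin n) a * (d⁻¹ * γ * d)), ?_, ?_⟩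
      · rw [SetLike.mem_coe, MonoidHom.mem_ker, hNm]
        have h1 := congrArg Matrix.GeneralLinearGroup.det ha
        rw [Matrix.GeneralLinearGroup.map_det, det_itGL, map_inv] at h1
        exact (eq_inv_iff_mul_eq_one.1 h1.symm)
      · rw [detQ_apply]
        show (QuotientGroup.mk _ : Fˣ ⧸ (powMonoidHom n : Fˣ →* Fˣ).range) = QuotientGroup.mk _
        rw [QuotientGroup.eq, hdet]
        refine ⟨a⁻¹, ?_⟩
        rw [powMonoidHom_apply, inv_pow, _root_.mul_inv_rev, mul_comm]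
        group
    · rintro ⟨u, hu, rfl⟩
      rw [SetLike.mem_coe, MonoidHom.mem_ker] at hu
      have hu' : σ (u : F) * (u : F) = 1 := by
        have := congrArg (fun w : Fˣ => (w : F)) hu
        rw [hNmval] at this
        rw [mul_comm]
        exact this
      refine ⟨d * dgn n F u * d⁻¹, ?_, ?_⟩
      · show conjAut _ ∈ Subgroup.centralizer _
        rw [mem_cent_iff]
        have e1 : d⁻¹ * (d * dgn n F u * d⁻¹) * d = dgn n F u := by group
        rw [e1]
        exact comm_of_gf_fixed σ _ (theta_dgn σ u hu')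
      · rw [detQ_apply, map_mul, map_mul, map_inv, mul_comm, inv_mul_cancel_left,
          det_dgn (by omega)]
        rfl
  rw [hmap, card_quot_map_mk, cyclic_index_sup]
  -- the quotient `|Fˣ| / |ker Nm|` is the order of the fixed units
  have hdiv : Nat.card Fˣ / Nat.card Nm.ker = Nat.card Nm.range := by
    rw [← Subgroup.index_ker]
    have h1 := Subgroup.card_mul_index Nm.ker
    have hpos : 0 < Nat.card Nm.ker := Nat.card_pos
    rw [← h1, Nat.mul_div_cancel_left _ hpos]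
  rw [hdiv]
  -- the range of the norm is the group of fixed units
  have hk0 : f / 2 ≠ 0 := by
    have h2 : 2 ∣ f := by
      obtain ⟨e⟩ := PSL2Aut.ringAut_equiv hF hf
      have hcard : Nat.card (F ≃+* F) = f := by
        rw [Nat.card_congr e.toEquiv]
        show Nat.card (ZMod f) = f
        exact Nat.card_zmod f
      rw [← hord, ← hcard]
      exact orderOf_dvd_natCard σ
    obtain ⟨j, hj⟩ := h2
    omega
  have : Fintype (GaloisField p (f / 2)) := Fintype.ofFinite _
  have hF₀ : Fintype.card (GaloisField p (f / 2)) = p ^ (f / 2) := by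
    rw [← Nat.card_eq_fintype_card]
    exact GaloisField.card p (f / 2) hk0
  obtain ⟨ι, hι⟩ := exists_fixed_embedding hF σ 2 (by norm_num) hord (GaloisField p (f / 2)) hF₀
  have hrange : Nm.range = (Units.map (ι : GaloisField p (f / 2) →* F)).range := by
    ext w
    constructor
    · rintro ⟨u, rfl⟩
      have hfix : σ ((Nm u : Fˣ) : F) = ((Nm u : Fˣ) : F) := by
        rw [hNmval, map_mul, hσσ, mul_comm]
      obtain ⟨a, ha⟩ := (hι _).1 hfix
      have ha0 : a ≠ 0 := by
        intro h0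
        rw [h0, map_zero] at ha
        exact (Nm u).ne_zero ha.symm
      exact ⟨Units.mk0 a ha0, Units.ext ha⟩
    · rintro ⟨a₀, rfl⟩
      have hfix : σ ((Units.map (ι : GaloisField p (f / 2) →* F) a₀ : Fˣ) : F) =
          ((Units.map (ι : GaloisField p (f / 2) →* F) a₀ : Fˣ) : F) := (hι _).2 ⟨_, rfl⟩
      obtain ⟨c, hc0, hc⟩ := H90.norm_surj σ 2 (by norm_num) hord _ hfix (Units.ne_zero _)
      rw [Finset.prod_range_succ, Finset.prod_range_one, pow_zero, pow_one] at hc
      refine ⟨Units.mk0 c hc0, Units.ext ?_⟩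
      rw [hNmval]
      exact hc
  rw [hrange, ← Nat.card_congr (MonoidHom.ofInjective
    (Units.map_injective (f := (ι : GaloisField p (f / 2) →* F)) ι.injective)).toEquiv,
    Nat.card_units, Nat.card_eq_fintype_card, hF₀]

/-- **involutory graph-field automorphisms of `PSL_n`** -/
theorem graphfield_invol [Fintype F] {p f : ℕ} [Fact p.Prime] (hF : Fintype.card F = p ^ f)
    (hf : 1 ≤ f) (hn : 3 ≤ n) (x : MulAut (PSLn n F)) (hx : Cfsg.IsGraphFieldAutClassPSL x)
    (hx2 : orderOf x = 2) :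
    Even f ∧
      (∀ y : MulAut (PSLn n F), Cfsg.IsGraphFieldAutClassPSL y → orderOf y = 2 →
        Cfsg.IsConjUnder (Cfsg.inndiagPSL n F) x y) ∧
      Nonempty (↥(Cfsg.inndiagPSL n F ⊓ Subgroup.centralizer {x}) ≃*
        Cfsg.PGU n F (p ^ (f / 2))) ∧
      Cfsg.splitClassCount (Cfsg.inndiagPSL n F) (Cfsg.Inn (PSLn n F)) x =
        Nat.gcd n (p ^ (f / 2) - 1) := by
  obtain ⟨-, d, σ, hσ1, rfl⟩ := graphfield_class_nf hF hf x hx
  rw [orderOf_conj'] at hx2
  obtain ⟨-, hσ2⟩ := gf_order hn σ 2 Nat.prime_two hx2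
  have hord : orderOf σ = 2 := orderOf_eq_prime (by rw [pow_two, hσ2]) hσ1
  have hev : Even f := by
    rw [even_iff_two_dvd]
    obtain ⟨e⟩ := PSL2Aut.ringAut_equiv hF hf
    have hcard : Nat.card (F ≃+* F) = f := by
      rw [Nat.card_congr e.toEquiv]
      show Nat.card (ZMod f) = f
      exact Nat.card_zmod f
    rw [← hord, ← hcard]
    exact orderOf_dvd_natCard σ
  obtain ⟨τ, hτ, hτ1, hτ2⟩ := exists_frob_equiv hF hev hf
  have hτσ : σ = τ := ringAut_invol_unique hF hf σ τ hord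
    (orderOf_eq_prime (by rw [pow_two, hτ2]) hτ1)
  have hq : ∀ a, σ a = a ^ (p ^ (f / 2)) := by rw [hτσ]; exact hτ
  refine ⟨hev, ?_, gf_centralizer_iso (by omega) d σ hσ1 hσ2 _ hq,
    gf_split_count hF hf (by omega) d σ hσ1 hσ2⟩
  intro y hy hy2
  obtain ⟨-, d', σ', hσ'1, rfl⟩ := graphfield_class_nf hF hf y hy
  rw [orderOf_conj'] at hy2
  obtain ⟨-, hσ'2⟩ := gf_order hn σ' 2 Nat.prime_two hy2
  have hσ' : σ' = σ := ringAut_invol_unique hF hf σ' σ
    (orderOf_eq_prime (by rw [pow_two, hσ'2]) hσ'1) hord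
  subst hσ'
  refine ⟨conjAut (d' * d⁻¹), (mem_inndiag _).2 ⟨_, rfl⟩, ?_⟩
  rw [map_mul, map_inv]
  group

end Cfsg.Agent.Lib.helper13.PN
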