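import Mathlib
import Cfsg.Prelude.Def_LieTypeDatum
import Cfsg.Agent.Lib.helper13.PSLnGF
import Cfsg.Agent.Lib.helper13.GraphForm

set_option autoImplicit false
set_option linter.unusedSectionVars false
set_option linter.unusedVariables false
set_option linter.style.longLine false

/-!
Graph automorphisms `conjAut g * itAut` of `PSL_n(F)` and their centralizers in `Inndiag`.
-/

namespace Cfsg.Agent.Lib.helper13.PN

open Matrix

variable {F : Type*} [Field F] {n : ℕ}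

/-- the graph automorphism attached to an invertible matrix -/
def gam (g : GL (Fin n) F) : MulAut (PSLn n F) := conjAut g * itAut

theorem conjAut_eq_iff (hn : 2 ≤ n) (x y : GL (Fin n) F) :
    (conjAut x : MulAut (PSLn n F)) = conjAut y ↔
      ∃ c : Fˣ, (y : Matrix (Fin n) (Fin n) F) = (c : F) • (x : Matrix (Fin n) (Fin n) F) := by
  have h1 : (conjAut x : MulAut (PSLn n F)) = conjAut y ↔
      (conjAut (x⁻¹ * y) : MulAut (PSLn n F)) = 1 := by
    rw [map_mul, map_inv, inv_mul_eq_one]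
  rw [h1, conjAut_eq_one_iff hn, ← scalars_eq_center, Cfsg.Geo.mem_scalars_iff]
  constructor
  · rintro ⟨c, hc⟩
    refine ⟨c, ?_⟩
    have h2 : (y : Matrix (Fin n) (Fin n) F) =
        (x : Matrix (Fin n) (Fin n) F) * ((x⁻¹ * y : GL (Fin n) F) : Matrix (Fin n) (Fin n) F) := by
      rw [← Units.val_mul]
      congr 1
      group
    rw [h2, hc, Matrix.mul_smul, Matrix.mul_one]
  · rintro ⟨c, hc⟩
    refine ⟨c, ?_⟩
    rw [Units.val_mul, hc, Matrix.mul_smul, ← Units.val_mul, inv_mul_cancel, Units.val_one]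

theorem gam_comm_iff (hn : 2 ≤ n) (g a : GL (Fin n) F) :
    (conjAut (itGL a) : MulAut (PSLn n F)) * gam g = gam g * conjAut (itGL a) ↔
      ∃ c : Fˣ, (a : Matrix (Fin n) (Fin n) F)ᵀ * (g : Matrix (Fin n) (Fin n) F) *
        (a : Matrix (Fin n) (Fin n) F) = (c : F) • (g : Matrix (Fin n) (Fin n) F) := by
  unfold gam
  have h1 : (conjAut g * itAut : MulAut (PSLn n F)) * conjAut (itGL a)
      = conjAut (g * a) * itAut := by
    rw [mul_assoc, it_conj, itGL_itGL, ← mul_assoc, ← map_mul]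
  have h2 : (conjAut (itGL a) : MulAut (PSLn n F)) * (conjAut g * itAut)
      = conjAut (itGL a * g) * itAut := by
    rw [← mul_assoc, ← map_mul]
  rw [h1, h2, mul_left_inj, conjAut_eq_iff hn]
  constructor
  · rintro ⟨c, hc⟩
    refine ⟨c, ?_⟩
    rw [Units.val_mul, Units.val_mul, itGL_coe] at hc
    calc (a : Matrix (Fin n) (Fin n) F)ᵀ * (g : Matrix (Fin n) (Fin n) F) *
          (a : Matrix (Fin n) (Fin n) F)
        = (a : Matrix (Fin n) (Fin n) F)ᵀ * ((g : Matrix (Fin n) (Fin n) F) *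
          (a : Matrix (Fin n) (Fin n) F)) := by rw [Matrix.mul_assoc]
      _ = (c : F) • (((a : Matrix (Fin n) (Fin n) F)ᵀ *
          ((a⁻¹ : GL (Fin n) F) : Matrix (Fin n) (Fin n) F)ᵀ) *
            (g : Matrix (Fin n) (Fin n) F)) := by
          rw [hc, Matrix.mul_smul, Matrix.mul_assoc]
      _ = (c : F) • (g : Matrix (Fin n) (Fin n) F) := by
          rw [← Matrix.transpose_mul, Units.inv_mul, Matrix.transpose_one, Matrix.one_mul]
  · rintro ⟨c, hc⟩
    refine ⟨c, ?_⟩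
    rw [Units.val_mul, Units.val_mul, itGL_coe]
    calc (g : Matrix (Fin n) (Fin n) F) * (a : Matrix (Fin n) (Fin n) F)
        = (((a⁻¹ : GL (Fin n) F) : Matrix (Fin n) (Fin n) F)ᵀ *
          (a : Matrix (Fin n) (Fin n) F)ᵀ) * ((g : Matrix (Fin n) (Fin n) F) *
            (a : Matrix (Fin n) (Fin n) F)) := by
          rw [← Matrix.transpose_mul, Units.mul_inv, Matrix.transpose_one, Matrix.one_mul]
      _ = ((a⁻¹ : GL (Fin n) F) : Matrix (Fin n) (Fin n) F)ᵀ *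
          ((a : Matrix (Fin n) (Fin n) F)ᵀ * (g : Matrix (Fin n) (Fin n) F) *
            (a : Matrix (Fin n) (Fin n) F)) := by simp only [Matrix.mul_assoc]
      _ = (c : F) • (((a⁻¹ : GL (Fin n) F) : Matrix (Fin n) (Fin n) F)ᵀ *
          (g : Matrix (Fin n) (Fin n) F)) := by rw [hc, Matrix.mul_smul]

theorem itGL_mem_scalars (a : GL (Fin n) F) :
    itGL a ∈ Cfsg.Geo.scalars (Fin n) F ↔ a ∈ Cfsg.Geo.scalars (Fin n) F := by
  have key : ∀ b : GL (Fin n) F, b ∈ Cfsg.Geo.scalars (Fin n) F →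
      itGL b ∈ Cfsg.Geo.scalars (Fin n) F := by
    intro b hb
    have hb' := inv_mem hb
    rw [Cfsg.Geo.mem_scalars_iff] at hb' ⊢
    obtain ⟨c, hc⟩ := hb'
    refine ⟨c, ?_⟩
    rw [itGL_coe, hc, Matrix.transpose_smul, Matrix.transpose_one]
  constructor
  · intro h
    have := key _ h
    rwa [itGL_itGL] at this
  · exact key a

/-- **the centralizer of a graph automorphism in `Inndiag`** -/
theorem graph_centralizer_iso (hn : 2 ≤ n) (g : GL (Fin n) F) (H : Subgroup (GL (Fin n) F))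
    (hH : ∀ a : GL (Fin n) F, a ∈ H ↔
      ∃ c : Fˣ, (a : Matrix (Fin n) (Fin n) F)ᵀ * (g : Matrix (Fin n) (Fin n) F) *
        (a : Matrix (Fin n) (Fin n) F) = (c : F) • (g : Matrix (Fin n) (Fin n) F)) :
    Nonempty (↥(Cfsg.inndiagPSL n F ⊓ Subgroup.centralizer {gam g}) ≃* Cfsg.projQuot H) := by
  obtain ⟨C, hC⟩ : ∃ C : Subgroup (MulAut (PSLn n F)), C = Cfsg.inndiagPSL n F ⊓
      Subgroup.centralizer {gam g} := ⟨_, rfl⟩
  rw [← hC]
  let Ψ₀ : ↥H →* MulAut (PSLn n F) := conjAut.comp (itGL.comp H.subtype)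
  have hΨ₀ : ∀ a : ↥H, Ψ₀ a = conjAut (itGL (a : GL (Fin n) F)) := fun a => rfl
  have hmemC : ∀ a, Ψ₀ a ∈ C := by
    intro a
    rw [hC, hΨ₀]
    refine ⟨(mem_inndiag _).2 ⟨_, rfl⟩, ?_⟩
    show conjAut (itGL (a : GL (Fin n) F)) ∈ Subgroup.centralizer {gam g}
    rw [Subgroup.mem_centralizer_iff]
    intro y hy
    rw [Set.mem_singleton_iff] at hy
    rw [hy]
    exact ((gam_comm_iff hn g a).2 ((hH a).1 a.2)).symm
  let Ψ : ↥H →* ↥C := Ψ₀.codRestrict C hmemC
  have hΨ : ∀ a, (Ψ a : MulAut (PSLn n F)) = Ψ₀ a := fun a => rfl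
  have hsurj : Function.Surjective Ψ := by
    rintro ⟨β, hβ⟩
    rw [hC] at hβ
    obtain ⟨hβ1, hβ2⟩ := hβ
    obtain ⟨b, rfl⟩ := (mem_inndiag β).1 hβ1
    have hc : (conjAut (itGL (itGL b)) : MulAut (PSLn n F)) * gam g
        = gam g * conjAut (itGL (itGL b)) := by
      rw [itGL_itGL]
      exact ((Subgroup.mem_centralizer_iff.1 hβ2) _ rfl).symm
    refine ⟨⟨itGL b, (hH _).2 ((gam_comm_iff hn g _).1 hc)⟩, Subtype.ext ?_⟩
    rw [hΨ, hΨ₀]
    show conjAut (itGL (itGL b)) = conjAut b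
    rw [itGL_itGL]
  have hker : Ψ.ker = (Cfsg.Geo.scalars (Fin n) F).subgroupOf H := by
    ext a
    rw [MonoidHom.mem_ker, Subgroup.mem_subgroupOf]
    have h1 : Ψ a = 1 ↔ Ψ₀ a = 1 := by
      constructor
      · intro h; rw [← hΨ, h]; rfl
      · intro h; exact Subtype.ext (by rw [hΨ, h]; rfl)
    rw [h1, hΨ₀, conjAut_eq_one_iff hn, ← scalars_eq_center, itGL_mem_scalars]
  exact ⟨(QuotientGroup.quotientKerEquivOfSurjective Ψ hsurj).symm.trans
    (QuotientGroup.quotientMulEquivOfEq hker)⟩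

section forms

variable {ι : Type} [Fintype ι] [DecidableEq ι]

theorem sym_zero_of_quad (h2 : (2 : F) ≠ 0) (N : Matrix ι ι F) (hN : Nᵀ = N)
    (h : ∀ v : ι → F, v ⬝ᵥ (N *ᵥ v) = 0) : N = 0 := by
  apply matrix_eq_of_form
  intro u v
  have hsymm : v ⬝ᵥ (N *ᵥ u) = u ⬝ᵥ (N *ᵥ v) := by
    rw [Matrix.dotProduct_mulVec, ← Matrix.mulVec_transpose, hN, dotProduct_comm]
  have h3 := h (u + v)
  rw [Matrix.mulVec_add, add_dotProduct, dotProduct_add, dotProduct_add, h u, h v, hsymm] at h3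
  rw [Matrix.zero_mulVec, dotProduct_zero]
  have h4 : (2 : F) * (u ⬝ᵥ (N *ᵥ v)) = 0 := by linear_combination h3
  exact (mul_eq_zero.1 h4).resolve_left h2

theorem quadSim_iff (h2 : (2 : F) ≠ 0) (M : Matrix ι ι F) (hM : Mᵀ = M) (a : GL ι F) :
    a ∈ Cfsg.Geo.quadSimilarityGroup (fun v : ι → F => v ⬝ᵥ (M *ᵥ v)) ↔
      ∃ c : Fˣ, (a : Matrix ι ι F)ᵀ * M * (a : Matrix ι ι F) = (c : F) • M := by
  have key : ∀ c : Fˣ, (∀ v : ι → F, ((a : Matrix ι ι F) *ᵥ v) ⬝ᵥ (M *ᵥ ((a : Matrix ι ι F) *ᵥ v))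
      = (c : F) * (v ⬝ᵥ (M *ᵥ v))) ↔
      (a : Matrix ι ι F)ᵀ * M * (a : Matrix ι ι F) = (c : F) • M := by
    intro c
    constructor
    · intro h
      have h3 : (a : Matrix ι ι F)ᵀ * M * (a : Matrix ι ι F) - (c : F) • M = 0 := by
        apply sym_zero_of_quad h2
        · rw [Matrix.transpose_sub, Matrix.transpose_smul, Matrix.transpose_mul,
            Matrix.transpose_mul, Matrix.transpose_transpose, hM, Matrix.mul_assoc]
        · intro v
          rw [Matrix.sub_mulVec, dotProduct_sub, ← form_mul, h, Matrix.smul_mulVec,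
            dotProduct_smul, smul_eq_mul, sub_self]
      exact sub_eq_zero.1 h3
    · intro h v
      rw [form_mul, h, Matrix.smul_mulVec, dotProduct_smul, smul_eq_mul]
  constructor
  · rintro ⟨c, hc⟩
    exact ⟨c, (key c).1 hc⟩
  · rintro ⟨c, hc⟩
    exact ⟨c, (key c).2 hc⟩

theorem bilSim_iff (M : Matrix ι ι F) (a : GL ι F) :
    a ∈ Cfsg.Geo.similarityGroup (fun u v : ι → F => u ⬝ᵥ (M *ᵥ v)) ↔
      ∃ c : Fˣ, (a : Matrix ι ι F)ᵀ * M * (a : Matrix ι ι F) = (c : F) • M := by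
  have key : ∀ c : Fˣ, (∀ u v : ι → F,
      ((a : Matrix ι ι F) *ᵥ u) ⬝ᵥ (M *ᵥ ((a : Matrix ι ι F) *ᵥ v))
      = (c : F) * (u ⬝ᵥ (M *ᵥ v))) ↔
      (a : Matrix ι ι F)ᵀ * M * (a : Matrix ι ι F) = (c : F) • M := by
    intro c
    constructor
    · intro h
      apply matrix_eq_of_form
      intro u v
      rw [← form_mul, h, Matrix.smul_mulVec, dotProduct_smul, smul_eq_mul]
    · intro h u v
      rw [form_mul, h, Matrix.smul_mulVec, dotProduct_smul, smul_eq_mul]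
  constructor
  · rintro ⟨c, hc⟩
    exact ⟨c, (key c).1 hc⟩
  · rintro ⟨c, hc⟩
    exact ⟨c, (key c).2 hc⟩

end forms

/-- the centralizer of a graph automorphism with symmetric matrix -/
theorem graph_centralizer_sym (hn : 2 ≤ n) (h2 : (2 : F) ≠ 0) (g : GL (Fin n) F)
    (hg : (g : Matrix (Fin n) (Fin n) F)ᵀ = (g : Matrix (Fin n) (Fin n) F)) :
    Nonempty (↥(Cfsg.inndiagPSL n F ⊓ Subgroup.centralizer {gam g}) ≃*
      Cfsg.PGO F (fun v : Fin n → F => v ⬝ᵥ ((g : Matrix (Fin n) (Fin n) F) *ᵥ v))) :=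
  graph_centralizer_iso hn g _ (quadSim_iff h2 _ hg)

/-- the centralizer of a graph automorphism, bilinear version -/
theorem graph_centralizer_bil (hn : 2 ≤ n) (g : GL (Fin n) F) :
    Nonempty (↥(Cfsg.inndiagPSL n F ⊓ Subgroup.centralizer {gam g}) ≃*
      Cfsg.projQuot (Cfsg.Geo.similarityGroup
        (fun u v : Fin n → F => u ⬝ᵥ ((g : Matrix (Fin n) (Fin n) F) *ᵥ v)))) :=
  graph_centralizer_iso hn g _ (bilSim_iff _)

end Cfsg.Agent.Lib.helper13.PN
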