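import Mathlib
import Cfsg.Prelude.Def_LieTypeDatum
import Cfsg.Agent.Lib.helper13.PSLnGraph
import Cfsg.Agent.Lib.helper13.QuadNormal

set_option autoImplicit false
set_option linter.unusedSectionVars false
set_option linter.unusedVariables false
set_option linter.style.longLine false

/-!
Involutory graph automorphisms of `PSL_n(F)`: conjugacy in terms of congruence of matrices.
-/

namespace Cfsg.Agent.Lib.helper13.PN

open Matrix

variable {F : Type*} [Field F] {n : ℕ}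

theorem gam_conj (a g : GL (Fin n) F) :
    (conjAut a : MulAut (PSLn n F)) * gam g * (conjAut a)⁻¹ = gam (a * g * (itGL a)⁻¹) := by
  unfold gam
  calc (conjAut a : MulAut (PSLn n F)) * (conjAut g * itAut) * (conjAut a)⁻¹
      = conjAut a * conjAut g * (itAut * conjAut a⁻¹) := by rw [map_inv]; group
    _ = conjAut a * conjAut g * (conjAut (itGL a⁻¹) * itAut) := by rw [it_conj]
    _ = conjAut (a * g * (itGL a)⁻¹) * itAut := by
        rw [← mul_assoc, ← map_mul, ← map_mul, map_inv]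

theorem gam_scalar (c : Fˣ) (g : GL (Fin n) F) :
    gam (Matrix.GeneralLinearGroup.scalar (Fin n) c * g) = gam g := by
  unfold gam
  rw [conjAut_scalar_mul]

theorem gam_sq (g : GL (Fin n) F) :
    gam g * gam g = (conjAut (g * itGL g) : MulAut (PSLn n F)) := by
  unfold gam
  calc (conjAut g : MulAut (PSLn n F)) * itAut * (conjAut g * itAut)
      = conjAut g * (itAut * conjAut g) * itAut := by group
    _ = conjAut g * (conjAut (itGL g) * itAut) * itAut := by rw [it_conj]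
    _ = conjAut g * conjAut (itGL g) * (itAut * itAut) := by group
    _ = conjAut (g * itGL g) := by rw [itAut_sq, mul_one, map_mul]

theorem gam_inj (hn : 2 ≤ n) (g g' : GL (Fin n) F) :
    gam g = gam g' ↔
      ∃ c : Fˣ, (g' : Matrix (Fin n) (Fin n) F) = (c : F) • (g : Matrix (Fin n) (Fin n) F) := by
  unfold gam
  rw [mul_left_inj]
  exact conjAut_eq_iff hn g g'

theorem gam_ne_one (hn : 3 ≤ n) (g : GL (Fin n) F) : gam g ≠ 1 := by
  intro h
  apply it_ne_conj_field hn g⁻¹ (1 : F ≃+* F)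
  unfold gam at h
  rw [map_one, mul_one, map_inv]
  exact (eq_inv_of_mul_eq_one_right h)

theorem gam_sq_one (hn : 2 ≤ n) (g : GL (Fin n) F)
    (hg : (g : Matrix (Fin n) (Fin n) F)ᵀ = g ∨ (g : Matrix (Fin n) (Fin n) F)ᵀ = -g) :
    gam g * gam g = 1 := by
  rw [gam_sq, conjAut_eq_one_iff hn, ← scalars_eq_center, Cfsg.Geo.mem_scalars_iff]
  rcases hg with hg | hg
  · refine ⟨1, ?_⟩
    rw [Units.val_mul, itGL_coe, Units.val_one, one_smul]
    calc (g : Matrix (Fin n) (Fin n) F) * ((g⁻¹ : GL (Fin n) F) : Matrix (Fin n) (Fin n) F)ᵀ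
        = (g : Matrix (Fin n) (Fin n) F)ᵀ *
          ((g⁻¹ : GL (Fin n) F) : Matrix (Fin n) (Fin n) F)ᵀ := by rw [hg]
      _ = 1 := by rw [← Matrix.transpose_mul, Units.inv_mul, Matrix.transpose_one]
  · refine ⟨-1, ?_⟩
    rw [Units.val_mul, itGL_coe, Units.val_neg, Units.val_one, neg_smul, one_smul]
    calc (g : Matrix (Fin n) (Fin n) F) * ((g⁻¹ : GL (Fin n) F) : Matrix (Fin n) (Fin n) F)ᵀ
        = -((g : Matrix (Fin n) (Fin n) F)ᵀ *
          ((g⁻¹ : GL (Fin n) F) : Matrix (Fin n) (Fin n) F)ᵀ) := by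
          rw [hg, Matrix.neg_mul, neg_neg]
      _ = -1 := by rw [← Matrix.transpose_mul, Units.inv_mul, Matrix.transpose_one]

theorem gam_order (hn : 3 ≤ n) (g : GL (Fin n) F)
    (hg : (g : Matrix (Fin n) (Fin n) F)ᵀ = g ∨ (g : Matrix (Fin n) (Fin n) F)ᵀ = -g) :
    orderOf (gam g) = 2 :=
  orderOf_eq_prime (by rw [pow_two]; exact gam_sq_one (by omega) g hg) (gam_ne_one hn g)

theorem invol_sym_or_skew (hn : 2 ≤ n) (g : GL (Fin n) F) (h : gam g * gam g = 1) :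
    (g : Matrix (Fin n) (Fin n) F)ᵀ = g ∨ (g : Matrix (Fin n) (Fin n) F)ᵀ = -g := by
  rw [gam_sq, conjAut_eq_one_iff hn, ← scalars_eq_center, Cfsg.Geo.mem_scalars_iff] at h
  obtain ⟨c, hc⟩ := h
  rw [Units.val_mul, itGL_coe] at hc
  have h1 : (g : Matrix (Fin n) (Fin n) F) = (c : F) • (g : Matrix (Fin n) (Fin n) F)ᵀ := by
    calc (g : Matrix (Fin n) (Fin n) F)
        = (g : Matrix (Fin n) (Fin n) F) *
          (((g⁻¹ : GL (Fin n) F) : Matrix (Fin n) (Fin n) F)ᵀ *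
            (g : Matrix (Fin n) (Fin n) F)ᵀ) := by
          rw [← Matrix.transpose_mul, Units.mul_inv, Matrix.transpose_one, Matrix.mul_one]
      _ = (c : F) • (g : Matrix (Fin n) (Fin n) F)ᵀ := by
          rw [← Matrix.mul_assoc, hc, Matrix.smul_mul, Matrix.one_mul]
  have h2 : (g : Matrix (Fin n) (Fin n) F)ᵀ = (c : F) • (g : Matrix (Fin n) (Fin n) F) := by
    have := congrArg Matrix.transpose h1
    rw [Matrix.transpose_smul, Matrix.transpose_transpose] at this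
    exact this
  have h3 : (c : F) * c = 1 := by
    have h4 : (g : Matrix (Fin n) (Fin n) F) = ((c : F) * c) • (g : Matrix (Fin n) (Fin n) F) := by
      rw [mul_smul, ← h2, ← h1]
    have h5 : (1 : Matrix (Fin n) (Fin n) F) = ((c : F) * c) • (1 : Matrix (Fin n) (Fin n) F) := by
      calc (1 : Matrix (Fin n) (Fin n) F)
          = (g : Matrix (Fin n) (Fin n) F) *
            ((g⁻¹ : GL (Fin n) F) : Matrix (Fin n) (Fin n) F) := (Units.mul_inv g).symm
        _ = ((c : F) * c) • (1 : Matrix (Fin n) (Fin n) F) := by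
            rw [h4, Matrix.smul_mul, Units.mul_inv]
    have h6 := congrFun (congrFun h5 ⟨0, by omega⟩) ⟨0, by omega⟩
    rw [Matrix.smul_apply, Matrix.one_apply_eq, smul_eq_mul, mul_one] at h6
    exact h6.symm
  have h7 : ((c : F) - 1) * ((c : F) + 1) = 0 := by linear_combination h3
  rcases mul_eq_zero.1 h7 with h8 | h8
  · left
    rw [h2, sub_eq_zero.1 h8, one_smul]
  · right
    rw [h2, eq_neg_of_add_eq_zero_left h8, neg_smul, one_smul]

theorem gam_isGraph (hn : 3 ≤ n) (g : GL (Fin n) F) : Cfsg.IsGraphAutClassPSL (gam g) :=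
  ⟨hn, conjAut g, itAut, (isInnerDiag_iff _).2 ⟨g, rfl⟩, isInvTr_itAut, rfl⟩

theorem graph_eq_gam (γ : MulAut (PSLn n F)) (h : Cfsg.IsGraphAutClassPSL γ) :
    ∃ g : GL (Fin n) F, γ = gam g := by
  obtain ⟨-, δ, γ₀, hδ, hγ₀, rfl⟩ := h
  obtain ⟨g, rfl⟩ := (isInnerDiag_iff δ).1 hδ
  rw [(isInvTr_iff γ₀).1 hγ₀]
  exact ⟨g, rfl⟩

theorem isConjUnder_symm {X : Type*} [Group X] (H : Subgroup X) {x y : X}
    (h : Cfsg.IsConjUnder H x y) : Cfsg.IsConjUnder H y x := by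
  obtain ⟨a, ha, rfl⟩ := h
  exact ⟨a⁻¹, inv_mem ha, by group⟩

theorem scalar_mul_val (c : Fˣ) (g : GL (Fin n) F) :
    ((Matrix.GeneralLinearGroup.scalar (Fin n) c * g : GL (Fin n) F) :
      Matrix (Fin n) (Fin n) F) = (c : F) • (g : Matrix (Fin n) (Fin n) F) := by
  rw [Units.val_mul, Matrix.GeneralLinearGroup.coe_scalar, Matrix.scalar_apply,
    ← Matrix.smul_one_eq_diagonal, Matrix.smul_mul, Matrix.one_mul]

/-- congruent matrices (up to a scalar) give conjugate graph automorphisms -/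
theorem conj_of_congr (g g' A : GL (Fin n) F) (c : Fˣ)
    (h : (g : Matrix (Fin n) (Fin n) F) = (c : F) • ((A : Matrix (Fin n) (Fin n) F)ᵀ *
      (g' : Matrix (Fin n) (Fin n) F) * (A : Matrix (Fin n) (Fin n) F))) :
    Cfsg.IsConjUnder (Cfsg.inndiagPSL n F) (gam g) (gam g') := by
  refine ⟨conjAut (itGL A), (mem_inndiag _).2 ⟨_, rfl⟩, ?_⟩
  rw [gam_conj, itGL_itGL]
  have e : itGL A * g * A⁻¹ = Matrix.GeneralLinearGroup.scalar (Fin n) c * g' := by
    apply Units.ext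
    rw [scalar_mul_val, Units.val_mul, Units.val_mul, itGL_coe, h]
    calc ((A⁻¹ : GL (Fin n) F) : Matrix (Fin n) (Fin n) F)ᵀ *
          ((c : F) • ((A : Matrix (Fin n) (Fin n) F)ᵀ * (g' : Matrix (Fin n) (Fin n) F) *
            (A : Matrix (Fin n) (Fin n) F))) * ((A⁻¹ : GL (Fin n) F) : Matrix (Fin n) (Fin n) F)
        = (c : F) • ((((A⁻¹ : GL (Fin n) F) : Matrix (Fin n) (Fin n) F)ᵀ *
          (A : Matrix (Fin n) (Fin n) F)ᵀ) * (g' : Matrix (Fin n) (Fin n) F) *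
            ((A : Matrix (Fin n) (Fin n) F) *
              ((A⁻¹ : GL (Fin n) F) : Matrix (Fin n) (Fin n) F))) := by
          rw [Matrix.mul_smul, Matrix.smul_mul]
          simp only [Matrix.mul_assoc]
      _ = (c : F) • (g' : Matrix (Fin n) (Fin n) F) := by
          rw [← Matrix.transpose_mul, Units.mul_inv, Matrix.transpose_one, Matrix.one_mul,
            Matrix.mul_one]
  rw [e, gam_scalar]

/-- conjugate graph automorphisms have congruent matrices (up to a scalar) -/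
theorem congr_of_conj (hn : 2 ≤ n) (g g' : GL (Fin n) F)
    (h : Cfsg.IsConjUnder (Cfsg.inndiagPSL n F) (gam g) (gam g')) :
    ∃ (A : GL (Fin n) F) (c : Fˣ), (A : Matrix (Fin n) (Fin n) F) *
      (g : Matrix (Fin n) (Fin n) F) * (A : Matrix (Fin n) (Fin n) F)ᵀ =
        (c : F) • (g' : Matrix (Fin n) (Fin n) F) := by
  obtain ⟨x, hx, hxe⟩ := h
  obtain ⟨a, rfl⟩ := (mem_inndiag x).1 hx
  rw [gam_conj, gam_inj hn] at hxe
  obtain ⟨c, hc⟩ := hxe
  refine ⟨a, c, ?_⟩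
  rw [← hc, Units.val_mul, Units.val_mul, ← map_inv, itGL_coe, inv_inv]

section forms

variable {ι : Type} [Fintype ι] [DecidableEq ι]

theorem exists_matrix_of_bilin (B : LinearMap.BilinForm F (ι → F)) :
    ∃ M : Matrix ι ι F, ∀ u v : ι → F, u ⬝ᵥ (M *ᵥ v) = B u v :=
  ⟨LinearMap.toMatrix₂' F B, fun u v => by
    rw [← Matrix.toLinearMap₂'_apply', Matrix.toLinearMap₂'_toMatrix']⟩

theorem transpose_form (M : Matrix ι ι F) (u v : ι → F) :
    u ⬝ᵥ (Mᵀ *ᵥ v) = v ⬝ᵥ (M *ᵥ u) := by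
  rw [Matrix.mulVec_transpose, dotProduct_comm, ← Matrix.dotProduct_mulVec]

theorem isUnit_of_sep (M : Matrix ι ι F)
    (h : ∀ v : ι → F, (∀ u : ι → F, u ⬝ᵥ (M *ᵥ v) = 0) → v = 0) :
    ∃ g : GL ι F, (g : Matrix ι ι F) = M := by
  have hinj : Function.Injective M.mulVec := by
    intro v v' hvv
    have : v - v' = 0 := h _ (fun u => by
      rw [Matrix.mulVec_sub, hvv, sub_self, dotProduct_zero])
    exact sub_eq_zero.1 this
  have hu := Matrix.mulVec_injective_iff_isUnit.1 hinj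
  exact ⟨hu.unit, rfl⟩

/-- a symmetric matrix for a nondegenerate quadratic form, in given coordinates -/
theorem exists_sym_of_quad {W : Type*} [AddCommGroup W] [Module F W] (Q : QuadraticForm F W)
    (hQ : (QuadraticMap.polarBilin Q).Nondegenerate) (R : (ι → F) ≃ₗ[F] W) :
    ∃ g : GL ι F, (g : Matrix ι ι F)ᵀ = g ∧
      ∀ v : ι → F, v ⬝ᵥ ((g : Matrix ι ι F) *ᵥ v) = 2 * Q (R v) := by
  obtain ⟨M, hM⟩ := exists_matrix_of_bilin
    ((QuadraticMap.polarBilin Q).compl₁₂ (R : (ι → F) →ₗ[F] W) (R : (ι → F) →ₗ[F] W))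
  have hM' : ∀ u v, u ⬝ᵥ (M *ᵥ v) = QuadraticMap.polar Q (R u) (R v) := fun u v => by
    rw [hM]
    rfl
  obtain ⟨g, hg⟩ := isUnit_of_sep M (by
    intro v hv
    have h1 : ∀ w, QuadraticMap.polar Q w (R v) = 0 := by
      intro w
      have := hv (R.symm w)
      rw [hM', LinearEquiv.apply_symm_apply] at this
      exact this
    have h2 : R v = 0 := hQ.2 (R v) (fun w => h1 w)
    exact R.map_eq_zero_iff.1 h2)
  refine ⟨g, ?_, ?_⟩
  · rw [hg]
    apply matrix_eq_of_form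
    intro u v
    rw [transpose_form, hM', hM', QuadraticMap.polar_comm]
  · intro v
    rw [hg, hM', QuadraticMap.polar_self, nsmul_eq_mul, Nat.cast_ofNat]

theorem rect_form {ι' : Type} [Fintype ι'] [DecidableEq ι'] (P : Matrix ι' ι F)
    (M : Matrix ι' ι' F) (u v : ι → F) :
    (P *ᵥ u) ⬝ᵥ (M *ᵥ (P *ᵥ v)) = u ⬝ᵥ ((Pᵀ * M * P) *ᵥ v) := by
  calc (P *ᵥ u) ⬝ᵥ (M *ᵥ (P *ᵥ v)) = (u ᵥ* Pᵀ) ⬝ᵥ (M *ᵥ (P *ᵥ v)) := by
        rw [Matrix.vecMul_transpose]
    _ = u ⬝ᵥ (Pᵀ *ᵥ (M *ᵥ (P *ᵥ v))) := (Matrix.dotProduct_mulVec u Pᵀ _).symm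
    _ = u ⬝ᵥ ((Pᵀ * M * P) *ᵥ v) := by rw [Matrix.mulVec_mulVec, Matrix.mulVec_mulVec]

/-- a skew-symmetric matrix for the symplectic form, in given coordinates -/
theorem exists_skew_of_symp {m : ℕ} (R : (ι → F) ≃ₗ[F] (Fin m ⊕ Fin m → F)) :
    ∃ g : GL ι F, (g : Matrix ι ι F)ᵀ = -(g : Matrix ι ι F) ∧
      ∀ u v : ι → F, u ⬝ᵥ ((g : Matrix ι ι F) *ᵥ v) = Cfsg.sympForm m F (R u) (R v) := by
  obtain ⟨P, hP⟩ : ∃ P : Matrix (Fin m ⊕ Fin m) ι F, ∀ v, P *ᵥ v = R v :=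
    ⟨LinearMap.toMatrix' (R : (ι → F) →ₗ[F] (Fin m ⊕ Fin m → F)),
      fun v => LinearMap.toMatrix'_mulVec _ v⟩
  have hform : ∀ u v, u ⬝ᵥ ((Pᵀ * Matrix.J (Fin m) F * P) *ᵥ v)
      = Cfsg.sympForm m F (R u) (R v) := by
    intro u v
    rw [← rect_form, hP, hP]
    rfl
  obtain ⟨g, hg⟩ := isUnit_of_sep (Pᵀ * Matrix.J (Fin m) F * P) (by
    intro v hv
    have h1 : ∀ w, w ⬝ᵥ (Matrix.J (Fin m) F *ᵥ (R v)) = 0 := by
      intro w
      have := hv (R.symm w)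
      rw [hform, LinearEquiv.apply_symm_apply] at this
      exact this
    have h2 : Matrix.J (Fin m) F *ᵥ (R v) = 0 := by
      funext k
      have := h1 (Pi.single k 1)
      rwa [single_dotProduct, one_mul] at this
    have h3 : R v = 0 := by
      have h4 := congrArg (fun x => (Matrix.J (Fin m) F) *ᵥ x) h2
      simp only [Matrix.mulVec_mulVec, Matrix.mulVec_zero] at h4
      rw [Matrix.J_squared, Matrix.neg_mulVec, Matrix.one_mulVec, neg_eq_zero] at h4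
      exact h4
    exact R.map_eq_zero_iff.1 h3)
  refine ⟨g, ?_, fun u v => by rw [hg]; exact hform u v⟩
  rw [hg, Matrix.transpose_mul, Matrix.transpose_mul, Matrix.transpose_transpose,
    Matrix.J_transpose, Matrix.neg_mul, Matrix.mul_neg, Matrix.mul_assoc]

theorem exists_GL_of_equiv (T : (ι → F) ≃ₗ[F] (ι → F)) :
    ∃ A : GL ι F, ∀ v, (A : Matrix ι ι F) *ᵥ v = T v := by
  obtain ⟨P, hP⟩ : ∃ P : Matrix ι ι F, ∀ v, P *ᵥ v = T v :=
    ⟨LinearMap.toMatrix' (T : (ι → F) →ₗ[F] (ι → F)), fun v => LinearMap.toMatrix'_mulVec _ v⟩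
  obtain ⟨P', hP'⟩ : ∃ P' : Matrix ι ι F, ∀ v, P' *ᵥ v = T.symm v :=
    ⟨LinearMap.toMatrix' (T.symm : (ι → F) →ₗ[F] (ι → F)),
      fun v => LinearMap.toMatrix'_mulVec _ v⟩
  have h1 : P * P' = 1 := by
    apply Matrix.mulVec_injective
    funext v
    rw [← Matrix.mulVec_mulVec, hP', hP, LinearEquiv.apply_symm_apply, Matrix.one_mulVec]
  have h2 : P' * P = 1 := by
    apply Matrix.mulVec_injective
    funext v
    rw [← Matrix.mulVec_mulVec, hP, hP', LinearEquiv.symm_apply_apply, Matrix.one_mulVec]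
  exact ⟨⟨P, P', h1, h2⟩, hP⟩

theorem congr_of_bil_eq (g g' : GL ι F) (T : (ι → F) ≃ₗ[F] (ι → F)) (c : F)
    (h : ∀ u v : ι → F, u ⬝ᵥ ((g : Matrix ι ι F) *ᵥ v) =
      c * ((T u) ⬝ᵥ ((g' : Matrix ι ι F) *ᵥ (T v)))) :
    ∃ A : GL ι F, (g : Matrix ι ι F) =
      c • ((A : Matrix ι ι F)ᵀ * (g' : Matrix ι ι F) * (A : Matrix ι ι F)) := by
  obtain ⟨A, hA⟩ := exists_GL_of_equiv T
  refine ⟨A, ?_⟩
  apply matrix_eq_of_form
  intro u v
  rw [h, Matrix.smul_mulVec, dotProduct_smul, smul_eq_mul, ← form_mul, hA, hA]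

theorem congr_of_quad_eq (h2 : (2 : F) ≠ 0) (g g' : GL ι F)
    (hg : (g : Matrix ι ι F)ᵀ = g) (hg' : (g' : Matrix ι ι F)ᵀ = g')
    (T : (ι → F) ≃ₗ[F] (ι → F)) (c : F)
    (h : ∀ v : ι → F, v ⬝ᵥ ((g : Matrix ι ι F) *ᵥ v) =
      c * ((T v) ⬝ᵥ ((g' : Matrix ι ι F) *ᵥ (T v)))) :
    ∃ A : GL ι F, (g : Matrix ι ι F) =
      c • ((A : Matrix ι ι F)ᵀ * (g' : Matrix ι ι F) * (A : Matrix ι ι F)) := by
  obtain ⟨A, hA⟩ := exists_GL_of_equiv T
  refine ⟨A, ?_⟩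
  have h3 : (g : Matrix ι ι F) -
      c • ((A : Matrix ι ι F)ᵀ * (g' : Matrix ι ι F) * (A : Matrix ι ι F)) = 0 := by
    apply sym_zero_of_quad h2
    · rw [Matrix.transpose_sub, Matrix.transpose_smul, Matrix.transpose_mul,
        Matrix.transpose_mul, Matrix.transpose_transpose, hg, hg', Matrix.mul_assoc]
    · intro v
      rw [Matrix.sub_mulVec, dotProduct_sub, h, Matrix.smul_mulVec, dotProduct_smul, smul_eq_mul,
        ← form_mul, hA, sub_self]
  exact sub_eq_zero.1 h3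

end forms

/-- a skew matrix and a symmetric matrix give non-conjugate graph automorphisms -/
theorem not_conj_skew_sym (hn : 2 ≤ n) (h2 : (2 : F) ≠ 0) (g g' : GL (Fin n) F)
    (hg : (g : Matrix (Fin n) (Fin n) F)ᵀ = -(g : Matrix (Fin n) (Fin n) F))
    (hg' : (g' : Matrix (Fin n) (Fin n) F)ᵀ = g') :
    ¬ Cfsg.IsConjUnder (Cfsg.inndiagPSL n F) (gam g) (gam g') := by
  intro h
  obtain ⟨A, c, hc⟩ := congr_of_conj hn g g' h
  have h1 := congrArg Matrix.transpose hc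
  rw [Matrix.transpose_mul, Matrix.transpose_mul, Matrix.transpose_transpose, hg,
    Matrix.transpose_smul, hg', Matrix.neg_mul, Matrix.mul_neg, ← Matrix.mul_assoc, hc] at h1
  have h3 : (2 : F) • ((c : F) • (g' : Matrix (Fin n) (Fin n) F)) = 0 := by
    rw [two_smul]
    nth_rewrite 1 [← h1]
    exact neg_add_cancel _
  have h4 : (g' : Matrix (Fin n) (Fin n) F) = 0 := by
    rcases smul_eq_zero.1 h3 with h5 | h5
    · exact absurd h5 h2
    · rcases smul_eq_zero.1 h5 with h6 | h6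
      · exact absurd h6 c.ne_zero
      · exact h6
  have h7 : (g' : Matrix (Fin n) (Fin n) F) *
      ((g'⁻¹ : GL (Fin n) F) : Matrix (Fin n) (Fin n) F) = 1 := Units.mul_inv g'
  rw [h4, Matrix.zero_mul] at h7
  have h8 := congrFun (congrFun h7 ⟨0, by omega⟩) ⟨0, by omega⟩
  rw [Matrix.zero_apply, Matrix.one_apply_eq] at h8
  exact zero_ne_one h8

theorem exists_zeta [Finite F] : ∃ ζ : F, ∀ t : F, t ^ 2 + t + ζ ≠ 0 := by
  have hni : ¬ Function.Injective (fun t : F => t ^ 2 + t) := by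
    intro hinj
    have h1 : (0 : F) = -1 := hinj (by
      show (0 : F) ^ 2 + 0 = (-1) ^ 2 + (-1)
      ring)
    have : (1 : F) = 0 := by linear_combination h1
    exact one_ne_zero this
  have hns : ¬ Function.Surjective (fun t : F => t ^ 2 + t) :=
    fun hs => hni (Finite.injective_iff_surjective.2 hs)
  rw [Function.Surjective] at hns
  push Not at hns
  obtain ⟨y, hy⟩ := hns
  refine ⟨-y, fun t ht => hy t ?_⟩
  show t ^ 2 + t = y
  linear_combination ht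

/-- plus-type and minus-type symmetric matrices give non-conjugate graph automorphisms -/
theorem not_conj_plus_minus [Fintype F] (hn : 2 ≤ n) (k : ℕ) (g₂ g₃ : GL (Fin n) F) (ζ : F)
    (hζ : ∀ t : F, t ^ 2 + t + ζ ≠ 0) (h2 : (2 : F) ≠ 0)
    (R : (Fin n → F) ≃ₗ[F] (Fin (k + 1) ⊕ Fin (k + 1) → F))
    (R' : (Fin n → F) ≃ₗ[F] ((Fin k ⊕ Fin k) ⊕ Fin 2 → F))
    (hg₂ : ∀ v : Fin n → F, v ⬝ᵥ ((g₂ : Matrix (Fin n) (Fin n) F) *ᵥ v) =
      2 * Cfsg.quadFormPlus (k + 1) F (R v))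
    (hg₃ : ∀ v : Fin n → F, v ⬝ᵥ ((g₃ : Matrix (Fin n) (Fin n) F) *ᵥ v) =
      2 * Cfsg.quadFormMinus k F 1 ζ (R' v)) :
    ¬ Cfsg.IsConjUnder (Cfsg.inndiagPSL n F) (gam g₂) (gam g₃) := by
  classical
  intro h
  obtain ⟨A, c, hc⟩ := congr_of_conj hn g₂ g₃ h
  have key : ∀ v : Fin n → F,
      Cfsg.quadFormPlus (k + 1) F (R ((A : Matrix (Fin n) (Fin n) F)ᵀ *ᵥ v)) =
        (c : F) * Cfsg.quadFormMinus k F 1 ζ (R' v) := by
    intro v
    have h1 : v ⬝ᵥ (((A : Matrix (Fin n) (Fin n) F) * (g₂ : Matrix (Fin n) (Fin n) F) *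
        (A : Matrix (Fin n) (Fin n) F)ᵀ) *ᵥ v) =
        (c : F) * (v ⬝ᵥ ((g₃ : Matrix (Fin n) (Fin n) F) *ᵥ v)) := by
      rw [hc, Matrix.smul_mulVec, dotProduct_smul, smul_eq_mul]
    have h3 : v ⬝ᵥ (((A : Matrix (Fin n) (Fin n) F) * (g₂ : Matrix (Fin n) (Fin n) F) *
        (A : Matrix (Fin n) (Fin n) F)ᵀ) *ᵥ v) =
        ((A : Matrix (Fin n) (Fin n) F)ᵀ *ᵥ v) ⬝ᵥ ((g₂ : Matrix (Fin n) (Fin n) F) *ᵥ
          ((A : Matrix (Fin n) (Fin n) F)ᵀ *ᵥ v)) := by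
      rw [form_mul, Matrix.transpose_transpose]
    rw [h3, hg₂, hg₃] at h1
    apply mul_left_cancel₀ h2
    linear_combination h1
  let eA : (Fin n → F) ≃ (Fin n → F) :=
    { toFun := fun v => (A : Matrix (Fin n) (Fin n) F)ᵀ *ᵥ v
      invFun := fun v => ((A⁻¹ : GL (Fin n) F) : Matrix (Fin n) (Fin n) F)ᵀ *ᵥ v
      left_inv := fun v => by
        show ((A⁻¹ : GL (Fin n) F) : Matrix (Fin n) (Fin n) F)ᵀ *ᵥ
          ((A : Matrix (Fin n) (Fin n) F)ᵀ *ᵥ v) = v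
        rw [Matrix.mulVec_mulVec, ← Matrix.transpose_mul, Units.mul_inv, Matrix.transpose_one,
          Matrix.one_mulVec]
      right_inv := fun v => by
        show (A : Matrix (Fin n) (Fin n) F)ᵀ *ᵥ
          (((A⁻¹ : GL (Fin n) F) : Matrix (Fin n) (Fin n) F)ᵀ *ᵥ v) = v
        rw [Matrix.mulVec_mulVec, ← Matrix.transpose_mul, Units.inv_mul, Matrix.transpose_one,
          Matrix.one_mulVec] }
  have hcard : Nat.card {w : (Fin k ⊕ Fin k) ⊕ Fin 2 → F // Cfsg.quadFormMinus k F 1 ζ w = 0} =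
      Nat.card {w : Fin (k + 1) ⊕ Fin (k + 1) → F // Cfsg.quadFormPlus (k + 1) F w = 0} := by
    apply Nat.card_congr
    refine (R'.symm.toEquiv.trans (eA.trans R.toEquiv)).subtypeEquiv (fun w => ?_)
    show Cfsg.quadFormMinus k F 1 ζ w = 0 ↔
      Cfsg.quadFormPlus (k + 1) F (R ((A : Matrix (Fin n) (Fin n) F)ᵀ *ᵥ (R'.symm w))) = 0
    rw [key, LinearEquiv.apply_symm_apply, mul_eq_zero]
    constructor
    · intro h
      exact Or.inr h
    · rintro (h | h)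
      · exact absurd h c.ne_zero
      · exact h
  have hp := Cfsg.Agent.S2617.card_plus (F := F) (k + 1)
  have hm := Cfsg.Agent.S2617.card_minus (F := F) k ζ hζ
  rw [hcard] at hm
  have hq : 2 ≤ Nat.card F := by
    rw [Nat.card_eq_fintype_card]
    exact Fintype.one_lt_card
  have hlt : Nat.card F ^ (k + 1) < Nat.card F ^ (k + 2) :=
    Nat.pow_lt_pow_right (by omega) (by omega)
  have e : k + 1 + 1 = k + 2 := rfl
  rw [e] at hp
  linarith

/-- every symmetric matrix is of plus or minus type -/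
theorem classify_sym [Fintype F] (h2 : (2 : F) ≠ 0) (k : ℕ) (hnk : n = 2 * (k + 1))
    (g g₂ g₃ : GL (Fin n) F) (ζ₀ : F) (hζ₀ : ∀ t : F, t ^ 2 + t + ζ₀ ≠ 0)
    (R : (Fin n → F) ≃ₗ[F] (Fin (k + 1) ⊕ Fin (k + 1) → F))
    (R' : (Fin n → F) ≃ₗ[F] ((Fin k ⊕ Fin k) ⊕ Fin 2 → F))
    (hg : (g : Matrix (Fin n) (Fin n) F)ᵀ = g)
    (hs₂ : (g₂ : Matrix (Fin n) (Fin n) F)ᵀ = g₂) (hs₃ : (g₃ : Matrix (Fin n) (Fin n) F)ᵀ = g₃)
    (hg₂ : ∀ v : Fin n → F, v ⬝ᵥ ((g₂ : Matrix (Fin n) (Fin n) F) *ᵥ v) =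
      2 * Cfsg.quadFormPlus (k + 1) F (R v))
    (hg₃ : ∀ v : Fin n → F, v ⬝ᵥ ((g₃ : Matrix (Fin n) (Fin n) F) *ᵥ v) =
      2 * Cfsg.quadFormMinus k F 1 ζ₀ (R' v)) :
    Cfsg.IsConjUnder (Cfsg.inndiagPSL n F) (gam g₂) (gam g) ∨
      Cfsg.IsConjUnder (Cfsg.inndiagPSL n F) (gam g₃) (gam g) := by
  classical
  obtain ⟨Q, hQ⟩ : ∃ Q : QuadraticForm F (Fin n → F),
      ∀ v, Q v = v ⬝ᵥ ((g : Matrix (Fin n) (Fin n) F) *ᵥ v) :=
    ⟨Matrix.toQuadraticForm' (g : Matrix (Fin n) (Fin n) F), fun v => by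
      unfold Matrix.toQuadraticForm'
      rw [LinearMap.BilinMap.toQuadraticMap_apply, Matrix.toLinearMap₂'_apply']⟩
  have hsymm : ∀ x y : Fin n → F, y ⬝ᵥ ((g : Matrix (Fin n) (Fin n) F) *ᵥ x) =
      x ⬝ᵥ ((g : Matrix (Fin n) (Fin n) F) *ᵥ y) := by
    intro x y
    rw [← transpose_form, hg]
  have hpolar : ∀ x y, QuadraticMap.polar Q x y =
      2 * (x ⬝ᵥ ((g : Matrix (Fin n) (Fin n) F) *ᵥ y)) := by
    intro x y
    unfold QuadraticMap.polar
    rw [hQ, hQ, hQ, Matrix.mulVec_add, add_dotProduct, dotProduct_add, dotProduct_add, hsymm x y]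
    ring
  have hQnd : (QuadraticMap.polarBilin Q).Nondegenerate := by
    apply Cfsg.Agent.S2562.nondeg_of_sep
    intro x hx
    funext j
    have h1 := hx (((g⁻¹ : GL (Fin n) F) : Matrix (Fin n) (Fin n) F) *ᵥ Pi.single j 1)
    rw [hpolar, Matrix.mulVec_mulVec, Units.mul_inv, Matrix.one_mulVec, dotProduct_single,
      mul_one] at h1
    exact (mul_eq_zero.1 h1).resolve_left h2
  have hV : Module.finrank F (Fin n → F) = 2 * (k + 1) := by
    rw [Module.finrank_fin_fun, hnk]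
  have h2inv : (2 : F)⁻¹ ≠ 0 := inv_ne_zero h2
  rcases quad_classify hV Q hQnd with ⟨T, hT⟩ | ⟨k', ζ, hk', hζ, T, hT⟩
  · left
    have h3 : ∀ v : Fin n → F, v ⬝ᵥ ((g : Matrix (Fin n) (Fin n) F) *ᵥ v) =
        (2 : F)⁻¹ * ((T.trans R.symm v) ⬝ᵥ ((g₂ : Matrix (Fin n) (Fin n) F) *ᵥ
          (T.trans R.symm v))) := by
      intro v
      rw [hg₂, LinearEquiv.trans_apply, LinearEquiv.apply_symm_apply, ← hT, hQ, ← mul_assoc,
        inv_mul_cancel₀ h2, one_mul]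
    obtain ⟨A, hA⟩ := congr_of_quad_eq h2 g g₂ hg hs₂ (T.trans R.symm) (2 : F)⁻¹ h3
    exact isConjUnder_symm _ (conj_of_congr g g₂ A (Units.mk0 (2 : F)⁻¹ h2inv) hA)
  · right
    obtain rfl : k' = k := by omega
    obtain ⟨T₁, hT₁⟩ := minus_iso k' ζ ζ₀ hζ hζ₀
    have h3 : ∀ v : Fin n → F, v ⬝ᵥ ((g : Matrix (Fin n) (Fin n) F) *ᵥ v) =
        (2 : F)⁻¹ * ((T.trans (T₁.symm.trans R'.symm) v) ⬝ᵥ
          ((g₃ : Matrix (Fin n) (Fin n) F) *ᵥ (T.trans (T₁.symm.trans R'.symm) v))) := by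
      intro v
      rw [hg₃, LinearEquiv.trans_apply, LinearEquiv.trans_apply, LinearEquiv.apply_symm_apply,
        ← hT₁, LinearEquiv.apply_symm_apply, ← hT, hQ, ← mul_assoc, inv_mul_cancel₀ h2, one_mul]
    obtain ⟨A, hA⟩ := congr_of_quad_eq h2 g g₃ hg hs₃ (T.trans (T₁.symm.trans R'.symm))
      (2 : F)⁻¹ h3
    exact isConjUnder_symm _ (conj_of_congr g g₃ A (Units.mk0 (2 : F)⁻¹ h2inv) hA)

/-- every skew-symmetric matrix is of symplectic type -/
theorem classify_skew [Finite F] (h2 : (2 : F) ≠ 0) (m : ℕ) (hnm : n = 2 * m)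
    (g g₁ : GL (Fin n) F) (R : (Fin n → F) ≃ₗ[F] (Fin m ⊕ Fin m → F))
    (hg : (g : Matrix (Fin n) (Fin n) F)ᵀ = -(g : Matrix (Fin n) (Fin n) F))
    (hg₁ : ∀ u v : Fin n → F, u ⬝ᵥ ((g₁ : Matrix (Fin n) (Fin n) F) *ᵥ v) =
      Cfsg.sympForm m F (R u) (R v)) :
    Cfsg.IsConjUnder (Cfsg.inndiagPSL n F) (gam g₁) (gam g) := by
  classical
  obtain ⟨B, hB⟩ : ∃ B : LinearMap.BilinForm F (Fin n → F),
      ∀ u v, B u v = u ⬝ᵥ ((g : Matrix (Fin n) (Fin n) F) *ᵥ v) :=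
    ⟨Matrix.toLinearMap₂' F (g : Matrix (Fin n) (Fin n) F),
      fun u v => Matrix.toLinearMap₂'_apply' _ u v⟩
  have hAlt : B.IsAlt := by
    intro x
    have h1 := transpose_form (g : Matrix (Fin n) (Fin n) F) x x
    rw [hg, Matrix.neg_mulVec, dotProduct_neg] at h1
    rw [hB]
    have h3 : (2 : F) * (x ⬝ᵥ ((g : Matrix (Fin n) (Fin n) F) *ᵥ x)) = 0 := by
      linear_combination -h1
    exact (mul_eq_zero.1 h3).resolve_left h2
  have hBnd : B.Nondegenerate := by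
    constructor
    · intro x hx
      funext j
      have h1 := hx (((g⁻¹ : GL (Fin n) F) : Matrix (Fin n) (Fin n) F) *ᵥ Pi.single j 1)
      rw [hB, Matrix.mulVec_mulVec, Units.mul_inv, Matrix.one_mulVec, dotProduct_single,
        mul_one] at h1
      exact h1
    · intro y hy
      have h1 : (g : Matrix (Fin n) (Fin n) F) *ᵥ y = 0 := by
        funext j
        have h3 := hy (Pi.single j 1)
        rw [hB, single_dotProduct, one_mul] at h3
        exact h3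
      have h4 := congrArg (fun x => ((g⁻¹ : GL (Fin n) F) : Matrix (Fin n) (Fin n) F) *ᵥ x) h1
      simp only [Matrix.mulVec_mulVec, Matrix.mulVec_zero] at h4
      rw [Units.inv_mul, Matrix.one_mulVec] at h4
      exact h4
  have hV : Module.finrank F (Fin n → F) = 2 * m := by
    rw [Module.finrank_fin_fun, hnm]
  obtain ⟨T, hT⟩ := symp_basis_equiv B hAlt hBnd hV
  have h3 : ∀ u v : Fin n → F, u ⬝ᵥ ((g : Matrix (Fin n) (Fin n) F) *ᵥ v) =
      (-1 : F) * ((T.trans R.symm u) ⬝ᵥ ((g₁ : Matrix (Fin n) (Fin n) F) *ᵥ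
        (T.trans R.symm v))) := by
    intro u v
    rw [hg₁, LinearEquiv.trans_apply, LinearEquiv.trans_apply, LinearEquiv.apply_symm_apply,
      LinearEquiv.apply_symm_apply, ← hB, hT, neg_one_mul]
  obtain ⟨A, hA⟩ := congr_of_bil_eq g g₁ (T.trans R.symm) (-1 : F) h3
  exact isConjUnder_symm _ (conj_of_congr g g₁ A (-1 : Fˣ) (by
    rw [Units.val_neg, Units.val_one]
    exact hA))

end Cfsg.Agent.Lib.helper13.PN
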