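import Mathlib
import Cfsg.Prelude.Def_LieTypeDatum
import Cfsg.Agent.Lib.helper13.OrthAut
import Cfsg.Agent.Lib.helper13.PSLnGraph2

set_option autoImplicit false
set_option linter.unusedSectionVars false
set_option linter.unusedVariables false
set_option linter.style.longLine false

/-!
Automorphisms of `PΩ(Q)` induced by similarities: multiplier, sign, and the quotient
`PGO / PSO`.
-/

namespace Cfsg.Agent.Lib.helper13.OA

open Matrix

section generic

theorem exists_lift_range {G A B : Type*} [Group G] [Group A] [Group B] (f : G →* A)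
    (ψ : G →* B) (h : f.ker ≤ ψ.ker) :
    ∃ θ : ↥f.range →* B, ∀ g, θ ⟨f g, ⟨g, rfl⟩⟩ = ψ g := by
  classical
  have hwd : ∀ g g' : G, f g = f g' → ψ g = ψ g' := by
    intro g g' hgg
    have h1 : g⁻¹ * g' ∈ f.ker := by
      rw [MonoidHom.mem_ker, map_mul, map_inv, hgg, inv_mul_cancel]
    have h2 := h h1
    rw [MonoidHom.mem_ker, map_mul, map_inv, inv_mul_eq_one] at h2
    exact h2
  refine ⟨MonoidHom.mk' (fun β => ψ (Classical.choose β.2)) ?_, ?_⟩
  · intro β₁ β₂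
    show ψ (Classical.choose (β₁ * β₂).2) = ψ (Classical.choose β₁.2) * ψ (Classical.choose β₂.2)
    rw [← map_mul]
    apply hwd
    rw [Classical.choose_spec (β₁ * β₂).2, map_mul, Classical.choose_spec β₁.2,
      Classical.choose_spec β₂.2]
    rfl
  · intro g
    show ψ (Classical.choose _) = ψ g
    apply hwd
    exact Classical.choose_spec (⟨f g, ⟨g, rfl⟩⟩ : ↥f.range).2

theorem units_sq_one {K : Type*} [Field K] (u : Kˣ) (h : u * u = 1) : u = 1 ∨ u = -1 := by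
  have h9 : ((u : K) - 1) * ((u : K) + 1) = 0 := by
    have h10 : (u : K) * (u : K) = 1 := by
      rw [← Units.val_mul, h, Units.val_one]
    linear_combination h10
  rcases mul_eq_zero.1 h9 with h | h
  · left
    exact Units.ext (sub_eq_zero.1 h)
  · right
    exact Units.ext (by rw [Units.val_neg, Units.val_one]; exact eq_neg_of_add_eq_zero_left h)

/-- `{±1}² → (ℤ/2)²` -/
def unitsE : ℤˣ × ℤˣ →* Multiplicative (ZMod 2 × ZMod 2) where
  toFun p := Multiplicative.ofAdd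
    ((if p.1 = 1 then 0 else 1 : ZMod 2), (if p.2 = 1 then 0 else 1 : ZMod 2))
  map_one' := by decide
  map_mul' := by decide

theorem unitsE_bij : Function.Bijective unitsE := by decide

end generic

section mult

variable {F : Type*} [Field F] {ι : Type} [Fintype ι] [DecidableEq ι]

/-- the multiplier of a similarity -/
noncomputable def mult (Qf : (ι → F) → F) (g : ↥(Cfsg.Geo.quadSimilarityGroup Qf)) : Fˣ :=
  Classical.choose g.2

theorem mult_spec (Qf : (ι → F) → F) (g : ↥(Cfsg.Geo.quadSimilarityGroup Qf)) (v : ι → F) :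
    Qf (((g : GL ι F) : Matrix ι ι F) *ᵥ v) = (mult Qf g : F) * Qf v :=
  Classical.choose_spec g.2 v

theorem mult_unique (Qf : (ι → F) → F) (h0 : ∃ v, Qf v ≠ 0)
    (g : ↥(Cfsg.Geo.quadSimilarityGroup Qf)) (c : Fˣ)
    (hc : ∀ v, Qf (((g : GL ι F) : Matrix ι ι F) *ᵥ v) = (c : F) * Qf v) : mult Qf g = c := by
  obtain ⟨v, hv⟩ := h0
  apply Units.ext
  have h1 := mult_spec Qf g v
  rw [hc v] at h1
  exact (mul_right_cancel₀ hv h1).symm

/-- the multiplier homomorphism -/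
noncomputable def multHom (Qf : (ι → F) → F) (h0 : ∃ v, Qf v ≠ 0) :
    ↥(Cfsg.Geo.quadSimilarityGroup Qf) →* Fˣ :=
  MonoidHom.mk' (mult Qf) (fun a b => mult_unique Qf h0 (a * b) (mult Qf a * mult Qf b)
    (fun v => by
      show Qf ((((a : GL ι F) * (b : GL ι F) : GL ι F) : Matrix ι ι F) *ᵥ v) = _
      rw [Units.val_mul, ← Matrix.mulVec_mulVec, mult_spec Qf a, mult_spec Qf b, Units.val_mul,
        mul_assoc]))

theorem mult_mul (Qf : (ι → F) → F) (h0 : ∃ v, Qf v ≠ 0)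
    (a b : ↥(Cfsg.Geo.quadSimilarityGroup Qf)) : mult Qf (a * b) = mult Qf a * mult Qf b :=
  map_mul (multHom Qf h0) a b

theorem det_sq (h2 : (2 : F) ≠ 0) (Q : QuadraticForm F (ι → F))
    (hQ : (QuadraticMap.polarBilin Q).Nondegenerate)
    (g : ↥(Cfsg.Geo.quadSimilarityGroup (⇑Q))) :
    ((g : GL ι F) : Matrix ι ι F).det ^ 2 = (mult (⇑Q) g : F) ^ Fintype.card ι := by
  obtain ⟨G, hGs, hG⟩ := PN.exists_sym_of_quad Q hQ (LinearEquiv.refl F (ι → F))
  have hG' : ∀ v, v ⬝ᵥ ((G : Matrix ι ι F) *ᵥ v) = 2 * Q v := fun v => by rw [hG]; rfl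
  obtain ⟨c, hc⟩ : ∃ c, c = (mult (⇑Q) g : F) := ⟨_, rfl⟩
  obtain ⟨A, hA⟩ : ∃ A, A = ((g : GL ι F) : Matrix ι ι F) := ⟨_, rfl⟩
  have key : Aᵀ * (G : Matrix ι ι F) * A = c • (G : Matrix ι ι F) := by
    have h3 : Aᵀ * (G : Matrix ι ι F) * A - c • (G : Matrix ι ι F) = 0 := by
      apply PN.sym_zero_of_quad h2
      · rw [Matrix.transpose_sub, Matrix.transpose_smul, Matrix.transpose_mul,
          Matrix.transpose_mul, Matrix.transpose_transpose, hGs, Matrix.mul_assoc]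
      · intro v
        rw [Matrix.sub_mulVec, dotProduct_sub, ← form_mul, hG', Matrix.smul_mulVec,
          dotProduct_smul, smul_eq_mul, hG', hA, mult_spec (⇑Q) g, ← hc]
        ring
    exact sub_eq_zero.1 h3
  have h4 := congrArg Matrix.det key
  rw [Matrix.det_mul, Matrix.det_mul, Matrix.det_transpose, Matrix.det_smul] at h4
  have hdet : (G : Matrix ι ι F).det ≠ 0 :=
    ((Matrix.isUnit_iff_isUnit_det _).1 (Units.isUnit G)).ne_zero
  apply mul_right_cancel₀ hdet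
  rw [← hA, ← hc]
  linear_combination h4

/-- `det g / μ(g)^m` -/
noncomputable def delta (Qf : (ι → F) → F) (h0 : ∃ v, Qf v ≠ 0) (m : ℕ) :
    ↥(Cfsg.Geo.quadSimilarityGroup Qf) →* Fˣ :=
  MonoidHom.mk' (fun g => Matrix.GeneralLinearGroup.det (g : GL ι F) * ((mult Qf g)⁻¹) ^ m) (by
    intro a b
    show Matrix.GeneralLinearGroup.det ((a : GL ι F) * (b : GL ι F)) * ((mult Qf (a * b))⁻¹) ^ m =
      (Matrix.GeneralLinearGroup.det (a : GL ι F) * ((mult Qf a)⁻¹) ^ m) *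
        (Matrix.GeneralLinearGroup.det (b : GL ι F) * ((mult Qf b)⁻¹) ^ m)
    rw [map_mul, mult_mul Qf h0, mul_inv, mul_pow, mul_mul_mul_comm])

theorem delta_apply (Qf : (ι → F) → F) (h0 : ∃ v, Qf v ≠ 0) (m : ℕ)
    (g : ↥(Cfsg.Geo.quadSimilarityGroup Qf)) :
    delta Qf h0 m g = Matrix.GeneralLinearGroup.det (g : GL ι F) * ((mult Qf g)⁻¹) ^ m := rfl

theorem delta_sq (h2 : (2 : F) ≠ 0) (Q : QuadraticForm F (ι → F))
    (hQ : (QuadraticMap.polarBilin Q).Nondegenerate) (h0 : ∃ v, (⇑Q) v ≠ 0) (m : ℕ)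
    (hm : Fintype.card ι = 2 * m) (g : ↥(Cfsg.Geo.quadSimilarityGroup (⇑Q))) :
    delta (⇑Q) h0 m g * delta (⇑Q) h0 m g = 1 := by
  apply Units.ext
  rw [delta_apply, Units.val_mul, Units.val_mul, Units.val_pow_eq_pow_val,
    Units.val_inv_eq_inv_val, Matrix.GeneralLinearGroup.val_det_apply, Units.val_one]
  have hd := det_sq h2 Q hQ g
  rw [hm] at hd
  obtain ⟨d, hd'⟩ : ∃ d, d = ((g : GL ι F) : Matrix ι ι F).det := ⟨_, rfl⟩
  obtain ⟨c, hc⟩ : ∃ c, c = (mult (⇑Q) g : F) := ⟨_, rfl⟩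
  have hc0 : c ≠ 0 := by rw [hc]; exact Units.ne_zero _
  rw [← hd', ← hc] at hd ⊢
  have h1 : d * c⁻¹ ^ m * (d * c⁻¹ ^ m) = d ^ 2 * (c⁻¹ ^ m) ^ 2 := by ring
  rw [h1, hd, ← pow_mul, mul_comm m 2, ← mul_pow, mul_inv_cancel₀ hc0, one_pow]

end mult

section homs

open Cfsg.Agent.Lib.helper4

variable {F : Type*} [Field F] [Fintype F] {ι : Type} [Fintype ι] [DecidableEq ι]

theorem neg_one_ne_one_units (h2 : (2 : F) ≠ 0) : (-1 : Fˣ) ≠ 1 := by
  intro h
  have h1 : ((-1 : Fˣ) : F) = ((1 : Fˣ) : F) := by rw [h]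
  rw [Units.val_neg, Units.val_one] at h1
  apply h2
  linear_combination -h1

open Classical in
/-- the sign `det g / μ(g)^m ∈ {±1}` -/
noncomputable def kappa (h2 : (2 : F) ≠ 0) (Q : QuadraticForm F (ι → F))
    (hQ : (QuadraticMap.polarBilin Q).Nondegenerate) (h0 : ∃ v, (⇑Q) v ≠ 0) (m : ℕ)
    (hm : Fintype.card ι = 2 * m) : ↥(Cfsg.Geo.quadSimilarityGroup (⇑Q)) →* ℤˣ :=
  MonoidHom.mk' (fun g => if delta (⇑Q) h0 m g = 1 then 1 else -1) (by
    intro a b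
    have ha := units_sq_one _ (delta_sq h2 Q hQ h0 m hm a)
    have hb := units_sq_one _ (delta_sq h2 Q hQ h0 m hm b)
    have hne : (-1 : Fˣ) ≠ 1 := neg_one_ne_one_units h2
    show (if delta (⇑Q) h0 m (a * b) = 1 then (1 : ℤˣ) else -1) =
      (if delta (⇑Q) h0 m a = 1 then 1 else -1) * (if delta (⇑Q) h0 m b = 1 then 1 else -1)
    rw [map_mul]
    rcases ha with ha | ha <;> rcases hb with hb | hb <;> rw [ha, hb] <;> simp [hne])

open Classical in
theorem kappa_eq_one_iff (h2 : (2 : F) ≠ 0) (Q : QuadraticForm F (ι → F))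
    (hQ : (QuadraticMap.polarBilin Q).Nondegenerate) (h0 : ∃ v, (⇑Q) v ≠ 0) (m : ℕ)
    (hm : Fintype.card ι = 2 * m) (g : ↥(Cfsg.Geo.quadSimilarityGroup (⇑Q))) :
    kappa h2 Q hQ h0 m hm g = 1 ↔ delta (⇑Q) h0 m g = 1 := by
  show (if delta (⇑Q) h0 m g = 1 then (1 : ℤˣ) else -1) = 1 ↔ _
  by_cases h : delta (⇑Q) h0 m g = 1
  · rw [if_pos h]
    exact ⟨fun _ => h, fun _ => rfl⟩
  · rw [if_neg h]
    exact ⟨fun h' => absurd h' (by decide), fun h' => absurd h' h⟩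

open Classical in
/-- the square class of the multiplier -/
noncomputable def chiMu (Qf : (ι → F) → F) (h0 : ∃ v, Qf v ≠ 0) :
    ↥(Cfsg.Geo.quadSimilarityGroup Qf) →* ℤˣ :=
  (MulChar.toUnitHom (quadraticChar F)).comp (multHom Qf h0)

open Classical in
theorem chiMu_eq_one_iff (Qf : (ι → F) → F) (h0 : ∃ v, Qf v ≠ 0)
    (g : ↥(Cfsg.Geo.quadSimilarityGroup Qf)) :
    chiMu Qf h0 g = 1 ↔ IsSquare ((mult Qf g : Fˣ) : F) := by
  have h1 : ((chiMu Qf h0 g : ℤˣ) : ℤ) = quadraticChar F ((mult Qf g : Fˣ) : F) :=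
    MulChar.coe_toUnitHom _ _
  rw [← quadraticChar_one_iff_isSquare (Units.ne_zero _), ← h1]
  constructor
  · intro h
    rw [h, Units.val_one]
  · intro h
    exact Units.ext h

theorem scalar_mul_coe' (c : Fˣ) (g : GL ι F) :
    ((Matrix.GeneralLinearGroup.scalar ι c * g : GL ι F) : Matrix ι ι F) =
      (c : F) • (g : Matrix ι ι F) := by
  rw [Units.val_mul, Matrix.GeneralLinearGroup.coe_scalar, Matrix.scalar_apply,
    ← Matrix.smul_one_eq_diagonal, Matrix.smul_mul, Matrix.one_mul]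

/-- scalars have square multiplier and sign one -/
theorem scalar_data (Q : QuadraticForm F (ι → F)) (h0 : ∃ v, (⇑Q) v ≠ 0) (m : ℕ)
    (hm : Fintype.card ι = 2 * m) (g : ↥(Cfsg.Geo.quadSimilarityGroup (⇑Q))) (a : F)
    (hg : ∀ v : ι → F, ((g : GL ι F) : Matrix ι ι F).mulVec v = a • v) :
    IsSquare ((mult (⇑Q) g : Fˣ) : F) ∧ delta (⇑Q) h0 m g = 1 := by
  have ha0 : a ≠ 0 := by
    rintro rfl
    obtain ⟨u, hu⟩ := h0
    have h1 := mult_spec (⇑Q) g u
    rw [hg, zero_smul, map_zero] at h1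
    exact mul_ne_zero (Units.ne_zero _) hu h1.symm
  have hmu : mult (⇑Q) g = Units.mk0 (a * a) (mul_ne_zero ha0 ha0) :=
    mult_unique (⇑Q) h0 g _ (fun v => by
      rw [hg, QuadraticMap.map_smul, smul_eq_mul, Units.val_mk0])
  refine ⟨⟨a, by rw [hmu, Units.val_mk0]⟩, ?_⟩
  apply Units.ext
  rw [delta_apply, Units.val_mul, Units.val_pow_eq_pow_val, Units.val_inv_eq_inv_val,
    Matrix.GeneralLinearGroup.val_det_apply, Units.val_one, hmu, Units.val_mk0]
  have hga : ((g : GL ι F) : Matrix ι ι F) = a • (1 : Matrix ι ι F) := by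
    apply Matrix.mulVec_injective
    funext v
    rw [hg, Matrix.smul_mulVec, Matrix.one_mulVec]
  rw [hga, Matrix.det_smul, Matrix.det_one, mul_one, hm, pow_mul, ← mul_pow, pow_two,
    mul_inv_cancel₀ (mul_ne_zero ha0 ha0), one_pow]

/-- special isometries have multiplier one and sign one -/
theorem so_data (Q : QuadraticForm F (ι → F)) (h0 : ∃ v, (⇑Q) v ≠ 0) (m : ℕ)
    (g : ↥(Cfsg.Geo.quadSimilarityGroup (⇑Q)))
    (hg : (g : GL ι F) ∈ Cfsg.specialIsometryGL F (⇑Q)) :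
    mult (⇑Q) g = 1 ∧ delta (⇑Q) h0 m g = 1 := by
  have hmu : mult (⇑Q) g = 1 := mult_unique (⇑Q) h0 g 1 (fun v => by
    rw [Units.val_one, one_mul]
    exact (mem_isom_iff (⇑Q) _).1 hg.1 v)
  refine ⟨hmu, ?_⟩
  have hdet : Matrix.GeneralLinearGroup.det (g : GL ι F) = 1 := hg.2
  rw [delta_apply, hmu, hdet, inv_one, one_pow, mul_one]

/-- an element with square multiplier and sign one acts as a special isometry -/
theorem exists_so_of_data (Q : QuadraticForm F (ι → F)) (h0 : ∃ v, (⇑Q) v ≠ 0) (m : ℕ)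
    (hm : Fintype.card ι = 2 * m) (g : ↥(Cfsg.Geo.quadSimilarityGroup (⇑Q)))
    (hsq : IsSquare ((mult (⇑Q) g : Fˣ) : F)) (hd : delta (⇑Q) h0 m g = 1) :
    ∃ h : ↥(Cfsg.Geo.quadSimilarityGroup (⇑Q)),
      (h : GL ι F) ∈ Cfsg.specialIsometryGL F (⇑Q) ∧ conjAut (⇑Q) g = conjAut (⇑Q) h := by
  obtain ⟨l, hl⟩ := hsq
  have hl0 : l ≠ 0 := by
    rintro rfl
    rw [mul_zero] at hl
    exact Units.ne_zero _ hl
  obtain ⟨lu, hlu⟩ : ∃ lu : Fˣ, (lu : F) = l := ⟨Units.mk0 l hl0, rfl⟩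
  have hmu : mult (⇑Q) g = lu * lu := by
    apply Units.ext
    rw [hl, Units.val_mul, hlu]
  obtain ⟨h, hh⟩ : ∃ h : GL ι F, h = Matrix.GeneralLinearGroup.scalar ι lu⁻¹ * (g : GL ι F) :=
    ⟨_, rfl⟩
  have hhv : ∀ v, (h : Matrix ι ι F) *ᵥ v = (lu⁻¹ : Fˣ) • (((g : GL ι F) : Matrix ι ι F) *ᵥ v) := by
    intro v
    rw [hh, scalar_mul_coe', Matrix.smul_mulVec]
    rfl
  have hiso : h ∈ Cfsg.isometryGroup F (⇑Q) := by
    rw [mem_isom_iff]
    intro v
    rw [hhv, Units.smul_def, QuadraticMap.map_smul, mult_spec (⇑Q) g, hmu, smul_eq_mul,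
      Units.val_mul, Units.val_inv_eq_inv_val, hlu]
    field_simp
  have hdet : Matrix.GeneralLinearGroup.det h = 1 := by
    have h1 : Matrix.GeneralLinearGroup.det (g : GL ι F) = (mult (⇑Q) g) ^ m := by
      rw [delta_apply] at hd
      rw [inv_pow] at hd
      exact mul_inv_eq_one.1 hd
    apply Units.ext
    rw [Matrix.GeneralLinearGroup.val_det_apply, hh, scalar_mul_coe', Matrix.det_smul,
      ← Matrix.GeneralLinearGroup.val_det_apply, h1, hmu, hm, Units.val_one,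
      Units.val_pow_eq_pow_val, Units.val_mul, Units.val_inv_eq_inv_val, hlu, pow_mul, ← mul_pow,
      pow_two]
    rw [← mul_inv, inv_mul_cancel₀ (mul_ne_zero hl0 hl0), one_pow]
  refine ⟨⟨h, isom_le_sim _ hiso⟩, ⟨hiso, hdet⟩, ?_⟩
  have hsc : Matrix.GeneralLinearGroup.scalar ι lu ∈ Cfsg.Geo.quadSimilarityGroup (⇑Q) := by
    refine ⟨lu * lu, fun v => ?_⟩
    have h3 : ((Matrix.GeneralLinearGroup.scalar ι lu : GL ι F) : Matrix ι ι F) *ᵥ v =
        (lu : F) • v := by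
      have h4 := scalar_mul_coe' lu (1 : GL ι F)
      rw [mul_one, Units.val_one] at h4
      rw [h4, Matrix.smul_mulVec, Matrix.one_mulVec]
    rw [h3, QuadraticMap.map_smul, smul_eq_mul, Units.val_mul]
  have hprod : g = (⟨_, hsc⟩ : ↥(Cfsg.Geo.quadSimilarityGroup (⇑Q))) * ⟨h, isom_le_sim _ hiso⟩ := by
    apply Subtype.ext
    show (g : GL ι F) = Matrix.GeneralLinearGroup.scalar ι lu * h
    rw [hh, ← mul_assoc, ← map_mul, mul_inv_cancel, map_one, one_mul]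
  have hone : conjAut (⇑Q) (⟨_, hsc⟩ : ↥(Cfsg.Geo.quadSimilarityGroup (⇑Q))) = 1 := by
    apply conjAut_eq_one_of_scalar (⇑Q) _ (lu : F)
    intro v
    have h4 := scalar_mul_coe' lu (1 : GL ι F)
    rw [mul_one, Units.val_one] at h4
    show ((Matrix.GeneralLinearGroup.scalar ι lu : GL ι F) : Matrix ι ι F).mulVec v = _
    rw [h4, Matrix.smul_mulVec, Matrix.one_mulVec]
  rw [hprod, map_mul, hone, one_mul]

theorem pgoAut_eq (Qf : (ι → F) → F) : Cfsg.pgoAut F Qf = (conjAut Qf).range := by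
  unfold Cfsg.pgoAut Cfsg.autSubgroupOf
  have h : {β : MulAut (Cfsg.POmega F Qf) | Cfsg.IsSimilarityInducedAutPOmega Qf β} =
      ((conjAut Qf).range : Set (MulAut (Cfsg.POmega F Qf))) := by
    ext β
    constructor
    · rintro ⟨g, hg, h⟩
      exact ⟨⟨g, hg⟩, (eq_conjAut_of_induced Qf ⟨g, hg⟩ β h).symm⟩
    · rintro ⟨g, rfl⟩
      exact ⟨g, g.2, conjAut_induced Qf g⟩
  rw [h, Subgroup.closure_eq]

theorem psoAut_eq (Qf : (ι → F) → F) : Cfsg.psoAut F Qf =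
    ((Cfsg.specialIsometryGL F Qf).subgroupOf (Cfsg.Geo.quadSimilarityGroup Qf)).map
      (conjAut Qf) := by
  unfold Cfsg.psoAut Cfsg.autSubgroupOf
  have h : {β : MulAut (Cfsg.POmega F Qf) | Cfsg.IsSpecialIsometryInducedAutPOmega Qf β} =
      ((((Cfsg.specialIsometryGL F Qf).subgroupOf (Cfsg.Geo.quadSimilarityGroup Qf)).map
        (conjAut Qf) : Subgroup (MulAut (Cfsg.POmega F Qf))) :
          Set (MulAut (Cfsg.POmega F Qf))) := by
    ext β
    constructor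
    · rintro ⟨g, hg, h⟩
      have hg' : g ∈ Cfsg.Geo.quadSimilarityGroup Qf := isom_le_sim Qf hg.1
      exact ⟨⟨g, hg'⟩, hg, (eq_conjAut_of_induced Qf ⟨g, hg'⟩ β h).symm⟩
    · rintro ⟨g, hg, rfl⟩
      exact ⟨g, hg, conjAut_induced Qf g⟩
  rw [h, Subgroup.closure_eq]

/-- the reflection in a non-singular vector, as a similarity -/
noncomputable def reflSim (Q : QuadraticForm F (ι → F)) (u : ι → F) :
    ↥(Cfsg.Geo.quadSimilarityGroup (⇑Q)) :=
  ⟨(reflEl Q u : GL ι F), isom_le_sim _ (reflEl Q u).2⟩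

theorem reflSim_data (h2 : (2 : F) ≠ 0) (Q : QuadraticForm F (ι → F)) (h0 : ∃ v, (⇑Q) v ≠ 0)
    (m : ℕ) (u : ι → F) (hu : Q u ≠ 0) :
    mult (⇑Q) (reflSim Q u) = 1 ∧ delta (⇑Q) h0 m (reflSim Q u) = -1 := by
  have hmu : mult (⇑Q) (reflSim Q u) = 1 := mult_unique (⇑Q) h0 _ 1 (fun v => by
    rw [Units.val_one, one_mul]
    exact isom_pres Q (reflEl Q u) v)
  refine ⟨hmu, ?_⟩
  apply Units.ext
  rw [delta_apply, hmu, inv_one, one_pow, mul_one, Matrix.GeneralLinearGroup.val_det_apply,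
    Units.val_neg, Units.val_one]
  show ((reflEl Q u : GL ι F) : Matrix ι ι F).det = -1
  rw [reflEl_coe Q u hu, refl_det Q u hu]

/-- **`PGO / PSO` is a four-group** (even dimension at least six, odd characteristic, given a
similarity with non-square multiplier) -/
theorem pgo_mod_pso (h2 : (2 : F) ≠ 0) (m : ℕ) (hm : Fintype.card ι = 2 * m)
    (hn : 6 ≤ Fintype.card ι) (Q : QuadraticForm F (ι → F))
    (hQ : (QuadraticMap.polarBilin Q).Nondegenerate) (g₀ : GL ι F) (c₀ : Fˣ)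
    (hg₀ : ∀ v, Q ((g₀ : Matrix ι ι F) *ᵥ v) = (c₀ : F) * Q v) (hc₀ : ¬ IsSquare (c₀ : F)) :
    ∃ φ : ↥(Cfsg.pgoAut F ⇑Q) →* Multiplicative (ZMod 2 × ZMod 2),
      Function.Surjective φ ∧ φ.ker = (Cfsg.psoAut F ⇑Q).subgroupOf (Cfsg.pgoAut F ⇑Q) := by
  classical
  have hpos : 0 < Fintype.card ι := by omega
  obtain ⟨i⟩ : Nonempty ι := Fintype.card_pos_iff.1 hpos
  obtain ⟨u, hu⟩ := exists_nonsing Q hQ i
  have h0 : ∃ v, (⇑Q) v ≠ 0 := ⟨u, hu⟩
  obtain ⟨φ₀, hφ₀⟩ : ∃ φ₀ : ↥(Cfsg.Geo.quadSimilarityGroup (⇑Q)) →* ℤˣ × ℤˣ,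
      φ₀ = (chiMu (⇑Q) h0).prod (kappa h2 Q hQ h0 m hm) := ⟨_, rfl⟩
  have hφ₀1 : ∀ g, φ₀ g = 1 ↔
      IsSquare ((mult (⇑Q) g : Fˣ) : F) ∧ delta (⇑Q) h0 m g = 1 := by
    intro g
    rw [hφ₀, MonoidHom.prod_apply, Prod.mk_eq_one, chiMu_eq_one_iff, kappa_eq_one_iff]
  have hker : (conjAut (⇑Q)).ker ≤ (unitsE.comp φ₀).ker := by
    intro g hg
    rw [MonoidHom.mem_ker] at hg
    obtain ⟨a, ha⟩ := scalar_of_conjAut_eq_one h2 hn Q hQ g hg
    rw [MonoidHom.mem_ker, MonoidHom.comp_apply, (hφ₀1 g).2 (scalar_data Q h0 m hm g a ha),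
      map_one]
  obtain ⟨θ, hθ⟩ := exists_lift_range (conjAut (⇑Q)) (unitsE.comp φ₀) hker
  have hle : Cfsg.pgoAut F ⇑Q ≤ (conjAut (⇑Q)).range := le_of_eq (pgoAut_eq _)
  refine ⟨θ.comp (Subgroup.inclusion hle), ?_, ?_⟩
  · intro t
    obtain ⟨p, rfl⟩ := unitsE_bij.2 t
    have hsurj : ∃ g, φ₀ g = p := by
      obtain ⟨hrm, hrd⟩ := reflSim_data h2 Q h0 m u hu
      have hr1 : chiMu (⇑Q) h0 (reflSim Q u) = 1 := by
        rw [chiMu_eq_one_iff, hrm, Units.val_one]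
        exact ⟨1, (mul_one 1).symm⟩
      have hr2 : kappa h2 Q hQ h0 m hm (reflSim Q u) = -1 := by
        rcases Int.units_eq_one_or (kappa h2 Q hQ h0 m hm (reflSim Q u)) with h | h
        · rw [kappa_eq_one_iff, hrd] at h
          exact absurd h (neg_one_ne_one_units h2)
        · exact h
      obtain ⟨g₀', hg₀'⟩ : ∃ g₀' : ↥(Cfsg.Geo.quadSimilarityGroup (⇑Q)),
          g₀' = ⟨g₀, ⟨c₀, hg₀⟩⟩ := ⟨_, rfl⟩
      have hg1 : chiMu (⇑Q) h0 g₀' = -1 := by
        have hne : chiMu (⇑Q) h0 g₀' ≠ 1 := by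
          rw [Ne, chiMu_eq_one_iff]
          have h3 : mult (⇑Q) g₀' = c₀ := mult_unique (⇑Q) h0 g₀' c₀ (fun v => by
            rw [hg₀']
            exact hg₀ v)
          rw [h3]
          exact hc₀
        rcases Int.units_eq_one_or (chiMu (⇑Q) h0 g₀') with h | h
        · exact absurd h hne
        · exact h
      obtain ⟨x, y⟩ := p
      rcases Int.units_eq_one_or x with rfl | rfl <;> rcases Int.units_eq_one_or y with rfl | rfl
      · exact ⟨1, map_one _⟩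
      · exact ⟨reflSim Q u, by rw [hφ₀, MonoidHom.prod_apply, hr1, hr2]⟩
      · rcases Int.units_eq_one_or (kappa h2 Q hQ h0 m hm g₀') with h | h
        · exact ⟨g₀', by rw [hφ₀, MonoidHom.prod_apply, hg1, h]⟩
        · exact ⟨g₀' * reflSim Q u, by
            rw [hφ₀, MonoidHom.prod_apply, map_mul, map_mul, hg1, hr1, h, hr2]
            rfl⟩
      · rcases Int.units_eq_one_or (kappa h2 Q hQ h0 m hm g₀') with h | h
        · exact ⟨g₀' * reflSim Q u, by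
            rw [hφ₀, MonoidHom.prod_apply, map_mul, map_mul, hg1, hr1, h, hr2]
            rfl⟩
        · exact ⟨g₀', by rw [hφ₀, MonoidHom.prod_apply, hg1, h]⟩
    obtain ⟨g, hg⟩ := hsurj
    refine ⟨⟨conjAut (⇑Q) g, by rw [pgoAut_eq]; exact ⟨g, rfl⟩⟩, ?_⟩
    show θ ⟨conjAut (⇑Q) g, _⟩ = _
    rw [hθ, MonoidHom.comp_apply, hg]
  · ext β
    rw [MonoidHom.mem_ker, Subgroup.mem_subgroupOf]
    obtain ⟨g, hg⟩ := hle β.2
    have hβ : (θ.comp (Subgroup.inclusion hle)) β = unitsE (φ₀ g) := by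
      have h3 : (Subgroup.inclusion hle β : ↥(conjAut (⇑Q)).range) =
          ⟨conjAut (⇑Q) g, ⟨g, rfl⟩⟩ := Subtype.ext hg.symm
      rw [MonoidHom.comp_apply, h3, hθ]
      rfl
    rw [hβ]
    constructor
    · intro h
      have h1 : φ₀ g = 1 := unitsE_bij.1 (by rw [h, map_one])
      obtain ⟨hsq, hd⟩ := (hφ₀1 g).1 h1
      obtain ⟨h', hh', he⟩ := exists_so_of_data Q h0 m hm g hsq hd
      rw [psoAut_eq, ← hg, he]
      exact ⟨h', hh', rfl⟩
    · intro h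
      rw [psoAut_eq] at h
      obtain ⟨h', hh', he⟩ := h
      have h1 : unitsE (φ₀ g) = unitsE (φ₀ h') := by
        have e1 := hθ g
        have e2 := hθ h'
        rw [MonoidHom.comp_apply] at e1 e2
        rw [← e1, ← e2]
        congr 1
        exact Subtype.ext (hg.trans he.symm)
      obtain ⟨hm1, hd1⟩ := so_data Q h0 m h' hh'
      rw [h1, (hφ₀1 h').2 ⟨by rw [hm1, Units.val_one]; exact ⟨1, (mul_one 1).symm⟩, hd1⟩,
        map_one]

end homs

end Cfsg.Agent.Lib.helper13.OA
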