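import Mathlib
import Cfsg.Agent.Lib.helper13.MaxTS
import Cfsg.Agent.S2562
import Cfsg.Agent.S2613

/-!
# The hyperbolic quadratic form: standard subspaces, reflections in hyperbolic pairs,
the embedding of `GL_m`
-/

set_option autoImplicit false

namespace Cfsg.Agent.Lib.helper13

open Cfsg.Agent.S2562 (qP qP_apply nondeg_qP)

section HypPair

variable {F : Type*} [Field F] {ι : Type} [Fintype ι] [DecidableEq ι]

omit [Fintype ι] in
lemma hyp_polar (Q : QuadraticForm F (ι → F)) (a b : ι)
    (H : ∀ (x : ι → F) (s t : F),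
      Q (x + s • Pi.single a 1 + t • Pi.single b 1) = Q x + s * x b + t * x a + s * t)
    (s t : F) :
    Q (s • Pi.single a 1 + t • Pi.single b 1) = s * t ∧
      ∀ x : ι → F, QuadraticMap.polar (⇑Q) (s • Pi.single a 1 + t • Pi.single b 1) x
        = s * x b + t * x a := by
  have hQst : ∀ s t : F, Q (s • Pi.single a 1 + t • Pi.single b 1) = s * t := by
    intro s t
    have := H 0 s t
    simpa using this
  refine ⟨hQst s t, ?_⟩
  intro x
  unfold QuadraticMap.polar
  have h1 : s • Pi.single a 1 + t • Pi.single b 1 + x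
      = x + s • Pi.single a (1 : F) + t • Pi.single b (1 : F) := by abel
  rw [h1, H, hQst]
  ring

/-- the reflection in `e_a - t e_b` for a hyperbolic pair `(e_a, e_b)` -/
lemma hyp_refl (Q : QuadraticForm F (ι → F)) (a b : ι) (hab : a ≠ b)
    (H : ∀ (x : ι → F) (s t : F),
      Q (x + s • Pi.single a 1 + t • Pi.single b 1) = Q x + s * x b + t * x a + s * t)
    (t : F) (ht : t ≠ 0) :
    Q (Pi.single a 1 - t • Pi.single b 1) = -t ∧
    ∀ x : ι → F, (Cfsg.reflectionMatrix (⇑Q) (Pi.single a 1 - t • Pi.single b 1)).mulVec x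
      = fun k => if k = a then t⁻¹ * x b else if k = b then t * x a else x k := by
  have hv : (Pi.single a 1 - t • Pi.single b 1 : ι → F)
      = (1 : F) • Pi.single a 1 + (-t) • Pi.single b 1 := by
    rw [one_smul, neg_smul, sub_eq_add_neg]
  obtain ⟨hQ, hpol⟩ := hyp_polar Q a b H 1 (-t)
  have hQv : Q (Pi.single a 1 - t • Pi.single b 1) = -t := by
    rw [hv, hQ, one_mul]
  refine ⟨hQv, ?_⟩
  intro x
  rw [refl_mulVec, hQv]
  rw [hv, hpol]
  funext k
  have hba : b ≠ a := fun h => hab h.symm
  by_cases hka : k = a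
  · subst hka
    simp [hab]
    field_simp
    ring
  · by_cases hkb : k = b
    · subst hkb
      simp [hba]
      field_simp
      ring
    · simp [hka, hkb]

/-- the product of the reflections in `e_a - e_b` and `e_a - t e_b` scales the hyperbolic pair -/
lemma hyp_scale (Q : QuadraticForm F (ι → F)) (a b : ι) (hab : a ≠ b)
    (H : ∀ (x : ι → F) (s t : F),
      Q (x + s • Pi.single a 1 + t • Pi.single b 1) = Q x + s * x b + t * x a + s * t)
    (t : F) (ht : t ≠ 0) :
    Cfsg.reflectionMatrix (⇑Q) (Pi.single a 1 - (1 : F) • Pi.single b 1)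
        * Cfsg.reflectionMatrix (⇑Q) (Pi.single a 1 - t • Pi.single b 1)
      = Matrix.diagonal (fun k => if k = a then t else if k = b then t⁻¹ else 1) := by
  apply Matrix.mulVec_injective
  funext x
  rw [← Matrix.mulVec_mulVec, (hyp_refl Q a b hab H t ht).2 x,
    (hyp_refl Q a b hab H 1 one_ne_zero).2]
  funext k
  rw [Matrix.mulVec_diagonal]
  have hba : b ≠ a := fun h => hab h.symm
  by_cases hka : k = a
  · subst hka
    simp [hab, hba]
  · by_cases hkb : k = b
    · subst hkb
      simp [hba, hab]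
    · simp [hka, hkb]

end HypPair

section Plus

variable {F : Type*} [Field F]

lemma qP_coe (m : ℕ) : Cfsg.quadFormPlus m F = ⇑(qP F m) :=
  funext (fun v => (qP_apply m v).symm)

/-- the standard maximal totally singular subspace `{y = 0}` -/
def plusU0 (F : Type*) [Field F] (m : ℕ) : Submodule F (Fin m ⊕ Fin m → F) :=
  LinearMap.ker (LinearMap.funLeft F F (Sum.inr : Fin m → Fin m ⊕ Fin m))

lemma mem_plusU0 (m : ℕ) (x : Fin m ⊕ Fin m → F) :
    x ∈ plusU0 F m ↔ ∀ i, x (Sum.inr i) = 0 := by
  unfold plusU0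
  rw [LinearMap.mem_ker]
  constructor
  · intro h i
    exact congrFun h i
  · intro h
    funext i
    exact h i

lemma plusU0_finrank (m : ℕ) : Module.finrank F ↥(plusU0 F m) = m := by
  have hinj : Function.Injective (Sum.inr : Fin m → Fin m ⊕ Fin m) := Sum.inr_injective
  have h1 := LinearMap.finrank_range_add_finrank_ker
    (LinearMap.funLeft F F (Sum.inr : Fin m → Fin m ⊕ Fin m))
  rw [LinearMap.range_eq_top.mpr (LinearMap.funLeft_surjective_of_injective _ _ _ hinj),
    finrank_top] at h1
  simp only [Module.finrank_fintype_fun_eq_card, Fintype.card_sum, Fintype.card_fin] at h1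
  unfold plusU0
  omega

lemma plusU0_maxTS (m : ℕ) : MaxTS (qP F m) (plusU0 F m) := by
  refine ⟨?_, ?_⟩
  · intro u hu
    rw [mem_plusU0] at hu
    rw [qP_apply]
    unfold Cfsg.quadFormPlus
    apply Finset.sum_eq_zero
    intro i _
    rw [hu i, mul_zero]
  · rw [plusU0_finrank]
    simp only [Fintype.card_sum, Fintype.card_fin]
    omega

lemma plus_card {m : ℕ} [Fintype F] (h : Fintype.card F ≠ 2 ∨ m ≠ 2) :
    Fintype.card F ≠ 2 ∨ Fintype.card (Fin m ⊕ Fin m) ≠ 4 := by
  rcases h with h | h
  · exact Or.inl h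
  · right
    simp only [Fintype.card_sum, Fintype.card_fin]
    omega

/-- the product of the reflections in `e_j - f_j`, `j < i`, interchanges the coordinates of the
first `i` hyperbolic pairs -/
lemma plus_swap_list (m : ℕ) (i : ℕ) (hi : i ≤ m) :
    ∃ vs : List (Fin m ⊕ Fin m → F), (∀ v ∈ vs, qP F m v ≠ 0) ∧ vs.length = i ∧
      (vs.map (fun v => qP F m v)).prod = (-1) ^ i ∧
      ∀ (x : Fin m ⊕ Fin m → F) (c : Fin m ⊕ Fin m),
        ((vs.map (fun v => Cfsg.reflectionMatrix (⇑(qP F m)) v)).prod.mulVec x) c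
          = x (if Sum.elim (fun j : Fin m => (j : ℕ)) (fun j : Fin m => (j : ℕ)) c < i
              then c.swap else c) := by
  induction i with
  | zero =>
    refine ⟨[], by simp, rfl, by simp, ?_⟩
    intro x c
    simp
  | succ i ih =>
    obtain ⟨vs, h1, h2, h3, h4⟩ := ih (by omega)
    have hi' : i < m := by omega
    obtain ⟨hQ, hR⟩ := hyp_refl (qP F m) (Sum.inl (⟨i, hi'⟩ : Fin m)) (Sum.inr ⟨i, hi'⟩)
      (by simp) (Cfsg.Agent.S2613.qP_pair m ⟨i, hi'⟩) 1 one_ne_zero
    refine ⟨vs ++ [Pi.single (Sum.inl (⟨i, hi'⟩ : Fin m)) 1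
      - (1 : F) • Pi.single (Sum.inr (⟨i, hi'⟩ : Fin m)) 1], ?_, ?_, ?_, ?_⟩
    · intro v hv
      rcases List.mem_append.mp hv with hv | hv
      · exact h1 v hv
      · simp only [List.mem_cons, List.not_mem_nil, or_false] at hv
        rw [hv, hQ]
        exact neg_ne_zero.mpr one_ne_zero
    · rw [List.length_append, h2]
      rfl
    · rw [List.map_append, List.prod_append, h3]
      simp only [List.map_cons, List.map_nil, List.prod_cons, List.prod_nil, hQ]
      ring
    · intro x c
      rw [List.map_append, List.prod_append, ← Matrix.mulVec_mulVec, h4]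
      simp only [List.map_cons, List.map_nil, List.prod_cons, List.prod_nil, mul_one]
      rw [hR]
      rcases c with k | k
      · rcases lt_trichotomy (k : ℕ) i with hlt | heq | hgt
        · have hne : k ≠ ⟨i, hi'⟩ := by
            intro h
            rw [h] at hlt
            simp at hlt
          simp [hlt, hne, Nat.lt_succ_of_lt hlt]
        · have hk : k = ⟨i, hi'⟩ := Fin.ext heq
          subst hk
          simp
        · have hne : k ≠ ⟨i, hi'⟩ := by
            intro h
            rw [h] at hgt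
            simp at hgt
          have h5 : ¬ ((k : ℕ) < i) := by omega
          have h6 : ¬ ((k : ℕ) < i + 1) := by omega
          simp [h5, h6, hne]
      · rcases lt_trichotomy (k : ℕ) i with hlt | heq | hgt
        · have hne : k ≠ ⟨i, hi'⟩ := by
            intro h
            rw [h] at hlt
            simp at hlt
          simp [hlt, hne, Nat.lt_succ_of_lt hlt]
        · have hk : k = ⟨i, hi'⟩ := Fin.ext heq
          subst hk
          simp
        · have hne : k ≠ ⟨i, hi'⟩ := by
            intro h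
            rw [h] at hgt
            simp at hgt
          have h5 : ¬ ((k : ℕ) < i) := by omega
          have h6 : ¬ ((k : ℕ) < i + 1) := by omega
          simp [h5, h6, hne]

/-- the parity of the codimension of `U₀ ∩ g U₀` is the parity of the number of reflections -/
lemma plus_parity (m : ℕ) (vs : List (Fin m ⊕ Fin m → F)) (hvs : ∀ v ∈ vs, qP F m v ≠ 0) :
    Even (m - Module.finrank F ↥(plusU0 F m
      ⊓ imgSub (qP F m) (vs.map (reflEl (qP F m))).prod (plusU0 F m))) ↔ Even vs.length := by
  have hpar := maxTS_parity (qP F m) (nondeg_qP m) (plusU0 F m) (plusU0_maxTS m) vs hvs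
  rw [plusU0_finrank] at hpar
  have hle : Module.finrank F ↥(plusU0 F m
      ⊓ imgSub (qP F m) (vs.map (reflEl (qP F m))).prod (plusU0 F m)) ≤ m := by
    have := Submodule.finrank_mono (inf_le_left : plusU0 F m
      ⊓ imgSub (qP F m) (vs.map (reflEl (qP F m))).prod (plusU0 F m) ≤ plusU0 F m)
    rw [plusU0_finrank] at this
    exact this
  rw [Nat.even_iff] at hpar ⊢
  rw [Nat.even_iff]
  omega

/-- characteristic two: the stabiliser of the class of `U₀` is the commutator subgroup -/
theorem plus_c2_iff [Fintype F] [CharP F 2] {m : ℕ} (h : Fintype.card F ≠ 2 ∨ m ≠ 2)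
    (g : ↥(Cfsg.isometryGroup F ⇑(qP F m))) :
    Even (m - Module.finrank F ↥(plusU0 F m ⊓ imgSub (qP F m) g (plusU0 F m)))
      ↔ g ∈ Cfsg.Omega F ⇑(qP F m) := by
  have h' := plus_card h
  obtain ⟨vs, hvs, rfl⟩ := exists_refl_list h' (qP F m) (nondeg_qP m) g
  rw [plus_parity m vs hvs, omega_iff_list h' (qP F m) (nondeg_qP m) vs hvs]
  have h2 : (2 : F) = 0 := CharTwo.two_eq_zero
  constructor
  · intro he
    exact ⟨he, fun h2' => absurd h2 h2'⟩
  · rintro ⟨he, -⟩
    exact he

end Plus

end Cfsg.Agent.Lib.helper13
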