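import Mathlib
import Cfsg.Agent.Lib.helper13.PlusForm

/-!
# The embedding of `GL_m` in the orthogonal group of the hyperbolic form, and its spinor norm
-/

set_option autoImplicit false

namespace Cfsg.Agent.Lib.helper13

open Cfsg.Agent.S2562 (qP qP_apply nondeg_qP)

section OddCrit

variable {F : Type*} [Field F] [Fintype F] {ι : Type} [Fintype ι] [DecidableEq ι]

/-- the sign character of a non-square level on a product of reflections -/
lemma spin_list (h2 : (2 : F) ≠ 0) (Q : QuadraticForm F (ι → F)) (c : F) (hc : ¬ IsSquare c)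
    (vs : List (ι → F)) (hvs : ∀ v ∈ vs, Q v ≠ 0) :
    spin Q c (vs.map (reflEl Q)).prod = chiU (vs.map (fun v => Q v)).prod := by
  have hQl : ∀ a ∈ vs.map (fun v => Q v), a ≠ 0 := by
    intro a ha
    obtain ⟨v, hv, rfl⟩ := List.mem_map.mp ha
    exact hvs v hv
  obtain ⟨-, hchi⟩ := chiU_list_prod (vs.map (fun v => Q v)) hQl
  rw [List.map_map] at hchi
  rw [map_list_prod, List.map_map, hchi]
  congr 1
  exact List.map_congr_left (fun v hv => spin_refl_nonsq h2 Q c hc v (hvs v hv))

/-- odd characteristic: the commutator subgroup of the orthogonal group is the intersection of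
the kernels of the determinant and of the spinor norm -/
theorem omega_iff_det_spin (h2 : (2 : F) ≠ 0) (Q : QuadraticForm F (ι → F))
    (hQ : (QuadraticMap.polarBilin Q).Nondegenerate) (c : F) (hc : ¬ IsSquare c)
    (g : ↥(Cfsg.isometryGroup F ⇑Q)) :
    g ∈ Cfsg.Omega F ⇑Q ↔ ((mat Q g).det = 1 ∧ spin Q c g = 1) := by
  obtain ⟨vs, hvs, rfl⟩ := exists_list_of_mem Q g (cd_odd h2 Q hQ g)
  rw [mem_omega_iff h2 Q _ vs hvs (reflEl_list_coe Q vs hvs), mat_reflEl_list Q vs hvs,
    refl_list_det Q vs hvs, spin_list h2 Q c hc vs hvs, chiU_one_iff]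
  have hne : (-1 : F) ≠ 1 := by
    intro h
    apply h2
    linear_combination -h
  rw [neg_one_pow_eq_one_iff_even hne]

end OddCrit

section Emb

open scoped Matrix

variable {F : Type*} [Field F]

/-- the product of the reflections in `e_j - f_j` and `e_j - D_j f_j`, `j < i`, is diagonal -/
lemma plus_diag_list (m : ℕ) (D : Fin m → F) (hD : ∀ j, D j ≠ 0) (i : ℕ) (hi : i ≤ m) :
    ∃ vs : List (Fin m ⊕ Fin m → F), (∀ v ∈ vs, qP F m v ≠ 0) ∧ vs.length = 2 * i ∧
      (vs.map (fun v => qP F m v)).prod = ∏ j : Fin m, (if (j : ℕ) < i then D j else 1) ∧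
      (vs.map (fun v => Cfsg.reflectionMatrix (⇑(qP F m)) v)).prod
        = Matrix.diagonal (fun c : Fin m ⊕ Fin m =>
            if Sum.elim (fun j : Fin m => (j : ℕ)) (fun j : Fin m => (j : ℕ)) c < i
              then Sum.elim D (fun j => (D j)⁻¹) c else 1) := by
  induction i with
  | zero =>
    refine ⟨[], by simp, rfl, by simp, ?_⟩
    simp
  | succ i ih =>
    obtain ⟨vs, h1, h2, h3, h4⟩ := ih (by omega)
    have hi' : i < m := by omega
    have hab : (Sum.inl (⟨i, hi'⟩ : Fin m) : Fin m ⊕ Fin m) ≠ Sum.inr ⟨i, hi'⟩ := by simp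
    obtain ⟨hQ1, -⟩ := hyp_refl (qP F m) (Sum.inl (⟨i, hi'⟩ : Fin m)) (Sum.inr ⟨i, hi'⟩)
      hab (Cfsg.Agent.S2613.qP_pair m ⟨i, hi'⟩) 1 one_ne_zero
    obtain ⟨hQ2, -⟩ := hyp_refl (qP F m) (Sum.inl (⟨i, hi'⟩ : Fin m)) (Sum.inr ⟨i, hi'⟩)
      hab (Cfsg.Agent.S2613.qP_pair m ⟨i, hi'⟩) (D ⟨i, hi'⟩) (hD _)
    have hsc := hyp_scale (qP F m) (Sum.inl (⟨i, hi'⟩ : Fin m)) (Sum.inr ⟨i, hi'⟩)
      hab (Cfsg.Agent.S2613.qP_pair m ⟨i, hi'⟩) (D ⟨i, hi'⟩) (hD _)
    refine ⟨vs ++ [Pi.single (Sum.inl (⟨i, hi'⟩ : Fin m)) 1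
        - (1 : F) • Pi.single (Sum.inr (⟨i, hi'⟩ : Fin m)) 1,
      Pi.single (Sum.inl (⟨i, hi'⟩ : Fin m)) 1
        - (D ⟨i, hi'⟩) • Pi.single (Sum.inr (⟨i, hi'⟩ : Fin m)) 1], ?_, ?_, ?_, ?_⟩
    · intro v hv
      rcases List.mem_append.mp hv with hv | hv
      · exact h1 v hv
      · simp only [List.mem_cons, List.not_mem_nil, or_false] at hv
        rcases hv with rfl | rfl
        · rw [hQ1]
          exact neg_ne_zero.mpr one_ne_zero
        · rw [hQ2]
          exact neg_ne_zero.mpr (hD _)
    · rw [List.length_append, h2]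
      simp
      ring
    · rw [List.map_append, List.prod_append, h3]
      simp only [List.map_cons, List.map_nil, List.prod_cons, List.prod_nil, hQ1, hQ2]
      have h5 : ∀ j : Fin m, (if (j : ℕ) < i + 1 then D j else 1)
          = (if (j : ℕ) < i then D j else 1) * (if j = ⟨i, hi'⟩ then D ⟨i, hi'⟩ else 1) := by
        intro j
        rcases lt_trichotomy (j : ℕ) i with hlt | heq | hgt
        · have hne : j ≠ ⟨i, hi'⟩ := by
            intro h
            rw [h] at hlt
            simp at hlt
          simp [hlt, hne, Nat.lt_succ_of_lt hlt]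
        · have hk : j = ⟨i, hi'⟩ := Fin.ext heq
          subst hk
          simp
        · have hne : j ≠ ⟨i, hi'⟩ := by
            intro h
            rw [h] at hgt
            simp at hgt
          have h5 : ¬ ((j : ℕ) < i) := by omega
          have h6 : ¬ ((j : ℕ) < i + 1) := by omega
          simp [h5, h6, hne]
      rw [Finset.prod_congr rfl (fun j _ => h5 j), Finset.prod_mul_distrib,
        Finset.prod_ite_eq' Finset.univ (⟨i, hi'⟩ : Fin m) (fun _ => D ⟨i, hi'⟩)]
      simp
    · rw [List.map_append, List.prod_append, h4]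
      simp only [List.map_cons, List.map_nil, List.prod_cons, List.prod_nil, mul_one]
      rw [hsc, Matrix.diagonal_mul_diagonal]
      congr 1
      funext c
      rcases c with k | k
      · rcases lt_trichotomy (k : ℕ) i with hlt | heq | hgt
        · have hne : k ≠ ⟨i, hi'⟩ := by
            intro h
            rw [h] at hlt
            simp at hlt
          simp [hlt, hne, Nat.lt_succ_of_lt hlt]
        · have hk : k = ⟨i, hi'⟩ := Fin.ext heq
          subst hk
          simp
        · have hne : k ≠ ⟨i, hi'⟩ := by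
            intro h
            rw [h] at hgt
            simp at hgt
          have h5 : ¬ ((k : ℕ) < i) := by omega
          have h6 : ¬ ((k : ℕ) < i + 1) := by omega
          simp [h5, h6, hne]
      · rcases lt_trichotomy (k : ℕ) i with hlt | heq | hgt
        · have hne : k ≠ ⟨i, hi'⟩ := by
            intro h
            rw [h] at hlt
            simp at hlt
          simp [hlt, hne, Nat.lt_succ_of_lt hlt]
        · have hk : k = ⟨i, hi'⟩ := Fin.ext heq
          subst hk
          simp
        · have hne : k ≠ ⟨i, hi'⟩ := by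
            intro h
            rw [h] at hgt
            simp at hgt
          have h5 : ¬ ((k : ℕ) < i) := by omega
          have h6 : ¬ ((k : ℕ) < i + 1) := by omega
          simp [h5, h6, hne]

/-- `diag(A, A⁻ᵀ)` preserves the hyperbolic form -/
lemma plus_pres (m : ℕ) (A Ai : Matrix (Fin m) (Fin m) F) (hA : Ai * A = 1)
    (u : Fin m ⊕ Fin m → F) :
    qP F m ((Matrix.fromBlocks A 0 0 Aiᵀ).mulVec u) = qP F m u := by
  rw [qP_apply, qP_apply]
  unfold Cfsg.quadFormPlus
  have h1 : ∀ w : Fin m ⊕ Fin m → F, ∑ i : Fin m, w (Sum.inl i) * w (Sum.inr i)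
      = dotProduct (w ∘ Sum.inl) (w ∘ Sum.inr) := fun w => rfl
  rw [h1, h1, fromBlocks_mulVec_inl, fromBlocks_mulVec_inr]
  simp only [Matrix.zero_mulVec, add_zero, zero_add]
  rw [Matrix.dotProduct_mulVec, Matrix.vecMul_transpose, Matrix.mulVec_mulVec, hA,
    Matrix.one_mulVec]

/-- the embedding `A ↦ diag(A, A⁻ᵀ)` of `GL_m` into the orthogonal group of the plus form -/
def plusEmb (F : Type*) [Field F] (m : ℕ) :
    GL (Fin m) F →* ↥(Cfsg.isometryGroup F ⇑(qP F m)) where
  toFun A := ⟨⟨Matrix.fromBlocks (A : Matrix (Fin m) (Fin m) F) 0 0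
        ((A⁻¹ : GL (Fin m) F) : Matrix (Fin m) (Fin m) F)ᵀ,
      Matrix.fromBlocks ((A⁻¹ : GL (Fin m) F) : Matrix (Fin m) (Fin m) F) 0 0
        (A : Matrix (Fin m) (Fin m) F)ᵀ, by
        rw [Matrix.fromBlocks_multiply, ← Matrix.fromBlocks_one]
        congr 1
        · rw [zero_mul, add_zero, ← Units.val_mul, mul_inv_cancel, Units.val_one]
        · simp
        · simp
        · rw [zero_mul, zero_add, ← Matrix.transpose_mul, ← Units.val_mul, mul_inv_cancel,
            Units.val_one, Matrix.transpose_one], by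
        rw [Matrix.fromBlocks_multiply, ← Matrix.fromBlocks_one]
        congr 1
        · rw [zero_mul, add_zero, ← Units.val_mul, inv_mul_cancel, Units.val_one]
        · simp
        · simp
        · rw [zero_mul, zero_add, ← Matrix.transpose_mul, ← Units.val_mul, inv_mul_cancel,
            Units.val_one, Matrix.transpose_one]⟩, fun u _ =>
      plus_pres m _ _ (by rw [← Units.val_mul, inv_mul_cancel, Units.val_one]) u⟩
  map_one' := by
    apply Subtype.ext
    apply Units.ext
    show Matrix.fromBlocks ((1 : GL (Fin m) F) : Matrix (Fin m) (Fin m) F) 0 0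
        (((1 : GL (Fin m) F)⁻¹ : GL (Fin m) F) : Matrix (Fin m) (Fin m) F)ᵀ = 1
    rw [inv_one, Units.val_one, Matrix.transpose_one, Matrix.fromBlocks_one]
  map_mul' A B := by
    apply Subtype.ext
    apply Units.ext
    show Matrix.fromBlocks ((A * B : GL (Fin m) F) : Matrix (Fin m) (Fin m) F) 0 0
        (((A * B)⁻¹ : GL (Fin m) F) : Matrix (Fin m) (Fin m) F)ᵀ
      = Matrix.fromBlocks (A : Matrix (Fin m) (Fin m) F) 0 0
          ((A⁻¹ : GL (Fin m) F) : Matrix (Fin m) (Fin m) F)ᵀ
        * Matrix.fromBlocks (B : Matrix (Fin m) (Fin m) F) 0 0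
          ((B⁻¹ : GL (Fin m) F) : Matrix (Fin m) (Fin m) F)ᵀ
    rw [Matrix.fromBlocks_multiply, mul_inv_rev, Units.val_mul, Units.val_mul,
      Matrix.transpose_mul]
    simp

lemma plusEmb_coe (m : ℕ) (A : GL (Fin m) F) :
    mat (qP F m) (plusEmb F m A) = Matrix.fromBlocks (A : Matrix (Fin m) (Fin m) F) 0 0
        ((A⁻¹ : GL (Fin m) F) : Matrix (Fin m) (Fin m) F)ᵀ := rfl

lemma plusEmb_det (m : ℕ) (A : GL (Fin m) F) : (mat (qP F m) (plusEmb F m A)).det = 1 := by
  rw [plusEmb_coe, Matrix.det_fromBlocks_zero₁₂, Matrix.det_transpose, ← Matrix.det_mul,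
    ← Units.val_mul, mul_inv_cancel, Units.val_one, Matrix.det_one]

/-- the spinor norm of `diag(A, A⁻ᵀ)` is the square class of `det A` -/
theorem plusEmb_spin [Fintype F] (h2 : (2 : F) ≠ 0) (m : ℕ) (c : F) (hc : ¬ IsSquare c)
    (A : GL (Fin m) F) :
    spin (qP F m) c (plusEmb F m A) = chiU (A : Matrix (Fin m) (Fin m) F).det := by
  have key : ∀ M : Matrix (Fin m) (Fin m) F, M.det ≠ 0 → ∀ A : GL (Fin m) F,
      (A : Matrix (Fin m) (Fin m) F) = M → spin (qP F m) c (plusEmb F m A) = chiU M.det := by
    intro M hM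
    apply Matrix.diagonal_transvection_induction_of_det_ne_zero
      (fun M => ∀ A : GL (Fin m) F,
        (A : Matrix (Fin m) (Fin m) F) = M → spin (qP F m) c (plusEmb F m A) = chiU M.det) M hM
    · intro D hD A hA
      rw [Matrix.det_diagonal] at hD
      have hDj : ∀ j, D j ≠ 0 := fun j => (Finset.prod_ne_zero_iff.mp hD) j (Finset.mem_univ j)
      obtain ⟨vs, h1, -, h3, h4⟩ := plus_diag_list m D hDj m le_rfl
      have hAi : ((A⁻¹ : GL (Fin m) F) : Matrix (Fin m) (Fin m) F)
          = Matrix.diagonal (fun j => (D j)⁻¹) := by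
        have e1 : ((A⁻¹ : GL (Fin m) F) : Matrix (Fin m) (Fin m) F) * Matrix.diagonal D = 1 := by
          rw [← hA, ← Units.val_mul, inv_mul_cancel, Units.val_one]
        have e2 : Matrix.diagonal D * Matrix.diagonal (fun j => (D j)⁻¹) = 1 := by
          rw [Matrix.diagonal_mul_diagonal, ← Matrix.diagonal_one]
          congr 1
          funext j
          exact mul_inv_cancel₀ (hDj j)
        calc ((A⁻¹ : GL (Fin m) F) : Matrix (Fin m) (Fin m) F)
            = ((A⁻¹ : GL (Fin m) F) : Matrix (Fin m) (Fin m) F)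
                * (Matrix.diagonal D * Matrix.diagonal (fun j => (D j)⁻¹)) := by
              rw [e2, mul_one]
          _ = Matrix.diagonal (fun j => (D j)⁻¹) := by rw [← mul_assoc, e1, one_mul]
      have hel : plusEmb F m A = (vs.map (reflEl (qP F m))).prod := by
        apply isom_ext
        show mat (qP F m) (plusEmb F m A) = mat (qP F m) (vs.map (reflEl (qP F m))).prod
        rw [plusEmb_coe, mat_reflEl_list _ vs h1, h4, hA, hAi, Matrix.diagonal_transpose,
          Matrix.fromBlocks_diagonal]
        congr 1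
        funext k
        rcases k with k | k <;> simp
      rw [hel, spin_list h2 _ c hc vs h1, h3, Matrix.det_diagonal]
      congr 1
      apply Finset.prod_congr rfl
      intro j _
      simp
    · intro t A hA
      rw [Matrix.TransvectionStruct.det]
      obtain ⟨i, j, hij, d⟩ := t
      have hB1 : Matrix.transvection i j (d / 2) * Matrix.transvection i j (-(d / 2)) = 1 := by
        rw [Matrix.transvection_mul_transvection_same i j hij, add_neg_cancel,
          Matrix.transvection_zero]
      have hB2 : Matrix.transvection i j (-(d / 2)) * Matrix.transvection i j (d / 2) = 1 := by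
        rw [Matrix.transvection_mul_transvection_same i j hij, neg_add_cancel,
          Matrix.transvection_zero]
      have hAB : A = (⟨Matrix.transvection i j (d / 2), Matrix.transvection i j (-(d / 2)),
          hB1, hB2⟩ : GL (Fin m) F) * ⟨Matrix.transvection i j (d / 2),
            Matrix.transvection i j (-(d / 2)), hB1, hB2⟩ := by
        apply Units.ext
        rw [hA, Units.val_mul]
        show Matrix.transvection i j d
          = Matrix.transvection i j (d / 2) * Matrix.transvection i j (d / 2)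
        rw [Matrix.transvection_mul_transvection_same i j hij]
        congr 1
        field_simp
        ring
      rw [hAB, map_mul, map_mul, Int.units_mul_self]
      exact ((chiU_one_iff 1).mpr ⟨1, by simp⟩).symm
    · intro M N hM hN PM PN A hA
      have hA' : A = Matrix.GeneralLinearGroup.mkOfDetNeZero M hM
          * Matrix.GeneralLinearGroup.mkOfDetNeZero N hN := by
        apply Units.ext
        rw [hA, Units.val_mul]
        rfl
      rw [hA', map_mul, map_mul, PM _ rfl, PN _ rfl, Matrix.det_mul, chiU_mul _ _ hM hN]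
  have hdet : (A : Matrix (Fin m) (Fin m) F).det ≠ 0 := by
    have h1 : (A : Matrix (Fin m) (Fin m) F).det
        * ((A⁻¹ : GL (Fin m) F) : Matrix (Fin m) (Fin m) F).det = 1 := by
      rw [← Matrix.det_mul, ← Units.val_mul, mul_inv_cancel, Units.val_one, Matrix.det_one]
    intro h0
    rw [h0, zero_mul] at h1
    exact zero_ne_one h1
  exact key _ hdet A rfl

end Emb

end Cfsg.Agent.Lib.helper13
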