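import Mathlib
import Cfsg.Prelude.Def_LieTypeDatum
import Cfsg.Agent.Lib.helper13.OrthAut2
import Cfsg.Agent.Lib.helper13.PlusEmb

set_option autoImplicit false
set_option linter.unusedSectionVars false
set_option linter.unusedVariables false
set_option linter.style.longLine false

/-!
Automorphisms of `PΩ(Q)` induced by similarities: auxiliary existence lemmas and the index of
the inner automorphisms in `PSO`.
-/

namespace Cfsg.Agent.Lib.helper13.OA

open Matrix

section aux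

open Cfsg.Agent.Lib.helper4

variable {F : Type*} [Field F] [Fintype F] {ι : Type} [Fintype ι] [DecidableEq ι]

theorem exists_nonsq_shift (D : F) (hD : ¬ IsSquare D) : ∃ x : F, ¬ IsSquare (x ^ 2 - D) := by
  by_contra hcon
  push Not at hcon
  have key : ∀ k : ℕ, IsSquare (-((k : F) * D)) := by
    intro k
    induction k with
    | zero => exact ⟨0, by simp⟩
    | succ k ih =>
      obtain ⟨y, hy⟩ := ih
      have h1 := hcon y
      have h2 : y ^ 2 - D = -(((k + 1 : ℕ) : F) * D) := by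
        rw [pow_two, ← hy]
        push_cast
        ring
      rw [h2] at h1
      exact h1
  have h3 := key (Fintype.card F - 1)
  have h4 : ((Fintype.card F - 1 : ℕ) : F) = -1 := by
    rw [Nat.cast_sub Fintype.card_pos, Nat.cast_card_eq_zero, Nat.cast_one, zero_sub]
  rw [h4] at h3
  apply hD
  have h5 : -(-1 * D) = D := by ring
  rw [h5] at h3
  exact h3

theorem exists_GL_of_sim (Q : QuadraticForm F (ι → F))
    (hQ : (QuadraticMap.polarBilin Q).Nondegenerate) (M : Matrix ι ι F) (c : F) (hc : c ≠ 0)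
    (hM : ∀ v, Q (M *ᵥ v) = c * Q v) : ∃ g : GL ι F, (g : Matrix ι ι F) = M := by
  have hinj : Function.Injective M.mulVec := by
    intro v v' hvv
    have h1 : M *ᵥ (v - v') = 0 := by rw [Matrix.mulVec_sub, hvv, sub_self]
    have h2 : v - v' = 0 := by
      apply hQ.1
      intro y
      rw [QuadraticMap.polarBilin_apply_apply]
      have h3 : QuadraticMap.polar (⇑Q) (M *ᵥ (v - v')) (M *ᵥ y) =
          c * QuadraticMap.polar (⇑Q) (v - v') y := by
        unfold QuadraticMap.polar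
        rw [← Matrix.mulVec_add, hM, hM, hM]
        ring
      rw [h1, QuadraticMap.polar_zero_left] at h3
      exact (mul_eq_zero.1 h3.symm).resolve_left hc
    exact sub_eq_zero.1 h2
  exact ⟨(Matrix.mulVec_injective_iff_isUnit.1 hinj).unit, rfl⟩

end aux

section inn

open Cfsg.Agent.Lib.helper4

variable {F : Type*} [Field F] [Fintype F] {ι : Type} [Fintype ι] [DecidableEq ι]

/-- conjugation by an element of `Ω` is inner -/
theorem conjAut_omega (Qf : (ι → F) → F) (s : ↥(Cfsg.Omega F Qf))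
    (hs : ((s : ↥(Cfsg.isometryGroup F Qf)) : GL ι F) ∈ Cfsg.Geo.quadSimilarityGroup Qf) :
    conjAut Qf ⟨((s : ↥(Cfsg.isometryGroup F Qf)) : GL ι F), hs⟩ =
      MulAut.conj (QuotientGroup.mk s : Cfsg.POmega F Qf) := by
  apply MulEquiv.ext
  intro x
  obtain ⟨t, rfl⟩ := exists_rep Qf x
  rw [conjAut_mk, MulAut.conj_apply, ← QuotientGroup.mk_inv, ← QuotientGroup.mk_mul,
    ← QuotientGroup.mk_mul]
  congr 1

/-- the special isometries as a subgroup of the similarity group -/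
def soSub (Qf : (ι → F) → F) : Subgroup ↥(Cfsg.Geo.quadSimilarityGroup Qf) :=
  (Cfsg.specialIsometryGL F Qf).subgroupOf (Cfsg.Geo.quadSimilarityGroup Qf)

theorem mem_soSub (Qf : (ι → F) → F) (g : ↥(Cfsg.Geo.quadSimilarityGroup Qf)) :
    g ∈ soSub Qf ↔ ((g : GL ι F) ∈ Cfsg.isometryGroup F Qf ∧
      Matrix.GeneralLinearGroup.det (g : GL ι F) = 1) := Iff.rfl

/-- the inclusion of the special isometries in the isometry group -/
def soToO (Qf : (ι → F) → F) : ↥(soSub Qf) →* ↥(Cfsg.isometryGroup F Qf) where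
  toFun g := ⟨((g : ↥(Cfsg.Geo.quadSimilarityGroup Qf)) : GL ι F), ((mem_soSub Qf g.1).1 g.2).1⟩
  map_one' := rfl
  map_mul' _ _ := rfl

theorem soToO_coe (Qf : (ι → F) → F) (g : ↥(soSub Qf)) :
    ((soToO Qf g : ↥(Cfsg.isometryGroup F Qf)) : GL ι F) =
      ((g : ↥(Cfsg.Geo.quadSimilarityGroup Qf)) : GL ι F) := rfl

theorem soToO_det (Qf : (ι → F) → F) (g : ↥(soSub Qf)) :
    (((soToO Qf g : ↥(Cfsg.isometryGroup F Qf)) : GL ι F) : Matrix ι ι F).det = 1 := by
  have h := ((mem_soSub Qf g.1).1 g.2).2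
  have h' := congrArg (fun u : Fˣ => (u : F)) h
  exact h'

/-- the action of the special isometries on `PΩ` -/
def soAut (Qf : (ι → F) → F) : ↥(soSub Qf) →* MulAut (Cfsg.POmega F Qf) :=
  (conjAut Qf).comp (soSub Qf).subtype

theorem psoAut_eq_range (Qf : (ι → F) → F) : Cfsg.psoAut F Qf = (soAut Qf).range := by
  rw [psoAut_eq]
  unfold soAut
  rw [MonoidHom.range_comp, Subgroup.range_subtype]
  rfl

/-- an isometry of determinant one as an element of `soSub` -/
def ofO (Qf : (ι → F) → F) (x : ↥(Cfsg.isometryGroup F Qf))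
    (hx : ((x : GL ι F) : Matrix ι ι F).det = 1) : ↥(soSub Qf) :=
  ⟨⟨(x : GL ι F), isom_le_sim Qf x.2⟩, (mem_soSub Qf _).2 ⟨x.2, Units.ext hx⟩⟩

theorem soToO_ofO (Qf : (ι → F) → F) (x : ↥(Cfsg.isometryGroup F Qf))
    (hx : ((x : GL ι F) : Matrix ι ι F).det = 1) : soToO Qf (ofO Qf x hx) = x := rfl

theorem soAut_of_omega (Qf : (ι → F) → F) (g : ↥(soSub Qf))
    (hg : soToO Qf g ∈ Cfsg.Omega F Qf) :
    soAut Qf g = MulAut.conj (QuotientGroup.mk ⟨soToO Qf g, hg⟩ : Cfsg.POmega F Qf) :=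
  conjAut_omega Qf ⟨soToO Qf g, hg⟩ g.1.2

theorem omega_det (Qf : (ι → F) → F) (s : ↥(Cfsg.Omega F Qf)) :
    (((s : ↥(Cfsg.isometryGroup F Qf)) : GL ι F) : Matrix ι ι F).det = 1 := by
  have h1 := Abelianization.commutator_subset_ker
    ((Matrix.GeneralLinearGroup.det (n := ι) (R := F)).comp
      (Subgroup.subtype (Cfsg.isometryGroup F Qf))) s.2
  rw [MonoidHom.mem_ker] at h1
  have h3 := congrArg (fun u : Fˣ => (u : F)) h1
  exact h3

theorem so_ker (h2 : (2 : F) ≠ 0) (hn : 6 ≤ Fintype.card ι)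
    (Q : QuadraticForm F (ι → F)) (hQ : (QuadraticMap.polarBilin Q).Nondegenerate)
    (g : ↥(soSub (⇑Q))) (hg : soAut (⇑Q) g = 1) :
    soToO (⇑Q) g = 1 ∨ soToO (⇑Q) g = negEl Q := by
  obtain ⟨a, ha⟩ := scalar_of_conjAut_eq_one h2 hn Q hQ g.1 hg
  obtain ⟨v, hv⟩ := universal Q hQ (by omega) 1 one_ne_zero
  have h1 : Q (a • v) = Q v := by
    rw [← ha]
    exact isom_pres Q (soToO (⇑Q) g) v
  rw [QuadraticMap.map_smul, smul_eq_mul, hv, mul_one] at h1
  rcases mul_self_eq_one_iff.1 h1 with rfl | rfl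
  · left
    apply isom_ext
    apply Matrix.mulVec_injective
    funext w
    rw [soToO_coe, ha, one_smul]
    show w = (1 : Matrix ι ι F) *ᵥ w
    rw [Matrix.one_mulVec]
  · right
    apply isom_ext
    apply Matrix.mulVec_injective
    funext w
    rw [soToO_coe, ha, negEl_coe, Matrix.neg_mulVec, Matrix.one_mulVec, neg_smul, one_smul]

theorem so_mem_omega_iff (h2 : (2 : F) ≠ 0)
    (Q : QuadraticForm F (ι → F)) (hQ : (QuadraticMap.polarBilin Q).Nondegenerate)
    (c : F) (hc : ¬ IsSquare c) (g : ↥(soSub (⇑Q))) :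
    soToO (⇑Q) g ∈ Cfsg.Omega F ⇑Q ↔ spin Q c (soToO (⇑Q) g) = 1 := by
  rw [omega_iff_det_spin h2 Q hQ c hc]
  constructor
  · intro h
    exact h.2
  · intro h
    exact ⟨soToO_det (⇑Q) g, h⟩

theorem negEl_det (he : Even (Fintype.card ι)) (Q : QuadraticForm F (ι → F)) :
    (((negEl Q : ↥(Cfsg.isometryGroup F ⇑Q)) : GL ι F) : Matrix ι ι F).det = 1 := by
  rw [negEl_coe, Matrix.det_neg, Matrix.det_one, mul_one, he.neg_one_pow]

theorem soAut_neg (he : Even (Fintype.card ι)) (Q : QuadraticForm F (ι → F)) :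
    soAut (⇑Q) (ofO (⇑Q) (negEl Q) (negEl_det he Q)) = 1 := by
  apply conjAut_eq_one_of_scalar (⇑Q) _ (-1)
  intro v
  show ((negEl Q : GL ι F) : Matrix ι ι F) *ᵥ v = _
  rw [negEl_coe, Matrix.neg_mulVec, Matrix.one_mulVec, neg_smul, one_smul]

theorem inn_le_range (Qf : (ι → F) → F) : Cfsg.Inn (Cfsg.POmega F Qf) ≤ (soAut Qf).range := by
  rintro _ ⟨y, rfl⟩
  obtain ⟨s, rfl⟩ := exists_rep Qf y
  exact ⟨ofO Qf s (omega_det Qf s), soAut_of_omega Qf (ofO Qf s (omega_det Qf s)) s.2⟩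

/-- `-1 ∉ Ω`: every special isometry acts on `PΩ` as an inner automorphism -/
theorem range_le_inn (h2 : (2 : F) ≠ 0) (he : Even (Fintype.card ι))
    (Q : QuadraticForm F (ι → F)) (hQ : (QuadraticMap.polarBilin Q).Nondegenerate)
    (hneg : negEl Q ∉ Cfsg.Omega F ⇑Q) :
    (soAut (⇑Q)).range ≤ Cfsg.Inn (Cfsg.POmega F ⇑Q) := by
  obtain ⟨c, hc⟩ := exists_nonsq h2
  rintro _ ⟨g, rfl⟩
  have hnegspin : spin Q c (negEl Q) = -1 := by
    have h1 := so_mem_omega_iff h2 Q hQ c hc (ofO (⇑Q) (negEl Q) (negEl_det he Q))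
    rw [soToO_ofO] at h1
    rcases Int.units_eq_one_or (spin Q c (negEl Q)) with h | h
    · exact absurd (h1.2 h) hneg
    · exact h
  rcases Int.units_eq_one_or (spin Q c (soToO (⇑Q) g)) with h | h
  · have hmem := (so_mem_omega_iff h2 Q hQ c hc g).2 h
    exact ⟨_, (soAut_of_omega (⇑Q) g hmem).symm⟩
  · have hmem : soToO (⇑Q) (ofO (⇑Q) (negEl Q) (negEl_det he Q) * g) ∈ Cfsg.Omega F ⇑Q := by
      rw [so_mem_omega_iff h2 Q hQ c hc, map_mul, map_mul, soToO_ofO, hnegspin, h]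
      rfl
    have h3 := soAut_of_omega (⇑Q) _ hmem
    rw [map_mul, soAut_neg he Q, one_mul] at h3
    exact ⟨_, h3.symm⟩

/-- `-1 ∈ Ω`: the inner automorphisms have index two in the image of the special isometries -/
theorem index_inn_range (h2 : (2 : F) ≠ 0) (hn : 6 ≤ Fintype.card ι)
    (Q : QuadraticForm F (ι → F)) (hQ : (QuadraticMap.polarBilin Q).Nondegenerate)
    (hneg : negEl Q ∈ Cfsg.Omega F ⇑Q) :
    (Cfsg.Inn (Cfsg.POmega F ⇑Q)).relIndex (soAut (⇑Q)).range = 2 := by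
  obtain ⟨c, hc⟩ := exists_nonsq h2
  have hc0 : c ≠ 0 := by
    rintro rfl
    exact hc ⟨0, by simp⟩
  have hnegspin : spin Q c (negEl Q) = 1 :=
    ((omega_iff_det_spin h2 Q hQ c hc (negEl Q)).1 hneg).2
  have hker : (soAut (⇑Q)).ker ≤ ((spin Q c).comp (soToO (⇑Q))).ker := by
    intro g hg
    rw [MonoidHom.mem_ker] at hg ⊢
    rw [MonoidHom.comp_apply]
    rcases so_ker h2 hn Q hQ g hg with h | h
    · rw [h, map_one]
    · rw [h, hnegspin]
  obtain ⟨θ, hθ⟩ := exists_lift_range (soAut (⇑Q)) ((spin Q c).comp (soToO (⇑Q))) hker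
  have hkerθ : θ.ker = (Cfsg.Inn (Cfsg.POmega F ⇑Q)).subgroupOf (soAut (⇑Q)).range := by
    ext x
    obtain ⟨_, g, rfl⟩ := x
    rw [MonoidHom.mem_ker, Subgroup.mem_subgroupOf, hθ g, MonoidHom.comp_apply]
    constructor
    · intro h
      have hmem := (so_mem_omega_iff h2 Q hQ c hc g).2 h
      exact ⟨_, (soAut_of_omega (⇑Q) g hmem).symm⟩
    · rintro ⟨y, hy⟩
      obtain ⟨s, rfl⟩ := exists_rep (⇑Q) y
      have h3 := soAut_of_omega (⇑Q) (ofO (⇑Q) s (omega_det (⇑Q) s)) s.2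
      have h4 : soAut (⇑Q) (ofO (⇑Q) s (omega_det (⇑Q) s)) = soAut (⇑Q) g := h3.trans hy
      have h5 : g⁻¹ * ofO (⇑Q) s (omega_det (⇑Q) s) ∈ (soAut (⇑Q)).ker := by
        rw [MonoidHom.mem_ker, map_mul, map_inv, h4, inv_mul_cancel]
      have h6 := hker h5
      rw [MonoidHom.mem_ker, MonoidHom.comp_apply, map_mul, map_mul, map_inv, map_inv, soToO_ofO] at h6
      have h7 : spin Q c (s : ↥(Cfsg.isometryGroup F ⇑Q)) = 1 :=
        ((omega_iff_det_spin h2 Q hQ c hc _).1 s.2).2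
      rw [h7, mul_one, inv_eq_one] at h6
      exact h6
  have hsurj : Function.Surjective θ := by
    obtain ⟨v₁, hv₁⟩ := universal Q hQ (by omega) 1 one_ne_zero
    obtain ⟨v₂, hv₂⟩ := universal Q hQ (by omega) c hc0
    have hv₁' : Q v₁ ≠ 0 := by rw [hv₁]; exact one_ne_zero
    have hv₂' : Q v₂ ≠ 0 := by rw [hv₂]; exact hc0
    have hdet : (((reflEl Q v₁ * reflEl Q v₂ : ↥(Cfsg.isometryGroup F ⇑Q)) : GL ι F) :
        Matrix ι ι F).det = 1 := by
      rw [isom_coe_mul, Matrix.det_mul, reflEl_coe Q v₁ hv₁', reflEl_coe Q v₂ hv₂',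
        refl_det Q v₁ hv₁', refl_det Q v₂ hv₂']
      ring
    have hval : θ ⟨soAut (⇑Q) (ofO (⇑Q) (reflEl Q v₁ * reflEl Q v₂) hdet), ⟨_, rfl⟩⟩ = -1 := by
      rw [hθ, MonoidHom.comp_apply, soToO_ofO, map_mul, spin_refl_nonsq h2 Q c hc v₁ hv₁',
        spin_refl_nonsq h2 Q c hc v₂ hv₂', hv₁, hv₂, (chiU_one_iff 1).mpr ⟨1, by simp⟩,
        (chiU_neg_one_iff c).mpr hc]
      rfl
    intro u
    rcases Int.units_eq_one_or u with rfl | rfl
    · exact ⟨1, map_one θ⟩
    · exact ⟨_, hval⟩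
  unfold Subgroup.relIndex
  rw [← hkerθ, Subgroup.index_ker, MonoidHom.range_eq_top.2 hsurj, Subgroup.card_top,
    Nat.card_eq_fintype_card, Fintype.card_units_int]

/-- the index of the inner automorphisms in the image of the special orthogonal group -/
theorem inn_relIndex_pso (h2 : (2 : F) ≠ 0) (hn : 6 ≤ Fintype.card ι)
    (he : Even (Fintype.card ι))
    (Q : QuadraticForm F (ι → F)) (hQ : (QuadraticMap.polarBilin Q).Nondegenerate) :
    ((∃ g : ↥(Cfsg.isometryGroup F ⇑Q), g ∈ Cfsg.Omega F ⇑Q ∧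
        ((g : GL ι F) : Matrix ι ι F) = -1) →
      (Cfsg.Inn (Cfsg.POmega F ⇑Q)).relIndex (Cfsg.psoAut F ⇑Q) = 2) ∧
    ((¬ ∃ g : ↥(Cfsg.isometryGroup F ⇑Q), g ∈ Cfsg.Omega F ⇑Q ∧
        ((g : GL ι F) : Matrix ι ι F) = -1) →
      (Cfsg.Inn (Cfsg.POmega F ⇑Q)).relIndex (Cfsg.psoAut F ⇑Q) = 1) := by
  rw [psoAut_eq_range]
  constructor
  · rintro ⟨g, hg, hg1⟩
    have hgn : g = negEl Q := isom_ext Q g (negEl Q) (by rw [hg1, negEl_coe])
    rw [hgn] at hg
    exact index_inn_range h2 hn Q hQ hg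
  · intro h
    rw [Subgroup.relIndex_eq_one]
    apply range_le_inn h2 he Q hQ
    intro hneg
    exact h ⟨negEl Q, hneg, negEl_coe Q⟩

end inn

section arith

theorem pow_mod_four (q m : ℕ) (hq : Odd q) : q ^ m % 4 = 1 ↔ ¬ (Odd m ∧ q % 4 = 3) := by
  have hq' : q % 4 = 1 ∨ q % 4 = 3 := by
    obtain ⟨k, rfl⟩ := hq
    omega
  rcases hq' with h | h
  · have h1 : q ^ m % 4 = 1 := by
      rw [Nat.pow_mod, h, one_pow]
      rfl
    constructor
    · intro _ hh
      omega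
    · intro _
      exact h1
  · rcases Nat.even_or_odd' m with ⟨k, rfl | rfl⟩
    · have h1 : q ^ (2 * k) % 4 = 1 := by
        rw [Nat.pow_mod, h, pow_mul, Nat.pow_mod]
        norm_num
      constructor
      · intro _ hh
        exact absurd hh.1 (by rw [Nat.not_odd_iff_even]; exact even_two_mul k)
      · intro _
        exact h1
    · have h1 : q ^ (2 * k + 1) % 4 = 3 := by
        rw [Nat.pow_mod, h, pow_succ, pow_mul, Nat.mul_mod, Nat.pow_mod]
        norm_num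
      constructor
      · intro hh
        omega
      · intro hh
        exact absurd ⟨odd_two_mul_add_one k, h⟩ hh

theorem pow_succ_mod_four (q m : ℕ) (hq : Odd q) :
    q ^ (m + 1) % 4 = 3 ↔ (Even m ∧ q % 4 = 3) := by
  have h1 := pow_mod_four q (m + 1) hq
  have h2 : q ^ (m + 1) % 4 = 1 ∨ q ^ (m + 1) % 4 = 3 := by
    obtain ⟨k, hk⟩ := hq.pow (n := m + 1)
    omega
  have h3 : Odd (m + 1) ↔ Even m := by
    rw [Nat.odd_add_one, Nat.not_odd_iff_even]
  rw [h3] at h1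
  constructor
  · intro h
    by_contra hcon
    have := h1.2 hcon
    omega
  · intro h
    rcases h2 with h4 | h4
    · exact absurd h (h1.1 h4)
    · exact h4

end arith

end Cfsg.Agent.Lib.helper13.OA
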