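import Mathlib
import Cfsg.Prelude.Def_LieTypeDatum
import Cfsg.Agent.Lib.helper13.OrthAut3
import Cfsg.Agent.Lib.helper13.D8Rec

set_option autoImplicit false
set_option linter.unusedSectionVars false
set_option linter.unusedVariables false
set_option linter.style.longLine false

/-!
The image of the conformal orthogonal group in `Aut(PΩ(Q))` modulo the inner automorphisms.
-/

namespace Cfsg.Agent.Lib.helper13.OA

open Matrix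

section d8

open Cfsg.Agent.Lib.helper4

variable {F : Type*} [Field F] [Fintype F] {ι : Type} [Fintype ι] [DecidableEq ι]

/-- conjugating a reflection by a similarity -/
theorem refl_conj_sim (Q : QuadraticForm F (ι → F))
    (g : ↥(Cfsg.Geo.quadSimilarityGroup (⇑Q))) (v : ι → F) (hv : Q v ≠ 0) :
    ((g : GL ι F) : Matrix ι ι F) * Cfsg.reflectionMatrix (⇑Q) v =
      Cfsg.reflectionMatrix (⇑Q) (((g : GL ι F) : Matrix ι ι F) *ᵥ v) *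
        ((g : GL ι F) : Matrix ι ι F) := by
  apply Matrix.mulVec_injective
  funext x
  have hp : QuadraticMap.polar (⇑Q) (((g : GL ι F) : Matrix ι ι F) *ᵥ v)
      (((g : GL ι F) : Matrix ι ι F) *ᵥ x) =
      (mult (⇑Q) g : F) * QuadraticMap.polar (⇑Q) v x := by
    unfold QuadraticMap.polar
    rw [← Matrix.mulVec_add, mult_spec (⇑Q) g, mult_spec (⇑Q) g, mult_spec (⇑Q) g]
    ring
  have hμ : (mult (⇑Q) g : F) ≠ 0 := Units.ne_zero _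
  rw [← Matrix.mulVec_mulVec, ← Matrix.mulVec_mulVec, refl_mulVec, refl_mulVec,
    Matrix.mulVec_sub, Matrix.mulVec_smul, hp, mult_spec (⇑Q) g v]
  congr 2
  field_simp

/-- if `-1 ∈ Ω`, a special isometry inducing an inner automorphism has trivial spinor norm -/
theorem spin_eq_one_of_inn (h2 : (2 : F) ≠ 0) (hn : 6 ≤ Fintype.card ι)
    (Q : QuadraticForm F (ι → F)) (hQ : (QuadraticMap.polarBilin Q).Nondegenerate)
    (hneg : negEl Q ∈ Cfsg.Omega F ⇑Q) (c : F) (hc : ¬ IsSquare c) (g : ↥(soSub (⇑Q)))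
    (hg : soAut (⇑Q) g ∈ Cfsg.Inn (Cfsg.POmega F ⇑Q)) : spin Q c (soToO (⇑Q) g) = 1 := by
  have hnegspin : spin Q c (negEl Q) = 1 :=
    ((omega_iff_det_spin h2 Q hQ c hc (negEl Q)).1 hneg).2
  obtain ⟨y, hy⟩ := hg
  obtain ⟨s, rfl⟩ := exists_rep (⇑Q) y
  have h3 := soAut_of_omega (⇑Q) (ofO (⇑Q) s (omega_det (⇑Q) s)) s.2
  have h4 : soAut (⇑Q) (ofO (⇑Q) s (omega_det (⇑Q) s)) = soAut (⇑Q) g := h3.trans hy
  have h5 : soAut (⇑Q) (g⁻¹ * ofO (⇑Q) s (omega_det (⇑Q) s)) = 1 := by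
    rw [map_mul, map_inv, h4, inv_mul_cancel]
  have h7 : spin Q c (s : ↥(Cfsg.isometryGroup F ⇑Q)) = 1 :=
    ((omega_iff_det_spin h2 Q hQ c hc _).1 s.2).2
  have h6 : spin Q c (soToO (⇑Q) (g⁻¹ * ofO (⇑Q) s (omega_det (⇑Q) s))) = 1 := by
    rcases so_ker h2 hn Q hQ _ h5 with h | h
    · rw [h, map_one]
    · rw [h, hnegspin]
  rw [map_mul, map_mul, map_inv, map_inv, soToO_ofO, h7, mul_one, inv_eq_one] at h6
  exact h6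

/-- the conjugation action as a map into `pgoAut` -/
def conjAut' (Qf : (ι → F) → F) :
    ↥(Cfsg.Geo.quadSimilarityGroup Qf) →* ↥(Cfsg.pgoAut F Qf) :=
  (conjAut Qf).codRestrict (Cfsg.pgoAut F Qf) (fun g => by
    rw [pgoAut_eq]
    exact ⟨g, rfl⟩)

theorem conjAut'_coe (Qf : (ι → F) → F) (g : ↥(Cfsg.Geo.quadSimilarityGroup Qf)) :
    ((conjAut' Qf g : ↥(Cfsg.pgoAut F Qf)) : MulAut (Cfsg.POmega F Qf)) = conjAut Qf g := rfl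

/-- `-1 ∉ Ω`: `PGO / Inn` is a four-group -/
theorem pgo_mod_inn_four (h2 : (2 : F) ≠ 0) (m : ℕ) (hm : Fintype.card ι = 2 * m)
    (hn : 6 ≤ Fintype.card ι) (Q : QuadraticForm F (ι → F))
    (hQ : (QuadraticMap.polarBilin Q).Nondegenerate) (g₀ : GL ι F) (c₀ : Fˣ)
    (hg₀ : ∀ v, Q ((g₀ : Matrix ι ι F) *ᵥ v) = (c₀ : F) * Q v) (hc₀ : ¬ IsSquare (c₀ : F))
    (hneg : negEl Q ∉ Cfsg.Omega F ⇑Q) :
    ∃ φ : ↥(Cfsg.pgoAut F ⇑Q) →* Multiplicative (ZMod 2 × ZMod 2),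
      Function.Surjective φ ∧
        φ.ker = (Cfsg.Inn (Cfsg.POmega F ⇑Q)).subgroupOf (Cfsg.pgoAut F ⇑Q) := by
  have he : Even (Fintype.card ι) := by
    rw [hm]
    exact even_two_mul m
  have heq : Cfsg.psoAut F ⇑Q = Cfsg.Inn (Cfsg.POmega F ⇑Q) := by
    rw [psoAut_eq_range]
    exact le_antisymm (range_le_inn h2 he Q hQ hneg) (inn_le_range (⇑Q))
  have key := pgo_mod_pso h2 m hm hn Q hQ g₀ c₀ hg₀ hc₀
  rw [heq] at key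
  exact key

/-- `-1 ∈ Ω`: the inner automorphisms have index eight in `PGO` -/
theorem inn_index_pgo (h2 : (2 : F) ≠ 0) (m : ℕ) (hm : Fintype.card ι = 2 * m)
    (hn : 6 ≤ Fintype.card ι) (Q : QuadraticForm F (ι → F))
    (hQ : (QuadraticMap.polarBilin Q).Nondegenerate) (g₀ : GL ι F) (c₀ : Fˣ)
    (hg₀ : ∀ v, Q ((g₀ : Matrix ι ι F) *ᵥ v) = (c₀ : F) * Q v) (hc₀ : ¬ IsSquare (c₀ : F))
    (hneg : negEl Q ∈ Cfsg.Omega F ⇑Q) :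
    ((Cfsg.Inn (Cfsg.POmega F ⇑Q)).subgroupOf (Cfsg.pgoAut F ⇑Q)).index = 8 := by
  have hle1 : Cfsg.Inn (Cfsg.POmega F ⇑Q) ≤ Cfsg.psoAut F ⇑Q := by
    rw [psoAut_eq_range]
    exact inn_le_range (⇑Q)
  have hle2 : Cfsg.psoAut F ⇑Q ≤ Cfsg.pgoAut F ⇑Q := by
    rw [psoAut_eq, pgoAut_eq]
    exact Subgroup.map_le_range _ _
  have hi1 : (Cfsg.Inn (Cfsg.POmega F ⇑Q)).relIndex (Cfsg.psoAut F ⇑Q) = 2 := by
    rw [psoAut_eq_range]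
    exact index_inn_range h2 hn Q hQ hneg
  have hi2 : (Cfsg.psoAut F ⇑Q).relIndex (Cfsg.pgoAut F ⇑Q) = 4 := by
    obtain ⟨φ, hφs, hφk⟩ := pgo_mod_pso h2 m hm hn Q hQ g₀ c₀ hg₀ hc₀
    unfold Subgroup.relIndex
    rw [← hφk, Subgroup.index_ker, MonoidHom.range_eq_top.2 hφs, Subgroup.card_top,
      Nat.card_eq_fintype_card]
    rfl
  have h1 := Subgroup.relIndex_mul_relIndex _ _ _ hle1 hle2
  rw [hi1, hi2] at h1
  exact h1.symm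

/-- `-1 ∈ Ω`: the commutator of a reflection with a similarity of non-square multiplier does
not induce an inner automorphism -/
theorem comm_not_inn (h2 : (2 : F) ≠ 0) (hn : 6 ≤ Fintype.card ι) (Q : QuadraticForm F (ι → F))
    (hQ : (QuadraticMap.polarBilin Q).Nondegenerate)
    (G₀ : ↥(Cfsg.Geo.quadSimilarityGroup (⇑Q))) (c₀ : Fˣ)
    (hg₀ : ∀ v, Q (((G₀ : GL ι F) : Matrix ι ι F) *ᵥ v) = (c₀ : F) * Q v)
    (hc₀ : ¬ IsSquare (c₀ : F))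
    (hneg : negEl Q ∈ Cfsg.Omega F ⇑Q) (v : ι → F) (hv : Q v = 1) :
    conjAut (⇑Q) (G₀ * reflSim Q v * G₀⁻¹ * (reflSim Q v)⁻¹) ∉ Cfsg.Inn (Cfsg.POmega F ⇑Q) := by
  have hv' : Q v ≠ 0 := by rw [hv]; exact one_ne_zero
  have hw : Q (((G₀ : GL ι F) : Matrix ι ι F) *ᵥ v) = (c₀ : F) := by
    rw [hg₀, hv, mul_one]
  have hw' : Q (((G₀ : GL ι F) : Matrix ι ι F) *ᵥ v) ≠ 0 := by
    rw [hw]
    exact Units.ne_zero _
  have hdet : (((reflEl Q (((G₀ : GL ι F) : Matrix ι ι F) *ᵥ v) * reflEl Q v :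
      ↥(Cfsg.isometryGroup F ⇑Q)) : GL ι F) : Matrix ι ι F).det = 1 := by
    rw [isom_coe_mul, Matrix.det_mul, reflEl_coe Q _ hw', reflEl_coe Q v hv',
      refl_det Q _ hw', refl_det Q v hv']
    ring
  have hrr : reflSim Q v * reflSim Q v = 1 := by
    apply Subtype.ext
    show (reflEl Q v : GL ι F) * (reflEl Q v : GL ι F) = 1
    exact congrArg (fun t : ↥(Cfsg.isometryGroup F ⇑Q) => (t : GL ι F)) (reflEl_mul_self Q v)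
  have hcomm : G₀ * reflSim Q v * G₀⁻¹ * (reflSim Q v)⁻¹ =
      ((ofO (⇑Q) (reflEl Q (((G₀ : GL ι F) : Matrix ι ι F) *ᵥ v) * reflEl Q v) hdet :
        ↥(soSub (⇑Q))) : ↥(Cfsg.Geo.quadSimilarityGroup (⇑Q))) := by
    have hinv : (reflSim Q v)⁻¹ = reflSim Q v := inv_eq_of_mul_eq_one_left hrr
    rw [hinv]
    apply Subtype.ext
    show (G₀ : GL ι F) * (reflEl Q v : GL ι F) * (G₀ : GL ι F)⁻¹ * (reflEl Q v : GL ι F) =
      (reflEl Q (((G₀ : GL ι F) : Matrix ι ι F) *ᵥ v) : GL ι F) * (reflEl Q v : GL ι F)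
    have h1 : (G₀ : GL ι F) * (reflEl Q v : GL ι F) =
        (reflEl Q (((G₀ : GL ι F) : Matrix ι ι F) *ᵥ v) : GL ι F) * (G₀ : GL ι F) := by
      apply Units.ext
      rw [Units.val_mul, Units.val_mul, reflEl_coe Q _ hw', reflEl_coe Q v hv']
      exact refl_conj_sim Q G₀ v hv'
    rw [h1, mul_inv_cancel_right]
  intro hmem
  rw [hcomm] at hmem
  have hmem' : soAut (⇑Q)
      (ofO (⇑Q) (reflEl Q (((G₀ : GL ι F) : Matrix ι ι F) *ᵥ v) * reflEl Q v) hdet) ∈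
      Cfsg.Inn (Cfsg.POmega F ⇑Q) := hmem
  have h1 := spin_eq_one_of_inn h2 hn Q hQ hneg (c₀ : F) hc₀
    (ofO (⇑Q) (reflEl Q (((G₀ : GL ι F) : Matrix ι ι F) *ᵥ v) * reflEl Q v) hdet) hmem'
  rw [soToO_ofO, map_mul, spin_refl_nonsq h2 Q _ hc₀ _ hw', spin_refl_nonsq h2 Q _ hc₀ v hv',
    hw, hv, (chiU_one_iff 1).mpr ⟨1, by simp⟩, (chiU_neg_one_iff (c₀ : F)).mpr hc₀] at h1
  exact absurd h1 (by decide)

theorem conjAut'_sq (Q : QuadraticForm F (ι → F)) (v : ι → F) :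
    conjAut' (⇑Q) (reflSim Q v) * conjAut' (⇑Q) (reflSim Q v) ∈
      (Cfsg.Inn (Cfsg.POmega F ⇑Q)).subgroupOf (Cfsg.pgoAut F ⇑Q) := by
  have hrr : reflSim Q v * reflSim Q v = 1 := by
    apply Subtype.ext
    show (reflEl Q v : GL ι F) * (reflEl Q v : GL ι F) = 1
    exact congrArg (fun t : ↥(Cfsg.isometryGroup F ⇑Q) => (t : GL ι F)) (reflEl_mul_self Q v)
  have h1 : conjAut' (⇑Q) (reflSim Q v) * conjAut' (⇑Q) (reflSim Q v) = 1 := by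
    rw [← (conjAut' (⇑Q)).map_mul, hrr, (conjAut' (⇑Q)).map_one]
  rw [h1]
  exact Subgroup.one_mem _

theorem conjAut'_comm (h2 : (2 : F) ≠ 0) (hn : 6 ≤ Fintype.card ι) (Q : QuadraticForm F (ι → F))
    (hQ : (QuadraticMap.polarBilin Q).Nondegenerate)
    (G₀ : ↥(Cfsg.Geo.quadSimilarityGroup (⇑Q))) (c₀ : Fˣ)
    (hg₀ : ∀ v, Q (((G₀ : GL ι F) : Matrix ι ι F) *ᵥ v) = (c₀ : F) * Q v)
    (hc₀ : ¬ IsSquare (c₀ : F))
    (hneg : negEl Q ∈ Cfsg.Omega F ⇑Q) (v : ι → F) (hv : Q v = 1) :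
    conjAut' (⇑Q) G₀ * conjAut' (⇑Q) (reflSim Q v) * (conjAut' (⇑Q) G₀)⁻¹ *
      (conjAut' (⇑Q) (reflSim Q v))⁻¹ ∉
      (Cfsg.Inn (Cfsg.POmega F ⇑Q)).subgroupOf (Cfsg.pgoAut F ⇑Q) := by
  intro hmem
  have hmem' := Subgroup.mem_subgroupOf.1 hmem
  have h0 : ((conjAut' (⇑Q) G₀ * conjAut' (⇑Q) (reflSim Q v) * (conjAut' (⇑Q) G₀)⁻¹ *
      (conjAut' (⇑Q) (reflSim Q v))⁻¹ : ↥(Cfsg.pgoAut F ⇑Q)) : MulAut (Cfsg.POmega F ⇑Q)) =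
      conjAut (⇑Q) (G₀ * reflSim Q v * G₀⁻¹ * (reflSim Q v)⁻¹) :=
    calc ((conjAut' (⇑Q) G₀ * conjAut' (⇑Q) (reflSim Q v) * (conjAut' (⇑Q) G₀)⁻¹ *
          (conjAut' (⇑Q) (reflSim Q v))⁻¹ : ↥(Cfsg.pgoAut F ⇑Q)) : MulAut (Cfsg.POmega F ⇑Q))
        = conjAut (⇑Q) G₀ * conjAut (⇑Q) (reflSim Q v) * (conjAut (⇑Q) G₀)⁻¹ *
          (conjAut (⇑Q) (reflSim Q v))⁻¹ := rfl
      _ = conjAut (⇑Q) (G₀ * reflSim Q v * G₀⁻¹ * (reflSim Q v)⁻¹) := by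
        rw [(conjAut (⇑Q)).map_mul, (conjAut (⇑Q)).map_mul, (conjAut (⇑Q)).map_mul,
          (conjAut (⇑Q)).map_inv, (conjAut (⇑Q)).map_inv]
  rw [h0] at hmem'
  exact comm_not_inn h2 hn Q hQ G₀ c₀ hg₀ hc₀ hneg v hv hmem'

/-- `-1 ∈ Ω`: `PGO / Inn` is dihedral of order eight -/
theorem pgo_mod_inn_d8 (h2 : (2 : F) ≠ 0) (m : ℕ) (hm : Fintype.card ι = 2 * m)
    (hn : 6 ≤ Fintype.card ι) (Q : QuadraticForm F (ι → F))
    (hQ : (QuadraticMap.polarBilin Q).Nondegenerate) (g₀ : GL ι F) (c₀ : Fˣ)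
    (hg₀ : ∀ v, Q ((g₀ : Matrix ι ι F) *ᵥ v) = (c₀ : F) * Q v) (hc₀ : ¬ IsSquare (c₀ : F))
    (hneg : negEl Q ∈ Cfsg.Omega F ⇑Q) :
    ∃ φ : ↥(Cfsg.pgoAut F ⇑Q) →* DihedralGroup 4,
      Function.Surjective φ ∧
        φ.ker = (Cfsg.Inn (Cfsg.POmega F ⇑Q)).subgroupOf (Cfsg.pgoAut F ⇑Q) := by
  have hidx := inn_index_pgo h2 m hm hn Q hQ g₀ c₀ hg₀ hc₀ hneg
  have hv := universal Q hQ (by omega) 1 one_ne_zero
  have hnorm : ((Cfsg.Inn (Cfsg.POmega F ⇑Q)).subgroupOf (Cfsg.pgoAut F ⇑Q)).Normal :=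
    Subgroup.normal_subgroupOf
  exact @D8.d8_quot _ _ ((Cfsg.Inn (Cfsg.POmega F ⇑Q)).subgroupOf (Cfsg.pgoAut F ⇑Q)) hnorm hidx
    (conjAut' (⇑Q) (reflSim Q hv.choose)) (conjAut' (⇑Q) ⟨g₀, ⟨c₀, hg₀⟩⟩)
    (conjAut'_sq Q hv.choose)
    (conjAut'_comm h2 hn Q hQ ⟨g₀, ⟨c₀, hg₀⟩⟩ c₀ hg₀ hc₀ hneg hv.choose hv.choose_spec)

/-- the structure of `PGO / Inn` -/
theorem pgo_mod_inn (h2 : (2 : F) ≠ 0) (m : ℕ) (hm : Fintype.card ι = 2 * m)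
    (hn : 6 ≤ Fintype.card ι) (Q : QuadraticForm F (ι → F))
    (hQ : (QuadraticMap.polarBilin Q).Nondegenerate) (g₀ : GL ι F) (c₀ : Fˣ)
    (hg₀ : ∀ v, Q ((g₀ : Matrix ι ι F) *ᵥ v) = (c₀ : F) * Q v) (hc₀ : ¬ IsSquare (c₀ : F)) :
    ((∃ g : ↥(Cfsg.isometryGroup F ⇑Q), g ∈ Cfsg.Omega F ⇑Q ∧
        ((g : GL ι F) : Matrix ι ι F) = -1) →
      ∃ φ : ↥(Cfsg.pgoAut F ⇑Q) →* DihedralGroup 4,
        Function.Surjective φ ∧
          φ.ker = (Cfsg.Inn (Cfsg.POmega F ⇑Q)).subgroupOf (Cfsg.pgoAut F ⇑Q)) ∧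
    ((¬ ∃ g : ↥(Cfsg.isometryGroup F ⇑Q), g ∈ Cfsg.Omega F ⇑Q ∧
        ((g : GL ι F) : Matrix ι ι F) = -1) →
      ∃ φ : ↥(Cfsg.pgoAut F ⇑Q) →* Multiplicative (ZMod 2 × ZMod 2),
        Function.Surjective φ ∧
          φ.ker = (Cfsg.Inn (Cfsg.POmega F ⇑Q)).subgroupOf (Cfsg.pgoAut F ⇑Q)) := by
  constructor
  · rintro ⟨g, hg, hg1⟩
    have hgn : g = negEl Q := isom_ext Q g (negEl Q) (by rw [hg1, negEl_coe])
    rw [hgn] at hg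
    exact pgo_mod_inn_d8 h2 m hm hn Q hQ g₀ c₀ hg₀ hc₀ hg
  · intro h
    apply pgo_mod_inn_four h2 m hm hn Q hQ g₀ c₀ hg₀ hc₀
    intro hneg
    exact h ⟨negEl Q, hneg, negEl_coe Q⟩

end d8

end Cfsg.Agent.Lib.helper13.OA
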