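import Mathlib
import Cfsg.Prelude.Def_LieTypeDatum
import Cfsg.Agent.Lib.helper13.OrthAut4
import Cfsg.Agent.Lib.helper13.MaxTS
import Cfsg.Agent.Lib.helper13.WittGood
import Cfsg.Agent.Lib.helper4.OrthRc

set_option autoImplicit false
set_option linter.unusedSectionVars false
set_option linter.unusedVariables false
set_option linter.style.longLine false

/-!
A special isometry of non-square spinor norm commuting with a similarity whose square is a
scalar.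
-/

namespace Cfsg.Agent.Lib.helper13.OA

open Matrix

section cent

open Cfsg.Agent.Lib.helper4

variable {F : Type*} [Field F] [Fintype F] {ι : Type} [Fintype ι] [DecidableEq ι]

/-- orthogonal reflections commute -/
theorem refl_comm (Q : QuadraticForm F (ι → F)) (a b : ι → F)
    (hab : QuadraticMap.polar (⇑Q) a b = 0) :
    Cfsg.reflectionMatrix (⇑Q) a * Cfsg.reflectionMatrix (⇑Q) b =
      Cfsg.reflectionMatrix (⇑Q) b * Cfsg.reflectionMatrix (⇑Q) a := by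
  apply Matrix.mulVec_injective
  funext x
  have hba : QuadraticMap.polar (⇑Q) b a = 0 := by rw [QuadraticMap.polar_comm]; exact hab
  rw [← Matrix.mulVec_mulVec, ← Matrix.mulVec_mulVec, refl_mulVec, refl_mulVec, refl_mulVec,
    refl_mulVec, QuadraticMap.polar_sub_right, QuadraticMap.polar_sub_right,
    QuadraticMap.polar_smul_right, QuadraticMap.polar_smul_right, hab, hba]
  simp only [smul_eq_mul, mul_zero, sub_zero]
  abel

theorem polar_mat (Q : QuadraticForm F (ι → F)) (A : Matrix ι ι F) (μ : F)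
    (hA : ∀ v, Q (A *ᵥ v) = μ * Q v) (x y : ι → F) :
    QuadraticMap.polar (⇑Q) (A *ᵥ x) (A *ᵥ y) = μ * QuadraticMap.polar (⇑Q) x y := by
  unfold QuadraticMap.polar
  rw [← Matrix.mulVec_add, hA, hA, hA]
  ring

theorem refl_conj_mat (Q : QuadraticForm F (ι → F)) (A : Matrix ι ι F) (μ : F)
    (hA : ∀ v, Q (A *ᵥ v) = μ * Q v) (hμ : μ ≠ 0) (v : ι → F) (hv : Q v ≠ 0) :
    A * Cfsg.reflectionMatrix (⇑Q) v = Cfsg.reflectionMatrix (⇑Q) (A *ᵥ v) * A := by
  apply Matrix.mulVec_injective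
  funext x
  rw [← Matrix.mulVec_mulVec, ← Matrix.mulVec_mulVec, refl_mulVec, refl_mulVec,
    Matrix.mulVec_sub, Matrix.mulVec_smul, polar_mat Q A μ hA, hA v]
  congr 2
  field_simp

/-- the product of the reflections in `y` and `A y` commutes with `A` when `y ⟂ A y` -/
theorem pair_comm (Q : QuadraticForm F (ι → F)) (A : Matrix ι ι F) (μ lam : F)
    (hA : ∀ v, Q (A *ᵥ v) = μ * Q v) (hμ : μ ≠ 0) (hlam : lam ≠ 0)
    (hAA : ∀ v, A *ᵥ (A *ᵥ v) = lam • v) (y : ι → F) (hy : Q y ≠ 0)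
    (hyy : QuadraticMap.polar (⇑Q) y (A *ᵥ y) = 0) :
    A * (Cfsg.reflectionMatrix (⇑Q) y * Cfsg.reflectionMatrix (⇑Q) (A *ᵥ y)) =
      (Cfsg.reflectionMatrix (⇑Q) y * Cfsg.reflectionMatrix (⇑Q) (A *ᵥ y)) * A := by
  have hgy : Q (A *ᵥ y) ≠ 0 := by rw [hA]; exact mul_ne_zero hμ hy
  rw [← Matrix.mul_assoc, refl_conj_mat Q A μ hA hμ y hy, Matrix.mul_assoc,
    refl_conj_mat Q A μ hA hμ _ hgy, hAA, refl_smul Q y lam hlam, ← Matrix.mul_assoc,
    refl_comm Q y _ hyy]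

theorem polar_adj (Q : QuadraticForm F (ι → F)) (A : Matrix ι ι F) (μ : F)
    (hA : ∀ v, Q (A *ᵥ v) = μ * Q v) (hμ : μ ≠ 0)
    (hAA : ∀ v, A *ᵥ (A *ᵥ v) = μ • v) (x y : ι → F) :
    QuadraticMap.polar (⇑Q) (A *ᵥ x) y = QuadraticMap.polar (⇑Q) x (A *ᵥ y) := by
  have h1 := polar_mat Q A μ hA x (A *ᵥ y)
  rw [hAA, QuadraticMap.polar_smul_right, smul_eq_mul] at h1
  exact mul_left_cancel₀ hμ h1

omit [Fintype ι] [DecidableEq ι] in
theorem isSquare_mul_inv_of_nonsq (h2 : (2 : F) ≠ 0) (a b : F) (ha : ¬ IsSquare a)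
    (hb : ¬ IsSquare b) : IsSquare (a * b⁻¹) := by
  have ha0 : a ≠ 0 := by
    rintro rfl
    exact ha ⟨0, by simp⟩
  have hb0 : b ≠ 0 := by
    rintro rfl
    exact hb ⟨0, by simp⟩
  rw [← chiU_one_iff, chiU_mul _ _ ha0 (inv_ne_zero hb0), chiU_inv _ hb0,
    (chiU_neg_one_iff a).2 ha, (chiU_neg_one_iff b).2 hb]
  decide

/-- two `A`-orthogonal vectors with independent values give a non-singular vector `y ⟂ A y` -/
theorem exists_perp_of_pair (h2 : (2 : F) ≠ 0) (Q : QuadraticForm F (ι → F)) (A : Matrix ι ι F)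
    (μ : F) (hA : ∀ v, Q (A *ᵥ v) = μ * Q v) (hμ : μ ≠ 0)
    (hAA : ∀ v, A *ᵥ (A *ᵥ v) = μ • v) (hμsq : ¬ IsSquare μ) (x₀ x₁ : ι → F)
    (h01 : QuadraticMap.polar (⇑Q) x₀ x₁ = 0)
    (h01' : QuadraticMap.polar (⇑Q) x₀ (A *ᵥ x₁) = 0)
    (hD : Q x₀ * QuadraticMap.polar (⇑Q) x₁ (A *ᵥ x₁) -
      Q x₁ * QuadraticMap.polar (⇑Q) x₀ (A *ᵥ x₀) ≠ 0) :
    ∃ y, Q y ≠ 0 ∧ QuadraticMap.polar (⇑Q) y (A *ᵥ y) = 0 := by
  obtain ⟨t₀, ht₀⟩ : ∃ t, t = QuadraticMap.polar (⇑Q) x₀ (A *ᵥ x₀) := ⟨_, rfl⟩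
  obtain ⟨t₁, ht₁⟩ : ∃ t, t = QuadraticMap.polar (⇑Q) x₁ (A *ᵥ x₁) := ⟨_, rfl⟩
  rw [← ht₀, ← ht₁] at hD
  by_cases ht : t₁ = 0
  · refine ⟨x₁, ?_, by rw [← ht₁]; exact ht⟩
    intro h
    apply hD
    rw [ht, h]
    ring
  · have h10 : QuadraticMap.polar (⇑Q) x₁ x₀ = 0 := by
      rw [QuadraticMap.polar_comm]; exact h01
    have h10' : QuadraticMap.polar (⇑Q) x₁ (A *ᵥ x₀) = 0 := by
      rw [← polar_adj Q A μ hA hμ hAA, QuadraticMap.polar_comm]; exact h01'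
    have h11 : QuadraticMap.polar (⇑Q) (A *ᵥ x₁) x₁ = t₁ := by
      rw [QuadraticMap.polar_comm, ht₁]
    have h1010 : QuadraticMap.polar (⇑Q) (A *ᵥ x₁) (A *ᵥ x₀) = 0 := by
      rw [polar_mat Q A μ hA, h10, mul_zero]
    have hc : ∃ y, Q y = Q x₀ + (-t₀ / t₁) * Q x₁ ∧
        QuadraticMap.polar (⇑Q) y (A *ᵥ y) = t₀ + (-t₀ / t₁) * t₁ := by
      by_cases hsq : IsSquare (-t₀ / t₁)
      · obtain ⟨α, hα⟩ := hsq
        refine ⟨x₀ + α • x₁, ?_, ?_⟩
        · rw [QuadraticMap.map_add (⇑Q), QuadraticMap.map_smul, QuadraticMap.polar_smul_right, h01, hα]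
          simp only [smul_eq_mul]
          ring
        · rw [Matrix.mulVec_add, Matrix.mulVec_smul]
          simp only [QuadraticMap.polar_add_left, QuadraticMap.polar_add_right,
            QuadraticMap.polar_smul_left, QuadraticMap.polar_smul_right, smul_eq_mul, h01', h10',
            ← ht₀, ← ht₁, hα]
          ring
      · obtain ⟨β, hβ⟩ := isSquare_mul_inv_of_nonsq h2 _ _ hsq hμsq
        have hβ' : -t₀ / t₁ = μ * (β * β) := by
          rw [← hβ]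
          field_simp
        refine ⟨x₀ + β • (A *ᵥ x₁), ?_, ?_⟩
        · rw [QuadraticMap.map_add (⇑Q), QuadraticMap.map_smul, QuadraticMap.polar_smul_right, h01',
            hA, hβ']
          simp only [smul_eq_mul]
          ring
        · rw [Matrix.mulVec_add, Matrix.mulVec_smul, hAA]
          simp only [QuadraticMap.polar_add_left, QuadraticMap.polar_add_right,
            QuadraticMap.polar_smul_left, QuadraticMap.polar_smul_right, smul_eq_mul, h01, h1010,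
            h11, ← ht₀, hβ']
          ring
    obtain ⟨y, hy1, hy2⟩ := hc
    refine ⟨y, ?_, ?_⟩
    · rw [hy1]
      intro h
      apply hD
      field_simp at h
      linear_combination h
    · rw [hy2]
      field_simp
      ring

/-- `A² = μ` with `μ` a non-square: a non-singular vector `y` with `y ⟂ A y` -/
theorem exists_perp (h2 : (2 : F) ≠ 0) (Q : QuadraticForm F (ι → F))
    (hQ : (QuadraticMap.polarBilin Q).Nondegenerate) (m : ℕ) (hm : Fintype.card ι = 2 * m)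
    (h3 : 3 ≤ m) (A : Matrix ι ι F)
    (μ : F) (hA : ∀ v, Q (A *ᵥ v) = μ * Q v) (hμ : μ ≠ 0)
    (hAA : ∀ v, A *ᵥ (A *ᵥ v) = μ • v) (hμsq : ¬ IsSquare μ) :
    ∃ y, Q y ≠ 0 ∧ QuadraticMap.polar (⇑Q) y (A *ᵥ y) = 0 := by
  classical
  obtain ⟨x₀, hx₀⟩ := universal Q hQ (by omega) 1 one_ne_zero
  have hex : ∃ x₁, QuadraticMap.polar (⇑Q) x₀ x₁ = 0 ∧
      QuadraticMap.polar (⇑Q) (A *ᵥ x₀) x₁ = 0 ∧ Q x₁ ≠ 0 := by
    by_contra hcon
    push Not at hcon
    obtain ⟨U, hU⟩ : ∃ U : Submodule F (ι → F),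
        U = Submodule.span F ((({x₀, A *ᵥ x₀} : Finset (ι → F)) : Set (ι → F))) := ⟨_, rfl⟩
    have hUfin : Module.finrank F ↥U ≤ 2 := by
      rw [hU]
      exact (finrank_span_finset_le_card _).trans Finset.card_le_two
    have hx₀U : x₀ ∈ U := by
      rw [hU]
      exact Submodule.subset_span (by simp)
    have hAx₀U : A *ᵥ x₀ ∈ U := by
      rw [hU]
      exact Submodule.subset_span (by simp)
    have hW : ∀ x ∈ orthSub Q U, Q x = 0 := fun x hx =>
      hcon x ((mem_orthSub Q U x).1 hx x₀ hx₀U) ((mem_orthSub Q U x).1 hx _ hAx₀U)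
    have h1 := Submodule.finrank_mono (ts_le_orthSub Q (orthSub Q U) hW)
    have h4 := finrank_orthSub Q hQ U
    have h5 := finrank_orthSub Q hQ (orthSub Q U)
    omega
  obtain ⟨x₁, h01, h01a, hx₁⟩ := hex
  have h01' : QuadraticMap.polar (⇑Q) x₀ (A *ᵥ x₁) = 0 := by
    rw [← polar_adj Q A μ hA hμ hAA]; exact h01a
  by_cases hD : Q x₀ * QuadraticMap.polar (⇑Q) x₁ (A *ᵥ x₁) -
      Q x₁ * QuadraticMap.polar (⇑Q) x₀ (A *ᵥ x₀) = 0
  · apply exists_perp_of_pair h2 Q A μ hA hμ hAA hμsq x₀ (x₁ + A *ᵥ x₁)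
    · rw [QuadraticMap.polar_add_right, h01, h01', add_zero]
    · rw [Matrix.mulVec_add, hAA, QuadraticMap.polar_add_right, QuadraticMap.polar_smul_right,
        h01, h01', smul_zero, add_zero]
    · intro hD'
      apply hμsq
      obtain ⟨t₀, ht₀⟩ : ∃ t, t = QuadraticMap.polar (⇑Q) x₀ (A *ᵥ x₀) := ⟨_, rfl⟩
      obtain ⟨t₁, ht₁⟩ : ∃ t, t = QuadraticMap.polar (⇑Q) x₁ (A *ᵥ x₁) := ⟨_, rfl⟩
      have h11 : QuadraticMap.polar (⇑Q) (A *ᵥ x₁) x₁ = t₁ := by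
        rw [QuadraticMap.polar_comm, ht₁]
      have e1 : Q (x₁ + A *ᵥ x₁) = Q x₁ + μ * Q x₁ + t₁ := by
        rw [QuadraticMap.map_add (⇑Q), hA, ht₁]
      have e2 : QuadraticMap.polar (⇑Q) (x₁ + A *ᵥ x₁) (A *ᵥ (x₁ + A *ᵥ x₁)) =
          (1 + μ) * t₁ + 4 * μ * Q x₁ := by
        rw [Matrix.mulVec_add, hAA]
        simp only [QuadraticMap.polar_add_left, QuadraticMap.polar_add_right,
          QuadraticMap.polar_smul_left, QuadraticMap.polar_smul_right, smul_eq_mul, h11, ← ht₁,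
          polar_self_eq, hA]
        ring
      rw [e1, e2, hx₀, ← ht₀] at hD'
      rw [hx₀, ← ht₀, ← ht₁] at hD
      have h5 : Q x₁ * (t₀ ^ 2 - 4 * μ) = 0 := by
        linear_combination (-1 : F) * hD' + (1 + μ - t₀) * hD
      rcases mul_eq_zero.1 h5 with h | h
      · exact absurd h hx₁
      · refine ⟨t₀ / 2, ?_⟩
        field_simp
        linear_combination (-1 : F) * h
  · exact exists_perp_of_pair h2 Q A μ hA hμ hAA hμsq x₀ x₁ h01 h01' hD

/-- the eigenspace of a matrix -/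
def eigSub (A : Matrix ι ι F) (t : F) : Submodule F (ι → F) where
  carrier := {x | A *ᵥ x = t • x}
  add_mem' := by
    intro a b ha hb
    have ha' : A *ᵥ a = t • a := ha
    have hb' : A *ᵥ b = t • b := hb
    show A *ᵥ (a + b) = t • (a + b)
    rw [Matrix.mulVec_add, smul_add, ha', hb']
  zero_mem' := by
    show A *ᵥ 0 = t • (0 : ι → F)
    rw [Matrix.mulVec_zero, smul_zero]
  smul_mem' := by
    intro c x hx
    have hx' : A *ᵥ x = t • x := hx
    show A *ᵥ (c • x) = t • (c • x)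
    rw [Matrix.mulVec_smul, hx', smul_comm]

theorem mem_eigSub (A : Matrix ι ι F) (t : F) (x : ι → F) :
    x ∈ eigSub A t ↔ A *ᵥ x = t • x := Iff.rfl

theorem eig_orth (h2 : (2 : F) ≠ 0) (Q : QuadraticForm F (ι → F)) (A : Matrix ι ι F) (t : F)
    (ht : t ≠ 0) (hA : ∀ v, Q (A *ᵥ v) = (t * t) * Q v) (x y : ι → F) (hx : A *ᵥ x = t • x)
    (hy : A *ᵥ y = (-t) • y) : QuadraticMap.polar (⇑Q) x y = 0 := by
  have h1 := polar_mat Q A (t * t) hA x y
  rw [hx, hy, QuadraticMap.polar_smul_left, QuadraticMap.polar_smul_right] at h1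
  simp only [smul_eq_mul] at h1
  have h3 : (2 * t * t) * QuadraticMap.polar (⇑Q) x y = 0 := by linear_combination (-1 : F) * h1
  rcases mul_eq_zero.1 h3 with h | h
  · exact absurd h (mul_ne_zero (mul_ne_zero h2 ht) ht)
  · exact h

theorem eig_plus_mem (A : Matrix ι ι F) (t : F) (hAA : ∀ v, A *ᵥ (A *ᵥ v) = (t * t) • v)
    (v : ι → F) : t • v + A *ᵥ v ∈ eigSub A t := by
  rw [mem_eigSub, Matrix.mulVec_add, Matrix.mulVec_smul, hAA, smul_add, smul_smul]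
  abel

theorem eig_minus_mem (A : Matrix ι ι F) (t : F) (hAA : ∀ v, A *ᵥ (A *ᵥ v) = (t * t) • v)
    (v : ι → F) : t • v - A *ᵥ v ∈ eigSub A (-t) := by
  rw [mem_eigSub, Matrix.mulVec_sub, Matrix.mulVec_smul, hAA, smul_sub, smul_smul]
  module

theorem eig_good (h2 : (2 : F) ≠ 0) (Q : QuadraticForm F (ι → F))
    (hQ : (QuadraticMap.polarBilin Q).Nondegenerate) (A : Matrix ι ι F) (t : F)
    (ht : t ≠ 0) (hA : ∀ v, Q (A *ᵥ v) = (t * t) * Q v)
    (hAA : ∀ v, A *ᵥ (A *ᵥ v) = (t * t) • v) : GoodSub Q (eigSub A t) := by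
  intro x hx hxy
  apply hQ.1
  intro v
  rw [QuadraticMap.polarBilin_apply_apply]
  have h1 := hxy _ (eig_plus_mem A t hAA v)
  have h2' := eig_orth h2 Q A t ht hA x _ hx (eig_minus_mem A t hAA v)
  have hsum : (t • v + A *ᵥ v) + (t • v - A *ᵥ v) = (2 * t) • v := by module
  have h3 : QuadraticMap.polar (⇑Q) x ((2 * t) • v) = 0 := by
    rw [← hsum, QuadraticMap.polar_add_right, h1, h2', add_zero]
  rw [QuadraticMap.polar_smul_right, smul_eq_mul] at h3
  rcases mul_eq_zero.1 h3 with h | h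
  · exact absurd h (mul_ne_zero h2 ht)
  · exact h

theorem eig_finrank (h2 : (2 : F) ≠ 0) (A : Matrix ι ι F) (t : F) (ht : t ≠ 0)
    (hAA : ∀ v, A *ᵥ (A *ᵥ v) = (t * t) • v) :
    Fintype.card ι ≤ Module.finrank F ↥(eigSub A t) + Module.finrank F ↥(eigSub A (-t)) := by
  have htop : eigSub A t ⊔ eigSub A (-t) = ⊤ := by
    rw [eq_top_iff]
    intro v _
    have hsum : (2 * t)⁻¹ • (t • v + A *ᵥ v) + (2 * t)⁻¹ • (t • v - A *ᵥ v) = v := by
      have h5 : (2 * t)⁻¹ • (t • v + A *ᵥ v) + (2 * t)⁻¹ • (t • v - A *ᵥ v) =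
          ((2 * t)⁻¹ * (2 * t)) • v := by module
      rw [h5, inv_mul_cancel₀ (mul_ne_zero h2 ht), one_smul]
    rw [← hsum]
    exact Submodule.add_mem_sup (Submodule.smul_mem _ _ (eig_plus_mem A t hAA v))
      (Submodule.smul_mem _ _ (eig_minus_mem A t hAA v))
  have h1 := Submodule.finrank_add_le_finrank_add_finrank (eigSub A t) (eigSub A (-t))
  rw [htop, finrank_top, Module.finrank_fintype_fun_eq_card] at h1
  exact h1

theorem eig_comm (Q : QuadraticForm F (ι → F)) (A : Matrix ι ι F) (μ : F)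
    (hA : ∀ v, Q (A *ᵥ v) = μ * Q v) (hμ : μ ≠ 0) (t : F) (ht : t ≠ 0) (x : ι → F)
    (hx : A *ᵥ x = t • x) (hQx : Q x ≠ 0) :
    A * Cfsg.reflectionMatrix (⇑Q) x = Cfsg.reflectionMatrix (⇑Q) x * A := by
  rw [refl_conj_mat Q A μ hA hμ x hQx, hx, refl_smul Q x t ht]

/-- `A² = ν²`: two eigenvectors of prescribed norms -/
theorem exists_eig_pair (h2 : (2 : F) ≠ 0) (Q : QuadraticForm F (ι → F))
    (hQ : (QuadraticMap.polarBilin Q).Nondegenerate) (hn : 4 ≤ Fintype.card ι)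
    (A : Matrix ι ι F) (ν : F) (hν : ν ≠ 0) (hA : ∀ v, Q (A *ᵥ v) = (ν * ν) * Q v)
    (hAA : ∀ v, A *ᵥ (A *ᵥ v) = (ν * ν) • v) (c : F) (hc0 : c ≠ 0) :
    ∃ a b : ι → F, Q a = 1 ∧ Q b = c ∧
      A * (Cfsg.reflectionMatrix (⇑Q) a * Cfsg.reflectionMatrix (⇑Q) b) =
        (Cfsg.reflectionMatrix (⇑Q) a * Cfsg.reflectionMatrix (⇑Q) b) * A := by
  have hfin := eig_finrank h2 A ν hν hAA
  have key : ∀ t : F, t ≠ 0 → t * t = ν * ν → 2 ≤ Module.finrank F ↥(eigSub A t) →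
      ∃ a b : ι → F, Q a = 1 ∧ Q b = c ∧
      A * (Cfsg.reflectionMatrix (⇑Q) a * Cfsg.reflectionMatrix (⇑Q) b) =
        (Cfsg.reflectionMatrix (⇑Q) a * Cfsg.reflectionMatrix (⇑Q) b) * A := by
    intro t ht htt hdim
    have hA' : ∀ v, Q (A *ᵥ v) = (t * t) * Q v := by rw [htt]; exact hA
    have hAA' : ∀ v, A *ᵥ (A *ᵥ v) = (t * t) • v := by rw [htt]; exact hAA
    have hgood := eig_good h2 Q hQ A t ht hA' hAA'
    obtain ⟨a, ha, hQa⟩ := good_universal Q hQ _ hgood hdim 1 one_ne_zero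
    obtain ⟨b, hb, hQb⟩ := good_universal Q hQ _ hgood hdim c hc0
    refine ⟨a, b, hQa, hQb, ?_⟩
    have ha0 : Q a ≠ 0 := by rw [hQa]; exact one_ne_zero
    have hb0 : Q b ≠ 0 := by rw [hQb]; exact hc0
    rw [← Matrix.mul_assoc, eig_comm Q A (t * t) hA' (mul_ne_zero ht ht) t ht a ha ha0,
      Matrix.mul_assoc, eig_comm Q A (t * t) hA' (mul_ne_zero ht ht) t ht b hb hb0,
      Matrix.mul_assoc]
  by_cases h : 2 ≤ Module.finrank F ↥(eigSub A ν)
  · exact key ν hν rfl h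
  · exact key (-ν) (neg_ne_zero.2 hν) (by ring) (by omega)

theorem refl_two (Q : QuadraticForm F (ι → F)) (a b x : ι → F) :
    (Cfsg.reflectionMatrix (⇑Q) a * Cfsg.reflectionMatrix (⇑Q) b) *ᵥ x =
      x - ((Q b)⁻¹ * QuadraticMap.polar (⇑Q) b x) • b -
        ((Q a)⁻¹ * (QuadraticMap.polar (⇑Q) a x -
          (Q b)⁻¹ * QuadraticMap.polar (⇑Q) b x * QuadraticMap.polar (⇑Q) a b)) • a := by
  rw [← Matrix.mulVec_mulVec, refl_mulVec, refl_mulVec, QuadraticMap.polar_sub_right,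
    QuadraticMap.polar_smul_right, smul_eq_mul]

theorem Q_comb (Q : QuadraticForm F (ι → F)) (u v : ι → F) (α β : F)
    (huv : QuadraticMap.polar (⇑Q) u v = 0) :
    Q (α • u + β • v) = α ^ 2 * Q u + β ^ 2 * Q v := by
  rw [QuadraticMap.map_add (⇑Q), QuadraticMap.map_smul, QuadraticMap.map_smul,
    QuadraticMap.polar_smul_left, QuadraticMap.polar_smul_right, huv]
  simp only [smul_eq_mul, mul_zero, add_zero]
  ring

/-- rotations of a plane commute with the quarter turn -/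
theorem rot_eq (Q : QuadraticForm F (ι → F)) (u v : ι → F) (μ α β : F) (hu : Q u = 1)
    (hv : Q v = μ) (huv : QuadraticMap.polar (⇑Q) u v = 0) (hμ : μ ≠ 0)
    (hN : α ^ 2 + μ * β ^ 2 ≠ 0) :
    Cfsg.reflectionMatrix (⇑Q) v * Cfsg.reflectionMatrix (⇑Q) (α • v - (β * μ) • u) =
      Cfsg.reflectionMatrix (⇑Q) u * Cfsg.reflectionMatrix (⇑Q) (α • u + β • v) := by
  apply Matrix.mulVec_injective
  funext x
  have hvu : QuadraticMap.polar (⇑Q) v u = 0 := by rw [QuadraticMap.polar_comm]; exact huv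
  have hQw : Q (α • u + β • v) = α ^ 2 + μ * β ^ 2 := by
    rw [Q_comb Q u v α β huv, hu, hv]
    ring
  have hQw' : Q (α • v - (β * μ) • u) = μ * (α ^ 2 + μ * β ^ 2) := by
    rw [sub_eq_add_neg, ← neg_smul, Q_comb Q v u α _ hvu, hu, hv]
    ring
  rw [refl_two, refl_two, hQw, hQw', hu, hv]
  simp only [QuadraticMap.polar_add_left, QuadraticMap.polar_sub_left,
    QuadraticMap.polar_smul_left, QuadraticMap.polar_add_right, QuadraticMap.polar_sub_right,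
    QuadraticMap.polar_smul_right, smul_eq_mul, huv, hvu, polar_self_eq, hu, hv]
  match_scalars <;> field_simp <;> ring

/-- `A² = -μ`: a plane rotation of non-square spinor norm commuting with `A` -/
theorem exists_rot (h2 : (2 : F) ≠ 0) (Q : QuadraticForm F (ι → F))
    (hQ : (QuadraticMap.polarBilin Q).Nondegenerate) (hn : 2 ≤ Fintype.card ι)
    (A : Matrix ι ι F) (μ : F) (hA : ∀ v, Q (A *ᵥ v) = μ * Q v) (hμ : μ ≠ 0)
    (hAA : ∀ v, A *ᵥ (A *ᵥ v) = (-μ) • v) (c : F) (hc : ¬ IsSquare c) :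
    ∃ a b : ι → F, Q a ≠ 0 ∧ Q b ≠ 0 ∧ ¬ IsSquare (Q a * Q b) ∧
      A * (Cfsg.reflectionMatrix (⇑Q) a * Cfsg.reflectionMatrix (⇑Q) b) =
        (Cfsg.reflectionMatrix (⇑Q) a * Cfsg.reflectionMatrix (⇑Q) b) * A := by
  have hc0 : c ≠ 0 := by
    rintro rfl
    exact hc ⟨0, by simp⟩
  obtain ⟨u, hu⟩ := universal Q hQ hn 1 one_ne_zero
  obtain ⟨α, β, hαβ⟩ := exists_binary h2 1 μ c one_ne_zero hμ
  have hN : α ^ 2 + μ * β ^ 2 = c := by linear_combination hαβ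
  have huv : QuadraticMap.polar (⇑Q) u (A *ᵥ u) = 0 := by
    have h1 := polar_mat Q A μ hA u (A *ᵥ u)
    rw [hAA, QuadraticMap.polar_smul_right, QuadraticMap.polar_comm, smul_eq_mul] at h1
    have h3 : (2 * μ) * QuadraticMap.polar (⇑Q) u (A *ᵥ u) = 0 := by
      linear_combination (-1 : F) * h1
    rcases mul_eq_zero.1 h3 with h | h
    · exact absurd h (mul_ne_zero h2 hμ)
    · exact h
  have hQv : Q (A *ᵥ u) = μ := by rw [hA, hu, mul_one]
  have hu0 : Q u ≠ 0 := by rw [hu]; exact one_ne_zero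
  have hQw : Q (α • u + β • A *ᵥ u) = c := by
    rw [Q_comb Q u _ α β huv, hu, hQv, ← hN]
    ring
  have hw0 : Q (α • u + β • A *ᵥ u) ≠ 0 := by rw [hQw]; exact hc0
  have hw : A *ᵥ (α • u + β • A *ᵥ u) = α • A *ᵥ u - (β * μ) • u := by
    rw [Matrix.mulVec_add, Matrix.mulVec_smul, Matrix.mulVec_smul, hAA, smul_smul]
    module
  refine ⟨u, α • u + β • A *ᵥ u, hu0, hw0, by rw [hu, one_mul, hQw]; exact hc, ?_⟩
  rw [← Matrix.mul_assoc, refl_conj_mat Q A μ hA hμ u hu0, Matrix.mul_assoc,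
    refl_conj_mat Q A μ hA hμ _ hw0, hw, ← Matrix.mul_assoc,
    rot_eq Q u (A *ᵥ u) μ α β hu hQv huv hμ (by rw [hN]; exact hc0)]

/-- **centralising special isometry**: a similarity whose square is a scalar commutes with a
special isometry of non-square spinor norm -/
theorem exists_cent (h2 : (2 : F) ≠ 0) (Q : QuadraticForm F (ι → F))
    (hQ : (QuadraticMap.polarBilin Q).Nondegenerate) (m : ℕ) (hm : Fintype.card ι = 2 * m)
    (h3 : 3 ≤ m) (g : ↥(Cfsg.Geo.quadSimilarityGroup (⇑Q))) (lam : F)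
    (hgg : ∀ v, ((g : GL ι F) : Matrix ι ι F) *ᵥ (((g : GL ι F) : Matrix ι ι F) *ᵥ v) = lam • v)
    (c : F) (hc : ¬ IsSquare c) :
    ∃ z : ↥(Cfsg.isometryGroup F ⇑Q), ((z : GL ι F) : Matrix ι ι F).det = 1 ∧
      spin Q c z = -1 ∧
      ((g : GL ι F) : Matrix ι ι F) * ((z : GL ι F) : Matrix ι ι F) =
        ((z : GL ι F) : Matrix ι ι F) * ((g : GL ι F) : Matrix ι ι F) := by
  obtain ⟨A, hAdef⟩ : ∃ A, A = ((g : GL ι F) : Matrix ι ι F) := ⟨_, rfl⟩
  obtain ⟨μ, hμdef⟩ : ∃ μ : F, μ = (mult (⇑Q) g : F) := ⟨_, rfl⟩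
  have hμ : μ ≠ 0 := by rw [hμdef]; exact Units.ne_zero _
  have hA : ∀ v, Q (A *ᵥ v) = μ * Q v := by
    intro v
    rw [hAdef, hμdef]
    exact mult_spec (⇑Q) g v
  rw [← hAdef] at hgg
  have hc0 : c ≠ 0 := by
    rintro rfl
    exact hc ⟨0, by simp⟩
  obtain ⟨v₁, hv₁⟩ := universal Q hQ (by omega) 1 one_ne_zero
  have hlam : lam * lam = μ * μ := by
    have h1 := hA (A *ᵥ v₁)
    rw [hgg, hA, hv₁, QuadraticMap.map_smul, hv₁, smul_eq_mul, mul_one, mul_one] at h1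
    exact h1
  have hcases : lam = μ ∨ lam = -μ := by
    have h5 : (lam - μ) * (lam + μ) = 0 := by linear_combination hlam
    rcases mul_eq_zero.1 h5 with h | h
    · left; linear_combination h
    · right; linear_combination h
  have hpair : ∃ a b : ι → F, Q a ≠ 0 ∧ Q b ≠ 0 ∧ ¬ IsSquare (Q a * Q b) ∧
      A * (Cfsg.reflectionMatrix (⇑Q) a * Cfsg.reflectionMatrix (⇑Q) b) =
        (Cfsg.reflectionMatrix (⇑Q) a * Cfsg.reflectionMatrix (⇑Q) b) * A := by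
    rcases hcases with h | h
    · rw [h] at hgg
      by_cases hsq : IsSquare μ
      · obtain ⟨ν, hν⟩ := hsq
        have hν0 : ν ≠ 0 := by
          rintro rfl
          exact hμ (by rw [hν, mul_zero])
        rw [hν] at hA hgg
        obtain ⟨a, b, hQa, hQb, hab⟩ := exists_eig_pair h2 Q hQ (by omega) A ν hν0 hA hgg c hc0
        refine ⟨a, b, by rw [hQa]; exact one_ne_zero, by rw [hQb]; exact hc0,
          by rw [hQa, hQb, one_mul]; exact hc, hab⟩
      · obtain ⟨y, hy, hyy⟩ := exists_perp h2 Q hQ m hm h3 A μ hA hμ hgg hsq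
        refine ⟨y, A *ᵥ y, hy, by rw [hA]; exact mul_ne_zero hμ hy, ?_,
          pair_comm Q A μ μ hA hμ hμ hgg y hy hyy⟩
        rintro ⟨r, hr⟩
        apply hsq
        refine ⟨r / Q y, ?_⟩
        rw [hA] at hr
        field_simp
        linear_combination hr
    · rw [h] at hgg
      exact exists_rot h2 Q hQ (by omega) A μ hA hμ hgg c hc
  obtain ⟨a, b, ha, hb, hab, hcomm⟩ := hpair
  refine ⟨reflEl Q a * reflEl Q b, ?_, ?_, ?_⟩
  · rw [isom_coe_mul, Matrix.det_mul, reflEl_coe Q a ha, reflEl_coe Q b hb, refl_det Q a ha,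
      refl_det Q b hb]
    ring
  · rw [map_mul, spin_refl_nonsq h2 Q c hc a ha, spin_refl_nonsq h2 Q c hc b hb,
      ← chiU_mul _ _ ha hb]
    exact (chiU_neg_one_iff _).2 hab
  · rw [isom_coe_mul, reflEl_coe Q a ha, reflEl_coe Q b hb, ← hAdef]
    exact hcomm

end cent

end Cfsg.Agent.Lib.helper13.OA
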