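import Mathlib

set_option autoImplicit false
set_option linter.unusedSectionVars false
set_option linter.unusedVariables false
set_option linter.style.longLine false

/-!
Homomorphisms onto small groups with prescribed kernel: quotients of order two and four.
-/

namespace Cfsg.Agent.Lib.helper13.SQ

theorem quot_hom {G H : Type*} [Group G] [Group H] (N : Subgroup G) [N.Normal]
    (e : G ⧸ N ≃* H) : ∃ φ : G →* H, Function.Surjective φ ∧ φ.ker = N := by
  refine ⟨e.toMonoidHom.comp (QuotientGroup.mk' N),
    e.surjective.comp (QuotientGroup.mk'_surjective N), ?_⟩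
  ext x
  rw [MonoidHom.mem_ker, MonoidHom.comp_apply]
  show e (QuotientGroup.mk x) = 1 ↔ x ∈ N
  rw [EmbeddingLike.map_eq_one_iff, QuotientGroup.eq_one_iff]

/-- a normal subgroup of index two is the kernel of a map onto the group of order two -/
theorem c2_quot {G : Type*} [Group G] (N : Subgroup G) [N.Normal] (hN : N.index = 2) :
    ∃ φ : G →* Multiplicative (ZMod 2), Function.Surjective φ ∧ φ.ker = N := by
  have hcard : Nat.card (G ⧸ N) = 2 := hN
  have hp : Fact (Nat.Prime 2) := ⟨Nat.prime_two⟩
  have hcyc : IsCyclic (G ⧸ N) := isCyclic_of_prime_card hcard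
  have hc2 : Nat.card (G ⧸ N) = Nat.card (Multiplicative (ZMod 2)) := by
    rw [hcard, Nat.card_eq_fintype_card]
    rfl
  exact quot_hom N (mulEquivOfCyclicCardEq hc2)

/-- a normal subgroup of index four with an element whose square lies outside it is the kernel
of a map onto the cyclic group of order four -/
theorem c4_quot {G : Type*} [Group G] (N : Subgroup G) [N.Normal] (hN : N.index = 4) (x : G)
    (hx : x * x ∉ N) :
    ∃ φ : G →* Multiplicative (ZMod 4), Function.Surjective φ ∧ φ.ker = N := by
  have hcard : Nat.card (G ⧸ N) = 4 := hN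
  have hfin : Finite (G ⧸ N) := Nat.finite_of_card_ne_zero (by rw [hcard]; norm_num)
  have hne : (QuotientGroup.mk x : G ⧸ N) ^ 2 ≠ 1 := by
    rw [pow_two, ← QuotientGroup.mk_mul]
    intro h
    exact hx ((QuotientGroup.eq_one_iff _).1 h)
  have hord : orderOf (QuotientGroup.mk x : G ⧸ N) = 4 := by
    have hdvd : orderOf (QuotientGroup.mk x : G ⧸ N) ∣ 4 := by
      rw [← hcard]
      exact orderOf_dvd_natCard _
    have h1 : orderOf (QuotientGroup.mk x : G ⧸ N) ≠ 1 := by
      intro h
      apply hne
      rw [orderOf_eq_one_iff.1 h, one_pow]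
    have h2 : orderOf (QuotientGroup.mk x : G ⧸ N) ≠ 2 := by
      intro h
      apply hne
      rw [← h]
      exact pow_orderOf_eq_one _
    have h4 : orderOf (QuotientGroup.mk x : G ⧸ N) ≤ 4 := Nat.le_of_dvd (by norm_num) hdvd
    have h0 : orderOf (QuotientGroup.mk x : G ⧸ N) ≠ 0 := by
      intro h
      rw [h] at hdvd
      norm_num at hdvd
    have h3 : orderOf (QuotientGroup.mk x : G ⧸ N) ≠ 3 := by
      intro h
      rw [h] at hdvd
      norm_num at hdvd
    omega
  have hcyc : IsCyclic (G ⧸ N) :=
    isCyclic_of_orderOf_eq_card (QuotientGroup.mk x : G ⧸ N) (by rw [hord, hcard])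
  have hc4 : Nat.card (G ⧸ N) = Nat.card (Multiplicative (ZMod 4)) := by
    rw [hcard, Nat.card_eq_fintype_card]
    rfl
  exact quot_hom N (mulEquivOfCyclicCardEq hc4)

/-- a group of order four with two distinct involutions is a four-group -/
theorem klein_of_card {H : Type*} [Group H] (hH : Nat.card H = 4) (a b : H) (ha : a * a = 1)
    (hb : b * b = 1) (ha1 : a ≠ 1) (hb1 : b ≠ 1) (hab : a ≠ b) : IsKleinFour H := by
  classical
  have hfin : Finite H := Nat.finite_of_card_ne_zero (by rw [hH]; norm_num)
  have hft : Fintype H := Fintype.ofFinite H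
  have hp : Fact (Nat.Prime 2) := ⟨Nat.prime_two⟩
  have hcomm : ∀ x y : H, x * y = y * x :=
    (IsPGroup.isMulCommutative_of_card_eq_prime_sq (p := 2) (by rw [hH]; norm_num)).is_comm.comm
  have hab1 : a * b ≠ 1 := by
    intro h
    apply hab
    have h1 : a = b⁻¹ := eq_inv_of_mul_eq_one_left h
    rw [h1]
    exact inv_eq_of_mul_eq_one_left hb
  have huniv : ({1, a, b, a * b} : Finset H) = Finset.univ := by
    apply Finset.eq_univ_of_card
    rw [← Nat.card_eq_fintype_card, hH, Finset.card_insert_of_notMem, Finset.card_insert_of_notMem,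
      Finset.card_insert_of_notMem, Finset.card_singleton]
    · rw [Finset.mem_singleton]
      intro h
      apply ha1
      have h1 : 1 * b = a * b := by rw [one_mul]; exact h
      exact (mul_right_cancel h1).symm
    · rw [Finset.mem_insert, Finset.mem_singleton]
      rintro (h | h)
      · exact hab h
      · apply hb1
        have h1 : a * 1 = a * b := by rw [mul_one]; exact h
        exact (mul_left_cancel h1).symm
    · rw [Finset.mem_insert, Finset.mem_insert, Finset.mem_singleton]
      rintro (h | h | h)
      · exact ha1 h.symm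
      · exact hb1 h.symm
      · exact hab1 h.symm
  have hsq : ∀ y : H, y ^ 2 = 1 := by
    intro y
    have hy : y ∈ ({1, a, b, a * b} : Finset H) := by
      rw [huniv]
      exact Finset.mem_univ y
    rw [Finset.mem_insert, Finset.mem_insert, Finset.mem_insert, Finset.mem_singleton] at hy
    rcases hy with rfl | rfl | rfl | rfl
    · exact one_pow 2
    · rw [pow_two, ha]
    · rw [pow_two, hb]
    · rw [pow_two, mul_assoc, ← mul_assoc b, hcomm b a, mul_assoc, hb, mul_one, ha]
  refine ⟨hH, ?_⟩
  have hdvd : Monoid.exponent H ∣ 2 := Monoid.exponent_dvd_of_forall_pow_eq_one hsq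
  have hne : Monoid.exponent H ≠ 1 := by
    intro h1
    have hs := Monoid.exp_eq_one_iff.1 h1
    exact ha1 (Subsingleton.elim a 1)
  rcases (Nat.dvd_prime Nat.prime_two).1 hdvd with h | h
  · exact absurd h hne
  · exact h

/-- a normal subgroup of index four with two independent involutions modulo it is the kernel of a
map onto the four-group -/
theorem klein_quot {G : Type*} [Group G] (N : Subgroup G) [N.Normal] (hN : N.index = 4)
    (a b : G) (ha : a * a ∈ N) (hb : b * b ∈ N) (ha' : a ∉ N) (hb' : b ∉ N)
    (hab : a * b⁻¹ ∉ N) :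
    ∃ φ : G →* Multiplicative (ZMod 2 × ZMod 2), Function.Surjective φ ∧ φ.ker = N := by
  have hcard : Nat.card (G ⧸ N) = 4 := hN
  have hk : IsKleinFour (G ⧸ N) := klein_of_card hcard (QuotientGroup.mk a) (QuotientGroup.mk b)
    (by
      rw [← QuotientGroup.mk_mul]
      exact (QuotientGroup.eq_one_iff _).2 ha)
    (by
      rw [← QuotientGroup.mk_mul]
      exact (QuotientGroup.eq_one_iff _).2 hb)
    (fun h => ha' ((QuotientGroup.eq_one_iff _).1 h))
    (fun h => hb' ((QuotientGroup.eq_one_iff _).1 h))
    (by
      intro h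
      apply hab
      rw [← QuotientGroup.eq_one_iff, QuotientGroup.mk_mul, QuotientGroup.mk_inv, h,
        mul_inv_cancel])
  obtain ⟨e⟩ := IsKleinFour.nonempty_mulEquiv (G₁ := G ⧸ N)
    (G₂ := Multiplicative (ZMod 2 × ZMod 2))
  exact quot_hom N e

end Cfsg.Agent.Lib.helper13.SQ
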