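import Mathlib
import Cfsg.Prelude.Def_LieTypeDatum
import Cfsg.Agent.Lib.helper13.OrthAut4
import Cfsg.Agent.Lib.helper13.SmallQuot
import Cfsg.Agent.Lib.helper4.OrthTS2

set_option autoImplicit false
set_option linter.unusedSectionVars false
set_option linter.unusedVariables false
set_option linter.style.longLine false

/-!
Similarities preserving the two classes of maximal totally singular subspaces, and the
inner-diagonal automorphisms of `PΩ(Q)` in even dimension.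
-/

namespace Cfsg.Agent.Lib.helper13.OA

open Matrix

section psc

open Cfsg.Agent.Lib.helper4

variable {F : Type*} [Field F] {ι : Type} [Fintype ι] [DecidableEq ι]

theorem maxTS_of_isMax (Q : QuadraticForm F (ι → F))
    (hQ : (QuadraticMap.polarBilin Q).Nondegenerate) (U₀ : Submodule F (ι → F))
    (hU₀ : MaxTS Q U₀) (U : Submodule F (ι → F))
    (hU : Cfsg.IsMaxTotallySingular (⇑Q) U) : MaxTS Q U := by
  obtain ⟨M, hM, hUM⟩ := exists_maxTS_ge Q hQ U₀ hU₀ U hU.1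
  have h1 : M = U := hU.2 M hM.1 hUM
  rw [← h1]
  exact hM

theorem isMax_of_maxTS (Q : QuadraticForm F (ι → F))
    (hQ : (QuadraticMap.polarBilin Q).Nondegenerate) (U : Submodule F (ι → F))
    (hU : MaxTS Q U) : Cfsg.IsMaxTotallySingular (⇑Q) U := by
  refine ⟨hU.1, ?_⟩
  intro W hW hUW
  have h1 : W ≤ orthSub Q W := ts_le_orthSub Q W hW
  have h2 := Submodule.finrank_mono h1
  rw [finrank_orthSub Q hQ] at h2
  have h3 := Submodule.finrank_mono hUW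
  have h4 := hU.2
  have hWle : Module.finrank F ↥W ≤ Fintype.card ι := by
    have h5 := Submodule.finrank_le W
    rwa [Module.finrank_fintype_fun_eq_card] at h5
  exact (Submodule.eq_of_le_of_finrank_eq hUW (by omega)).symm

theorem img_mul (A B : Matrix ι ι F) (U : Submodule F (ι → F)) :
    Cfsg.imageSubmodule (A * B) U = Cfsg.imageSubmodule A (Cfsg.imageSubmodule B U) := by
  unfold Cfsg.imageSubmodule
  rw [Matrix.toLin'_mul, Submodule.map_comp]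

theorem gl_inj (g : GL ι F) : Function.Injective (Matrix.toLin' (g : Matrix ι ι F)) := by
  intro x y hxy
  have h1 := congrArg (fun z => ((g⁻¹ : GL ι F) : Matrix ι ι F) *ᵥ z) hxy
  simp only [Matrix.toLin'_apply, Matrix.mulVec_mulVec] at h1
  rw [← Units.val_mul, inv_mul_cancel, Units.val_one, Matrix.one_mulVec, Matrix.one_mulVec] at h1
  exact h1

theorem img_finrank (g : GL ι F) (U : Submodule F (ι → F)) :
    Module.finrank F ↥(Cfsg.imageSubmodule (g : Matrix ι ι F) U) = Module.finrank F ↥U :=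
  (LinearEquiv.finrank_eq (Submodule.equivMapOfInjective _ (gl_inj g) U)).symm

theorem img_inf (g : GL ι F) (A B : Submodule F (ι → F)) :
    Cfsg.imageSubmodule (g : Matrix ι ι F) (A ⊓ B) =
      Cfsg.imageSubmodule (g : Matrix ι ι F) A ⊓ Cfsg.imageSubmodule (g : Matrix ι ι F) B :=
  Submodule.map_inf _ (gl_inj g)

theorem img_maxTS (Q : QuadraticForm F (ι → F)) (g : ↥(Cfsg.Geo.quadSimilarityGroup (⇑Q)))
    (U : Submodule F (ι → F)) (hU : MaxTS Q U) :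
    MaxTS Q (Cfsg.imageSubmodule ((g : GL ι F) : Matrix ι ι F) U) := by
  refine ⟨?_, ?_⟩
  · intro x hx
    obtain ⟨u, hu, rfl⟩ := Submodule.mem_map.1 hx
    rw [Matrix.toLin'_apply, mult_spec (⇑Q) g, hU.1 u hu, mul_zero]
  · rw [img_finrank]
    exact hU.2

theorem imgSub_eq_img (Q : QuadraticForm F (ι → F)) (h : ↥(Cfsg.isometryGroup F ⇑Q))
    (U : Submodule F (ι → F)) :
    imgSub Q h U = Cfsg.imageSubmodule ((h : GL ι F) : Matrix ι ι F) U := rfl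

/-- **criterion**: a similarity preserves the two classes of maximal totally singular subspaces
iff its determinant is the `m`-th power of its multiplier (given a similarity `d` with the same
multiplier and this property which stabilises a maximal totally singular subspace) -/
theorem psc_iff (h2 : (2 : F) ≠ 0) (Q : QuadraticForm F (ι → F))
    (hQ : (QuadraticMap.polarBilin Q).Nondegenerate) (h0 : ∃ v, (⇑Q) v ≠ 0) (m : ℕ)
    (U₀ : Submodule F (ι → F)) (hU₀ : MaxTS Q U₀)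
    (g d : ↥(Cfsg.Geo.quadSimilarityGroup (⇑Q))) (hdm : mult (⇑Q) d = mult (⇑Q) g)
    (hdd : delta (⇑Q) h0 m d = 1)
    (hdU : Cfsg.imageSubmodule ((d : GL ι F) : Matrix ι ι F) U₀ = U₀) :
    Cfsg.PreservesSingularClasses (⇑Q) ((g : GL ι F) : Matrix ι ι F) ↔
      delta (⇑Q) h0 m g = 1 := by
  classical
  -- the isometry `h = d⁻¹ g`
  have hmh : mult (⇑Q) (d⁻¹ * g) = 1 := by
    have h1 := mult_mul (⇑Q) h0 d⁻¹ g
    have h3 : mult (⇑Q) d⁻¹ = (mult (⇑Q) d)⁻¹ := map_inv (multHom (⇑Q) h0) d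
    rw [h1, h3, hdm, inv_mul_cancel]
  have hiso : ((d⁻¹ * g : ↥(Cfsg.Geo.quadSimilarityGroup (⇑Q))) : GL ι F) ∈
      Cfsg.isometryGroup F ⇑Q := by
    rw [mem_isom_iff]
    intro u
    rw [mult_spec (⇑Q) (d⁻¹ * g), hmh, Units.val_one, one_mul]
  obtain ⟨hO, hhO⟩ : ∃ hO : ↥(Cfsg.isometryGroup F ⇑Q),
      (hO : GL ι F) = ((d⁻¹ * g : ↥(Cfsg.Geo.quadSimilarityGroup (⇑Q))) : GL ι F) :=
    ⟨⟨_, hiso⟩, rfl⟩
  have hdelta : delta (⇑Q) h0 m g = delta (⇑Q) h0 m (d⁻¹ * g) := by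
    rw [map_mul, map_inv, hdd, inv_one, one_mul]
  have hdet : ((delta (⇑Q) h0 m (d⁻¹ * g) : Fˣ) : F) = ((hO : GL ι F) : Matrix ι ι F).det := by
    rw [delta_apply, hmh, inv_one, one_pow, mul_one, Matrix.GeneralLinearGroup.val_det_apply, hhO]
  obtain ⟨vs, hvs, hprod⟩ := exists_list_of_mem Q hO (cd_odd h2 Q hQ hO)
  have hdet2 : ((hO : GL ι F) : Matrix ι ι F).det = (-1) ^ vs.length := by
    have h1 : mat Q hO = (vs.map (fun v => Cfsg.reflectionMatrix (⇑Q) v)).prod := by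
      rw [hprod]
      exact mat_reflEl_list Q vs hvs
    have h3 : ((hO : GL ι F) : Matrix ι ι F) = mat Q hO := rfl
    rw [h3, h1, refl_list_det Q vs hvs]
  have hne : (-1 : F) ≠ 1 := by
    intro h
    apply h2
    linear_combination -h
  have hiff : delta (⇑Q) h0 m g = 1 ↔ Even vs.length := by
    rw [hdelta, ← neg_one_pow_eq_one_iff_even hne, ← hdet2, ← hdet]
    constructor
    · intro h
      rw [h, Units.val_one]
    · intro h
      exact Units.ext h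
  -- the parity computation
  have hgmat : ((g : GL ι F) : Matrix ι ι F) =
      ((d : GL ι F) : Matrix ι ι F) * ((hO : GL ι F) : Matrix ι ι F) := by
    rw [hhO, ← Units.val_mul]
    congr 1
    show (g : GL ι F) = (d : GL ι F) * ((d : GL ι F)⁻¹ * (g : GL ι F))
    rw [mul_inv_cancel_left]
  have key : ∀ U : Submodule F (ι → F), MaxTS Q U →
      (Even (Module.finrank F ↥U - Module.finrank F ↥(U ⊓
        Cfsg.imageSubmodule ((g : GL ι F) : Matrix ι ι F) U)) ↔ Even vs.length) := by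
    intro U hU
    obtain ⟨W, hW⟩ : ∃ W, W = imgSub Q hO U := ⟨_, rfl⟩
    have hWmax : MaxTS Q W := by
      rw [hW]
      exact imgSub_maxTS Q hO U hU
    have himg : Cfsg.imageSubmodule ((g : GL ι F) : Matrix ι ι F) U =
        Cfsg.imageSubmodule ((d : GL ι F) : Matrix ι ι F) W := by
      rw [hgmat, img_mul, hW, imgSub_eq_img]
    have hdW : MaxTS Q (Cfsg.imageSubmodule ((d : GL ι F) : Matrix ι ι F) W) :=
      img_maxTS Q d W hWmax
    have e1 := ts_three Q hQ U U₀ (Cfsg.imageSubmodule ((d : GL ι F) : Matrix ι ι F) W)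
      hU hU₀ hdW
    have e2 := ts_three Q hQ U U₀ W hU hU₀ hWmax
    have e3 := maxTS_parity Q hQ U hU vs hvs
    rw [← hprod, ← hW] at e3
    have e4 : Module.finrank F ↥(U₀ ⊓ Cfsg.imageSubmodule ((d : GL ι F) : Matrix ι ι F) W) =
        Module.finrank F ↥(U₀ ⊓ W) := by
      have h5 : U₀ ⊓ Cfsg.imageSubmodule ((d : GL ι F) : Matrix ι ι F) W =
          Cfsg.imageSubmodule ((d : GL ι F) : Matrix ι ι F) (U₀ ⊓ W) := by
        rw [img_inf, hdU]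
      rw [h5, img_finrank]
    rw [e4] at e1
    rw [himg]
    have b1 := Submodule.finrank_mono (inf_le_left : U ⊓ U₀ ≤ U)
    have b2 := Submodule.finrank_mono (inf_le_left : U ⊓ W ≤ U)
    have b3 := Submodule.finrank_mono (inf_le_left : U ⊓
      Cfsg.imageSubmodule ((d : GL ι F) : Matrix ι ι F) W ≤ U)
    have b4 := Submodule.finrank_mono (inf_le_left : U₀ ⊓ W ≤ U₀)
    have b5 : Module.finrank F ↥U₀ = Module.finrank F ↥U := by
      have := hU.2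
      have := hU₀.2
      omega
    rw [Nat.even_iff] at e1 e2 e3 ⊢
    rw [Nat.even_iff]
    omega
  rw [hiff]
  constructor
  · intro h
    have h1 := h U₀ (isMax_of_maxTS Q hQ U₀ hU₀)
    exact (key U₀ hU₀).1 h1
  · intro h U hU
    exact (key U (maxTS_of_isMax Q hQ U₀ hU₀ U hU)).2 h

end psc

section diag

open Cfsg.Agent.Lib.helper4

variable {F : Type*} [Field F] [Fintype F] {ι : Type} [Fintype ι] [DecidableEq ι]

/-- generic description of a group of automorphisms induced by a class of similarities -/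
theorem autSub_eq (Qf : (ι → F) → F) (P : Matrix ι ι F → Prop)
    (S : Subgroup ↥(Cfsg.Geo.quadSimilarityGroup Qf))
    (hS : ∀ g : ↥(Cfsg.Geo.quadSimilarityGroup Qf), P ((g : GL ι F) : Matrix ι ι F) ↔ g ∈ S) :
    (Cfsg.autSubgroupOf fun β : Cfsg.POmega F Qf ≃* Cfsg.POmega F Qf =>
      ∃ g : GL ι F, g ∈ Cfsg.Geo.quadSimilarityGroup Qf ∧ P (g : Matrix ι ι F) ∧
        Cfsg.IsInducedBySemilinearPOmega Qf g (RingEquiv.refl F) β) = S.map (conjAut Qf) := by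
  unfold Cfsg.autSubgroupOf
  have h : {β : Cfsg.POmega F Qf ≃* Cfsg.POmega F Qf |
      ∃ g : GL ι F, g ∈ Cfsg.Geo.quadSimilarityGroup Qf ∧ P (g : Matrix ι ι F) ∧
        Cfsg.IsInducedBySemilinearPOmega Qf g (RingEquiv.refl F) β} =
      ((S.map (conjAut Qf) : Subgroup (MulAut (Cfsg.POmega F Qf))) :
        Set (MulAut (Cfsg.POmega F Qf))) := by
    ext β
    constructor
    · rintro ⟨g, hg, hP, h⟩
      exact ⟨⟨g, hg⟩, (hS ⟨g, hg⟩).1 hP, (eq_conjAut_of_induced Qf ⟨g, hg⟩ β h).symm⟩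
    · rintro ⟨g, hg, rfl⟩
      exact ⟨g, g.2, (hS g).2 hg, conjAut_induced Qf g⟩
  rw [h, Subgroup.closure_eq]

/-- the image in `Aut(PΩ)` of the similarities with `det = μ^m` -/
noncomputable def dSub (Q : QuadraticForm F (ι → F)) (h0 : ∃ v, (⇑Q) v ≠ 0) (m : ℕ) :
    Subgroup (MulAut (Cfsg.POmega F ⇑Q)) :=
  (delta (⇑Q) h0 m).ker.map (conjAut (⇑Q))

theorem mem_dSub (Q : QuadraticForm F (ι → F)) (h0 : ∃ v, (⇑Q) v ≠ 0) (m : ℕ)
    (x : ↥(Cfsg.Geo.quadSimilarityGroup (⇑Q))) (hx : delta (⇑Q) h0 m x = 1) :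
    conjAut (⇑Q) x ∈ dSub Q h0 m :=
  ⟨x, hx, rfl⟩

theorem inn_le_dSub (Q : QuadraticForm F (ι → F)) (h0 : ∃ v, (⇑Q) v ≠ 0) (m : ℕ) :
    Cfsg.Inn (Cfsg.POmega F ⇑Q) ≤ dSub Q h0 m := by
  rintro _ ⟨y, rfl⟩
  obtain ⟨s, rfl⟩ := exists_rep (⇑Q) y
  have h1 := soAut_of_omega (⇑Q) (ofO (⇑Q) s (omega_det (⇑Q) s)) s.2
  have h3 : MulAut.conj (QuotientGroup.mk s : Cfsg.POmega F ⇑Q) =
      conjAut (⇑Q) ((ofO (⇑Q) s (omega_det (⇑Q) s) : ↥(soSub (⇑Q))) :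
        ↥(Cfsg.Geo.quadSimilarityGroup (⇑Q))) := h1.symm
  rw [h3]
  exact mem_dSub Q h0 m _ (so_data Q h0 m _ (ofO (⇑Q) s (omega_det (⇑Q) s)).2).2

theorem dSub_le_pgo (Q : QuadraticForm F (ι → F)) (h0 : ∃ v, (⇑Q) v ≠ 0) (m : ℕ) :
    dSub Q h0 m ≤ Cfsg.pgoAut F ⇑Q := by
  rw [pgoAut_eq]
  exact Subgroup.map_le_range _ _

/-- the image of the similarities with `det = μ^m` has index two in `PGO` -/
theorem dSub_relIndex_pgo (h2 : (2 : F) ≠ 0) (m : ℕ) (hm : Fintype.card ι = 2 * m)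
    (hn : 6 ≤ Fintype.card ι) (Q : QuadraticForm F (ι → F))
    (hQ : (QuadraticMap.polarBilin Q).Nondegenerate) (h0 : ∃ v, (⇑Q) v ≠ 0) :
    (dSub Q h0 m).relIndex (Cfsg.pgoAut F ⇑Q) = 2 := by
  classical
  have hker : (conjAut (⇑Q)).ker ≤ (kappa h2 Q hQ h0 m hm).ker := by
    intro g hg
    rw [MonoidHom.mem_ker] at hg
    obtain ⟨a, ha⟩ := scalar_of_conjAut_eq_one h2 hn Q hQ g hg
    rw [MonoidHom.mem_ker, kappa_eq_one_iff]
    exact (scalar_data Q h0 m hm g a ha).2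
  obtain ⟨θ, hθ⟩ := exists_lift_range (conjAut (⇑Q)) (kappa h2 Q hQ h0 m hm) hker
  have hkerθ : θ.ker = (dSub Q h0 m).subgroupOf (conjAut (⇑Q)).range := by
    ext x
    obtain ⟨_, g, rfl⟩ := x
    rw [MonoidHom.mem_ker, Subgroup.mem_subgroupOf, hθ g, kappa_eq_one_iff]
    constructor
    · intro h
      exact mem_dSub Q h0 m g h
    · rintro ⟨g', hg', he⟩
      have h1 : kappa h2 Q hQ h0 m hm g = kappa h2 Q hQ h0 m hm g' := by
        rw [← hθ g, ← hθ g']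
        congr 1
        exact Subtype.ext he.symm
      rw [← kappa_eq_one_iff h2 Q hQ h0 m hm, h1, kappa_eq_one_iff]
      exact hg'
  have hsurj : Function.Surjective θ := by
    obtain ⟨u, hu⟩ := h0
    have hr2 : kappa h2 Q hQ ⟨u, hu⟩ m hm (reflSim Q u) = -1 := by
      rcases Int.units_eq_one_or (kappa h2 Q hQ ⟨u, hu⟩ m hm (reflSim Q u)) with h | h
      · rw [kappa_eq_one_iff, (reflSim_data h2 Q ⟨u, hu⟩ m u hu).2] at h
        exact absurd h (neg_one_ne_one_units h2)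
      · exact h
    intro t
    rcases Int.units_eq_one_or t with rfl | rfl
    · exact ⟨1, map_one θ⟩
    · exact ⟨⟨conjAut (⇑Q) (reflSim Q u), ⟨_, rfl⟩⟩, by rw [hθ, hr2]⟩
  rw [pgoAut_eq]
  unfold Subgroup.relIndex
  rw [← hkerθ, Subgroup.index_ker, MonoidHom.range_eq_top.2 hsurj, Subgroup.card_top,
    Nat.card_eq_fintype_card, Fintype.card_units_int]

theorem pso_relIndex_pgo (h2 : (2 : F) ≠ 0) (m : ℕ) (hm : Fintype.card ι = 2 * m)
    (hn : 6 ≤ Fintype.card ι) (Q : QuadraticForm F (ι → F))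
    (hQ : (QuadraticMap.polarBilin Q).Nondegenerate) (g₀ : GL ι F) (c₀ : Fˣ)
    (hg₀ : ∀ v, Q ((g₀ : Matrix ι ι F) *ᵥ v) = (c₀ : F) * Q v) (hc₀ : ¬ IsSquare (c₀ : F)) :
    (Cfsg.psoAut F ⇑Q).relIndex (Cfsg.pgoAut F ⇑Q) = 4 := by
  obtain ⟨φ, hφs, hφk⟩ := pgo_mod_pso h2 m hm hn Q hQ g₀ c₀ hg₀ hc₀
  unfold Subgroup.relIndex
  rw [← hφk, Subgroup.index_ker, MonoidHom.range_eq_top.2 hφs, Subgroup.card_top,
    Nat.card_eq_fintype_card]
  rfl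

theorem inn_relIndex_dSub_mem (h2 : (2 : F) ≠ 0) (m : ℕ) (hm : Fintype.card ι = 2 * m)
    (hn : 6 ≤ Fintype.card ι) (Q : QuadraticForm F (ι → F))
    (hQ : (QuadraticMap.polarBilin Q).Nondegenerate) (h0 : ∃ v, (⇑Q) v ≠ 0) (g₀ : GL ι F)
    (c₀ : Fˣ) (hg₀ : ∀ v, Q ((g₀ : Matrix ι ι F) *ᵥ v) = (c₀ : F) * Q v)
    (hc₀ : ¬ IsSquare (c₀ : F)) (hneg : negEl Q ∈ Cfsg.Omega F ⇑Q) :
    (Cfsg.Inn (Cfsg.POmega F ⇑Q)).relIndex (dSub Q h0 m) = 4 := by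
  have h1 := Subgroup.relIndex_mul_relIndex _ _ _ (inn_le_dSub Q h0 m) (dSub_le_pgo Q h0 m)
  rw [dSub_relIndex_pgo h2 m hm hn Q hQ h0] at h1
  have h3 : (Cfsg.Inn (Cfsg.POmega F ⇑Q)).relIndex (Cfsg.pgoAut F ⇑Q) = 8 :=
    inn_index_pgo h2 m hm hn Q hQ g₀ c₀ hg₀ hc₀ hneg
  rw [h3] at h1
  omega

theorem inn_relIndex_dSub_not (h2 : (2 : F) ≠ 0) (m : ℕ) (hm : Fintype.card ι = 2 * m)
    (hn : 6 ≤ Fintype.card ι) (Q : QuadraticForm F (ι → F))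
    (hQ : (QuadraticMap.polarBilin Q).Nondegenerate) (h0 : ∃ v, (⇑Q) v ≠ 0) (g₀ : GL ι F)
    (c₀ : Fˣ) (hg₀ : ∀ v, Q ((g₀ : Matrix ι ι F) *ᵥ v) = (c₀ : F) * Q v)
    (hc₀ : ¬ IsSquare (c₀ : F)) (hneg : negEl Q ∉ Cfsg.Omega F ⇑Q) :
    (Cfsg.Inn (Cfsg.POmega F ⇑Q)).relIndex (dSub Q h0 m) = 2 := by
  have h1 := Subgroup.relIndex_mul_relIndex _ _ _ (inn_le_dSub Q h0 m) (dSub_le_pgo Q h0 m)
  rw [dSub_relIndex_pgo h2 m hm hn Q hQ h0] at h1
  have he : Even (Fintype.card ι) := by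
    rw [hm]
    exact even_two_mul m
  have heq : Cfsg.psoAut F ⇑Q = Cfsg.Inn (Cfsg.POmega F ⇑Q) := by
    rw [psoAut_eq_range]
    exact le_antisymm (range_le_inn h2 he Q hQ hneg) (inn_le_range (⇑Q))
  have h3 := pso_relIndex_pgo h2 m hm hn Q hQ g₀ c₀ hg₀ hc₀
  rw [heq] at h3
  rw [h3] at h1
  omega

/-- `-1 ∉ Ω`: the inner-diagonal group modulo the inner automorphisms has order two -/
theorem diag_c2 (h2 : (2 : F) ≠ 0) (m : ℕ) (hm : Fintype.card ι = 2 * m)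
    (hn : 6 ≤ Fintype.card ι) (Q : QuadraticForm F (ι → F))
    (hQ : (QuadraticMap.polarBilin Q).Nondegenerate) (h0 : ∃ v, (⇑Q) v ≠ 0) (g₀ : GL ι F)
    (c₀ : Fˣ) (hg₀ : ∀ v, Q ((g₀ : Matrix ι ι F) *ᵥ v) = (c₀ : F) * Q v)
    (hc₀ : ¬ IsSquare (c₀ : F)) (hneg : negEl Q ∉ Cfsg.Omega F ⇑Q) :
    ∃ φ : ↥(dSub Q h0 m) →* Multiplicative (ZMod 2), Function.Surjective φ ∧
      φ.ker = (Cfsg.Inn (Cfsg.POmega F ⇑Q)).subgroupOf (dSub Q h0 m) := by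
  have hnorm : ((Cfsg.Inn (Cfsg.POmega F ⇑Q)).subgroupOf (dSub Q h0 m)).Normal :=
    Subgroup.normal_subgroupOf
  exact @SQ.c2_quot _ _ _ hnorm (inn_relIndex_dSub_not h2 m hm hn Q hQ h0 g₀ c₀ hg₀ hc₀ hneg)

/-- `-1 ∈ Ω` and some similarity with `det = μ^m` has a square which is not inner: the
inner-diagonal group modulo the inner automorphisms is cyclic of order four -/
theorem diag_c4 (h2 : (2 : F) ≠ 0) (m : ℕ) (hm : Fintype.card ι = 2 * m)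
    (hn : 6 ≤ Fintype.card ι) (Q : QuadraticForm F (ι → F))
    (hQ : (QuadraticMap.polarBilin Q).Nondegenerate) (h0 : ∃ v, (⇑Q) v ≠ 0) (g₀ : GL ι F)
    (c₀ : Fˣ) (hg₀ : ∀ v, Q ((g₀ : Matrix ι ι F) *ᵥ v) = (c₀ : F) * Q v)
    (hc₀ : ¬ IsSquare (c₀ : F)) (hneg : negEl Q ∈ Cfsg.Omega F ⇑Q)
    (x : ↥(Cfsg.Geo.quadSimilarityGroup (⇑Q))) (hx : delta (⇑Q) h0 m x = 1)
    (hxx : conjAut (⇑Q) (x * x) ∉ Cfsg.Inn (Cfsg.POmega F ⇑Q)) :
    ∃ φ : ↥(dSub Q h0 m) →* Multiplicative (ZMod 4), Function.Surjective φ ∧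
      φ.ker = (Cfsg.Inn (Cfsg.POmega F ⇑Q)).subgroupOf (dSub Q h0 m) := by
  have hnorm : ((Cfsg.Inn (Cfsg.POmega F ⇑Q)).subgroupOf (dSub Q h0 m)).Normal :=
    Subgroup.normal_subgroupOf
  refine @SQ.c4_quot _ _ _ hnorm (inn_relIndex_dSub_mem h2 m hm hn Q hQ h0 g₀ c₀ hg₀ hc₀ hneg)
    ⟨conjAut (⇑Q) x, mem_dSub Q h0 m x hx⟩ ?_
  intro hmem
  apply hxx
  have h1 := Subgroup.mem_subgroupOf.1 hmem
  rw [(conjAut (⇑Q)).map_mul]
  exact h1

/-- `-1 ∈ Ω` and two independent similarities with `det = μ^m` with inner squares: the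
inner-diagonal group modulo the inner automorphisms is a four-group -/
theorem diag_klein (h2 : (2 : F) ≠ 0) (m : ℕ) (hm : Fintype.card ι = 2 * m)
    (hn : 6 ≤ Fintype.card ι) (Q : QuadraticForm F (ι → F))
    (hQ : (QuadraticMap.polarBilin Q).Nondegenerate) (h0 : ∃ v, (⇑Q) v ≠ 0) (g₀ : GL ι F)
    (c₀ : Fˣ) (hg₀ : ∀ v, Q ((g₀ : Matrix ι ι F) *ᵥ v) = (c₀ : F) * Q v)
    (hc₀ : ¬ IsSquare (c₀ : F)) (hneg : negEl Q ∈ Cfsg.Omega F ⇑Q)
    (a b : ↥(Cfsg.Geo.quadSimilarityGroup (⇑Q))) (ha : delta (⇑Q) h0 m a = 1)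
    (hb : delta (⇑Q) h0 m b = 1)
    (haa : conjAut (⇑Q) (a * a) ∈ Cfsg.Inn (Cfsg.POmega F ⇑Q))
    (hbb : conjAut (⇑Q) (b * b) ∈ Cfsg.Inn (Cfsg.POmega F ⇑Q))
    (ha' : conjAut (⇑Q) a ∉ Cfsg.Inn (Cfsg.POmega F ⇑Q))
    (hb' : conjAut (⇑Q) b ∉ Cfsg.Inn (Cfsg.POmega F ⇑Q))
    (hab : conjAut (⇑Q) (a * b⁻¹) ∉ Cfsg.Inn (Cfsg.POmega F ⇑Q)) :
    ∃ φ : ↥(dSub Q h0 m) →* Multiplicative (ZMod 2 × ZMod 2), Function.Surjective φ ∧
      φ.ker = (Cfsg.Inn (Cfsg.POmega F ⇑Q)).subgroupOf (dSub Q h0 m) := by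
  have hnorm : ((Cfsg.Inn (Cfsg.POmega F ⇑Q)).subgroupOf (dSub Q h0 m)).Normal :=
    Subgroup.normal_subgroupOf
  refine @SQ.klein_quot _ _ _ hnorm
    (inn_relIndex_dSub_mem h2 m hm hn Q hQ h0 g₀ c₀ hg₀ hc₀ hneg)
    ⟨conjAut (⇑Q) a, mem_dSub Q h0 m a ha⟩ ⟨conjAut (⇑Q) b, mem_dSub Q h0 m b hb⟩ ?_ ?_ ?_ ?_ ?_
  · rw [Subgroup.mem_subgroupOf]
    rw [(conjAut (⇑Q)).map_mul] at haa
    exact haa
  · rw [Subgroup.mem_subgroupOf]
    rw [(conjAut (⇑Q)).map_mul] at hbb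
    exact hbb
  · intro hmem
    exact ha' (Subgroup.mem_subgroupOf.1 hmem)
  · intro hmem
    exact hb' (Subgroup.mem_subgroupOf.1 hmem)
  · intro hmem
    apply hab
    have h1 := Subgroup.mem_subgroupOf.1 hmem
    rw [(conjAut (⇑Q)).map_mul, (conjAut (⇑Q)).map_inv]
    exact h1

/-- a similarity with non-square multiplier does not induce an inner automorphism -/
theorem not_inn_of_nonsq (h2 : (2 : F) ≠ 0) (m : ℕ) (hm : Fintype.card ι = 2 * m)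
    (hn : 6 ≤ Fintype.card ι) (Q : QuadraticForm F (ι → F))
    (hQ : (QuadraticMap.polarBilin Q).Nondegenerate) (h0 : ∃ v, (⇑Q) v ≠ 0)
    (g : ↥(Cfsg.Geo.quadSimilarityGroup (⇑Q)))
    (hg : ¬ IsSquare ((mult (⇑Q) g : Fˣ) : F)) :
    conjAut (⇑Q) g ∉ Cfsg.Inn (Cfsg.POmega F ⇑Q) := by
  rintro ⟨y, hy⟩
  obtain ⟨s, rfl⟩ := exists_rep (⇑Q) y
  have h1 := soAut_of_omega (⇑Q) (ofO (⇑Q) s (omega_det (⇑Q) s)) s.2
  have h3 : conjAut (⇑Q) ((ofO (⇑Q) s (omega_det (⇑Q) s) : ↥(soSub (⇑Q))) :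
      ↥(Cfsg.Geo.quadSimilarityGroup (⇑Q))) = conjAut (⇑Q) g := h1.trans hy
  have h4 : conjAut (⇑Q) (g⁻¹ * ((ofO (⇑Q) s (omega_det (⇑Q) s) : ↥(soSub (⇑Q))) :
      ↥(Cfsg.Geo.quadSimilarityGroup (⇑Q)))) = 1 := by
    rw [(conjAut (⇑Q)).map_mul, (conjAut (⇑Q)).map_inv, h3, inv_mul_cancel]
  obtain ⟨a, ha⟩ := scalar_of_conjAut_eq_one h2 hn Q hQ _ h4
  have h5 := (scalar_data Q h0 m hm _ a ha).1
  have h6 := (so_data Q h0 m _ (ofO (⇑Q) s (omega_det (⇑Q) s)).2).1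
  rw [mult_mul (⇑Q) h0, h6, mul_one] at h5
  have h7 : mult (⇑Q) g⁻¹ = (mult (⇑Q) g)⁻¹ := map_inv (multHom (⇑Q) h0) g
  rw [h7, Units.val_inv_eq_inv_val] at h5
  apply hg
  obtain ⟨r, hr⟩ := h5
  have hne : ((mult (⇑Q) g : Fˣ) : F) ≠ 0 := Units.ne_zero _
  refine ⟨r⁻¹, ?_⟩
  rw [← mul_inv, ← hr, inv_inv]

end diag

end Cfsg.Agent.Lib.helper13.OA
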