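import Mathlib
import Cfsg.Prelude.Def_LieTypeDatum
import Cfsg.Agent.Lib.helper13.OrthDiag
import Cfsg.Agent.Lib.helper13.PlusEmb

set_option autoImplicit false
set_option linter.unusedSectionVars false
set_option linter.unusedVariables false
set_option linter.style.longLine false

/-!
The inner-diagonal automorphisms of `PΩ⁺_{2m}(q)`, `q` odd, modulo the inner automorphisms.
-/

namespace Cfsg.Agent.Lib.helper13.OA

open Matrix

open Cfsg.Agent.S2562 (qP qP_apply nondeg_qP)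

section gen

variable {F : Type*} [Field F] {ι : Type} [Fintype ι] [DecidableEq ι]

/-- the group generated by the automorphisms induced by class-preserving similarities -/
def diagGen (Qf : (ι → F) → F) : Subgroup (MulAut (Cfsg.POmega F Qf)) :=
  Cfsg.autSubgroupOf fun β : Cfsg.POmega F Qf ≃* Cfsg.POmega F Qf =>
    ∃ g : GL ι F, g ∈ Cfsg.Geo.quadSimilarityGroup Qf ∧
      Cfsg.PreservesSingularClasses Qf (g : Matrix ι ι F) ∧
        Cfsg.IsInducedBySemilinearPOmega Qf g (RingEquiv.refl F) β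

theorem conjAut_eq_of_smul (Qf : (ι → F) → F) (g h : ↥(Cfsg.Geo.quadSimilarityGroup Qf))
    (a : F) (hgh : ((g : GL ι F) : Matrix ι ι F) = a • ((h : GL ι F) : Matrix ι ι F)) :
    conjAut Qf g = conjAut Qf h := by
  have h1 : conjAut Qf (g * h⁻¹) = 1 := by
    apply conjAut_eq_one_of_scalar Qf _ a
    intro v
    show (((g : GL ι F) * (h : GL ι F)⁻¹ : GL ι F) : Matrix ι ι F) *ᵥ v = a • v
    rw [Units.val_mul, hgh, Matrix.smul_mul, ← Units.val_mul, mul_inv_cancel, Units.val_one,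
      Matrix.smul_mulVec, Matrix.one_mulVec]
  calc conjAut Qf g = conjAut Qf ((g * h⁻¹) * h) := by rw [inv_mul_cancel_right]
    _ = conjAut Qf h := by rw [(conjAut Qf).map_mul, h1, one_mul]

end gen

section plusdiag

open Cfsg.Agent.Lib.helper4

variable {F : Type*} [Field F]

theorem inndiagPlus_eq (m : ℕ) :
    Cfsg.inndiagPOmegaPlus m F = diagGen (Cfsg.quadFormPlus m F) := rfl

/-- `diag(μ, …, μ, 1, …, 1)` -/
def dsimGL (m : ℕ) (μ : Fˣ) : GL (Fin m ⊕ Fin m) F :=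
  ⟨Matrix.diagonal (Sum.elim (fun _ => (μ : F)) (fun _ => 1)),
    Matrix.diagonal (Sum.elim (fun _ => ((μ⁻¹ : Fˣ) : F)) (fun _ => 1)), by
      rw [Matrix.diagonal_mul_diagonal, ← Matrix.diagonal_one]
      congr 1
      funext k
      rcases k with k | k <;> simp, by
      rw [Matrix.diagonal_mul_diagonal, ← Matrix.diagonal_one]
      congr 1
      funext k
      rcases k with k | k <;> simp⟩

theorem dsimGL_coe (m : ℕ) (μ : Fˣ) :
    ((dsimGL m μ : GL (Fin m ⊕ Fin m) F) : Matrix (Fin m ⊕ Fin m) (Fin m ⊕ Fin m) F) =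
      Matrix.diagonal (Sum.elim (fun _ => (μ : F)) (fun _ => 1)) := rfl

theorem dsim_sim (m : ℕ) (μ : Fˣ) (v : Fin m ⊕ Fin m → F) :
    qP F m (((dsimGL m μ : GL (Fin m ⊕ Fin m) F) :
      Matrix (Fin m ⊕ Fin m) (Fin m ⊕ Fin m) F) *ᵥ v) = (μ : F) * qP F m v := by
  rw [dsimGL_coe, qP_apply, qP_apply]
  unfold Cfsg.quadFormPlus
  rw [Finset.mul_sum]
  apply Finset.sum_congr rfl
  intro i _
  rw [Matrix.mulVec_diagonal, Matrix.mulVec_diagonal]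
  simp only [Sum.elim_inl, Sum.elim_inr]
  ring

/-- `diag(μ, …, μ, 1, …, 1)` as a similarity of the hyperbolic form -/
def dsim (m : ℕ) (μ : Fˣ) : ↥(Cfsg.Geo.quadSimilarityGroup (⇑(qP F m))) :=
  ⟨dsimGL m μ, ⟨μ, dsim_sim m μ⟩⟩

theorem dsim_mult (m : ℕ) (h0 : ∃ v, (⇑(qP F m)) v ≠ 0) (μ : Fˣ) :
    mult (⇑(qP F m)) (dsim m μ) = μ :=
  mult_unique _ h0 _ μ (dsim_sim m μ)

theorem dsim_delta (m : ℕ) (h0 : ∃ v, (⇑(qP F m)) v ≠ 0) (μ : Fˣ) :
    delta (⇑(qP F m)) h0 m (dsim m μ) = 1 := by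
  apply Units.ext
  rw [delta_apply, dsim_mult m h0, Units.val_mul, Units.val_pow_eq_pow_val,
    Units.val_inv_eq_inv_val, Matrix.GeneralLinearGroup.val_det_apply, Units.val_one]
  show (Matrix.diagonal (Sum.elim (fun _ : Fin m => (μ : F)) (fun _ : Fin m => (1 : F)))).det *
    (μ : F)⁻¹ ^ m = 1
  rw [Matrix.det_diagonal, Fintype.prod_sum_type]
  simp only [Sum.elim_inl, Sum.elim_inr, Finset.prod_const, Finset.card_univ, Fintype.card_fin,
    one_pow, mul_one]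
  rw [← mul_pow, mul_inv_cancel₀ (Units.ne_zero μ), one_pow]

theorem dsim_U0 (m : ℕ) (μ : Fˣ) :
    Cfsg.imageSubmodule (((dsim m μ : ↥(Cfsg.Geo.quadSimilarityGroup (⇑(qP F m)))) :
      GL (Fin m ⊕ Fin m) F) : Matrix (Fin m ⊕ Fin m) (Fin m ⊕ Fin m) F) (plusU0 F m) =
      plusU0 F m := by
  apply Submodule.eq_of_le_of_finrank_eq
  · intro x hx
    obtain ⟨u, hu, rfl⟩ := Submodule.mem_map.1 hx
    rw [mem_plusU0] at hu ⊢
    intro i
    rw [Matrix.toLin'_apply]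
    show (Matrix.diagonal (Sum.elim (fun _ : Fin m => (μ : F)) (fun _ : Fin m => (1 : F)))).mulVec
      u (Sum.inr i) = 0
    rw [Matrix.mulVec_diagonal, hu i, mul_zero]
  · exact img_finrank _ _

/-- the class-preservation criterion for the hyperbolic form -/
theorem psc_plus (h2 : (2 : F) ≠ 0) (m : ℕ) (h0 : ∃ v, (⇑(qP F m)) v ≠ 0)
    (g : ↥(Cfsg.Geo.quadSimilarityGroup (⇑(qP F m)))) :
    Cfsg.PreservesSingularClasses (⇑(qP F m))
      ((g : GL (Fin m ⊕ Fin m) F) : Matrix (Fin m ⊕ Fin m) (Fin m ⊕ Fin m) F) ↔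
      delta (⇑(qP F m)) h0 m g = 1 :=
  psc_iff h2 (qP F m) (nondeg_qP m) h0 m (plusU0 F m) (plusU0_maxTS m) g
    (dsim m (mult (⇑(qP F m)) g)) (dsim_mult m h0 _) (dsim_delta m h0 _) (dsim_U0 m _)

theorem diagGen_plus [Fintype F] (h2 : (2 : F) ≠ 0) (m : ℕ) (h0 : ∃ v, (⇑(qP F m)) v ≠ 0) :
    diagGen (⇑(qP F m)) = dSub (qP F m) h0 m :=
  autSub_eq (⇑(qP F m)) (Cfsg.PreservesSingularClasses (⇑(qP F m))) (delta (⇑(qP F m)) h0 m).ker
    (fun g => (psc_plus h2 m h0 g).trans MonoidHom.mem_ker.symm)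

end plusdiag

section pluselems

open Cfsg.Agent.Lib.helper4

variable {F : Type*} [Field F] [Fintype F]

theorem chiU_pow (c : F) (hc : c ≠ 0) (k : ℕ) : chiU (c ^ k) = chiU c ^ k := by
  induction k with
  | zero =>
    rw [pow_zero, pow_zero]
    exact (chiU_one_iff 1).2 ⟨1, by simp⟩
  | succ k ih => rw [pow_succ, pow_succ, chiU_mul _ _ (pow_ne_zero k hc) hc, ih]

/-- `diag(c, …, c, c⁻¹, …, c⁻¹)` as a special isometry -/
noncomputable def tcEl (m : ℕ) (c : Fˣ) : ↥(soSub (⇑(qP F m))) :=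
  ofO (⇑(qP F m)) (plusEmb F m (Matrix.GeneralLinearGroup.scalar (Fin m) c)) (plusEmb_det m _)

theorem tcEl_spin (h2 : (2 : F) ≠ 0) (m : ℕ) (c : Fˣ) (c' : F) (hc' : ¬ IsSquare c') :
    spin (qP F m) c' (soToO (⇑(qP F m)) (tcEl m c)) = chiU (c : F) ^ m := by
  unfold tcEl
  rw [soToO_ofO, plusEmb_spin h2 m c' hc', Matrix.GeneralLinearGroup.coe_scalar,
    Matrix.scalar_apply, Matrix.det_diagonal, Finset.prod_const, Finset.card_univ,
    Fintype.card_fin, chiU_pow _ (Units.ne_zero c)]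

theorem dsim_sq_smul (m : ℕ) (c : Fˣ) :
    (((dsim m c * dsim m c : ↥(Cfsg.Geo.quadSimilarityGroup (⇑(qP F m)))) :
      GL (Fin m ⊕ Fin m) F) : Matrix (Fin m ⊕ Fin m) (Fin m ⊕ Fin m) F) =
    (c : F) • ((((tcEl m c : ↥(soSub (⇑(qP F m)))) :
      ↥(Cfsg.Geo.quadSimilarityGroup (⇑(qP F m)))) : GL (Fin m ⊕ Fin m) F) :
        Matrix (Fin m ⊕ Fin m) (Fin m ⊕ Fin m) F) := by
  show ((dsimGL m c : GL (Fin m ⊕ Fin m) F) : Matrix (Fin m ⊕ Fin m) (Fin m ⊕ Fin m) F) *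
      ((dsimGL m c : GL (Fin m ⊕ Fin m) F) : Matrix (Fin m ⊕ Fin m) (Fin m ⊕ Fin m) F) =
    (c : F) • Matrix.fromBlocks
      ((Matrix.GeneralLinearGroup.scalar (Fin m) c : GL (Fin m) F) : Matrix (Fin m) (Fin m) F) 0 0
      (((Matrix.GeneralLinearGroup.scalar (Fin m) c : GL (Fin m) F)⁻¹ : GL (Fin m) F) :
        Matrix (Fin m) (Fin m) F)ᵀ
  rw [dsimGL_coe, Matrix.diagonal_mul_diagonal, ← map_inv, Matrix.GeneralLinearGroup.coe_scalar,
    Matrix.GeneralLinearGroup.coe_scalar, Matrix.scalar_apply, Matrix.scalar_apply,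
    Matrix.diagonal_transpose, Matrix.fromBlocks_diagonal, ← Matrix.diagonal_smul]
  congr 1
  funext k
  rcases k with k | k <;> simp

/-- the square of `diag(c, …, c, 1, …, 1)` acts as `diag(c, …, c, c⁻¹, …, c⁻¹)` -/
theorem conjAut_dsim_sq (m : ℕ) (c : Fˣ) :
    conjAut (⇑(qP F m)) (dsim m c * dsim m c) = soAut (⇑(qP F m)) (tcEl m c) :=
  conjAut_eq_of_smul (⇑(qP F m)) _ _ (c : F) (dsim_sq_smul m c)

theorem dsim_sq_not_inn (h2 : (2 : F) ≠ 0) (m : ℕ) (hm : 3 ≤ m) (hodd : Odd m) (c : Fˣ)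
    (hc : ¬ IsSquare (c : F)) (hneg : negEl (qP F m) ∈ Cfsg.Omega F ⇑(qP F m)) :
    conjAut (⇑(qP F m)) (dsim m c * dsim m c) ∉ Cfsg.Inn (Cfsg.POmega F ⇑(qP F m)) := by
  rw [conjAut_dsim_sq]
  intro hmem
  have hn : 6 ≤ Fintype.card (Fin m ⊕ Fin m) := by
    rw [Fintype.card_sum, Fintype.card_fin]
    omega
  have h1 := spin_eq_one_of_inn h2 hn (qP F m) (nondeg_qP m) hneg (c : F) hc (tcEl m c) hmem
  rw [tcEl_spin h2 m c (c : F) hc, (chiU_neg_one_iff (c : F)).mpr hc, hodd.neg_one_pow] at h1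
  exact absurd h1 (by decide)

theorem dsim_sq_inn (h2 : (2 : F) ≠ 0) (m : ℕ) (heven : Even m) (c : Fˣ)
    (hc : ¬ IsSquare (c : F)) :
    conjAut (⇑(qP F m)) (dsim m c * dsim m c) ∈ Cfsg.Inn (Cfsg.POmega F ⇑(qP F m)) := by
  rw [conjAut_dsim_sq]
  have h1 : soToO (⇑(qP F m)) (tcEl m c) ∈ Cfsg.Omega F ⇑(qP F m) := by
    rw [so_mem_omega_iff h2 (qP F m) (nondeg_qP m) (c : F) hc, tcEl_spin h2 m c (c : F) hc,
      (chiU_neg_one_iff (c : F)).mpr hc, heven.neg_one_pow]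
  exact ⟨_, (soAut_of_omega (⇑(qP F m)) (tcEl m c) h1).symm⟩

/-- `-1 ∈ Ω`: a special isometry with non-trivial spinor norm; its square is inner, it is not -/
theorem exists_so_nonsq {ι : Type} [Fintype ι] [DecidableEq ι] (h2 : (2 : F) ≠ 0)
    (hn : 6 ≤ Fintype.card ι) (Q : QuadraticForm F (ι → F))
    (hQ : (QuadraticMap.polarBilin Q).Nondegenerate) (h0 : ∃ v, (⇑Q) v ≠ 0) (m : ℕ)
    (hneg : negEl Q ∈ Cfsg.Omega F ⇑Q) :
    ∃ a : ↥(Cfsg.Geo.quadSimilarityGroup (⇑Q)), delta (⇑Q) h0 m a = 1 ∧ mult (⇑Q) a = 1 ∧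
      conjAut (⇑Q) (a * a) ∈ Cfsg.Inn (Cfsg.POmega F ⇑Q) ∧
      conjAut (⇑Q) a ∉ Cfsg.Inn (Cfsg.POmega F ⇑Q) := by
  obtain ⟨c, hc⟩ := exists_nonsq h2
  have hc0 : c ≠ 0 := by
    rintro rfl
    exact hc ⟨0, by simp⟩
  obtain ⟨v₁, hv₁⟩ := universal Q hQ (by omega) 1 one_ne_zero
  obtain ⟨v₂, hv₂⟩ := universal Q hQ (by omega) c hc0
  have hv₁' : Q v₁ ≠ 0 := by rw [hv₁]; exact one_ne_zero
  have hv₂' : Q v₂ ≠ 0 := by rw [hv₂]; exact hc0
  have hdet : (((reflEl Q v₁ * reflEl Q v₂ : ↥(Cfsg.isometryGroup F ⇑Q)) : GL ι F) :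
      Matrix ι ι F).det = 1 := by
    rw [isom_coe_mul, Matrix.det_mul, reflEl_coe Q v₁ hv₁', reflEl_coe Q v₂ hv₂',
      refl_det Q v₁ hv₁', refl_det Q v₂ hv₂']
    ring
  obtain ⟨z, hz⟩ : ∃ z : ↥(soSub (⇑Q)), z = ofO (⇑Q) (reflEl Q v₁ * reflEl Q v₂) hdet :=
    ⟨_, rfl⟩
  have hspin : spin Q c (soToO (⇑Q) z) = -1 := by
    rw [hz, soToO_ofO, map_mul, spin_refl_nonsq h2 Q c hc v₁ hv₁',
      spin_refl_nonsq h2 Q c hc v₂ hv₂', hv₁, hv₂, (chiU_one_iff 1).mpr ⟨1, by simp⟩,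
      (chiU_neg_one_iff c).mpr hc]
    rfl
  refine ⟨(z : ↥(Cfsg.Geo.quadSimilarityGroup (⇑Q))), (so_data Q h0 m _ z.2).2,
    (so_data Q h0 m _ z.2).1, ?_, ?_⟩
  · have h1 : soToO (⇑Q) (z * z) ∈ Cfsg.Omega F ⇑Q := by
      rw [so_mem_omega_iff h2 Q hQ c hc, map_mul, map_mul, hspin]
      rfl
    exact ⟨_, (soAut_of_omega (⇑Q) (z * z) h1).symm⟩
  · intro hmem
    have h1 := spin_eq_one_of_inn h2 hn Q hQ hneg c hc z hmem
    rw [hspin] at h1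
    exact absurd h1 (by decide)

theorem plus_card (m : ℕ) : Fintype.card (Fin m ⊕ Fin m) = 2 * m := by
  rw [Fintype.card_sum, Fintype.card_fin]
  ring

theorem plus_h0 (m : ℕ) (hm : 1 ≤ m) : ∃ v, (⇑(qP F m)) v ≠ 0 := by
  obtain ⟨v, hv⟩ := universal (qP F m) (nondeg_qP m) (by rw [plus_card]; omega) 1 one_ne_zero
  exact ⟨v, by rw [hv]; exact one_ne_zero⟩

/-- `PΩ⁺`, `-1 ∉ Ω`: inner-diagonal modulo inner has order two -/
theorem plus_diag_c2 (h2 : (2 : F) ≠ 0) (m : ℕ) (hm : 3 ≤ m)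
    (hneg : negEl (qP F m) ∉ Cfsg.Omega F ⇑(qP F m)) :
    ∃ φ : ↥(diagGen (⇑(qP F m))) →* Multiplicative (ZMod 2), Function.Surjective φ ∧
      φ.ker = (Cfsg.Inn (Cfsg.POmega F ⇑(qP F m))).subgroupOf (diagGen (⇑(qP F m))) := by
  obtain ⟨c, hc⟩ := exists_nonsq h2
  have hc0 : c ≠ 0 := by
    rintro rfl
    exact hc ⟨0, by simp⟩
  rw [diagGen_plus h2 m (plus_h0 m (by omega))]
  exact diag_c2 h2 m (plus_card m) (by rw [plus_card]; omega) (qP F m) (nondeg_qP m)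
    (plus_h0 m (by omega)) (dsimGL m (Units.mk0 c hc0)) (Units.mk0 c hc0)
    (dsim_sim m (Units.mk0 c hc0)) (by rw [Units.val_mk0]; exact hc) hneg

/-- `PΩ⁺`, `-1 ∈ Ω`, `m` odd: inner-diagonal modulo inner is cyclic of order four -/
theorem plus_diag_c4 (h2 : (2 : F) ≠ 0) (m : ℕ) (hm : 3 ≤ m) (hodd : Odd m)
    (hneg : negEl (qP F m) ∈ Cfsg.Omega F ⇑(qP F m)) :
    ∃ φ : ↥(diagGen (⇑(qP F m))) →* Multiplicative (ZMod 4), Function.Surjective φ ∧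
      φ.ker = (Cfsg.Inn (Cfsg.POmega F ⇑(qP F m))).subgroupOf (diagGen (⇑(qP F m))) := by
  obtain ⟨c, hc⟩ := exists_nonsq h2
  have hc0 : c ≠ 0 := by
    rintro rfl
    exact hc ⟨0, by simp⟩
  have hcu : ¬ IsSquare ((Units.mk0 c hc0 : Fˣ) : F) := by rw [Units.val_mk0]; exact hc
  rw [diagGen_plus h2 m (plus_h0 m (by omega))]
  exact diag_c4 h2 m (plus_card m) (by rw [plus_card]; omega) (qP F m) (nondeg_qP m)
    (plus_h0 m (by omega)) (dsimGL m (Units.mk0 c hc0)) (Units.mk0 c hc0)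
    (dsim_sim m (Units.mk0 c hc0)) hcu hneg (dsim m (Units.mk0 c hc0))
    (dsim_delta m _ _) (dsim_sq_not_inn h2 m hm hodd _ hcu hneg)

/-- `PΩ⁺`, `m` even (so `-1 ∈ Ω`): inner-diagonal modulo inner is a four-group -/
theorem plus_diag_klein (h2 : (2 : F) ≠ 0) (m : ℕ) (hm : 3 ≤ m) (heven : Even m)
    (hneg : negEl (qP F m) ∈ Cfsg.Omega F ⇑(qP F m)) :
    ∃ φ : ↥(diagGen (⇑(qP F m))) →* Multiplicative (ZMod 2 × ZMod 2), Function.Surjective φ ∧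
      φ.ker = (Cfsg.Inn (Cfsg.POmega F ⇑(qP F m))).subgroupOf (diagGen (⇑(qP F m))) := by
  obtain ⟨c, hc⟩ := exists_nonsq h2
  have hc0 : c ≠ 0 := by
    rintro rfl
    exact hc ⟨0, by simp⟩
  have hcu : ¬ IsSquare ((Units.mk0 c hc0 : Fˣ) : F) := by rw [Units.val_mk0]; exact hc
  have hn : 6 ≤ Fintype.card (Fin m ⊕ Fin m) := by rw [plus_card]; omega
  obtain ⟨a, ha1, ha2, ha3, ha4⟩ := exists_so_nonsq h2 hn (qP F m) (nondeg_qP m)
    (plus_h0 m (by omega)) m hneg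
  rw [diagGen_plus h2 m (plus_h0 m (by omega))]
  refine diag_klein h2 m (plus_card m) hn (qP F m) (nondeg_qP m)
    (plus_h0 m (by omega)) (dsimGL m (Units.mk0 c hc0)) (Units.mk0 c hc0)
    (dsim_sim m (Units.mk0 c hc0)) hcu hneg a (dsim m (Units.mk0 c hc0)) ha1
    (dsim_delta m _ _) ha3 (dsim_sq_inn h2 m heven _ hcu) ha4 ?_ ?_
  · apply not_inn_of_nonsq h2 m (plus_card m) hn (qP F m) (nondeg_qP m) (plus_h0 m (by omega))
    rw [dsim_mult m (plus_h0 m (by omega))]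
    exact hcu
  · apply not_inn_of_nonsq h2 m (plus_card m) hn (qP F m) (nondeg_qP m) (plus_h0 m (by omega))
    have h7 : mult (⇑(qP F m)) (dsim m (Units.mk0 c hc0))⁻¹ =
        (mult (⇑(qP F m)) (dsim m (Units.mk0 c hc0)))⁻¹ :=
      map_inv (multHom (⇑(qP F m)) (plus_h0 m (by omega))) _
    rw [mult_mul (⇑(qP F m)) (plus_h0 m (by omega)), ha2, one_mul, h7,
      dsim_mult m (plus_h0 m (by omega)), Units.val_inv_eq_inv_val, Units.val_mk0]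
    rintro ⟨r, hr⟩
    apply hc
    refine ⟨r⁻¹, ?_⟩
    rw [← mul_inv, ← hr, inv_inv]

end pluselems

end Cfsg.Agent.Lib.helper13.OA
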