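import Mathlib
import Cfsg.Prelude.Def_LieTypeDatum
import Cfsg.Agent.Lib.helper13.OrthDiag
import Cfsg.Agent.Lib.helper13.PlusDiag
import Cfsg.Agent.Lib.helper4.OrthForms
import Cfsg.Agent.S2679

set_option autoImplicit false
set_option linter.unusedSectionVars false
set_option linter.unusedVariables false
set_option linter.style.longLine false

/-!
The inner-diagonal automorphisms of `PΩ⁻_{2m+2}(q)`, `q` odd, modulo the inner automorphisms.
-/

universe u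

namespace Cfsg.Agent.Lib.helper13.OA

open Matrix

open Cfsg.Agent.S2562 (qP qP_apply nondeg_qP)
open Cfsg.Agent.S2679 (qMg qMg_apply eLin eLin_injective eLin_form)

section kform

open Cfsg.Agent.Lib.helper4

variable {K : Type*} [Field K]

theorem nondeg_qMg_disc (k : ℕ) (a c : K) (hD : a ^ 2 - 4 * c ≠ 0) :
    (QuadraticMap.polarBilin (qMg K k a c)).Nondegenerate := by
  classical
  have hdet : (Cfsg.Agent.S2621.ellM K k a c).det ≠ 0 := by
    rw [Cfsg.Agent.S2621.det_ellM]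
    refine mul_ne_zero (pow_ne_zero _ (neg_ne_zero.mpr one_ne_zero)) ?_
    intro h0
    apply hD
    linear_combination -h0
  apply nondeg_of_sep_left
  intro x hx
  apply Matrix.eq_zero_of_vecMul_eq_zero hdet
  funext j
  have h4 := hx (Pi.single j 1)
  rw [qMg_coe, Cfsg.Agent.S2621.polar_minus, Matrix.dotProduct_mulVec] at h4
  simpa using h4

/-- the coordinate change to the hyperbolic form as a linear equivalence -/
noncomputable def minusE (k : ℕ) (r r' : K) (h : r ≠ r') :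
    ((Fin k ⊕ Fin k) ⊕ Fin 2 → K) ≃ₗ[K] (Fin (k + 1) ⊕ Fin (k + 1) → K) :=
  LinearMap.linearEquivOfInjective (eLin k r r') (eLin_injective k r r' h) (by simp; ring)

theorem minusE_apply (k : ℕ) (r r' : K) (h : r ≠ r') (v : (Fin k ⊕ Fin k) ⊕ Fin 2 → K) :
    minusE k r r' h v = eLin k r r' v := rfl

/-- a maximal totally singular subspace of the minus-type form over a field where the binary
part splits -/
noncomputable def minusU0 (k : ℕ) (r r' : K) (h : r ≠ r') :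
    Submodule K ((Fin k ⊕ Fin k) ⊕ Fin 2 → K) :=
  (plusU0 K (k + 1)).map
    ((minusE k r r' h).symm : (Fin (k + 1) ⊕ Fin (k + 1) → K) →ₗ[K] _)

theorem mem_minusU0 (k : ℕ) (r r' : K) (h : r ≠ r') (v : (Fin k ⊕ Fin k) ⊕ Fin 2 → K) :
    v ∈ minusU0 k r r' h ↔ eLin k r r' v ∈ plusU0 K (k + 1) := by
  unfold minusU0
  rw [Submodule.mem_map_equiv, LinearEquiv.symm_symm, minusE_apply]

theorem minusU0_maxTS (k : ℕ) (a c r r' : K) (h : r ≠ r') (h1 : r + r' = -a) (h2 : r * r' = c) :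
    MaxTS (qMg K k a c) (minusU0 k r r' h) := by
  refine ⟨?_, ?_⟩
  · intro u hu
    rw [mem_minusU0] at hu
    rw [qMg_apply, ← eLin_form k a c r r' h1 h2, ← qP_apply]
    exact (plusU0_maxTS (k + 1)).1 _ hu
  · unfold minusU0
    rw [LinearEquiv.finrank_map_eq, plusU0_finrank]
    simp only [Fintype.card_sum, Fintype.card_fin]
    omega

variable {ι : Type} [Fintype ι] [DecidableEq ι]

theorem scal_mulVec (t : Kˣ) (v : ι → K) :
    ((Matrix.GeneralLinearGroup.scalar ι t : GL ι K) : Matrix ι ι K) *ᵥ v = (t : K) • v := by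
  rw [Matrix.GeneralLinearGroup.coe_scalar, Matrix.scalar_apply]
  funext i
  rw [Matrix.mulVec_diagonal]
  rfl

/-- a scalar as a similarity -/
noncomputable def scalSim (Q : QuadraticForm K (ι → K)) (t : Kˣ) :
    ↥(Cfsg.Geo.quadSimilarityGroup (⇑Q)) :=
  ⟨Matrix.GeneralLinearGroup.scalar ι t, ⟨t * t, fun v => by
    rw [scal_mulVec, QuadraticMap.map_smul, Units.val_mul, smul_eq_mul]⟩⟩

theorem scalSim_mulVec (Q : QuadraticForm K (ι → K)) (t : Kˣ) (v : ι → K) :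
    (((scalSim Q t : ↥(Cfsg.Geo.quadSimilarityGroup (⇑Q))) : GL ι K) : Matrix ι ι K) *ᵥ v =
      (t : K) • v := scal_mulVec t v

theorem scalSim_mult (Q : QuadraticForm K (ι → K)) (h0 : ∃ v, (⇑Q) v ≠ 0) (t : Kˣ) :
    mult (⇑Q) (scalSim Q t) = t * t :=
  mult_unique _ h0 _ (t * t) (fun v => by
    rw [scalSim_mulVec, QuadraticMap.map_smul, Units.val_mul, smul_eq_mul])

theorem scalSim_delta [Fintype K] (Q : QuadraticForm K (ι → K)) (h0 : ∃ v, (⇑Q) v ≠ 0) (m : ℕ)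
    (hm : Fintype.card ι = 2 * m) (t : Kˣ) : delta (⇑Q) h0 m (scalSim Q t) = 1 :=
  (scalar_data Q h0 m hm (scalSim Q t) (t : K) (fun v => scalSim_mulVec Q t v)).2

theorem scalSim_img (Q : QuadraticForm K (ι → K)) (t : Kˣ) (U : Submodule K (ι → K)) :
    Cfsg.imageSubmodule (((scalSim Q t : ↥(Cfsg.Geo.quadSimilarityGroup (⇑Q))) : GL ι K) :
      Matrix ι ι K) U = U := by
  apply Submodule.eq_of_le_of_finrank_eq
  · intro x hx
    obtain ⟨u, hu, rfl⟩ := Submodule.mem_map.1 hx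
    rw [Matrix.toLin'_apply, scalSim_mulVec]
    exact U.smul_mem _ hu
  · exact img_finrank _ _

theorem minus_card (k : ℕ) : Fintype.card ((Fin k ⊕ Fin k) ⊕ Fin 2) = 2 * (k + 1) := by
  rw [Fintype.card_sum, Fintype.card_sum, Fintype.card_fin, Fintype.card_fin]
  ring

/-- the class-preservation criterion for the minus-type form over a field where the binary part
splits and the multiplier is a square -/
theorem psc_minus_K [Fintype K] (h2 : (2 : K) ≠ 0) (k : ℕ) (a c r : K)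
    (hr : r ^ 2 + a * r + c = 0) (hD : a ^ 2 - 4 * c ≠ 0) (h0 : ∃ v, (⇑(qMg K k a c)) v ≠ 0)
    (g : ↥(Cfsg.Geo.quadSimilarityGroup (⇑(qMg K k a c)))) (t : Kˣ)
    (ht : mult (⇑(qMg K k a c)) g = t * t) :
    Cfsg.PreservesSingularClasses (⇑(qMg K k a c))
      ((g : GL ((Fin k ⊕ Fin k) ⊕ Fin 2) K) :
        Matrix ((Fin k ⊕ Fin k) ⊕ Fin 2) ((Fin k ⊕ Fin k) ⊕ Fin 2) K) ↔
      delta (⇑(qMg K k a c)) h0 (k + 1) g = 1 := by
  have hne : r ≠ -a - r := by
    intro h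
    apply hD
    linear_combination (a + 2 * r) * h - 4 * hr
  exact psc_iff h2 (qMg K k a c) (nondeg_qMg_disc k a c hD) h0 (k + 1) (minusU0 k r (-a - r) hne)
    (minusU0_maxTS k a c r (-a - r) hne (by ring) (by linear_combination -hr)) g
    (scalSim _ t) ((scalSim_mult _ h0 t).trans ht.symm)
    (scalSim_delta _ h0 (k + 1) (minus_card k) t) (scalSim_img _ t _)

end kform

section basechange

open Cfsg.Agent.Lib.helper4

variable {F : Type*} [Field F] {K : Type*} [Field K]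

/-- extension of scalars of similarities -/
theorem sim_map (ι : F →+* K) (k : ℕ) (a c μ : F)
    (G : Matrix ((Fin k ⊕ Fin k) ⊕ Fin 2) ((Fin k ⊕ Fin k) ⊕ Fin 2) F)
    (hG : ∀ u, Cfsg.quadFormMinus k F a c (G *ᵥ u) = μ * Cfsg.quadFormMinus k F a c u)
    (v : (Fin k ⊕ Fin k) ⊕ Fin 2 → K) :
    Cfsg.quadFormMinus k K (ι a) (ι c) ((G.map ι) *ᵥ v)
      = ι μ * Cfsg.quadFormMinus k K (ι a) (ι c) v := by
  classical
  have hpt : ∀ u : (Fin k ⊕ Fin k) ⊕ Fin 2 → F,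
      ((qMg K k (ι a) (ι c)).comp (Matrix.toLin' (G.map ι))) (fun i => ι (u i))
        = (ι μ • qMg K k (ι a) (ι c)) (fun i => ι (u i)) := by
    intro u
    have h1 : (G.map ι).mulVec (fun i => ι (u i)) = fun i => ι (G.mulVec u i) := by
      funext i
      simp [Matrix.mulVec, dotProduct, map_sum, map_mul]
    rw [QuadraticMap.comp_apply, Matrix.toLin'_apply, _root_.smul_apply, qMg_apply,
      qMg_apply, h1, Cfsg.Agent.S2679.minus_map, Cfsg.Agent.S2679.minus_map, hG, map_mul,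
      smul_eq_mul]
  have hs : ∀ i, (Pi.basisFun K ((Fin k ⊕ Fin k) ⊕ Fin 2)) i
      = fun j => ι ((Pi.single i 1 : (Fin k ⊕ Fin k) ⊕ Fin 2 → F) j) := by
    intro i
    funext j
    by_cases h : j = i
    · subst h; simp
    · simp [h]
  have hQ : (qMg K k (ι a) (ι c)).comp (Matrix.toLin' (G.map ι)) =
      ι μ • qMg K k (ι a) (ι c) := by
    apply quad_ext_basis (Pi.basisFun K ((Fin k ⊕ Fin k) ⊕ Fin 2))
    · intro i
      rw [hs, hpt]
    · intro i j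
      have hadd : (Pi.basisFun K ((Fin k ⊕ Fin k) ⊕ Fin 2)) i
            + (Pi.basisFun K ((Fin k ⊕ Fin k) ⊕ Fin 2)) j
          = fun l => ι ((Pi.single i 1 + Pi.single j 1 : (Fin k ⊕ Fin k) ⊕ Fin 2 → F) l) := by
        rw [hs, hs]
        funext l
        simp
      unfold QuadraticMap.polar
      rw [hadd, hpt, hs, hs, hpt, hpt]
  have := congrArg (fun Q : QuadraticForm K ((Fin k ⊕ Fin k) ⊕ Fin 2 → K) => Q v) hQ
  simpa [qMg_apply] using this

theorem simMap_spec [Algebra F K] (k : ℕ) (a c : F)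
    (g : ↥(Cfsg.Geo.quadSimilarityGroup (⇑(qMg F k a c))))
    (v : (Fin k ⊕ Fin k) ⊕ Fin 2 → K) :
    qMg K k (algebraMap F K a) (algebraMap F K c)
      ((((g : GL ((Fin k ⊕ Fin k) ⊕ Fin 2) F) :
        Matrix ((Fin k ⊕ Fin k) ⊕ Fin 2) ((Fin k ⊕ Fin k) ⊕ Fin 2) F).map (algebraMap F K)) *ᵥ v) =
      algebraMap F K ((mult (⇑(qMg F k a c)) g : Fˣ) : F) *
        qMg K k (algebraMap F K a) (algebraMap F K c) v := by
  rw [qMg_apply, qMg_apply]
  exact sim_map (algebraMap F K) k a c _ _ (fun u => by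
    rw [← qMg_apply, ← qMg_apply]
    exact mult_spec _ g u) v

/-- base change of a similarity -/
noncomputable def simMap [Algebra F K] (k : ℕ) (a c : F)
    (g : ↥(Cfsg.Geo.quadSimilarityGroup (⇑(qMg F k a c)))) :
    ↥(Cfsg.Geo.quadSimilarityGroup (⇑(qMg K k (algebraMap F K a) (algebraMap F K c)))) :=
  ⟨Matrix.GeneralLinearGroup.map (algebraMap F K) (g : GL ((Fin k ⊕ Fin k) ⊕ Fin 2) F),
    ⟨Units.map (algebraMap F K : F →* K) (mult _ g), fun v => simMap_spec k a c g v⟩⟩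

theorem simMap_coe [Algebra F K] (k : ℕ) (a c : F)
    (g : ↥(Cfsg.Geo.quadSimilarityGroup (⇑(qMg F k a c)))) :
    (((simMap (K := K) k a c g :
      ↥(Cfsg.Geo.quadSimilarityGroup (⇑(qMg K k (algebraMap F K a) (algebraMap F K c))))) :
        GL ((Fin k ⊕ Fin k) ⊕ Fin 2) K) :
          Matrix ((Fin k ⊕ Fin k) ⊕ Fin 2) ((Fin k ⊕ Fin k) ⊕ Fin 2) K) =
      ((g : GL ((Fin k ⊕ Fin k) ⊕ Fin 2) F) :
        Matrix ((Fin k ⊕ Fin k) ⊕ Fin 2) ((Fin k ⊕ Fin k) ⊕ Fin 2) F).map (algebraMap F K) := rfl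

theorem simMap_mult [Algebra F K] (k : ℕ) (a c : F)
    (h0K : ∃ v, (⇑(qMg K k (algebraMap F K a) (algebraMap F K c))) v ≠ 0)
    (g : ↥(Cfsg.Geo.quadSimilarityGroup (⇑(qMg F k a c)))) :
    mult _ (simMap (K := K) k a c g) = Units.map (algebraMap F K : F →* K) (mult _ g) :=
  mult_unique _ h0K _ _ (fun v => simMap_spec k a c g v)

theorem simMap_delta [Algebra F K] (k : ℕ) (a c : F) (h0 : ∃ v, (⇑(qMg F k a c)) v ≠ 0)
    (h0K : ∃ v, (⇑(qMg K k (algebraMap F K a) (algebraMap F K c))) v ≠ 0) (m : ℕ)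
    (g : ↥(Cfsg.Geo.quadSimilarityGroup (⇑(qMg F k a c)))) :
    delta _ h0K m (simMap (K := K) k a c g) = 1 ↔ delta _ h0 m g = 1 := by
  have key : delta _ h0K m (simMap (K := K) k a c g) =
      Units.map (algebraMap F K : F →* K) (delta _ h0 m g) := by
    rw [delta_apply, delta_apply, simMap_mult k a c h0K, map_mul, map_pow, map_inv]
    congr 1
    exact Matrix.GeneralLinearGroup.map_det (algebraMap F K) _
  rw [key]
  constructor
  · intro h
    apply Units.map_injective (f := (algebraMap F K : F →* K)) (algebraMap F K).injective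
    rw [h, map_one]
  · intro h
    rw [h, map_one]

/-- the class-preservation criterion over a quadratic extension -/
theorem psc_K_iff [Fintype K] [Algebra F K] (h2 : (2 : F) ≠ 0) (k : ℕ) (a c : F)
    (hD : a ^ 2 - 4 * c ≠ 0) (hsq : ∀ u : F, IsSquare (algebraMap F K u))
    (h0 : ∃ v, (⇑(qMg F k a c)) v ≠ 0)
    (g : ↥(Cfsg.Geo.quadSimilarityGroup (⇑(qMg F k a c)))) :
    Cfsg.PreservesSingularClasses
      (Cfsg.quadFormMinus k K (algebraMap F K a) (algebraMap F K c))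
      (((g : GL ((Fin k ⊕ Fin k) ⊕ Fin 2) F) :
        Matrix ((Fin k ⊕ Fin k) ⊕ Fin 2) ((Fin k ⊕ Fin k) ⊕ Fin 2) F).map (algebraMap F K)) ↔
      delta (⇑(qMg F k a c)) h0 (k + 1) g = 1 := by
  have hcoe : Cfsg.quadFormMinus k K (algebraMap F K a) (algebraMap F K c) =
      ⇑(qMg K k (algebraMap F K a) (algebraMap F K c)) :=
    funext (fun v => (qMg_apply k _ _ v).symm)
  rw [hcoe]
  have h0K : ∃ v, (⇑(qMg K k (algebraMap F K a) (algebraMap F K c))) v ≠ 0 := by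
    obtain ⟨v, hv⟩ := h0
    refine ⟨fun i => algebraMap F K (v i), ?_⟩
    rw [qMg_apply, Cfsg.Agent.S2679.minus_map, ← qMg_apply]
    exact fun h => hv ((algebraMap F K).injective (by rw [h, map_zero]))
  have h2K : (2 : K) ≠ 0 := by
    intro h
    apply h2
    apply (algebraMap F K).injective
    rw [map_ofNat, map_zero]
    exact h
  obtain ⟨s, hs⟩ := hsq (a ^ 2 - 4 * c)
  have hss : s * s = (algebraMap F K a) ^ 2 - 4 * algebraMap F K c := by
    rw [← hs, map_sub, map_pow, map_mul, map_ofNat]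
  have hr : ((-(algebraMap F K a) + s) / 2) ^ 2 + algebraMap F K a * ((-(algebraMap F K a) + s) / 2)
      + algebraMap F K c = 0 := by
    field_simp
    linear_combination hss
  have hDK : (algebraMap F K a) ^ 2 - 4 * algebraMap F K c ≠ 0 := by
    intro h
    apply hD
    apply (algebraMap F K).injective
    rw [map_zero, map_sub, map_pow, map_mul, map_ofNat]
    exact h
  obtain ⟨t, ht⟩ := hsq ((mult _ g : Fˣ) : F)
  have ht0 : t ≠ 0 := by
    rintro rfl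
    rw [mul_zero] at ht
    exact Units.ne_zero (mult _ g) ((algebraMap F K).injective (by rw [ht, map_zero]))
  have h1 := psc_minus_K h2K k _ _ _ hr hDK h0K (simMap k a c g) (Units.mk0 t ht0) (by
    rw [simMap_mult k a c h0K]
    apply Units.ext
    rw [Units.coe_map, Units.val_mul, Units.val_mk0]
    exact ht)
  rw [simMap_coe] at h1
  exact h1.trans (simMap_delta k a c h0 h0K (k + 1) g)

end basechange

section fieldfacts

open Cfsg.Agent.Lib.helper4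

/-- every element of a finite field of odd order is a square in a quadratic extension -/
theorem sq_in_ext {F : Type*} [Field F] [Fintype F] {K : Type*} [Field K] [Fintype K]
    [Algebra F K] (hodd : Odd (Fintype.card F)) (h2 : (2 : F) ≠ 0)
    (hfin : Module.finrank F K = 2) (u : F) : IsSquare (algebraMap F K u) := by
  by_cases hu : u = 0
  · rw [hu, map_zero]
    exact ⟨0, by simp⟩
  have h2K : (2 : K) ≠ 0 := by
    intro h
    apply h2
    apply (algebraMap F K).injective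
    rw [map_ofNat, map_zero]
    exact h
  have hchar : ringChar K ≠ 2 := by
    intro hch
    have : CharP K 2 := ringChar.eq_iff.mp hch
    exact h2K (CharTwo.two_eq_zero)
  have hcard : Fintype.card K = Fintype.card F ^ 2 := by
    rw [← hfin]
    exact Module.card_eq_pow_finrank
  have huK : algebraMap F K u ≠ 0 := fun h => hu ((algebraMap F K).injective (by rw [h, map_zero]))
  rw [FiniteField.isSquare_iff hchar huK]
  obtain ⟨j, hj⟩ := hodd
  have hexp : Fintype.card K / 2 = (Fintype.card F - 1) * (j + 1) := by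
    rw [hcard, hj]
    have h1 : (2 * j + 1) ^ 2 = 2 * ((2 * j + 1 - 1) * (j + 1)) + 1 := by
      have : 2 * j + 1 - 1 = 2 * j := by omega
      rw [this]
      ring
    rw [h1]
    omega
  rw [hexp, pow_mul, ← map_pow, FiniteField.pow_card_sub_one_eq_one u hu, map_one, one_pow]

/-- a quadratic extension in the same universe -/
theorem exists_quad_ext {F : Type u} [Field F] (a c : F)
    (hac : ∀ z₁ z₂ : F, z₁ ^ 2 + a * z₁ * z₂ + c * z₂ ^ 2 = 0 → z₁ = 0 ∧ z₂ = 0) :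
    ∃ (K : Type u) (_ : Field K) (_ : Algebra F K), Module.finrank F K = 2 := by
  classical
  obtain ⟨f, hf⟩ : ∃ f : Polynomial F,
      f = Polynomial.X ^ 2 + Polynomial.C a * Polynomial.X + Polynomial.C c := ⟨_, rfl⟩
  have hdeg : f.natDegree = 2 := by
    rw [hf]
    compute_degree!
  have hmon : f.Monic := by
    rw [hf]
    monicity!
  have hirr : Irreducible f := by
    rw [Polynomial.Monic.irreducible_iff_roots_eq_zero_of_degree_le_three hmon (by rw [hdeg])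
      (by rw [hdeg]; norm_num)]
    rw [Multiset.eq_zero_iff_forall_notMem]
    intro t ht
    rw [Polynomial.mem_roots hmon.ne_zero] at ht
    have h2 : t ^ 2 + a * t * 1 + c * 1 ^ 2 = 0 := by
      simpa [hf, Polynomial.IsRoot] using ht
    exact one_ne_zero (hac t 1 h2).2
  have : Fact (Irreducible f) := ⟨hirr⟩
  have hfin : Module.finrank F (AdjoinRoot f) = 2 := by
    rw [(AdjoinRoot.powerBasis hmon.ne_zero).finrank, AdjoinRoot.powerBasis_dim, hdeg]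
  exact ⟨AdjoinRoot f, inferInstance, inferInstance, hfin⟩

/-- the class-preservation criterion for the minus-type form -/
theorem psc_minus {F : Type u} [Field F] [Fintype F] (hodd : Odd (Fintype.card F))
    (h2 : (2 : F) ≠ 0) (m : ℕ) (a b : F)
    (hab : ∀ z₁ z₂ : F, z₁ ^ 2 + a * z₁ * z₂ + b * z₂ ^ 2 = 0 → z₁ = 0 ∧ z₂ = 0)
    (h0 : ∃ v, (⇑(qMg F m a b)) v ≠ 0)
    (g : ↥(Cfsg.Geo.quadSimilarityGroup (⇑(qMg F m a b)))) :
    Cfsg.PreservesSingularClassesMinus m a b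
      ((g : GL ((Fin m ⊕ Fin m) ⊕ Fin 2) F) :
        Matrix ((Fin m ⊕ Fin m) ⊕ Fin 2) ((Fin m ⊕ Fin m) ⊕ Fin 2) F) ↔
      delta (⇑(qMg F m a b)) h0 (m + 1) g = 1 := by
  have hD : a ^ 2 - 4 * b ≠ 0 := disc_ne_zero a b hab
  constructor
  · rintro ⟨K, hK, hA, hfin, hpsc⟩
    have : Module.Finite F K := Module.finite_of_finrank_pos (by rw [hfin]; norm_num)
    have : Finite K := Module.finite_of_finite F
    let _ : Fintype K := Fintype.ofFinite K
    exact (psc_K_iff h2 m a b hD (sq_in_ext hodd h2 hfin) h0 g).1 hpsc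
  · intro h
    obtain ⟨K, hK, hA, hfin⟩ := exists_quad_ext a b hab
    have : Module.Finite F K := Module.finite_of_finrank_pos (by rw [hfin]; norm_num)
    have : Finite K := Module.finite_of_finite F
    let _ : Fintype K := Fintype.ofFinite K
    exact ⟨K, hK, hA, hfin, (psc_K_iff h2 m a b hD (sq_in_ext hodd h2 hfin) h0 g).2 h⟩

end fieldfacts

section c4

open Cfsg.Agent.Lib.helper4

variable {F : Type*} [Field F] [Fintype F] {ι : Type} [Fintype ι] [DecidableEq ι]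

/-- `-1 ∈ Ω`: from a similarity `y` with non-square multiplier, `y²` scalar and `det y = -μ^m`,
a similarity with `det = μ^m` whose square is not inner -/
theorem c4_elem (h2 : (2 : F) ≠ 0) (m : ℕ) (hm : Fintype.card ι = 2 * m)
    (hn : 6 ≤ Fintype.card ι) (Q : QuadraticForm F (ι → F))
    (hQ : (QuadraticMap.polarBilin Q).Nondegenerate) (h0 : ∃ v, (⇑Q) v ≠ 0)
    (hneg : negEl Q ∈ Cfsg.Omega F ⇑Q) (y : ↥(Cfsg.Geo.quadSimilarityGroup (⇑Q))) (c₀ : Fˣ)
    (hy : ∀ v, Q (((y : GL ι F) : Matrix ι ι F) *ᵥ v) = (c₀ : F) * Q v)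
    (hc₀ : ¬ IsSquare (c₀ : F)) (a : F)
    (hyy : ∀ v : ι → F, (((y * y : ↥(Cfsg.Geo.quadSimilarityGroup (⇑Q))) : GL ι F) :
      Matrix ι ι F) *ᵥ v = a • v)
    (hdy : delta (⇑Q) h0 m y = -1) :
    ∃ x : ↥(Cfsg.Geo.quadSimilarityGroup (⇑Q)), delta (⇑Q) h0 m x = 1 ∧
      conjAut (⇑Q) (x * x) ∉ Cfsg.Inn (Cfsg.POmega F ⇑Q) := by
  obtain ⟨v, hv⟩ := universal Q hQ (by omega) 1 one_ne_zero
  have hv' : Q v ≠ 0 := by rw [hv]; exact one_ne_zero
  have hrr : reflSim Q v * reflSim Q v = 1 := by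
    apply Subtype.ext
    show (reflEl Q v : GL ι F) * (reflEl Q v : GL ι F) = 1
    exact congrArg (fun t : ↥(Cfsg.isometryGroup F ⇑Q) => (t : GL ι F)) (reflEl_mul_self Q v)
  refine ⟨y * reflSim Q v, ?_, ?_⟩
  · rw [map_mul, hdy, (reflSim_data h2 Q h0 m v hv').2]
    simp
  · have hcy : conjAut (⇑Q) y * conjAut (⇑Q) y = 1 := by
      rw [← (conjAut (⇑Q)).map_mul]
      exact conjAut_eq_one_of_scalar (⇑Q) (y * y) a hyy
    have hcr : conjAut (⇑Q) (reflSim Q v) * conjAut (⇑Q) (reflSim Q v) = 1 := by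
      rw [← (conjAut (⇑Q)).map_mul, hrr, (conjAut (⇑Q)).map_one]
    have heq : conjAut (⇑Q) (y * reflSim Q v * (y * reflSim Q v)) =
        conjAut (⇑Q) (y * reflSim Q v * y⁻¹ * (reflSim Q v)⁻¹) := by
      simp only [(conjAut (⇑Q)).map_mul, (conjAut (⇑Q)).map_inv]
      rw [inv_eq_of_mul_eq_one_left hcy, inv_eq_of_mul_eq_one_left hcr, mul_assoc, mul_assoc,
        mul_assoc]
    rw [heq]
    exact comm_not_inn h2 hn Q hQ y c₀ hy hc₀ hneg v hv

omit [Fintype F] in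
theorem exists_sqrt_mat (m : ℕ) (hm : Even m) (c : F) :
    ∃ A : Matrix (Fin m) (Fin m) F, A * A = c • (1 : Matrix (Fin m) (Fin m) F) := by
  obtain ⟨k, rfl⟩ := hm
  have h : (Matrix.fromBlocks (0 : Matrix (Fin k) (Fin k) F) 1
      (c • (1 : Matrix (Fin k) (Fin k) F)) 0) *
      (Matrix.fromBlocks (0 : Matrix (Fin k) (Fin k) F) 1
        (c • (1 : Matrix (Fin k) (Fin k) F)) 0) =
      c • (1 : Matrix (Fin k ⊕ Fin k) (Fin k ⊕ Fin k) F) := by
    rw [Matrix.fromBlocks_multiply, ← Matrix.fromBlocks_one, Matrix.fromBlocks_smul]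
    simp
  refine ⟨Matrix.reindex finSumFinEquiv finSumFinEquiv
    (Matrix.fromBlocks (0 : Matrix (Fin k) (Fin k) F) 1 (c • (1 : Matrix (Fin k) (Fin k) F)) 0),
    ?_⟩
  rw [Matrix.reindex_apply, Matrix.submatrix_mul_equiv, h]
  ext i j
  simp [Matrix.one_apply]

/-- the matrix of an involutive similarity of the minus-type form -/
def yMat (m : ℕ) (a b x : F) (A : Matrix (Fin m) (Fin m) F) :
    Matrix ((Fin m ⊕ Fin m) ⊕ Fin 2) ((Fin m ⊕ Fin m) ⊕ Fin 2) F :=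
  Matrix.fromBlocks (Matrix.fromBlocks A 0 0 Aᵀ : Matrix (Fin m ⊕ Fin m) (Fin m ⊕ Fin m) F)
    (0 : Matrix (Fin m ⊕ Fin m) (Fin 2) F) (0 : Matrix (Fin 2) (Fin m ⊕ Fin m) F)
    (!![x - a, a * x - a ^ 2 + 2 * b; 2, a - x] : Matrix (Fin 2) (Fin 2) F)

omit [Fintype F] in
theorem yMat_sim (m : ℕ) (a b x c : F) (hc : c = x ^ 2 - (a ^ 2 - 4 * b))
    (A : Matrix (Fin m) (Fin m) F) (hA : A * A = c • (1 : Matrix (Fin m) (Fin m) F))
    (v : (Fin m ⊕ Fin m) ⊕ Fin 2 → F) :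
    qMg F m a b (yMat m a b x A *ᵥ v) = c * qMg F m a b v := by
  rw [qMg_apply, qMg_apply]
  unfold Cfsg.quadFormMinus
  have e1 : ∀ i : Fin m, (yMat m a b x A *ᵥ v) (Sum.inl (Sum.inl i)) =
      (A *ᵥ (fun j => v (Sum.inl (Sum.inl j)))) i := by
    intro i
    unfold yMat
    simp [Matrix.mulVec, dotProduct, Fintype.sum_sum_type]
  have e2 : ∀ i : Fin m, (yMat m a b x A *ᵥ v) (Sum.inl (Sum.inr i)) =
      (Aᵀ *ᵥ (fun j => v (Sum.inl (Sum.inr j)))) i := by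
    intro i
    unfold yMat
    simp [Matrix.mulVec, dotProduct, Fintype.sum_sum_type]
  have e3 : (yMat m a b x A *ᵥ v) (Sum.inr 0) =
      (x - a) * v (Sum.inr 0) + (a * x - a ^ 2 + 2 * b) * v (Sum.inr 1) := by
    unfold yMat
    simp [Matrix.mulVec, dotProduct, Fintype.sum_sum_type, Fin.sum_univ_two]
  have e4 : (yMat m a b x A *ᵥ v) (Sum.inr 1) = 2 * v (Sum.inr 0) + (a - x) * v (Sum.inr 1) := by
    unfold yMat
    simp [Matrix.mulVec, dotProduct, Fintype.sum_sum_type, Fin.sum_univ_two]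
  have hsum : ∑ i : Fin m, (yMat m a b x A *ᵥ v) (Sum.inl (Sum.inl i)) *
      (yMat m a b x A *ᵥ v) (Sum.inl (Sum.inr i)) =
      c * ∑ i : Fin m, v (Sum.inl (Sum.inl i)) * v (Sum.inl (Sum.inr i)) := by
    simp only [e1, e2]
    have h1 : ∑ i : Fin m, (A *ᵥ (fun j => v (Sum.inl (Sum.inl j)))) i *
        (Aᵀ *ᵥ (fun j => v (Sum.inl (Sum.inr j)))) i =
        (A *ᵥ (fun j => v (Sum.inl (Sum.inl j)))) ⬝ᵥ (Aᵀ *ᵥ (fun j => v (Sum.inl (Sum.inr j)))) :=
      rfl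
    rw [h1, Matrix.dotProduct_mulVec, Matrix.vecMul_transpose, Matrix.mulVec_mulVec, hA,
      Matrix.smul_mulVec, Matrix.one_mulVec, smul_dotProduct, smul_eq_mul]
    rfl
  rw [e3, e4, hsum, hc]
  ring

omit [Fintype F] in
theorem yMat_sq (m : ℕ) (a b x c : F) (hc : c = x ^ 2 - (a ^ 2 - 4 * b))
    (A : Matrix (Fin m) (Fin m) F) (hA : A * A = c • (1 : Matrix (Fin m) (Fin m) F)) :
    yMat m a b x A * yMat m a b x A = c • 1 := by
  unfold yMat
  have hB : (!![x - a, a * x - a ^ 2 + 2 * b; 2, a - x] : Matrix (Fin 2) (Fin 2) F) *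
      !![x - a, a * x - a ^ 2 + 2 * b; 2, a - x] = c • (1 : Matrix (Fin 2) (Fin 2) F) := by
    rw [hc]
    ext i j
    fin_cases i <;> fin_cases j <;> simp [Matrix.mul_apply, Fin.sum_univ_two] <;> ring
  have hAT : Aᵀ * Aᵀ = c • (1 : Matrix (Fin m) (Fin m) F) := by
    rw [← Matrix.transpose_mul, hA, Matrix.transpose_smul, Matrix.transpose_one]
  rw [Matrix.fromBlocks_multiply, Matrix.fromBlocks_multiply]
  simp only [Matrix.mul_zero, Matrix.zero_mul, add_zero, zero_add, hA, hAT, hB]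
  rw [← Matrix.fromBlocks_one, ← Matrix.fromBlocks_one, Matrix.fromBlocks_smul,
    Matrix.fromBlocks_smul]
  simp

omit [Fintype F] in
theorem yMat_det (m : ℕ) (a b x c : F) (hc : c = x ^ 2 - (a ^ 2 - 4 * b))
    (A : Matrix (Fin m) (Fin m) F) (hA : A * A = c • (1 : Matrix (Fin m) (Fin m) F)) :
    (yMat m a b x A).det = -(c ^ (m + 1)) := by
  unfold yMat
  have hdA : A.det * A.det = c ^ m := by
    rw [← Matrix.det_mul, hA, Matrix.det_smul, Matrix.det_one, mul_one, Fintype.card_fin]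
  rw [Matrix.det_fromBlocks_zero₂₁, Matrix.det_fromBlocks_zero₂₁, Matrix.det_transpose,
    Matrix.det_fin_two_of, hdA, hc]
  ring

end c4

section minusdiag

open Cfsg.Agent.Lib.helper4

variable {F : Type u} [Field F] [Fintype F]

theorem minus_h0 (m : ℕ) (a b : F)
    (hab : ∀ z₁ z₂ : F, z₁ ^ 2 + a * z₁ * z₂ + b * z₂ ^ 2 = 0 → z₁ = 0 ∧ z₂ = 0) :
    ∃ v, (⇑(qMg F m a b)) v ≠ 0 := by
  obtain ⟨v, hv⟩ := universal (qMg F m a b) (nondeg_qMg m a b hab)
    (by rw [minus_card]; omega) 1 one_ne_zero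
  exact ⟨v, by rw [hv]; exact one_ne_zero⟩

/-- an involutive similarity of the minus-type form with non-square multiplier and
`det = -μ^(m+1)` (`m` even) -/
theorem exists_invol_sim (h2 : (2 : F) ≠ 0) (m : ℕ) (hm : Even m) (a b : F)
    (hab : ∀ z₁ z₂ : F, z₁ ^ 2 + a * z₁ * z₂ + b * z₂ ^ 2 = 0 → z₁ = 0 ∧ z₂ = 0)
    (h0 : ∃ v, (⇑(qMg F m a b)) v ≠ 0) :
    ∃ (y : ↥(Cfsg.Geo.quadSimilarityGroup (⇑(qMg F m a b)))) (c₀ : Fˣ) (s : F),
      (∀ v, qMg F m a b (((y : GL ((Fin m ⊕ Fin m) ⊕ Fin 2) F) :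
        Matrix ((Fin m ⊕ Fin m) ⊕ Fin 2) ((Fin m ⊕ Fin m) ⊕ Fin 2) F) *ᵥ v) =
          (c₀ : F) * qMg F m a b v) ∧ ¬ IsSquare (c₀ : F) ∧
      (∀ v : (Fin m ⊕ Fin m) ⊕ Fin 2 → F,
        (((y * y : ↥(Cfsg.Geo.quadSimilarityGroup (⇑(qMg F m a b)))) :
          GL ((Fin m ⊕ Fin m) ⊕ Fin 2) F) :
            Matrix ((Fin m ⊕ Fin m) ⊕ Fin 2) ((Fin m ⊕ Fin m) ⊕ Fin 2) F) *ᵥ v = s • v) ∧
      delta (⇑(qMg F m a b)) h0 (m + 1) y = -1 := by
  classical
  have hD := Cfsg.Agent.S2621.not_isSquare_disc h2 a b hab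
  obtain ⟨x, hx⟩ := exists_nonsq_shift _ hD
  obtain ⟨c, hcdef⟩ : ∃ c : F, c = x ^ 2 - (a ^ 2 - 4 * b) := ⟨_, rfl⟩
  rw [← hcdef] at hx
  have hc0 : c ≠ 0 := by
    rintro rfl
    exact hx ⟨0, by simp⟩
  obtain ⟨A, hA⟩ := exists_sqrt_mat m hm c
  have hsim := yMat_sim m a b x c hcdef A hA
  obtain ⟨g₀, hg₀⟩ := exists_GL_of_sim (qMg F m a b) (nondeg_qMg m a b hab) (yMat m a b x A) c
    hc0 hsim
  have hmem : g₀ ∈ Cfsg.Geo.quadSimilarityGroup (⇑(qMg F m a b)) :=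
    ⟨Units.mk0 c hc0, fun v => by rw [hg₀, Units.val_mk0]; exact hsim v⟩
  have hspec : ∀ v, qMg F m a b ((g₀ : Matrix ((Fin m ⊕ Fin m) ⊕ Fin 2)
      ((Fin m ⊕ Fin m) ⊕ Fin 2) F) *ᵥ v) = ((Units.mk0 c hc0 : Fˣ) : F) * qMg F m a b v := by
    intro v
    rw [hg₀, Units.val_mk0]
    exact hsim v
  refine ⟨⟨g₀, hmem⟩, Units.mk0 c hc0, c, hspec, ?_, ?_, ?_⟩
  · rw [Units.val_mk0]
    exact hx
  · intro v
    show ((g₀ : Matrix ((Fin m ⊕ Fin m) ⊕ Fin 2) ((Fin m ⊕ Fin m) ⊕ Fin 2) F) *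
      (g₀ : Matrix ((Fin m ⊕ Fin m) ⊕ Fin 2) ((Fin m ⊕ Fin m) ⊕ Fin 2) F)) *ᵥ v = c • v
    rw [hg₀, yMat_sq m a b x c hcdef A hA, Matrix.smul_mulVec, Matrix.one_mulVec]
  · have hmu : mult (⇑(qMg F m a b)) ⟨g₀, hmem⟩ = Units.mk0 c hc0 :=
      mult_unique _ h0 _ _ hspec
    apply Units.ext
    rw [delta_apply, hmu, Units.val_mul, Units.val_pow_eq_pow_val, Units.val_inv_eq_inv_val,
      Matrix.GeneralLinearGroup.val_det_apply, Units.val_mk0, Units.val_neg, Units.val_one]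
    show (g₀ : Matrix ((Fin m ⊕ Fin m) ⊕ Fin 2) ((Fin m ⊕ Fin m) ⊕ Fin 2) F).det *
      c⁻¹ ^ (m + 1) = -1
    rw [hg₀, yMat_det m a b x c hcdef A hA, neg_mul, ← mul_pow, mul_inv_cancel₀ hc0, one_pow]

/-- the group generated by the automorphisms induced by the class-preserving similarities of
the minus-type form -/
def diagGenMinus (m : ℕ) (a b : F) (Qf : ((Fin m ⊕ Fin m) ⊕ Fin 2 → F) → F) :
    Subgroup (MulAut (Cfsg.POmega F Qf)) :=
  Cfsg.autSubgroupOf fun β : Cfsg.POmega F Qf ≃* Cfsg.POmega F Qf =>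
    ∃ g : GL ((Fin m ⊕ Fin m) ⊕ Fin 2) F, g ∈ Cfsg.Geo.quadSimilarityGroup Qf ∧
      Cfsg.PreservesSingularClassesMinus m a b
        (g : Matrix ((Fin m ⊕ Fin m) ⊕ Fin 2) ((Fin m ⊕ Fin m) ⊕ Fin 2) F) ∧
        Cfsg.IsInducedBySemilinearPOmega Qf g (RingEquiv.refl F) β

omit [Fintype F] in
theorem inndiagMinus_eq (m : ℕ) (a b : F) :
    Cfsg.inndiagPOmegaMinus m F a b = diagGenMinus m a b (Cfsg.quadFormMinus m F a b) := rfl

theorem diagGenMinus_eq (hodd : Odd (Fintype.card F)) (h2 : (2 : F) ≠ 0) (m : ℕ) (a b : F)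
    (hab : ∀ z₁ z₂ : F, z₁ ^ 2 + a * z₁ * z₂ + b * z₂ ^ 2 = 0 → z₁ = 0 ∧ z₂ = 0)
    (h0 : ∃ v, (⇑(qMg F m a b)) v ≠ 0) :
    diagGenMinus m a b (⇑(qMg F m a b)) = dSub (qMg F m a b) h0 (m + 1) :=
  autSub_eq (⇑(qMg F m a b)) (Cfsg.PreservesSingularClassesMinus m a b)
    (delta (⇑(qMg F m a b)) h0 (m + 1)).ker
    (fun g => (psc_minus hodd h2 m a b hab h0 g).trans MonoidHom.mem_ker.symm)

/-- `PΩ⁻`, `-1 ∉ Ω`: inner-diagonal modulo inner has order two -/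
theorem minus_diag_c2 (hodd : Odd (Fintype.card F)) (h2 : (2 : F) ≠ 0) (m : ℕ) (hm : 3 ≤ m)
    (a b : F) (hab : ∀ z₁ z₂ : F, z₁ ^ 2 + a * z₁ * z₂ + b * z₂ ^ 2 = 0 → z₁ = 0 ∧ z₂ = 0)
    (g₀ : GL ((Fin m ⊕ Fin m) ⊕ Fin 2) F) (c₀ : Fˣ)
    (hg₀ : ∀ v, qMg F m a b ((g₀ : Matrix ((Fin m ⊕ Fin m) ⊕ Fin 2)
      ((Fin m ⊕ Fin m) ⊕ Fin 2) F) *ᵥ v) = (c₀ : F) * qMg F m a b v)
    (hc₀ : ¬ IsSquare (c₀ : F))
    (hneg : negEl (qMg F m a b) ∉ Cfsg.Omega F ⇑(qMg F m a b)) :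
    ∃ φ : ↥(diagGenMinus m a b (⇑(qMg F m a b))) →* Multiplicative (ZMod 2),
      Function.Surjective φ ∧ φ.ker = (Cfsg.Inn (Cfsg.POmega F ⇑(qMg F m a b))).subgroupOf
        (diagGenMinus m a b (⇑(qMg F m a b))) := by
  rw [diagGenMinus_eq hodd h2 m a b hab (minus_h0 m a b hab)]
  exact diag_c2 h2 (m + 1) (minus_card m) (by rw [minus_card]; omega) (qMg F m a b)
    (nondeg_qMg m a b hab) (minus_h0 m a b hab) g₀ c₀ hg₀ hc₀ hneg

theorem minus_c4_data (h2 : (2 : F) ≠ 0) (m : ℕ) (hm : 3 ≤ m) (heven : Even m) (a b : F)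
    (hab : ∀ z₁ z₂ : F, z₁ ^ 2 + a * z₁ * z₂ + b * z₂ ^ 2 = 0 → z₁ = 0 ∧ z₂ = 0)
    (hneg : negEl (qMg F m a b) ∈ Cfsg.Omega F ⇑(qMg F m a b)) :
    ∃ (g₀ : GL ((Fin m ⊕ Fin m) ⊕ Fin 2) F) (c₀ : Fˣ)
      (x : ↥(Cfsg.Geo.quadSimilarityGroup (⇑(qMg F m a b)))),
      (∀ v, qMg F m a b ((g₀ : Matrix ((Fin m ⊕ Fin m) ⊕ Fin 2)
        ((Fin m ⊕ Fin m) ⊕ Fin 2) F) *ᵥ v) = (c₀ : F) * qMg F m a b v) ∧ ¬ IsSquare (c₀ : F) ∧
      delta (⇑(qMg F m a b)) (minus_h0 m a b hab) (m + 1) x = 1 ∧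
      conjAut (⇑(qMg F m a b)) (x * x) ∉ Cfsg.Inn (Cfsg.POmega F ⇑(qMg F m a b)) := by
  have hn : 6 ≤ Fintype.card ((Fin m ⊕ Fin m) ⊕ Fin 2) := by rw [minus_card]; omega
  obtain ⟨y, c₀, s, hy, hc₀, hyy, hdy⟩ :=
    exists_invol_sim h2 m heven a b hab (minus_h0 m a b hab)
  obtain ⟨x, hx, hxx⟩ := c4_elem h2 (m + 1) (minus_card m) hn (qMg F m a b)
    (nondeg_qMg m a b hab) (minus_h0 m a b hab) hneg y c₀ hy hc₀ s hyy hdy
  exact ⟨(y : GL ((Fin m ⊕ Fin m) ⊕ Fin 2) F), c₀, x, hy, hc₀, hx, hxx⟩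

/-- `PΩ⁻`, `-1 ∈ Ω`, `m` even: inner-diagonal modulo inner is cyclic of order four -/
theorem minus_diag_c4 (hodd : Odd (Fintype.card F)) (h2 : (2 : F) ≠ 0) (m : ℕ) (hm : 3 ≤ m)
    (heven : Even m) (a b : F)
    (hab : ∀ z₁ z₂ : F, z₁ ^ 2 + a * z₁ * z₂ + b * z₂ ^ 2 = 0 → z₁ = 0 ∧ z₂ = 0)
    (hneg : negEl (qMg F m a b) ∈ Cfsg.Omega F ⇑(qMg F m a b)) :
    ∃ φ : ↥(diagGenMinus m a b (⇑(qMg F m a b))) →* Multiplicative (ZMod 4),
      Function.Surjective φ ∧ φ.ker = (Cfsg.Inn (Cfsg.POmega F ⇑(qMg F m a b))).subgroupOf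
        (diagGenMinus m a b (⇑(qMg F m a b))) := by
  have hd := minus_c4_data h2 m hm heven a b hab hneg
  rw [diagGenMinus_eq hodd h2 m a b hab (minus_h0 m a b hab)]
  exact diag_c4 h2 (m + 1) (minus_card m) (by rw [minus_card]; omega) (qMg F m a b)
    (nondeg_qMg m a b hab) (minus_h0 m a b hab) hd.choose hd.choose_spec.choose
    hd.choose_spec.choose_spec.choose_spec.1 hd.choose_spec.choose_spec.choose_spec.2.1 hneg
    hd.choose_spec.choose_spec.choose hd.choose_spec.choose_spec.choose_spec.2.2.1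
    hd.choose_spec.choose_spec.choose_spec.2.2.2

end minusdiag

end Cfsg.Agent.Lib.helper13.OA
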