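import Mathlib
import Cfsg.Prelude.Def_LieTypeDatum

set_option autoImplicit false
set_option linter.unusedSectionVars false
set_option linter.unusedVariables false
set_option linter.style.longLine false

/-!
Counting the classes into which a class splits: the case of at most two classes.
-/

namespace Cfsg.Agent.Lib.helper13.SC

variable {X : Type*} [Group X]

theorem isConj_refl (K : Subgroup X) (x : X) : Cfsg.IsConjUnder K x x :=
  ⟨1, K.one_mem, by simp⟩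

theorem isConj_symm (K : Subgroup X) {x y : X} (h : Cfsg.IsConjUnder K x y) :
    Cfsg.IsConjUnder K y x := by
  obtain ⟨k, hk, rfl⟩ := h
  exact ⟨k⁻¹, K.inv_mem hk, by group⟩

theorem isConj_trans (K : Subgroup X) {x y z : X} (h1 : Cfsg.IsConjUnder K x y)
    (h2 : Cfsg.IsConjUnder K y z) : Cfsg.IsConjUnder K x z := by
  obtain ⟨k, hk, rfl⟩ := h1
  obtain ⟨l, hl, rfl⟩ := h2
  exact ⟨l * k, K.mul_mem hl hk, by group⟩

/-- conjugacy under `K` on the `H`-class of `x` -/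
def conjSetoid (H K : Subgroup X) (x : X) : Setoid {y : X // Cfsg.IsConjUnder H x y} where
  r y z := Cfsg.IsConjUnder K y.1 z.1
  iseqv := ⟨fun y => isConj_refl K y.1, fun h => isConj_symm K h,
    fun h1 h2 => isConj_trans K h1 h2⟩

theorem split_eq (H K : Subgroup X) (x : X) :
    Cfsg.splitClassCount H K x = Nat.card (Quotient (conjSetoid H K x)) := rfl

theorem conj_cancel (k c x : X) (hc : c * x = x * c) :
    (k * c) * x * (k * c)⁻¹ = k * x * k⁻¹ := by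
  have h1 : c * x * c⁻¹ = x := by
    rw [hc]
    group
  calc (k * c) * x * (k * c)⁻¹ = k * (c * x * c⁻¹) * k⁻¹ := by group
    _ = k * x * k⁻¹ := by rw [h1]

theorem split_bounds (H K : Subgroup X) (x h₁ : X) (hh₁ : h₁ ∈ H)
    (hdec : ∀ h ∈ H, ∃ k ∈ K, ∃ c : X, c * x = x * c ∧ (h = k * c ∨ h = k * h₁ * c)) :
    Finite (Quotient (conjSetoid H K x)) ∧ Nat.card (Quotient (conjSetoid H K x)) ≤ 2 ∧
      1 ≤ Nat.card (Quotient (conjSetoid H K x)) := by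
  obtain ⟨y₀, hy₀⟩ : ∃ y : {y : X // Cfsg.IsConjUnder H x y}, y.1 = x :=
    ⟨⟨x, isConj_refl H x⟩, rfl⟩
  obtain ⟨y₁, hy₁⟩ : ∃ y : {y : X // Cfsg.IsConjUnder H x y}, y.1 = h₁ * x * h₁⁻¹ :=
    ⟨⟨h₁ * x * h₁⁻¹, ⟨h₁, hh₁, rfl⟩⟩, rfl⟩
  obtain ⟨f, hf⟩ : ∃ f : Bool → Quotient (conjSetoid H K x),
      f false = Quotient.mk _ y₀ ∧ f true = Quotient.mk _ y₁ :=
    ⟨fun b => if b then Quotient.mk _ y₁ else Quotient.mk _ y₀, rfl, rfl⟩
  have hsurj : Function.Surjective f := by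
    intro q
    obtain ⟨y, rfl⟩ := Quotient.exists_rep q
    obtain ⟨h, hh, hy⟩ := y.2
    obtain ⟨k, hk, c, hc, hcase⟩ := hdec h hh
    rcases hcase with rfl | rfl
    · refine ⟨false, ?_⟩
      rw [hf.1]
      apply Quotient.sound
      show Cfsg.IsConjUnder K y₀.1 y.1
      rw [hy₀]
      exact ⟨k, hk, by rw [hy, conj_cancel k c x hc]⟩
    · refine ⟨true, ?_⟩
      rw [hf.2]
      apply Quotient.sound
      show Cfsg.IsConjUnder K y₁.1 y.1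
      rw [hy₁]
      refine ⟨k, hk, ?_⟩
      rw [hy, conj_cancel (k * h₁) c x hc]
      group
  have hfin : Finite (Quotient (conjSetoid H K x)) := Finite.of_surjective f hsurj
  refine ⟨hfin, ?_, ?_⟩
  · have h1 := Nat.card_le_card_of_surjective f hsurj
    have h2 : Nat.card Bool = 2 := by
      rw [Nat.card_eq_fintype_card, Fintype.card_bool]
    rw [h2] at h1
    exact h1
  · have hne : Nonempty (Quotient (conjSetoid H K x)) := ⟨Quotient.mk _ y₀⟩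
    exact Nat.card_pos

theorem two_le_split (H K : Subgroup X) [hK : K.Normal] (x h₁ : X) (hh₁ : h₁ ∈ H)
    (hne : x * h₁ * x⁻¹ * h₁⁻¹ ∉ K) (hfin : Finite (Quotient (conjSetoid H K x))) :
    2 ≤ Nat.card (Quotient (conjSetoid H K x)) := by
  obtain ⟨y₀, hy₀⟩ : ∃ y : {y : X // Cfsg.IsConjUnder H x y}, y.1 = x :=
    ⟨⟨x, isConj_refl H x⟩, rfl⟩
  obtain ⟨y₁, hy₁⟩ : ∃ y : {y : X // Cfsg.IsConjUnder H x y}, y.1 = h₁ * x * h₁⁻¹ :=
    ⟨⟨h₁ * x * h₁⁻¹, ⟨h₁, hh₁, rfl⟩⟩, rfl⟩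
  have hne' : (Quotient.mk (conjSetoid H K x) y₀) ≠ Quotient.mk (conjSetoid H K x) y₁ := by
    intro heq
    have h1 : Cfsg.IsConjUnder K y₀.1 y₁.1 := Quotient.exact heq
    rw [hy₀, hy₁] at h1
    obtain ⟨k, hk, hkx⟩ := h1
    apply hne
    have h3 : h₁ * x⁻¹ * h₁⁻¹ = k * x⁻¹ * k⁻¹ := by
      have h4 : (h₁ * x * h₁⁻¹)⁻¹ = (k * x * k⁻¹)⁻¹ := by rw [hkx]
      calc h₁ * x⁻¹ * h₁⁻¹ = (h₁ * x * h₁⁻¹)⁻¹ := by group
        _ = (k * x * k⁻¹)⁻¹ := h4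
        _ = k * x⁻¹ * k⁻¹ := by group
    have h2 : x * h₁ * x⁻¹ * h₁⁻¹ = (x * k * x⁻¹) * k⁻¹ := by
      calc x * h₁ * x⁻¹ * h₁⁻¹ = x * (h₁ * x⁻¹ * h₁⁻¹) := by group
        _ = x * (k * x⁻¹ * k⁻¹) := by rw [h3]
        _ = (x * k * x⁻¹) * k⁻¹ := by group
    rw [h2]
    exact K.mul_mem (hK.conj_mem k hk x) (K.inv_mem hk)
  have hnt : Nontrivial (Quotient (conjSetoid H K x)) := ⟨⟨_, _, hne'⟩⟩
  exact Finite.one_lt_card_iff_nontrivial.2 hnt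

/-- at most two classes -/
theorem split_one_or_two (H K : Subgroup X) (x h₁ : X) (hh₁ : h₁ ∈ H)
    (hdec : ∀ h ∈ H, ∃ k ∈ K, ∃ c : X, c * x = x * c ∧ (h = k * c ∨ h = k * h₁ * c)) :
    Cfsg.splitClassCount H K x = 1 ∨ Cfsg.splitClassCount H K x = 2 := by
  obtain ⟨-, h1, h2⟩ := split_bounds H K x h₁ hh₁ hdec
  rw [split_eq]
  omega

/-- exactly two classes -/
theorem split_two (H K : Subgroup X) [hK : K.Normal] (x h₁ : X) (hh₁ : h₁ ∈ H)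
    (hdec : ∀ h ∈ H, ∃ k ∈ K, ∃ c : X, c * x = x * c ∧ (h = k * c ∨ h = k * h₁ * c))
    (hne : x * h₁ * x⁻¹ * h₁⁻¹ ∉ K) : Cfsg.splitClassCount H K x = 2 := by
  obtain ⟨hfin, h1, h2⟩ := split_bounds H K x h₁ hh₁ hdec
  have h3 := two_le_split H K x h₁ hh₁ hne hfin
  rw [split_eq]
  omega

/-- commutators of a subgroup with abelian quotient -/
theorem comm_mem_of_hom {A : Type*} [CommGroup A] (H K : Subgroup X) (φ : ↥H →* A)
    (hker : φ.ker = K.subgroupOf H) (a b : X) (ha : a ∈ H) (hb : b ∈ H) :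
    a * b * a⁻¹ * b⁻¹ ∈ K := by
  have h1 : ((⟨a, ha⟩ : ↥H) * ⟨b, hb⟩ * (⟨a, ha⟩ : ↥H)⁻¹ * (⟨b, hb⟩ : ↥H)⁻¹ : ↥H) ∈ φ.ker := by
    rw [MonoidHom.mem_ker, map_mul, map_mul, map_mul, map_inv, map_inv,
      mul_comm (φ ⟨a, ha⟩) (φ ⟨b, hb⟩), mul_inv_cancel_right, mul_inv_cancel]
  rw [hker] at h1
  exact h1

end Cfsg.Agent.Lib.helper13.SC
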