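import Mathlib
import Cfsg.Prelude.Def_LieTypeDatum
import Cfsg.Agent.Lib.helper13.SplitCount
import Cfsg.Agent.Lib.helper13.PSLnGraph2

set_option autoImplicit false
set_option linter.unusedSectionVars false
set_option linter.unusedVariables false
set_option linter.style.longLine false

/-!
The number of `Inn`-classes in the `Inndiag`-class of a graph automorphism of `PSL_n(F)`, as an
index in `Fˣ`.
-/

namespace Cfsg.Agent.Lib.helper13.SC

theorem card_eq_of_surj {A B C : Type*} (f : A → B) (g : A → C) (hf : Function.Surjective f)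
    (hg : Function.Surjective g) (h : ∀ a a', f a = f a' ↔ g a = g a') :
    Nat.card B = Nat.card C := by
  apply Nat.card_congr
  refine Equiv.ofBijective (fun b => g (Function.surjInv hf b)) ⟨?_, ?_⟩
  · intro b b' hbb
    have h1 := (h _ _).2 hbb
    rw [Function.surjInv_eq hf, Function.surjInv_eq hf] at h1
    exact h1
  · intro c
    obtain ⟨a, rfl⟩ := hg c
    exact ⟨f a, (h _ _).1 (Function.surjInv_eq hf (f a))⟩

/-- the number of classes as an index -/
theorem split_eq_index {X A D : Type*} [Group X] [Group A] [CommGroup D] (H K : Subgroup X)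
    (x : X) (ρ : A →* X) (hρ : ∀ h, h ∈ H ↔ ∃ a, ρ a = h) (δ : A →* D)
    (hδ : Function.Surjective δ) (N : Subgroup D)
    (hS : ∀ a a' : A, Cfsg.IsConjUnder K (ρ a * x * (ρ a)⁻¹) (ρ a' * x * (ρ a')⁻¹) ↔
      δ a * (δ a')⁻¹ ∈ N) :
    Cfsg.splitClassCount H K x = N.index := by
  rw [split_eq]
  have hmem : ∀ a, Cfsg.IsConjUnder H x (ρ a * x * (ρ a)⁻¹) :=
    fun a => ⟨ρ a, (hρ _).2 ⟨a, rfl⟩, rfl⟩
  show Nat.card (Quotient (conjSetoid H K x)) = Nat.card (D ⧸ N)
  apply card_eq_of_surj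
    (fun a => (Quotient.mk (conjSetoid H K x) ⟨ρ a * x * (ρ a)⁻¹, hmem a⟩))
    (fun a => (QuotientGroup.mk (δ a) : D ⧸ N))
  · intro q
    obtain ⟨y, rfl⟩ := Quotient.exists_rep q
    obtain ⟨h, hh, hy⟩ := y.2
    obtain ⟨a, rfl⟩ := (hρ h).1 hh
    exact ⟨a, congrArg _ (Subtype.ext hy.symm)⟩
  · intro c
    obtain ⟨d, rfl⟩ := QuotientGroup.mk_surjective c
    obtain ⟨a, rfl⟩ := hδ d
    exact ⟨a, rfl⟩
  · intro a a'
    rw [Quotient.eq, QuotientGroup.eq]
    show Cfsg.IsConjUnder K _ _ ↔ _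
    rw [hS]
    constructor
    · intro h
      have h1 := N.inv_mem h
      rwa [mul_inv_rev, inv_inv, mul_comm] at h1
    · intro h
      have h1 := N.inv_mem h
      rwa [mul_inv_rev, inv_inv, mul_comm] at h1

end Cfsg.Agent.Lib.helper13.SC

namespace Cfsg.Agent.Lib.helper13.PN

open Matrix

variable {F : Type*} [Field F] {n : ℕ}

theorem det_dgn_mul (hn : 1 ≤ n) (d : Fˣ) (M : SLn n F) :
    Matrix.GeneralLinearGroup.det (dgn n F d * Matrix.SpecialLinearGroup.toGL M) = d := by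
  apply Units.ext
  have h1 : ((Matrix.SpecialLinearGroup.toGL M : GL (Fin n) F) : Matrix (Fin n) (Fin n) F).det
      = 1 := M.2
  rw [map_mul, Units.val_mul, Matrix.GeneralLinearGroup.val_det_apply,
    Matrix.GeneralLinearGroup.val_det_apply, dgn_det hn, h1, mul_one]

/-- `conjAut a` is inner iff `det a` is an `n`-th power -/
theorem conjAut_mem_inn_iff (hn : 2 ≤ n) (a : GL (Fin n) F) :
    (conjAut a : MulAut (PSLn n F)) ∈ Cfsg.Inn (PSLn n F) ↔
      ∃ c : Fˣ, c ^ n = Matrix.GeneralLinearGroup.det a := by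
  obtain ⟨d, M, rfl⟩ := exists_dgn_mul (by omega) a
  rw [det_dgn_mul (by omega), map_mul, ← inn_eq]
  constructor
  · rintro ⟨x, hx⟩
    apply (conjAut_dgn_inn_iff hn d).1
    refine ⟨x * (QuotientGroup.mk M)⁻¹, ?_⟩
    rw [map_mul, map_inv, hx, mul_inv_cancel_right]
  · intro h
    obtain ⟨x, hx⟩ := (conjAut_dgn_inn_iff hn d).2 h
    exact ⟨x * QuotientGroup.mk M, by rw [map_mul, hx]⟩

theorem conj_comm_gam_iff (hn : 2 ≤ n) (g b : GL (Fin n) F) :
    (conjAut b : MulAut (PSLn n F)) * gam g = gam g * conjAut b ↔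
      ∃ c : Fˣ, ((itGL b : GL (Fin n) F) : Matrix (Fin n) (Fin n) F)ᵀ *
        (g : Matrix (Fin n) (Fin n) F) * ((itGL b : GL (Fin n) F) : Matrix (Fin n) (Fin n) F) =
          (c : F) • (g : Matrix (Fin n) (Fin n) F) := by
  have h := gam_comm_iff hn g (itGL b)
  rw [itGL_itGL] at h
  exact h

theorem det_surj (hn : 1 ≤ n) :
    Function.Surjective (Matrix.GeneralLinearGroup.det : GL (Fin n) F →* Fˣ) := fun d =>
  ⟨dgn n F d, Units.ext (by
    rw [Matrix.GeneralLinearGroup.val_det_apply]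
    exact dgn_det hn d)⟩

/-- **the number of inner classes in the inner-diagonal class of a graph automorphism** -/
theorem gam_split_index (hn : 2 ≤ n) (g : GL (Fin n) F) (Hg : Subgroup (GL (Fin n) F))
    (hH : ∀ a : GL (Fin n) F, a ∈ Hg ↔
      ∃ c : Fˣ, (a : Matrix (Fin n) (Fin n) F)ᵀ * (g : Matrix (Fin n) (Fin n) F) *
        (a : Matrix (Fin n) (Fin n) F) = (c : F) • (g : Matrix (Fin n) (Fin n) F)) :
    Cfsg.splitClassCount (Cfsg.inndiagPSL n F) (Cfsg.Inn (PSLn n F)) (gam g) =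
      ((powMonoidHom n : Fˣ →* Fˣ).range ⊔ Hg.map Matrix.GeneralLinearGroup.det).index := by
  apply SC.split_eq_index (Cfsg.inndiagPSL n F) (Cfsg.Inn (PSLn n F)) (gam g)
    (conjAut : GL (Fin n) F →* MulAut (PSLn n F))
    (fun h => by
      rw [mem_inndiag]
      constructor
      · rintro ⟨a, ha⟩
        exact ⟨a, ha.symm⟩
      · rintro ⟨a, ha⟩
        exact ⟨a, ha.symm⟩)
    Matrix.GeneralLinearGroup.det (det_surj (by omega))
  intro a a'
  constructor
  · rintro ⟨k, hk, hkx⟩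
    obtain ⟨x, rfl⟩ := hk
    obtain ⟨M, rfl⟩ := QuotientGroup.mk_surjective x
    rw [inn_eq] at hkx
    obtain ⟨s, hs⟩ : ∃ s : GL (Fin n) F, s = Matrix.SpecialLinearGroup.toGL M := ⟨_, rfl⟩
    rw [← hs] at hkx
    have hsdet : Matrix.GeneralLinearGroup.det s = 1 := by
      apply Units.ext
      rw [hs, Matrix.GeneralLinearGroup.val_det_apply]
      exact M.2
    have h1 : (conjAut (a'⁻¹ * s * a) : MulAut (PSLn n F)) * gam g *
        (conjAut (a'⁻¹ * s * a))⁻¹ = gam g := by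
      rw [map_mul, map_mul, map_inv]
      calc (conjAut a' : MulAut (PSLn n F))⁻¹ * conjAut s * conjAut a * gam g *
            ((conjAut a')⁻¹ * conjAut s * conjAut a)⁻¹
          = (conjAut a')⁻¹ * (conjAut s * (conjAut a * gam g * (conjAut a)⁻¹) * (conjAut s)⁻¹) *
            conjAut a' := by group
        _ = (conjAut a')⁻¹ * (conjAut a' * gam g * (conjAut a')⁻¹) * conjAut a' := by rw [hkx]
        _ = gam g := by group
    have hb : (conjAut (a'⁻¹ * s * a) : MulAut (PSLn n F)) * gam g =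
        gam g * conjAut (a'⁻¹ * s * a) := mul_inv_eq_iff_eq_mul.1 h1
    obtain ⟨c, hc⟩ := (conj_comm_gam_iff hn g _).1 hb
    have ha₀ : itGL (a'⁻¹ * s * a) ∈ Hg := (hH _).2 ⟨c, hc⟩
    rw [Subgroup.mem_sup]
    refine ⟨1, one_mem _, Matrix.GeneralLinearGroup.det (itGL (a'⁻¹ * s * a))⁻¹,
      ⟨(itGL (a'⁻¹ * s * a))⁻¹, inv_mem ha₀, rfl⟩, ?_⟩
    rw [one_mul, map_inv, det_itGL, inv_inv, map_mul, map_mul, map_inv, hsdet, mul_one, mul_comm]
  · rw [Subgroup.mem_sup]
    rintro ⟨y, ⟨u, rfl⟩, z, ⟨a₀, ha₀, rfl⟩, hyz⟩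
    obtain ⟨c, hc⟩ := (hH a₀).1 ha₀
    have hX : (conjAut (itGL a₀) : MulAut (PSLn n F)) * gam g = gam g * conjAut (itGL a₀) :=
      (conj_comm_gam_iff hn g (itGL a₀)).2 ⟨c, by rw [itGL_itGL]; exact hc⟩
    have hX' : (conjAut (itGL a₀) : MulAut (PSLn n F))⁻¹ * gam g * conjAut (itGL a₀) = gam g := by
      rw [mul_assoc, ← hX, inv_mul_cancel_left]
    refine ⟨conjAut (a' * (itGL a₀)⁻¹ * a⁻¹), ?_, ?_⟩
    · rw [conjAut_mem_inn_iff hn]
      refine ⟨u⁻¹, ?_⟩
      rw [map_mul, map_mul, map_inv, map_inv, det_itGL, inv_inv]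
      have h5 : Matrix.GeneralLinearGroup.det a₀ =
          (u ^ n)⁻¹ * (Matrix.GeneralLinearGroup.det a *
            (Matrix.GeneralLinearGroup.det a')⁻¹) := by
        rw [← hyz]
        show Matrix.GeneralLinearGroup.det a₀ = (u ^ n)⁻¹ * (u ^ n * _)
        rw [inv_mul_cancel_left]
      rw [h5, inv_pow]
      have hcomm : ∀ p q r : Fˣ, p * (q * (r * p⁻¹)) * r⁻¹ = q := by
        intro p q r
        rw [mul_comm r p⁻¹, ← mul_assoc q, mul_comm q p⁻¹, mul_assoc p⁻¹, ← mul_assoc p,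
          mul_inv_cancel, one_mul, mul_assoc, mul_inv_cancel, mul_one]
      exact (hcomm _ _ _).symm
    · rw [map_mul, map_mul, map_inv, map_inv]
      calc (conjAut a' : MulAut (PSLn n F)) * gam g * (conjAut a')⁻¹
          = conjAut a' * ((conjAut (itGL a₀))⁻¹ * gam g * conjAut (itGL a₀)) * (conjAut a')⁻¹ := by
            rw [hX']
        _ = conjAut a' * (conjAut (itGL a₀))⁻¹ * (conjAut a)⁻¹ *
            (conjAut a * gam g * (conjAut a)⁻¹) *
            (conjAut a' * (conjAut (itGL a₀))⁻¹ * (conjAut a)⁻¹)⁻¹ := by group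

section index

variable [Fintype F]

theorem index_pow (d : ℕ) :
    ((powMonoidHom d : Fˣ →* Fˣ).range).index = Nat.gcd d (Fintype.card F - 1) := by
  rw [IsCyclic.index_powMonoidHom_range, Nat.card_units, Nat.card_eq_fintype_card, Nat.gcd_comm]

theorem index_comap_sq (hodd : Odd (Fintype.card F)) (n : ℕ) (hn : Even n) :
    (((powMonoidHom n : Fˣ →* Fˣ).range).comap (powMonoidHom 2 : Fˣ →* Fˣ)).index =
      Nat.gcd n (Fintype.card F - 1) / 2 := by
  rw [Subgroup.index_comap]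
  have hle : (powMonoidHom n : Fˣ →* Fˣ).range ≤ (powMonoidHom 2 : Fˣ →* Fˣ).range := by
    rintro _ ⟨y, rfl⟩
    obtain ⟨k, rfl⟩ := hn
    refine ⟨y ^ k, ?_⟩
    show (y ^ k) ^ 2 = y ^ (k + k)
    rw [← pow_mul]
    congr 1
    ring
  have h1 := Subgroup.relIndex_mul_index hle
  rw [index_pow, index_pow] at h1
  have h2 : Nat.gcd 2 (Fintype.card F - 1) = 2 := by
    obtain ⟨t, ht⟩ := hodd
    rw [ht, Nat.add_sub_cancel]
    exact Nat.gcd_eq_left (dvd_mul_right 2 t)
  rw [h2] at h1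
  omega

end index

end Cfsg.Agent.Lib.helper13.PN
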