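import Mathlib
import Cfsg.Prelude.Def_LieTypeDatum
import Cfsg.Agent.Lib.helper13.PSLnSplit
import Cfsg.Agent.Lib.helper13.PSpCent
import Cfsg.Agent.Lib.helper13.PlusDiag
import Cfsg.Agent.Lib.helper13.MinusDiag
import Cfsg.Agent.Lib.helper13.GraphCent
import Cfsg.Agent.Lib.helper13.GraphForm
import Cfsg.Agent.Lib.helper4.SpPerfect
import Cfsg.Agent.S2726

set_option autoImplicit false
set_option linter.unusedSectionVars false
set_option linter.unusedVariables false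
set_option linter.style.longLine false

/-!
The number of `Inn`-classes in the `Inndiag`-class of an involutory graph automorphism of
`PSL_n(F)`, evaluated for the three types of forms.
-/

namespace Cfsg.Agent.Lib.helper13.PN

open Matrix

variable {F : Type*} [Field F]

section transport

variable {ι ι' : Type} [Fintype ι] [DecidableEq ι] [Fintype ι'] [DecidableEq ι']

/-- a linear equivalence of coordinate spaces induces a determinant-preserving isomorphism of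
general linear groups -/
theorem exists_conj_equiv (T : (ι → F) ≃ₗ[F] (ι' → F)) :
    ∃ Θ : GL ι F ≃* GL ι' F,
      (∀ (a : GL ι F) (v : ι → F), ((Θ a : GL ι' F) : Matrix ι' ι' F) *ᵥ (T v) =
        T ((a : Matrix ι ι F) *ᵥ v)) ∧
      ∀ a : GL ι F, ((Θ a : GL ι' F) : Matrix ι' ι' F).det = (a : Matrix ι ι F).det := by
  obtain ⟨P, hP⟩ : ∃ P : Matrix ι' ι F, ∀ v, P *ᵥ v = T v :=
    ⟨LinearMap.toMatrix' (T : (ι → F) →ₗ[F] (ι' → F)), fun v => LinearMap.toMatrix'_mulVec _ v⟩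
  obtain ⟨P', hP'⟩ : ∃ P' : Matrix ι ι' F, ∀ v, P' *ᵥ v = T.symm v :=
    ⟨LinearMap.toMatrix' (T.symm : (ι' → F) →ₗ[F] (ι → F)),
      fun v => LinearMap.toMatrix'_mulVec _ v⟩
  have h1 : P * P' = 1 := by
    apply Matrix.mulVec_injective
    funext v
    rw [← Matrix.mulVec_mulVec, hP', hP, LinearEquiv.apply_symm_apply, Matrix.one_mulVec]
  have h2 : P' * P = 1 := by
    apply Matrix.mulVec_injective
    funext v
    rw [← Matrix.mulVec_mulVec, hP, hP', LinearEquiv.symm_apply_apply, Matrix.one_mulVec]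
  refine ⟨GF.conjRect P P' h1 h2, ?_, ?_⟩
  · intro a v
    rw [GF.conjRect_coe, ← Matrix.mulVec_mulVec, ← Matrix.mulVec_mulVec, hP', hP,
      LinearEquiv.symm_apply_apply]
  · intro a
    rw [GF.conjRect_coe]
    exact Matrix.det_conj_of_mul_eq_one h1 h2

/-- transport of a similarity along a linear equivalence -/
theorem sim_transport (Qf : (ι → F) → F) (Qf' : (ι' → F) → F) (T : (ι → F) ≃ₗ[F] (ι' → F))
    (hT : ∀ v, Qf v = Qf' (T v)) (b : GL ι' F) (c : F)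
    (hb : ∀ w, Qf' ((b : Matrix ι' ι' F) *ᵥ w) = c * Qf' w) :
    ∃ a : GL ι F, ∀ v, Qf ((a : Matrix ι ι F) *ᵥ v) = c * Qf v := by
  obtain ⟨Θ, hΘ, -⟩ := exists_conj_equiv T
  refine ⟨Θ.symm b, fun v => ?_⟩
  rw [hT, ← hΘ, MulEquiv.apply_symm_apply, hb, ← hT]

theorem sim_det_sq (g a : GL ι F) (c : Fˣ)
    (h : (a : Matrix ι ι F)ᵀ * (g : Matrix ι ι F) * (a : Matrix ι ι F) =
      (c : F) • (g : Matrix ι ι F)) :
    Matrix.GeneralLinearGroup.det a ^ 2 = c ^ Fintype.card ι := by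
  apply Units.ext
  have h4 := congrArg Matrix.det h
  rw [Matrix.det_mul, Matrix.det_mul, Matrix.det_transpose, Matrix.det_smul] at h4
  have hdet : (g : Matrix ι ι F).det ≠ 0 :=
    ((Matrix.isUnit_iff_isUnit_det _).1 (Units.isUnit g)).ne_zero
  rw [Units.val_pow_eq_pow_val, Units.val_pow_eq_pow_val, Matrix.GeneralLinearGroup.val_det_apply]
  apply mul_right_cancel₀ hdet
  linear_combination h4

theorem sim_of_quad (h2 : (2 : F) ≠ 0) (M : Matrix ι ι F) (hM : Mᵀ = M) (A : Matrix ι ι F) (c : F)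
    (h : ∀ v : ι → F, (A *ᵥ v) ⬝ᵥ (M *ᵥ (A *ᵥ v)) = c * (v ⬝ᵥ (M *ᵥ v))) :
    Aᵀ * M * A = c • M := by
  have h3 : Aᵀ * M * A - c • M = 0 := by
    apply sym_zero_of_quad h2
    · rw [Matrix.transpose_sub, Matrix.transpose_smul, Matrix.transpose_mul,
        Matrix.transpose_mul, Matrix.transpose_transpose, hM, Matrix.mul_assoc]
    · intro v
      rw [Matrix.sub_mulVec, dotProduct_sub, ← form_mul, h, Matrix.smul_mulVec,
        dotProduct_smul, smul_eq_mul, sub_self]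
  exact sub_eq_zero.1 h3

end transport

theorem odd_pow_aux {G : Type*} [CommGroup G] (D c : G) (n k : ℕ) (hk : n = 2 * k + 1)
    (h : D ^ 2 = c ^ n) : (D * (c ^ k)⁻¹) ^ n = D := by
  subst hk
  rw [mul_pow, inv_pow, ← pow_mul c, pow_succ D, pow_mul D, h, ← pow_mul c,
    mul_comm k (2 * k + 1), mul_comm _ D, mul_assoc, mul_inv_cancel, mul_one]

theorem char2_pow_aux [Fintype F] (h2 : (2 : F) = 0) (D c : Fˣ) (n : ℕ) (h : D ^ 2 = c ^ n) :
    ∃ t : Fˣ, t ^ n = D := by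
  have hchar : ringChar F = 2 :=
    CharP.ringChar_of_prime_eq_zero Nat.prime_two (by exact_mod_cast h2)
  obtain ⟨d, hd⟩ := FiniteField.isSquare_of_char_two hchar (c : F)
  have hd0 : d ≠ 0 := by
    rintro rfl
    rw [mul_zero] at hd
    exact c.ne_zero hd
  refine ⟨Units.mk0 d hd0, ?_⟩
  apply Units.ext
  rw [Units.val_pow_eq_pow_val, Units.val_mk0]
  have h3 : ((D : F)) ^ 2 = (c : F) ^ n := by
    have := congrArg Units.val h
    rwa [Units.val_pow_eq_pow_val, Units.val_pow_eq_pow_val] at this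
  have hcn : (c : F) ^ n = (d ^ n) ^ 2 := by rw [hd, mul_pow, pow_two]
  have h4 : (d ^ n - (D : F)) ^ 2 = 0 := by
    linear_combination (-1 : F) * hcn + h3 + ((c : F) ^ n - d ^ n * D) * h2
  exact sub_eq_zero.1 ((pow_eq_zero_iff two_ne_zero).1 h4)

/-- the count when `n` is odd or the characteristic is two -/
theorem split_odd [Fintype F] {n : ℕ} (hn : 2 ≤ n) (g : GL (Fin n) F)
    (hcase : Odd n ∨ (2 : F) = 0) :
    Cfsg.splitClassCount (Cfsg.inndiagPSL n F) (Cfsg.Inn (PSLn n F)) (gam g) =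
      Nat.gcd n (Fintype.card F - 1) := by
  rw [gam_split_index hn g (Cfsg.Geo.similarityGroup
    (fun u v => u ⬝ᵥ ((g : Matrix (Fin n) (Fin n) F) *ᵥ v))) (bilSim_iff _), ← index_pow]
  congr 1
  apply sup_eq_left.2
  rintro _ ⟨a, ha, rfl⟩
  obtain ⟨c, hc⟩ := (bilSim_iff _ a).1 ha
  have hsq := sim_det_sq g a c hc
  rw [Fintype.card_fin] at hsq
  rcases hcase with ⟨k, hk⟩ | h2
  · exact ⟨Matrix.GeneralLinearGroup.det a * (c ^ k)⁻¹, odd_pow_aux _ c n k hk hsq⟩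
  · obtain ⟨t, ht⟩ := char2_pow_aux h2 _ c n hsq
    exact ⟨t, ht⟩


section skew

variable {m : ℕ}

theorem dc_det (c : F) (hc : c ≠ 0) :
    (((PS.dc c hc : ↥(Cfsg.GSp m F)) : GL (Fin m ⊕ Fin m) F) :
      Matrix (Fin m ⊕ Fin m) (Fin m ⊕ Fin m) F).det = c ^ m := by
  rw [PS.dc_coe, Matrix.det_diagonal, Fintype.prod_sum_type]
  simp

/-- the determinant of a similitude of the alternating form -/
theorem gsp_det (hm : 1 ≤ m) (x : ↥(Cfsg.GSp m F)) :
    ((x : GL (Fin m ⊕ Fin m) F) : Matrix (Fin m ⊕ Fin m) (Fin m ⊕ Fin m) F).det =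
      PS.mult x ^ m := by
  obtain ⟨μ, hμ⟩ : ∃ μ, μ = PS.mult x := ⟨_, rfl⟩
  have hμ0 : μ ≠ 0 := by rw [hμ]; exact PS.mult_ne x
  obtain ⟨s, hs⟩ := PS.exists_sp_of_mult_one ((PS.dc μ hμ0)⁻¹ * x) (by
    have h1 : PS.multU hm ((PS.dc μ hμ0)⁻¹ * x) =
        (PS.multU hm (PS.dc μ hμ0))⁻¹ * PS.multU hm x := by
      rw [map_mul, map_inv]
    have h1' := congrArg Units.val h1
    rw [Units.val_mul, Units.val_inv_eq_inv_val, PS.multU_coe, PS.multU_coe,
      PS.multU_coe, PS.mult_dc hm, ← hμ, inv_mul_cancel₀ hμ0] at h1'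
    exact h1')
  have hx : x = PS.dc μ hμ0 * PS.spToGSp s := by rw [← hs, mul_inv_cancel_left]
  have h1 : ((x : GL (Fin m ⊕ Fin m) F) : Matrix (Fin m ⊕ Fin m) (Fin m ⊕ Fin m) F) =
      (((PS.dc μ hμ0 : ↥(Cfsg.GSp m F)) : GL (Fin m ⊕ Fin m) F) :
        Matrix (Fin m ⊕ Fin m) (Fin m ⊕ Fin m) F) * s.1 := by
    rw [hx]
    rfl
  rw [h1, Matrix.det_mul, dc_det, SymplecticGroup.det_eq_one s.2, mul_one, hμ]

theorem skew_classify [Finite F] {n : ℕ} (h2 : (2 : F) ≠ 0) (m : ℕ) (hnm : n = 2 * m)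
    (g : GL (Fin n) F)
    (hg : (g : Matrix (Fin n) (Fin n) F)ᵀ = -(g : Matrix (Fin n) (Fin n) F)) :
    ∃ T : (Fin n → F) ≃ₗ[F] (Fin m ⊕ Fin m → F), ∀ u v : Fin n → F,
      Cfsg.sympForm m F (T u) (T v) =
        (-1 : F) * (u ⬝ᵥ ((g : Matrix (Fin n) (Fin n) F) *ᵥ v)) := by
  classical
  obtain ⟨B, hB⟩ : ∃ B : LinearMap.BilinForm F (Fin n → F),
      ∀ u v, B u v = u ⬝ᵥ ((g : Matrix (Fin n) (Fin n) F) *ᵥ v) :=
    ⟨Matrix.toLinearMap₂' F (g : Matrix (Fin n) (Fin n) F),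
      fun u v => Matrix.toLinearMap₂'_apply' _ u v⟩
  have hAlt : B.IsAlt := by
    intro x
    have h1 := transpose_form (g : Matrix (Fin n) (Fin n) F) x x
    rw [hg, Matrix.neg_mulVec, dotProduct_neg] at h1
    rw [hB]
    have h3 : (2 : F) * (x ⬝ᵥ ((g : Matrix (Fin n) (Fin n) F) *ᵥ x)) = 0 := by
      linear_combination -h1
    exact (mul_eq_zero.1 h3).resolve_left h2
  have hBnd : B.Nondegenerate := by
    constructor
    · intro x hx
      funext j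
      have h1 := hx (((g⁻¹ : GL (Fin n) F) : Matrix (Fin n) (Fin n) F) *ᵥ Pi.single j 1)
      rw [hB, Matrix.mulVec_mulVec, Units.mul_inv, Matrix.one_mulVec, dotProduct_single,
        mul_one] at h1
      exact h1
    · intro y hy
      have h1 : (g : Matrix (Fin n) (Fin n) F) *ᵥ y = 0 := by
        funext j
        have h3 := hy (Pi.single j 1)
        rw [hB, single_dotProduct, one_mul] at h3
        exact h3
      have h4 := congrArg (fun x => ((g⁻¹ : GL (Fin n) F) : Matrix (Fin n) (Fin n) F) *ᵥ x) h1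
      simp only [Matrix.mulVec_mulVec, Matrix.mulVec_zero] at h4
      rw [Units.inv_mul, Matrix.one_mulVec] at h4
      exact h4
  have hV : Module.finrank F (Fin n → F) = 2 * m := by
    rw [Module.finrank_fin_fun, hnm]
  obtain ⟨T, hT⟩ := symp_basis_equiv B hAlt hBnd hV
  exact ⟨T, fun u v => by rw [← hB, hT, neg_one_mul, neg_neg]⟩

/-- the centralizer of a graph automorphism with skew-symmetric matrix -/
theorem skew_cent_iso [Finite F] {n : ℕ} (hn : 2 ≤ n) (h2 : (2 : F) ≠ 0) (m : ℕ)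
    (hnm : n = 2 * m) (g : GL (Fin n) F)
    (hg : (g : Matrix (Fin n) (Fin n) F)ᵀ = -(g : Matrix (Fin n) (Fin n) F)) :
    Nonempty (↥(Cfsg.inndiagPSL n F ⊓ Subgroup.centralizer {gam g}) ≃* Cfsg.PGSp m F) := by
  obtain ⟨T, hT⟩ := skew_classify h2 m hnm g hg
  obtain ⟨e₁⟩ := graph_centralizer_bil hn g
  obtain ⟨e₂⟩ := GF.psim_congr
    (fun u v : Fin n → F => u ⬝ᵥ ((g : Matrix (Fin n) (Fin n) F) *ᵥ v)) (Cfsg.sympForm m F) T
    (-1) (neg_ne_zero.2 one_ne_zero) hT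
  exact ⟨e₁.trans e₂⟩

theorem skew_key {n : ℕ} (m : ℕ) (g : GL (Fin n) F)
    (T : (Fin n → F) ≃ₗ[F] (Fin m ⊕ Fin m → F))
    (hT : ∀ u v : Fin n → F, Cfsg.sympForm m F (T u) (T v) =
      (-1 : F) * (u ⬝ᵥ ((g : Matrix (Fin n) (Fin n) F) *ᵥ v)))
    (Θ : GL (Fin n) F ≃* GL (Fin m ⊕ Fin m) F)
    (hΘ : ∀ (a : GL (Fin n) F) (v : Fin n → F),
      ((Θ a : GL (Fin m ⊕ Fin m) F) : Matrix (Fin m ⊕ Fin m) (Fin m ⊕ Fin m) F) *ᵥ (T v) =
        T ((a : Matrix (Fin n) (Fin n) F) *ᵥ v))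
    (a : GL (Fin n) F) (c : F) :
    (a : Matrix (Fin n) (Fin n) F)ᵀ * (g : Matrix (Fin n) (Fin n) F) *
        (a : Matrix (Fin n) (Fin n) F) = c • (g : Matrix (Fin n) (Fin n) F) ↔
      ∀ u v : Fin m ⊕ Fin m → F, Cfsg.sympForm m F
        (((Θ a : GL (Fin m ⊕ Fin m) F) : Matrix (Fin m ⊕ Fin m) (Fin m ⊕ Fin m) F) *ᵥ u)
        (((Θ a : GL (Fin m ⊕ Fin m) F) : Matrix (Fin m ⊕ Fin m) (Fin m ⊕ Fin m) F) *ᵥ v) =
          c * Cfsg.sympForm m F u v := by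
  have hT' : ∀ u v : Fin n → F, u ⬝ᵥ ((g : Matrix (Fin n) (Fin n) F) *ᵥ v) =
      -Cfsg.sympForm m F (T u) (T v) := by
    intro u v
    rw [hT, neg_one_mul, neg_neg]
  constructor
  · intro h u v
    obtain ⟨u, rfl⟩ := T.surjective u
    obtain ⟨v, rfl⟩ := T.surjective v
    rw [hΘ, hΘ, hT, form_mul, h, Matrix.smul_mulVec, dotProduct_smul, smul_eq_mul, hT]
    ring
  · intro h
    apply matrix_eq_of_form
    intro u v
    rw [← form_mul, hT', ← hΘ, ← hΘ, h, Matrix.smul_mulVec, dotProduct_smul, smul_eq_mul, hT']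
    ring

/-- the determinants of the similitudes of a skew-symmetric matrix are the `m`-th powers -/
theorem skew_det_image [Finite F] {n : ℕ} (h2 : (2 : F) ≠ 0) (m : ℕ) (hm : 1 ≤ m)
    (hnm : n = 2 * m) (g : GL (Fin n) F)
    (hg : (g : Matrix (Fin n) (Fin n) F)ᵀ = -(g : Matrix (Fin n) (Fin n) F)) :
    (∀ (a : GL (Fin n) F) (c : Fˣ), (a : Matrix (Fin n) (Fin n) F)ᵀ *
        (g : Matrix (Fin n) (Fin n) F) * (a : Matrix (Fin n) (Fin n) F) =
          (c : F) • (g : Matrix (Fin n) (Fin n) F) →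
      Matrix.GeneralLinearGroup.det a = c ^ m) ∧
    (∀ c : Fˣ, ∃ a : GL (Fin n) F, (a : Matrix (Fin n) (Fin n) F)ᵀ *
        (g : Matrix (Fin n) (Fin n) F) * (a : Matrix (Fin n) (Fin n) F) =
          (c : F) • (g : Matrix (Fin n) (Fin n) F) ∧
      Matrix.GeneralLinearGroup.det a = c ^ m) := by
  obtain ⟨T, hT⟩ := skew_classify h2 m hnm g hg
  obtain ⟨Θ, hΘ, hΘdet⟩ := exists_conj_equiv T
  constructor
  · intro a c hac
    have h1 := (skew_key m g T hT Θ hΘ a c).1 hac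
    obtain ⟨x, hx⟩ : ∃ x : ↥(Cfsg.GSp m F), x = ⟨Θ a, ⟨c, h1⟩⟩ := ⟨_, rfl⟩
    have hmult : PS.mult x = c := PS.mult_eq hm x c (by rw [hx]; exact h1)
    apply Units.ext
    rw [Matrix.GeneralLinearGroup.val_det_apply, Units.val_pow_eq_pow_val, ← hΘdet, ← hmult,
      ← gsp_det hm x, hx]
  · intro c
    refine ⟨Θ.symm ((PS.dc (c : F) c.ne_zero : ↥(Cfsg.GSp m F)) : GL (Fin m ⊕ Fin m) F), ?_, ?_⟩
    · rw [skew_key m g T hT Θ hΘ, MulEquiv.apply_symm_apply]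
      exact PS.dc_spec _ _
    · apply Units.ext
      rw [Matrix.GeneralLinearGroup.val_det_apply, Units.val_pow_eq_pow_val, ← hΘdet,
        MulEquiv.apply_symm_apply, dc_det]

/-- the count for a skew-symmetric matrix -/
theorem split_skew [Fintype F] {n : ℕ} (hn : 2 ≤ n) (h2 : (2 : F) ≠ 0) (m : ℕ) (hm : 1 ≤ m)
    (hnm : n = 2 * m) (g : GL (Fin n) F)
    (hg : (g : Matrix (Fin n) (Fin n) F)ᵀ = -(g : Matrix (Fin n) (Fin n) F)) :
    Cfsg.splitClassCount (Cfsg.inndiagPSL n F) (Cfsg.Inn (PSLn n F)) (gam g) =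
      Nat.gcd m (Fintype.card F - 1) := by
  obtain ⟨hdet, hex⟩ := skew_det_image h2 m hm hnm g hg
  rw [gam_split_index hn g (Cfsg.Geo.similarityGroup
    (fun u v => u ⬝ᵥ ((g : Matrix (Fin n) (Fin n) F) *ᵥ v))) (bilSim_iff _), ← index_pow]
  congr 1
  apply le_antisymm
  · apply sup_le
    · rintro _ ⟨u, rfl⟩
      refine ⟨u ^ 2, ?_⟩
      show (u ^ 2) ^ m = u ^ n
      rw [← pow_mul, hnm]
    · rintro _ ⟨a, ha, rfl⟩
      obtain ⟨c, hc⟩ := (bilSim_iff _ a).1 ha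
      exact ⟨c, (hdet a c hc).symm⟩
  · rintro _ ⟨c, rfl⟩
    obtain ⟨a, hac, hdeta⟩ := hex c
    apply Subgroup.mem_sup_right
    exact ⟨a, (bilSim_iff _ a).2 ⟨c, hac⟩, hdeta⟩

end skew


section sym

theorem sym_quad {n : ℕ} (h2 : (2 : F) ≠ 0) (g : GL (Fin n) F)
    (hg : (g : Matrix (Fin n) (Fin n) F)ᵀ = g) :
    ∃ Q : QuadraticForm F (Fin n → F),
      (∀ v, Q v = v ⬝ᵥ ((g : Matrix (Fin n) (Fin n) F) *ᵥ v)) ∧
        (QuadraticMap.polarBilin Q).Nondegenerate := by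
  classical
  obtain ⟨Q, hQ⟩ : ∃ Q : QuadraticForm F (Fin n → F),
      ∀ v, Q v = v ⬝ᵥ ((g : Matrix (Fin n) (Fin n) F) *ᵥ v) :=
    ⟨Matrix.toQuadraticForm' (g : Matrix (Fin n) (Fin n) F), fun v => by
      unfold Matrix.toQuadraticForm'
      rw [LinearMap.BilinMap.toQuadraticMap_apply, Matrix.toLinearMap₂'_apply']⟩
  have hsymm : ∀ x y : Fin n → F, y ⬝ᵥ ((g : Matrix (Fin n) (Fin n) F) *ᵥ x) =
      x ⬝ᵥ ((g : Matrix (Fin n) (Fin n) F) *ᵥ y) := by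
    intro x y
    rw [← transpose_form, hg]
  have hpolar : ∀ x y, QuadraticMap.polar Q x y =
      2 * (x ⬝ᵥ ((g : Matrix (Fin n) (Fin n) F) *ᵥ y)) := by
    intro x y
    unfold QuadraticMap.polar
    rw [hQ, hQ, hQ, Matrix.mulVec_add, add_dotProduct, dotProduct_add, dotProduct_add, hsymm x y]
    ring
  have hQnd : (QuadraticMap.polarBilin Q).Nondegenerate := by
    apply Cfsg.Agent.S2562.nondeg_of_sep
    intro x hx
    funext j
    have h1 := hx (((g⁻¹ : GL (Fin n) F) : Matrix (Fin n) (Fin n) F) *ᵥ Pi.single j 1)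
    rw [hpolar, Matrix.mulVec_mulVec, Units.mul_inv, Matrix.one_mulVec, dotProduct_single,
      mul_one] at h1
    exact (mul_eq_zero.1 h1).resolve_left h2
  exact ⟨Q, hQ, hQnd⟩

/-- a similarity with non-square multiplier, for every nondegenerate form of even dimension -/
theorem sym_nonsq [Fintype F] {n : ℕ} (hodd : Odd (Fintype.card F)) (m : ℕ) (hnm : n = 2 * m)
    (Q : QuadraticForm F (Fin n → F)) (hQ : (QuadraticMap.polarBilin Q).Nondegenerate) :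
    ∃ (g₀ : GL (Fin n) F) (c₀ : Fˣ),
      (∀ v, Q ((g₀ : Matrix (Fin n) (Fin n) F) *ᵥ v) = (c₀ : F) * Q v) ∧
        ¬ IsSquare (c₀ : F) := by
  have h2 := GF.two_ne_zero_of_odd hodd
  have hV : Module.finrank F (Fin n → F) = 2 * m := by rw [Module.finrank_fin_fun, hnm]
  rcases quad_classify hV Q hQ with ⟨T, hT⟩ | ⟨k, ζ, hk, hζ, T, hT⟩
  · obtain ⟨c, hc⟩ := Cfsg.Agent.Lib.helper4.exists_nonsq (F := F) h2
    have hc0 : c ≠ 0 := by
      rintro rfl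
      exact hc ⟨0, by simp⟩
    obtain ⟨a, ha⟩ := sim_transport (⇑Q) (Cfsg.quadFormPlus m F) T hT
      (OA.dsimGL m (Units.mk0 c hc0)) c (fun w => by
        have h3 := OA.dsim_sim m (Units.mk0 c hc0) w
        rw [Cfsg.Agent.S2562.qP_apply, Cfsg.Agent.S2562.qP_apply, Units.val_mk0] at h3
        exact h3)
    exact ⟨a, Units.mk0 c hc0, ha, hc⟩
  · obtain ⟨g₀, c₀, hg₀, hc₀⟩ :=
      Cfsg.Agent.S2726.minus_data hodd k 1 ζ (GF.aniso_of_irred ζ hζ)
    obtain ⟨a, ha⟩ := sim_transport (⇑Q) (Cfsg.quadFormMinus k F 1 ζ) T hT g₀ c₀ (fun w => by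
      have h3 := hg₀ w
      rw [Cfsg.Agent.S2679.qMg_apply, Cfsg.Agent.S2679.qMg_apply] at h3
      exact h3)
    exact ⟨a, c₀, ha, hc₀⟩

theorem sym_refl [Fintype F] {n : ℕ} (hn : 1 ≤ n) (h2 : (2 : F) ≠ 0)
    (Q : QuadraticForm F (Fin n → F)) (hQ : (QuadraticMap.polarBilin Q).Nondegenerate) :
    ∃ r : GL (Fin n) F, (∀ v, Q ((r : Matrix (Fin n) (Fin n) F) *ᵥ v) = Q v) ∧
      (r : Matrix (Fin n) (Fin n) F).det = -1 := by
  obtain ⟨u, hu⟩ := Cfsg.Agent.Lib.helper4.exists_nonsing Q hQ ⟨0, by omega⟩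
  refine ⟨(reflEl Q u : GL (Fin n) F), fun v => isom_pres Q (reflEl Q u) v, ?_⟩
  rw [reflEl_coe Q u hu, refl_det Q u hu]

theorem units_sq_eq (x y : Fˣ) (h : x ^ 2 = y ^ 2) : x = y ∨ x = -y := by
  have h1 : (x * y⁻¹) * (x * y⁻¹) = 1 := by
    rw [← pow_two, mul_pow, h, inv_pow, mul_inv_cancel]
  rcases OA.units_sq_one _ h1 with h3 | h3
  · left
    exact mul_inv_eq_one.1 h3
  · right
    rw [mul_inv_eq_iff_eq_mul.1 h3, neg_one_mul]

/-- the count for a symmetric matrix, even `n`, odd characteristic -/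
theorem split_sym [Fintype F] {n : ℕ} (hn : 2 ≤ n) (hodd : Odd (Fintype.card F)) (m : ℕ)
    (hnm : n = 2 * m) (g : GL (Fin n) F)
    (hg : (g : Matrix (Fin n) (Fin n) F)ᵀ = g) :
    Cfsg.splitClassCount (Cfsg.inndiagPSL n F) (Cfsg.Inn (PSLn n F)) (gam g) =
      Nat.gcd n (Fintype.card F - 1) / 2 := by
  have h2 := GF.two_ne_zero_of_odd hodd
  obtain ⟨Q, hQ, hQnd⟩ := sym_quad h2 g hg
  obtain ⟨r, hr, hrdet⟩ := sym_refl (by omega) h2 Q hQnd
  obtain ⟨a₀, c₀, ha₀, hc₀⟩ := sym_nonsq hodd m hnm Q hQnd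
  have hr' : (r : Matrix (Fin n) (Fin n) F)ᵀ * (g : Matrix (Fin n) (Fin n) F) *
      (r : Matrix (Fin n) (Fin n) F) = ((1 : Fˣ) : F) • (g : Matrix (Fin n) (Fin n) F) := by
    rw [Units.val_one]
    apply sim_of_quad h2 _ hg
    intro v
    rw [← hQ, ← hQ, hr, one_mul]
  have ha₀' : (a₀ : Matrix (Fin n) (Fin n) F)ᵀ * (g : Matrix (Fin n) (Fin n) F) *
      (a₀ : Matrix (Fin n) (Fin n) F) = (c₀ : F) • (g : Matrix (Fin n) (Fin n) F) := by
    apply sim_of_quad h2 _ hg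
    intro v
    rw [← hQ, ← hQ, ha₀]
  rw [gam_split_index hn g (Cfsg.Geo.similarityGroup
    (fun u v => u ⬝ᵥ ((g : Matrix (Fin n) (Fin n) F) *ᵥ v))) (bilSim_iff _),
    ← index_comap_sq hodd n ⟨m, by omega⟩]
  congr 1
  obtain ⟨N, hN⟩ : ∃ N : Subgroup Fˣ, N = (powMonoidHom n : Fˣ →* Fˣ).range ⊔
      (Cfsg.Geo.similarityGroup
        (fun u v => u ⬝ᵥ ((g : Matrix (Fin n) (Fin n) F) *ᵥ v))).map
          Matrix.GeneralLinearGroup.det := ⟨_, rfl⟩
  rw [← hN]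
  have hPN : ∀ u : Fˣ, u ^ n ∈ N := fun u => by
    rw [hN]
    exact Subgroup.mem_sup_left ⟨u, rfl⟩
  have hdetN : ∀ (a : GL (Fin n) F) (c : Fˣ), (a : Matrix (Fin n) (Fin n) F)ᵀ *
      (g : Matrix (Fin n) (Fin n) F) * (a : Matrix (Fin n) (Fin n) F) =
        (c : F) • (g : Matrix (Fin n) (Fin n) F) → Matrix.GeneralLinearGroup.det a ∈ N :=
    fun a c h => by
      rw [hN]
      exact Subgroup.mem_sup_right ⟨a, (bilSim_iff _ a).2 ⟨c, h⟩, rfl⟩
  have hpow : ∀ c : Fˣ, c ^ n = (c ^ m) ^ 2 := fun c => by rw [hnm, pow_mul']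
  have hneg : (-1 : Fˣ) ∈ N := by
    have h1 := hdetN r 1 hr'
    have h3 : Matrix.GeneralLinearGroup.det r = -1 := Units.ext (by
      rw [Matrix.GeneralLinearGroup.val_det_apply, hrdet, Units.val_neg, Units.val_one])
    rwa [h3] at h1
  have hc₀N : c₀ ^ m ∈ N := by
    have h1 := hdetN a₀ c₀ ha₀'
    have h3 := sim_det_sq g a₀ c₀ ha₀'
    rw [Fintype.card_fin, hpow] at h3
    rcases units_sq_eq _ _ h3 with h4 | h4
    · rwa [h4] at h1
    · rw [h4] at h1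
      have h5 := N.mul_mem hneg h1
      rwa [neg_one_mul, neg_neg] at h5
  apply le_antisymm
  · rw [hN]
    apply sup_le
    · rintro _ ⟨u, rfl⟩
      rw [Subgroup.mem_comap]
      refine ⟨u ^ 2, ?_⟩
      show (u ^ 2) ^ n = (u ^ n) ^ 2
      rw [← pow_mul, ← pow_mul, mul_comm]
    · rintro _ ⟨a, ha, rfl⟩
      obtain ⟨c, hc⟩ := (bilSim_iff _ a).1 ha
      rw [Subgroup.mem_comap]
      refine ⟨c, ?_⟩
      have h3 := sim_det_sq g a c hc
      rw [Fintype.card_fin] at h3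
      exact h3.symm
  · intro d hd
    rw [Subgroup.mem_comap] at hd
    obtain ⟨t, ht⟩ := hd
    have ht' : d ^ 2 = (t ^ m) ^ 2 := by
      have h6 : t ^ n = d ^ 2 := ht
      rw [← h6, hpow]
    have htN : t ^ m ∈ N := by
      by_cases hsq : IsSquare (t : F)
      · obtain ⟨s, hs⟩ := hsq
        have hs0 : s ≠ 0 := by
          rintro rfl
          rw [mul_zero] at hs
          exact t.ne_zero hs
        have h5 : t ^ m = (Units.mk0 s hs0) ^ n := by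
          apply Units.ext
          rw [Units.val_pow_eq_pow_val, Units.val_pow_eq_pow_val, Units.val_mk0, hs, hnm,
            pow_mul, pow_two]
        rw [h5]
        exact hPN _
      · obtain ⟨s, hs⟩ := OA.isSquare_mul_inv_of_nonsq h2 (t : F) (c₀ : F) hsq hc₀
        have hs0 : s ≠ 0 := by
          rintro rfl
          rw [mul_zero] at hs
          exact mul_ne_zero t.ne_zero (inv_ne_zero c₀.ne_zero) hs
        have h5 : t ^ m = c₀ ^ m * (Units.mk0 s hs0) ^ n := by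
          apply Units.ext
          rw [Units.val_mul, Units.val_pow_eq_pow_val, Units.val_pow_eq_pow_val,
            Units.val_pow_eq_pow_val, Units.val_mk0, hnm, pow_mul, pow_two, ← hs, ← mul_pow,
            mul_comm (t : F), ← mul_assoc, mul_inv_cancel₀ c₀.ne_zero, one_mul]
        rw [h5]
        exact N.mul_mem hc₀N (hPN _)
    rcases units_sq_eq _ _ ht' with h4 | h4
    · rw [h4]
      exact htN
    · rw [h4]
      have h5 := N.mul_mem hneg htN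
      rwa [neg_one_mul] at h5

end sym


section noniso

/-- the projective similarity group of a quadratic form of even dimension maps onto a
four-group -/
theorem pgo_surj [Fintype F] {ι : Type} [Fintype ι] [DecidableEq ι] (h2 : (2 : F) ≠ 0) (m : ℕ)
    (hm : Fintype.card ι = 2 * m) (Q : QuadraticForm F (ι → F))
    (hQ : (QuadraticMap.polarBilin Q).Nondegenerate) (u : ι → F) (hu : Q u ≠ 0)
    (g₀ : GL ι F) (c₀ : Fˣ)
    (hg₀ : ∀ v, Q ((g₀ : Matrix ι ι F) *ᵥ v) = (c₀ : F) * Q v) (hc₀ : ¬ IsSquare (c₀ : F)) :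
    ∃ φ : Cfsg.PGO F ⇑Q →* ℤˣ × ℤˣ, Function.Surjective φ := by
  classical
  have h0 : ∃ v, (⇑Q) v ≠ 0 := ⟨u, hu⟩
  obtain ⟨φ₀, hφ₀⟩ : ∃ φ₀ : ↥(Cfsg.Geo.quadSimilarityGroup (⇑Q)) →* ℤˣ × ℤˣ,
      φ₀ = (OA.chiMu (⇑Q) h0).prod (OA.kappa h2 Q hQ h0 m hm) := ⟨_, rfl⟩
  have hφ₀1 : ∀ g, φ₀ g = 1 ↔
      IsSquare ((OA.mult (⇑Q) g : Fˣ) : F) ∧ OA.delta (⇑Q) h0 m g = 1 := by
    intro g
    rw [hφ₀, MonoidHom.prod_apply, Prod.mk_eq_one, OA.chiMu_eq_one_iff, OA.kappa_eq_one_iff]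
  have hker : (Cfsg.Geo.scalars ι F).subgroupOf (Cfsg.Geo.quadSimilarityGroup (⇑Q)) ≤
      φ₀.ker := by
    intro g hg
    rw [Subgroup.mem_subgroupOf, Cfsg.Geo.mem_scalars_iff] at hg
    obtain ⟨c, hc⟩ := hg
    rw [MonoidHom.mem_ker]
    exact (hφ₀1 g).2 (OA.scalar_data Q h0 m hm g c (fun v => by
      rw [hc, Matrix.smul_mulVec, Matrix.one_mulVec]))
  refine ⟨QuotientGroup.lift _ φ₀ hker, ?_⟩
  intro p
  have hsurj : ∃ g, φ₀ g = p := by
    obtain ⟨hrm, hrd⟩ := OA.reflSim_data h2 Q h0 m u hu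
    have hr1 : OA.chiMu (⇑Q) h0 (OA.reflSim Q u) = 1 := by
      rw [OA.chiMu_eq_one_iff, hrm, Units.val_one]
      exact ⟨1, (mul_one 1).symm⟩
    have hr2 : OA.kappa h2 Q hQ h0 m hm (OA.reflSim Q u) = -1 := by
      rcases Int.units_eq_one_or (OA.kappa h2 Q hQ h0 m hm (OA.reflSim Q u)) with h | h
      · rw [OA.kappa_eq_one_iff, hrd] at h
        exact absurd h (OA.neg_one_ne_one_units h2)
      · exact h
    obtain ⟨g₀', hg₀'⟩ : ∃ g₀' : ↥(Cfsg.Geo.quadSimilarityGroup (⇑Q)),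
        g₀' = ⟨g₀, ⟨c₀, hg₀⟩⟩ := ⟨_, rfl⟩
    have hg1 : OA.chiMu (⇑Q) h0 g₀' = -1 := by
      have hne : OA.chiMu (⇑Q) h0 g₀' ≠ 1 := by
        rw [Ne, OA.chiMu_eq_one_iff]
        have h3 : OA.mult (⇑Q) g₀' = c₀ := OA.mult_unique (⇑Q) h0 g₀' c₀ (fun v => by
          rw [hg₀']
          exact hg₀ v)
        rw [h3]
        exact hc₀
      rcases Int.units_eq_one_or (OA.chiMu (⇑Q) h0 g₀') with h | h
      · exact absurd h hne
      · exact h
    obtain ⟨x, y⟩ := p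
    rcases Int.units_eq_one_or x with rfl | rfl <;> rcases Int.units_eq_one_or y with rfl | rfl
    · exact ⟨1, map_one _⟩
    · exact ⟨OA.reflSim Q u, by rw [hφ₀, MonoidHom.prod_apply, hr1, hr2]⟩
    · rcases Int.units_eq_one_or (OA.kappa h2 Q hQ h0 m hm g₀') with h | h
      · exact ⟨g₀', by rw [hφ₀, MonoidHom.prod_apply, hg1, h]⟩
      · exact ⟨g₀' * OA.reflSim Q u, by
          rw [hφ₀, MonoidHom.prod_apply, map_mul, map_mul, hg1, hr1, h, hr2]
          rfl⟩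
    · rcases Int.units_eq_one_or (OA.kappa h2 Q hQ h0 m hm g₀') with h | h
      · exact ⟨g₀' * OA.reflSim Q u, by
          rw [hφ₀, MonoidHom.prod_apply, map_mul, map_mul, hg1, hr1, h, hr2]
          rfl⟩
      · exact ⟨g₀', by rw [hφ₀, MonoidHom.prod_apply, hg1, h]⟩
  obtain ⟨g, hg⟩ := hsurj
  exact ⟨QuotientGroup.mk g, by rw [QuotientGroup.lift_mk]; exact hg⟩

/-- the projective conformal symplectic group has no four-group quotient -/
theorem pgsp_not_surj [Fintype F] (h2 : (2 : F) ≠ 0) (m : ℕ) (hm : 2 ≤ m)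
    (φ : Cfsg.PGSp m F →* ℤˣ × ℤˣ) : ¬ Function.Surjective φ := by
  intro hsurj
  have hm1 : 1 ≤ m := by omega
  obtain ⟨ψ, hψ⟩ : ∃ ψ : ↥(Cfsg.GSp m F) →* ℤˣ × ℤˣ, ψ = φ.comp (QuotientGroup.mk' _) :=
    ⟨_, rfl⟩
  have hψsurj : Function.Surjective ψ := by
    rw [hψ]
    exact hsurj.comp (QuotientGroup.mk'_surjective _)
  have hsp : ∀ s : PS.Spm m F, ψ (PS.spToGSp s) = 1 := by
    obtain ⟨θ, hθ⟩ : ∃ θ : PS.Spm m F →* ℤˣ × ℤˣ, ∀ s, θ s = ψ (PS.spToGSp s) :=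
      ⟨MonoidHom.mk' (fun s => ψ (PS.spToGSp s)) (fun a b => by
        rw [← map_mul]
        congr 1
        apply Subtype.ext
        apply Units.ext
        rfl), fun s => rfl⟩
    intro s
    rw [← hθ]
    have h1 : s ∈ commutator (PS.Spm m F) := by
      rw [Cfsg.Agent.Lib.helper4.perfect_odd hm h2]
      exact Subgroup.mem_top s
    exact Abelianization.commutator_subset_ker θ h1
  have hsc : ∀ t : Fˣ, ψ (PS.scG t) = 1 := by
    intro t
    have h3 : (QuotientGroup.mk (PS.scG t : ↥(Cfsg.GSp m F)) : Cfsg.PGSp m F) = 1 := by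
      rw [QuotientGroup.eq_one_iff, Subgroup.mem_subgroupOf, Cfsg.Geo.mem_scalars_iff]
      refine ⟨t, ?_⟩
      rw [PS.scG_coe, Matrix.GeneralLinearGroup.coe_scalar, Matrix.scalar_apply,
        Matrix.smul_one_eq_diagonal]
    rw [hψ, MonoidHom.comp_apply, QuotientGroup.mk'_apply, h3, map_one]
  obtain ⟨c₀, hc₀⟩ := Cfsg.Agent.Lib.helper4.exists_nonsq (F := F) h2
  have hc₀0 : c₀ ≠ 0 := by
    rintro rfl
    exact hc₀ ⟨0, by simp⟩
  obtain ⟨z, hz⟩ : ∃ z, z = ψ (PS.dc c₀ hc₀0) := ⟨_, rfl⟩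
  have hall : ∀ x : ↥(Cfsg.GSp m F), ψ x = 1 ∨ ψ x = z := by
    intro x
    obtain ⟨μ, hμ⟩ : ∃ μ, μ = PS.mult x := ⟨_, rfl⟩
    have hμ0 : μ ≠ 0 := by rw [hμ]; exact PS.mult_ne x
    by_cases hsq : IsSquare μ
    · left
      obtain ⟨t, ht⟩ := hsq
      have ht0 : t ≠ 0 := by
        rintro rfl
        rw [mul_zero] at ht
        exact hμ0 ht
      obtain ⟨s, hs⟩ := PS.exists_sp_of_mult_one ((PS.scG (Units.mk0 t ht0))⁻¹ * x) (by
        have h1 : PS.multU hm1 ((PS.scG (Units.mk0 t ht0))⁻¹ * x) =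
            (PS.multU hm1 (PS.scG (Units.mk0 t ht0)))⁻¹ * PS.multU hm1 x := by
          rw [map_mul, map_inv]
        have h1' := congrArg Units.val h1
        rw [Units.val_mul, Units.val_inv_eq_inv_val, PS.multU_coe, PS.multU_coe,
          PS.multU_coe, PS.mult_scG hm1, Units.val_mk0, ← hμ, ht,
          inv_mul_cancel₀ (mul_ne_zero ht0 ht0)] at h1'
        exact h1')
      have hx : x = PS.scG (Units.mk0 t ht0) * PS.spToGSp s := by
        rw [← hs, mul_inv_cancel_left]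
      rw [hx, map_mul, hsc, hsp, one_mul]
    · right
      obtain ⟨t, ht⟩ := OA.isSquare_mul_inv_of_nonsq h2 μ c₀ hsq hc₀
      have ht0 : t ≠ 0 := by
        rintro rfl
        rw [mul_zero] at ht
        exact mul_ne_zero hμ0 (inv_ne_zero hc₀0) ht
      obtain ⟨s, hs⟩ := PS.exists_sp_of_mult_one
        ((PS.dc c₀ hc₀0)⁻¹ * ((PS.scG (Units.mk0 t ht0))⁻¹ * x)) (by
        have h1 : PS.multU hm1 ((PS.dc c₀ hc₀0)⁻¹ * ((PS.scG (Units.mk0 t ht0))⁻¹ * x)) =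
            (PS.multU hm1 (PS.dc c₀ hc₀0))⁻¹ *
              ((PS.multU hm1 (PS.scG (Units.mk0 t ht0)))⁻¹ * PS.multU hm1 x) := by
          rw [map_mul, map_mul, map_inv, map_inv]
        have h1' := congrArg Units.val h1
        rw [Units.val_mul, Units.val_mul, Units.val_inv_eq_inv_val, Units.val_inv_eq_inv_val,
          PS.multU_coe, PS.multU_coe, PS.multU_coe, PS.multU_coe, PS.mult_scG hm1,
          PS.mult_dc hm1, Units.val_mk0, ← hμ, ← ht] at h1'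
        rw [h1']
        field_simp)
      have hx : x = PS.scG (Units.mk0 t ht0) * (PS.dc c₀ hc₀0 * PS.spToGSp s) := by
        rw [← hs, mul_inv_cancel_left, mul_inv_cancel_left]
      rw [hx, map_mul, map_mul, hsc, hsp, one_mul, mul_one, hz]
  have hall' : ∀ y : ℤˣ × ℤˣ, y = 1 ∨ y = z := by
    intro y
    obtain ⟨x, rfl⟩ := hψsurj y
    exact hall x
  have e1 := hall' (1, -1)
  have e2 := hall' (-1, 1)
  rcases e1 with e1 | e1
  · exact absurd e1 (by decide)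
  · rcases e2 with e2 | e2
    · exact absurd e2 (by decide)
    · exact absurd (e1.trans e2.symm) (by decide)

theorem pgo_not_iso [Fintype F] {ι : Type} [Fintype ι] [DecidableEq ι] (h2 : (2 : F) ≠ 0)
    (m : ℕ) (hm2 : 2 ≤ m) (hm : Fintype.card ι = 2 * m) (Qf : (ι → F) → F)
    (Q : QuadraticForm F (ι → F)) (hQf : Qf = ⇑Q)
    (hQ : (QuadraticMap.polarBilin Q).Nondegenerate) (u : ι → F) (hu : Q u ≠ 0)
    (g₀ : GL ι F) (c₀ : Fˣ)
    (hg₀ : ∀ v, Q ((g₀ : Matrix ι ι F) *ᵥ v) = (c₀ : F) * Q v) (hc₀ : ¬ IsSquare (c₀ : F)) :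
    ¬ Nonempty (Cfsg.PGO F Qf ≃* Cfsg.PGSp m F) := by
  subst hQf
  rintro ⟨e⟩
  obtain ⟨φ, hφ⟩ := pgo_surj h2 m hm Q hQ u hu g₀ c₀ hg₀ hc₀
  exact pgsp_not_surj h2 m hm2 (φ.comp e.symm.toMonoidHom) (hφ.comp e.symm.surjective)

/-- the centralizer of a graph automorphism with symmetric matrix is not of symplectic type -/
theorem sym_cent_not_iso [Fintype F] {n : ℕ} (hn : 2 ≤ n) (hodd : Odd (Fintype.card F)) (m : ℕ)
    (hm2 : 2 ≤ m) (hnm : n = 2 * m) (g : GL (Fin n) F)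
    (hg : (g : Matrix (Fin n) (Fin n) F)ᵀ = g) :
    ¬ Nonempty (↥(Cfsg.inndiagPSL n F ⊓ Subgroup.centralizer {gam g}) ≃* Cfsg.PGSp m F) := by
  have h2 := GF.two_ne_zero_of_odd hodd
  obtain ⟨Q, hQ, hQnd⟩ := sym_quad h2 g hg
  obtain ⟨u, hu⟩ := Cfsg.Agent.Lib.helper4.exists_nonsing Q hQnd ⟨0, by omega⟩
  obtain ⟨a₀, c₀, ha₀, hc₀⟩ := sym_nonsq hodd m hnm Q hQnd
  obtain ⟨e₁⟩ := graph_centralizer_sym hn h2 g hg
  rintro ⟨e⟩
  exact pgo_not_iso h2 m hm2 (by rw [Fintype.card_fin, hnm]) _ Q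
    (funext fun v => (hQ v).symm) hQnd u hu a₀ c₀ ha₀ hc₀ ⟨e₁.symm.trans e⟩

end noniso

end Cfsg.Agent.Lib.helper13.PN
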