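import Mathlib
import Cfsg.Prelude.Def_LieTypeDatum
import Cfsg.Agent.Lib.helper13.PSLnSplit2
import Cfsg.Agent.Lib.helper4.SpTv
import Cfsg.Agent.Lib.helper4.SpTI

set_option autoImplicit false
set_option linter.unusedSectionVars false
set_option linter.unusedVariables false
set_option linter.style.longLine false

/-!
Characteristic two: symmetric bilinear forms on even-dimensional spaces over a finite field are
either alternating (standard symplectic form) or equivalent to the symplectic form plus the square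
of a linear form; the projective similarity groups of these two standard forms are the symplectic
group and the centralizer of a symplectic transvection.
-/

namespace Cfsg.Agent.Lib.helper13.C2

open Matrix
open Cfsg.Agent.S0766

variable {F : Type*} [Field F]

theorem bil_nondeg {n : ℕ} (g : GL (Fin n) F) (B : LinearMap.BilinForm F (Fin n → F))
    (hB : ∀ u v, B u v = u ⬝ᵥ ((g : Matrix (Fin n) (Fin n) F) *ᵥ v)) : B.Nondegenerate := by
  classical
  constructor
  · intro x hx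
    funext j
    have h1 := hx (((g⁻¹ : GL (Fin n) F) : Matrix (Fin n) (Fin n) F) *ᵥ Pi.single j 1)
    rw [hB, Matrix.mulVec_mulVec, Units.mul_inv, Matrix.one_mulVec, dotProduct_single,
      mul_one] at h1
    exact h1
  · intro y hy
    have h1 : (g : Matrix (Fin n) (Fin n) F) *ᵥ y = 0 := by
      funext j
      have h3 := hy (Pi.single j 1)
      rw [hB, single_dotProduct, one_mul] at h3
      exact h3
    have h4 := congrArg (fun x => ((g⁻¹ : GL (Fin n) F) : Matrix (Fin n) (Fin n) F) *ᵥ x) h1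
    simp only [Matrix.mulVec_mulVec, Matrix.mulVec_zero] at h4
    rw [Units.inv_mul, Matrix.one_mulVec] at h4
    exact h4

/-- an alternating invertible matrix is congruent to the standard symplectic one -/
theorem alt_classify {n : ℕ} (m : ℕ) (hnm : n = 2 * m) (g : GL (Fin n) F)
    (halt : ∀ v : Fin n → F, v ⬝ᵥ ((g : Matrix (Fin n) (Fin n) F) *ᵥ v) = 0) :
    ∃ T : (Fin n → F) ≃ₗ[F] (Fin m ⊕ Fin m → F), ∀ u v : Fin n → F,
      Cfsg.sympForm m F (T u) (T v) =
        (-1 : F) * (u ⬝ᵥ ((g : Matrix (Fin n) (Fin n) F) *ᵥ v)) := by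
  classical
  obtain ⟨B, hB⟩ : ∃ B : LinearMap.BilinForm F (Fin n → F),
      ∀ u v, B u v = u ⬝ᵥ ((g : Matrix (Fin n) (Fin n) F) *ᵥ v) :=
    ⟨Matrix.toLinearMap₂' F (g : Matrix (Fin n) (Fin n) F),
      fun u v => Matrix.toLinearMap₂'_apply' _ u v⟩
  have hAlt : B.IsAlt := by
    intro x
    rw [hB]
    exact halt x
  have hV : Module.finrank F (Fin n → F) = 2 * m := by
    rw [Module.finrank_fin_fun, hnm]
  obtain ⟨T, hT⟩ := symp_basis_equiv B hAlt (bil_nondeg g B hB) hV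
  exact ⟨T, fun u v => by rw [← hB, hT, neg_one_mul, neg_neg]⟩

theorem sq_inj2 [CharP F 2] (a b : F) (h : a * a = b * b) : a = b := by
  have h2 : (2 : F) = 0 := CharTwo.two_eq_zero
  have h3 : (a - b) * (a - b) = 0 := by linear_combination h + (b * b - a * b) * h2
  exact sub_eq_zero.1 (mul_self_eq_zero.1 h3)

theorem exists_sqrt [Finite F] [CharP F 2] (x : F) : ∃ r : F, r * r = x := by
  obtain ⟨r, hr⟩ := FiniteField.isSquare_of_char_two (ringChar.eq F 2) x
  exact ⟨r, hr.symm⟩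

/-- the linear form whose square is the diagonal of a symmetric bilinear form -/
theorem exists_sqrt_form [Finite F] [CharP F 2] {V : Type*} [AddCommGroup V] [Module F V]
    (B : LinearMap.BilinForm F V) (hsymm : ∀ u v, B u v = B v u) :
    ∃ ℓ : V →ₗ[F] F, ∀ v, ℓ v * ℓ v = B v v := by
  classical
  have h2 : (2 : F) = 0 := CharTwo.two_eq_zero
  choose sq hsq using fun x : F => exists_sqrt x
  refine ⟨{ toFun := fun v => sq (B v v), map_add' := ?_, map_smul' := ?_ }, fun v => hsq _⟩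
  · intro u v
    apply sq_inj2
    show sq (B (u + v) (u + v)) * sq (B (u + v) (u + v)) =
      (sq (B u u) + sq (B v v)) * (sq (B u u) + sq (B v v))
    rw [hsq]
    have e : B (u + v) (u + v) = B u u + B v v + 2 * B u v := by
      simp only [map_add, LinearMap.add_apply]
      rw [hsymm v u]
      ring
    rw [e]
    linear_combination (B u v - sq (B u u) * sq (B v v)) * h2 - hsq (B u u) - hsq (B v v)
  · intro c v
    apply sq_inj2
    show sq (B (c • v) (c • v)) * sq (B (c • v) (c • v)) =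
      (c * sq (B v v)) * (c * sq (B v v))
    rw [hsq]
    simp only [map_smul, LinearMap.smul_apply, smul_eq_mul]
    linear_combination (-(c * c)) * hsq (B v v)

/-- a symmetric non-alternating non-degenerate form on an even-dimensional space -/
theorem nonalt_abstract [Finite F] [CharP F 2] {V : Type*} [AddCommGroup V] [Module F V]
    [FiniteDimensional F V] (m : ℕ) (hV : Module.finrank F V = 2 * m)
    (B : LinearMap.BilinForm F V) (hsymm : ∀ u v, B u v = B v u) (hnd : B.Nondegenerate)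
    (hna : ∃ v, B v v ≠ 0) :
    ∃ (T : V ≃ₗ[F] (Fin m ⊕ Fin m → F)) (z : V), z ≠ 0 ∧ ∀ u v, B u v =
      Cfsg.sympForm m F (T u) (T v) + Cfsg.sympForm m F (T z) (T u) * Cfsg.sympForm m F (T z) (T v) := by
  classical
  have h2 : (2 : F) = 0 := CharTwo.two_eq_zero
  obtain ⟨ℓ, hℓ⟩ := exists_sqrt_form B hsymm
  obtain ⟨z, hz⟩ : ∃ z : V, ∀ v, B z v = ℓ v :=
    ⟨(LinearMap.BilinForm.toDual B hnd).symm ℓ, fun v =>
      LinearMap.BilinForm.apply_toDual_symm_apply ℓ v⟩
  have hzz : ℓ z = 0 ∨ ℓ z = 1 := by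
    have h1 := hℓ z
    rw [hz] at h1
    have h3 : ℓ z * (ℓ z - 1) = 0 := by linear_combination h1
    rcases mul_eq_zero.1 h3 with h4 | h4
    · exact Or.inl h4
    · exact Or.inr (sub_eq_zero.1 h4)
  have hz0 : ℓ z = 0 := by
    rcases hzz with h | h
    · exact h
    · exfalso
      obtain ⟨W, hW⟩ : ∃ W : Submodule F V, W = LinearMap.ker ℓ := ⟨_, rfl⟩
      have hWm : ∀ x : W, ℓ (x : V) = 0 := fun x => by
        have h9 : (x : V) ∈ LinearMap.ker ℓ := hW ▸ x.2
        exact LinearMap.mem_ker.1 h9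
      obtain ⟨BW, hBW⟩ : ∃ BW : LinearMap.BilinForm F W, ∀ x y : W, BW x y = B (x : V) (y : V) :=
        ⟨B.compl₁₂ W.subtype W.subtype, fun x y => rfl⟩
      have hAW : BW.IsAlt := by
        intro x
        rw [hBW, ← hℓ, hWm, mul_zero]
      have key : ∀ x : W, (∀ y : W, B (x : V) (y : V) = 0) → x = 0 := by
        intro x hx
        apply Subtype.ext
        apply hnd.1
        intro v
        have hmem : v - ℓ v • z ∈ W := by
          rw [hW, LinearMap.mem_ker, map_sub, map_smul, h, smul_eq_mul, mul_one, sub_self]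
        have h5 := hx ⟨_, hmem⟩
        rw [map_sub, map_smul, hsymm (x : V) z, hz, hWm, smul_zero, sub_zero] at h5
        exact h5
      have hndW : BW.Nondegenerate := by
        constructor
        · intro x hx
          exact key x (fun y => by rw [← hBW]; exact hx y)
        · intro y hy
          exact key y (fun x => by rw [hsymm, ← hBW]; exact hy x)
      have hfin : Module.finrank F W + 1 = 2 * m := by
        have h5 := LinearMap.finrank_range_add_finrank_ker ℓ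
        have h6 : LinearMap.range ℓ = ⊤ := LinearMap.range_eq_top.2 (fun c =>
          ⟨c • z, by rw [map_smul, h, smul_eq_mul, mul_one]⟩)
        rw [h6, finrank_top, Module.finrank_self, ← hW, hV] at h5
        omega
      obtain ⟨k, hk, -⟩ := symp_fam_main (Module.finrank F W) BW hAW hndW rfl
      omega
  obtain ⟨B', hB'⟩ : ∃ B' : LinearMap.BilinForm F V, ∀ u v, B' u v = B u v + ℓ u * ℓ v :=
    ⟨B + LinearMap.BilinForm.linMulLin ℓ ℓ, fun u v => by
      rw [LinearMap.add_apply, LinearMap.add_apply, LinearMap.BilinForm.linMulLin_apply]⟩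
  have hA' : B'.IsAlt := by
    intro x
    rw [hB', ← hℓ x]
    exact CharTwo.add_self_eq_zero _
  have hnd' : B'.Nondegenerate := by
    have key : ∀ u, (∀ v, B u v + ℓ u * ℓ v = 0) → u = 0 := by
      intro u hu
      have h1 : u + ℓ u • z = 0 := by
        apply hnd.1
        intro v
        rw [map_add, LinearMap.add_apply, map_smul, LinearMap.smul_apply, hz, smul_eq_mul]
        exact hu v
      have h3 := congrArg ℓ h1
      rw [map_add, map_smul, hz0, smul_zero, add_zero, map_zero] at h3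
      rw [h3, zero_smul, add_zero] at h1
      exact h1
    constructor
    · intro x hx
      exact key x (fun v => by rw [← hB']; exact hx v)
    · intro y hy
      exact key y (fun v => by rw [hsymm, mul_comm, ← hB']; exact hy v)
  obtain ⟨T, hT⟩ := symp_basis_equiv B' hA' hnd' hV
  have hT' : ∀ x y, B' x y = Cfsg.sympForm m F (T x) (T y) := by
    intro x y
    rw [hT]
    exact CharTwo.neg_eq _
  have hℓT : ∀ v, ℓ v = Cfsg.sympForm m F (T z) (T v) := by
    intro v
    rw [← hT', hB', hz, hz0, zero_mul, add_zero]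
  have hzne : z ≠ 0 := by
    rintro rfl
    obtain ⟨v, hv⟩ := hna
    apply hv
    rw [← hℓ v, ← hz v, map_zero, LinearMap.zero_apply, zero_mul]
  refine ⟨T, z, hzne, fun u v => ?_⟩
  rw [← hT', hB', ← hℓT, ← hℓT]
  linear_combination (-(ℓ u * ℓ v)) * h2

theorem sp_linearEquiv {m : ℕ} (A : Matrix.symplecticGroup (Fin m) F) :
    ∃ T : (Fin m ⊕ Fin m → F) ≃ₗ[F] (Fin m ⊕ Fin m → F), ∀ v, T v = A.1 *ᵥ v :=
  ⟨{ toFun := fun v => A.1 *ᵥ v
     map_add' := fun u v => Matrix.mulVec_add _ u v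
     map_smul' := fun c v => Matrix.mulVec_smul _ c v
     invFun := fun v => (A⁻¹ : Matrix.symplecticGroup (Fin m) F).1 *ᵥ v
     left_inv := fun v => by
       show (A⁻¹ : Matrix.symplecticGroup (Fin m) F).1 *ᵥ (A.1 *ᵥ v) = v
       rw [Matrix.mulVec_mulVec, PS.inv_val_mul, Matrix.one_mulVec]
     right_inv := fun v => by
       show A.1 *ᵥ ((A⁻¹ : Matrix.symplecticGroup (Fin m) F).1 *ᵥ v) = v
       rw [Matrix.mulVec_mulVec, PS.val_mul_inv, Matrix.one_mulVec] }, fun v => rfl⟩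

/-- a symmetric non-alternating invertible matrix in even dimension: normal form -/
theorem nonalt_classify [Finite F] [CharP F 2] {n : ℕ} (m : ℕ) (hnm : n = 2 * m)
    (g : GL (Fin n) F) (hg : (g : Matrix (Fin n) (Fin n) F)ᵀ = g)
    (hna : ∃ v : Fin n → F, v ⬝ᵥ ((g : Matrix (Fin n) (Fin n) F) *ᵥ v) ≠ 0)
    (z₀ : Fin m ⊕ Fin m → F) (hz₀ : z₀ ≠ 0) :
    ∃ T : (Fin n → F) ≃ₗ[F] (Fin m ⊕ Fin m → F), ∀ u v : Fin n → F,
      u ⬝ᵥ ((g : Matrix (Fin n) (Fin n) F) *ᵥ v) =
        Cfsg.sympForm m F (T u) (T v) +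
          Cfsg.sympForm m F z₀ (T u) * Cfsg.sympForm m F z₀ (T v) := by
  classical
  obtain ⟨B, hB⟩ : ∃ B : LinearMap.BilinForm F (Fin n → F),
      ∀ u v, B u v = u ⬝ᵥ ((g : Matrix (Fin n) (Fin n) F) *ᵥ v) :=
    ⟨Matrix.toLinearMap₂' F (g : Matrix (Fin n) (Fin n) F),
      fun u v => Matrix.toLinearMap₂'_apply' _ u v⟩
  have hsymm : ∀ u v, B u v = B v u := by
    intro u v
    rw [hB, hB, ← PN.transpose_form, hg]
  obtain ⟨T₁, z, hz, hT₁⟩ := nonalt_abstract m (by rw [Module.finrank_fin_fun, hnm]) B hsymm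
    (bil_nondeg g B hB) (by
      obtain ⟨v, hv⟩ := hna
      exact ⟨v, by rw [hB]; exact hv⟩)
  have hTz : T₁ z ≠ 0 := fun h => hz (T₁.map_eq_zero_iff.1 h)
  obtain ⟨A, hA⟩ := Cfsg.Agent.Lib.helper4.witt_frames (fun _ : Fin 1 => T₁ z) (fun _ => z₀)
    (linearIndependent_unique_iff.2 hTz) (linearIndependent_unique_iff.2 hz₀)
    (fun i j => by rw [sf_self, sf_self])
  obtain ⟨TA, hTA⟩ := sp_linearEquiv A
  refine ⟨T₁.trans TA, fun u v => ?_⟩
  have e : ∀ x, (T₁.trans TA) x = A.1 *ᵥ T₁ x := fun x => by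
    rw [LinearEquiv.trans_apply, hTA]
  rw [e, e, ← hA 0, sp_pres, sp_pres, sp_pres, ← hB]
  exact hT₁ u v

/-- a homomorphism into a linear group which is injective modulo scalars and surjective up to
scalars identifies the projective quotient -/
theorem projQuot_iso_of_section {ι : Type} [Fintype ι] [DecidableEq ι] (H : Subgroup (GL ι F))
    {K : Type*} [Group K] (φ₀ : K →* ↥H)
    (hinj : ∀ k : K, ((φ₀ k : ↥H) : GL ι F) ∈ Cfsg.Geo.scalars ι F → k = 1)
    (hsurj : ∀ x : ↥H, ∃ (k : K) (c : Fˣ), ((x : GL ι F) : Matrix ι ι F) =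
      (c : F) • (((φ₀ k : ↥H) : GL ι F) : Matrix ι ι F)) :
    Nonempty (Cfsg.projQuot H ≃* K) := by
  obtain ⟨φ, hφ⟩ : ∃ φ : K →* Cfsg.projQuot H, ∀ k, φ k = QuotientGroup.mk (φ₀ k) :=
    ⟨(QuotientGroup.mk' _).comp φ₀, fun k => rfl⟩
  have h1 : Function.Injective φ := by
    rw [injective_iff_map_eq_one]
    intro k hk
    rw [hφ, QuotientGroup.eq_one_iff, Subgroup.mem_subgroupOf] at hk
    exact hinj k hk
  have h2 : Function.Surjective φ := by
    intro y
    obtain ⟨x, rfl⟩ := QuotientGroup.mk_surjective y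
    obtain ⟨k, c, hc⟩ := hsurj x
    refine ⟨k, ?_⟩
    rw [hφ, QuotientGroup.eq, Subgroup.mem_subgroupOf, Cfsg.Geo.mem_scalars_iff]
    refine ⟨c, ?_⟩
    rw [Subgroup.coe_mul, Subgroup.coe_inv, Units.val_mul, hc, Matrix.mul_smul, Units.inv_mul]
  exact ⟨(MulEquiv.ofBijective φ ⟨h1, h2⟩).symm⟩

/-- in characteristic two over a finite field, the projective conformal symplectic group is the
symplectic group -/
theorem pgsp_iso_sp [Finite F] [CharP F 2] (m : ℕ) (hm : 1 ≤ m) :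
    Nonempty (Cfsg.PGSp m F ≃* ↥(Matrix.symplecticGroup (Fin m) F)) := by
  classical
  obtain ⟨φ₀, hφ₀⟩ : ∃ φ₀ : ↥(Matrix.symplecticGroup (Fin m) F) →* ↥(Cfsg.GSp m F),
      ∀ A, φ₀ A = PS.spToGSp A :=
    ⟨MonoidHom.mk' PS.spToGSp (fun A B => Subtype.ext (Units.ext rfl)), fun A => rfl⟩
  apply projQuot_iso_of_section (Cfsg.GSp m F) φ₀
  · intro A hA
    rw [hφ₀, Cfsg.Geo.mem_scalars_iff] at hA
    obtain ⟨c, hc⟩ := hA
    have h1 : PS.mult (PS.spToGSp A) = (c : F) * c := by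
      apply PS.mult_eq hm
      intro u v
      rw [hc, Matrix.smul_mulVec, Matrix.smul_mulVec, Matrix.one_mulVec, Matrix.one_mulVec,
        sf_smul_left, sf_smul_right, mul_assoc]
    rw [PS.mult_spToGSp hm] at h1
    have hc1 : (c : F) = 1 := sq_inj2 _ _ (by rw [← h1, mul_one])
    apply Subtype.ext
    have h3 : A.1 = (c : F) • (1 : Matrix (Fin m ⊕ Fin m) (Fin m ⊕ Fin m) F) := hc
    rw [h3, hc1, one_smul]
    rfl
  · intro x
    obtain ⟨t, ht⟩ := exists_sqrt (PS.mult x)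
    have ht0 : t ≠ 0 := by
      rintro rfl
      rw [mul_zero] at ht
      exact PS.mult_ne x ht.symm
    have hmem : t⁻¹ • ((x : GL (Fin m ⊕ Fin m) F) : Matrix (Fin m ⊕ Fin m) (Fin m ⊕ Fin m) F) ∈
        Matrix.symplecticGroup (Fin m) F := by
      apply Cfsg.Agent.Lib.helper4.mem_sp_of_pres
      intro u v
      rw [Matrix.smul_mulVec, Matrix.smul_mulVec, sf_smul_left, sf_smul_right, PS.mult_spec, ← ht]
      field_simp
    refine ⟨⟨_, hmem⟩, Units.mk0 t ht0, ?_⟩
    rw [hφ₀, PS.spToGSp_coe, Units.val_mk0, smul_smul, mul_inv_cancel₀ ht0, one_smul]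

theorem tv_isTransvection {m : ℕ} (z₀ : Fin m ⊕ Fin m → F) (hz₀ : z₀ ≠ 0) :
    Cfsg.IsTransvection ((tv z₀ 1 : Matrix.symplecticGroup (Fin m) F) :
      Matrix (Fin m ⊕ Fin m) (Fin m ⊕ Fin m) F) := by
  refine ⟨Cfsg.Agent.Lib.helper4.rank_tv_sub_one z₀ 1 hz₀ one_ne_zero, ?_⟩
  have h1 : ∀ v, ((tv z₀ 1 : Matrix.symplecticGroup (Fin m) F).1 - 1) *ᵥ v =
      (Cfsg.sympForm m F v z₀) • z₀ := by
    intro v
    rw [Matrix.sub_mulVec, Matrix.one_mulVec]
    show Cfsg.sympTransvection m z₀ 1 *ᵥ v - v = _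
    rw [tv_apply, one_mul, add_sub_cancel_left]
  apply Matrix.mulVec_injective
  funext v
  rw [← Matrix.mulVec_mulVec, h1, h1, sf_smul_left, sf_self, mul_zero, zero_smul,
    Matrix.zero_mulVec]

/-- the projective similarity group of the symplectic form plus the square of a linear form -/
theorem std_iso [Finite F] [CharP F 2] (m : ℕ) (hm : 1 ≤ m) (z₀ : Fin m ⊕ Fin m → F)
    (hz₀ : z₀ ≠ 0) :
    Nonempty (Cfsg.projQuot (Cfsg.Geo.similarityGroup (fun u v : Fin m ⊕ Fin m → F =>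
      Cfsg.sympForm m F u v + Cfsg.sympForm m F z₀ u * Cfsg.sympForm m F z₀ v)) ≃*
      ↥(Subgroup.centralizer ({tv z₀ 1} : Set ↥(Matrix.symplecticGroup (Fin m) F)))) := by
  classical
  have h2 : (2 : F) = 0 := CharTwo.two_eq_zero
  have hcent : ∀ y : ↥(Subgroup.centralizer ({tv z₀ 1} : Set ↥(Matrix.symplecticGroup (Fin m) F))),
      (y : ↥(Matrix.symplecticGroup (Fin m) F)).1 *ᵥ z₀ = z₀ := fun y =>
    (Cfsg.Agent.Lib.helper4.mem_centralizer_tv_iff z₀ 1 hz₀ one_ne_zero y.1).1 y.2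
  have hmemH : ∀ y : ↥(Subgroup.centralizer ({tv z₀ 1} : Set ↥(Matrix.symplecticGroup (Fin m) F))),
      ((PS.spToGSp (y : ↥(Matrix.symplecticGroup (Fin m) F)) : ↥(Cfsg.GSp m F)) :
        GL (Fin m ⊕ Fin m) F) ∈ Cfsg.Geo.similarityGroup (fun u v : Fin m ⊕ Fin m → F =>
      Cfsg.sympForm m F u v + Cfsg.sympForm m F z₀ u * Cfsg.sympForm m F z₀ v) := by
    intro y
    refine ⟨1, fun u v => ?_⟩
    show Cfsg.sympForm m F ((y : ↥(Matrix.symplecticGroup (Fin m) F)).1 *ᵥ u)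
        ((y : ↥(Matrix.symplecticGroup (Fin m) F)).1 *ᵥ v) +
      Cfsg.sympForm m F z₀ ((y : ↥(Matrix.symplecticGroup (Fin m) F)).1 *ᵥ u) *
        Cfsg.sympForm m F z₀ ((y : ↥(Matrix.symplecticGroup (Fin m) F)).1 *ᵥ v) = _
    have e1 : ∀ w, Cfsg.sympForm m F z₀ ((y : ↥(Matrix.symplecticGroup (Fin m) F)).1 *ᵥ w) =
        Cfsg.sympForm m F z₀ w := by
      intro w
      have h5 := sp_pres (y : ↥(Matrix.symplecticGroup (Fin m) F)) z₀ w
      rw [hcent y] at h5
      exact h5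
    rw [sp_pres, e1 u, e1 v, Units.val_one, one_mul]
  obtain ⟨φ₀, hφ₀⟩ : ∃ φ₀ : ↥(Subgroup.centralizer
      ({tv z₀ 1} : Set ↥(Matrix.symplecticGroup (Fin m) F))) →*
      ↥(Cfsg.Geo.similarityGroup (fun u v : Fin m ⊕ Fin m → F =>
        Cfsg.sympForm m F u v + Cfsg.sympForm m F z₀ u * Cfsg.sympForm m F z₀ v)),
      ∀ y, (((φ₀ y : ↥(Cfsg.Geo.similarityGroup (fun u v : Fin m ⊕ Fin m → F =>
        Cfsg.sympForm m F u v + Cfsg.sympForm m F z₀ u * Cfsg.sympForm m F z₀ v))) :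
          GL (Fin m ⊕ Fin m) F) : Matrix (Fin m ⊕ Fin m) (Fin m ⊕ Fin m) F) =
        (y : ↥(Matrix.symplecticGroup (Fin m) F)).1 :=
    ⟨MonoidHom.mk' (fun y => ⟨_, hmemH y⟩) (fun a b => Subtype.ext (Units.ext rfl)),
      fun y => rfl⟩
  apply projQuot_iso_of_section _ φ₀
  · intro y hy
    rw [Cfsg.Geo.mem_scalars_iff] at hy
    obtain ⟨c, hc⟩ := hy
    rw [hφ₀] at hc
    have h3 := hcent y
    rw [hc, Matrix.smul_mulVec, Matrix.one_mulVec] at h3
    have hc1 : (c : F) = 1 := by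
      by_contra hne
      apply hz₀
      have h4 : ((c : F) - 1) • z₀ = 0 := by rw [sub_smul, h3, one_smul, sub_self]
      exact (smul_eq_zero.1 h4).resolve_left (sub_ne_zero.2 hne)
    apply Subtype.ext
    apply Subtype.ext
    rw [hc, hc1, one_smul]
    rfl
  · intro x
    obtain ⟨c, hc⟩ := x.2
    obtain ⟨s, hs⟩ := exists_sqrt (c : F)
    have hs0 : s ≠ 0 := by
      rintro rfl
      rw [mul_zero] at hs
      exact c.ne_zero hs.symm
    obtain ⟨X, hX⟩ : ∃ X : Matrix (Fin m ⊕ Fin m) (Fin m ⊕ Fin m) F,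
        X = ((x : GL (Fin m ⊕ Fin m) F) : Matrix (Fin m ⊕ Fin m) (Fin m ⊕ Fin m) F) := ⟨_, rfl⟩
    have hc' : ∀ u v, Cfsg.sympForm m F (X *ᵥ u) (X *ᵥ v) +
        Cfsg.sympForm m F z₀ (X *ᵥ u) * Cfsg.sympForm m F z₀ (X *ᵥ v) =
        (c : F) * (Cfsg.sympForm m F u v + Cfsg.sympForm m F z₀ u * Cfsg.sympForm m F z₀ v) := by
      intro u v
      rw [hX]
      exact hc u v
    have hl : ∀ v, Cfsg.sympForm m F z₀ (X *ᵥ v) = s * Cfsg.sympForm m F z₀ v := by
      intro v
      apply sq_inj2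
      have h5 := hc' v v
      rw [sf_self, sf_self, zero_add, zero_add] at h5
      rw [h5, ← hs]
      ring
    have hsf : ∀ u v, Cfsg.sympForm m F (X *ᵥ u) (X *ᵥ v) = (c : F) * Cfsg.sympForm m F u v := by
      intro u v
      have h5 := hc' u v
      rw [hl, hl] at h5
      linear_combination h5 - Cfsg.sympForm m F z₀ u * Cfsg.sympForm m F z₀ v * hs
    have hmem : s⁻¹ • X ∈ Matrix.symplecticGroup (Fin m) F := by
      apply Cfsg.Agent.Lib.helper4.mem_sp_of_pres
      intro u v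
      rw [Matrix.smul_mulVec, Matrix.smul_mulVec, sf_smul_left, sf_smul_right, hsf, ← hs]
      field_simp
    obtain ⟨Y, hY⟩ : ∃ Y : ↥(Matrix.symplecticGroup (Fin m) F), Y.1 = s⁻¹ • X := ⟨⟨_, hmem⟩, rfl⟩
    have hYz : Y.1 *ᵥ z₀ = z₀ := by
      by_contra hne
      obtain ⟨w, hw⟩ := Cfsg.Agent.Lib.helper4.exists_sf_eq_one (z₀ - Y.1 *ᵥ z₀)
        (sub_ne_zero.2 (Ne.symm hne))
      obtain ⟨w', hw'⟩ : ∃ w', w' = (Y⁻¹ : ↥(Matrix.symplecticGroup (Fin m) F)).1 *ᵥ w :=
        ⟨_, rfl⟩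
      have h6 : Y.1 *ᵥ w' = w := by
        rw [hw', Matrix.mulVec_mulVec, PS.val_mul_inv, Matrix.one_mulVec]
      have h7 : Cfsg.sympForm m F w (z₀ - Y.1 *ᵥ z₀) = 0 := by
        rw [← h6, sf_sub_right, sp_pres, sf_anti (Y.1 *ᵥ w') z₀, hY, Matrix.smul_mulVec,
          sf_smul_right, hl, sf_anti z₀ w', ← mul_assoc, inv_mul_cancel₀ hs0, one_mul]
        ring
      rw [h7] at hw
      exact zero_ne_one hw
    refine ⟨⟨Y, (Cfsg.Agent.Lib.helper4.mem_centralizer_tv_iff z₀ 1 hz₀ one_ne_zero Y).2 hYz⟩,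
      Units.mk0 s hs0, ?_⟩
    rw [hφ₀, ← hX, Units.val_mk0]
    show X = s • Y.1
    rw [hY, smul_smul, mul_inv_cancel₀ hs0, one_smul]

end Cfsg.Agent.Lib.helper13.C2
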