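import Mathlib
import Cfsg.Prelude.Def_LieTypeDatum
import Cfsg.Agent.Lib.helper13.Char2Graph

set_option autoImplicit false
set_option linter.unusedSectionVars false
set_option linter.unusedVariables false
set_option linter.style.longLine false

/-!
Characteristic two: the two classes of involutory graph automorphisms of `PSL_n`, `n` even, in
terms of the matrices of the corresponding bilinear forms.
-/

namespace Cfsg.Agent.Lib.helper13.C2

open Matrix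
open Cfsg.Agent.S0766

variable {F : Type*} [Field F]

/-- an alternating form is not similar to the dot product -/
theorem not_conj_alt_one {n : ℕ} (hn2 : 2 ≤ n) (g₁ : GL (Fin n) F)
    (halt₁ : ∀ v : Fin n → F, v ⬝ᵥ ((g₁ : Matrix (Fin n) (Fin n) F) *ᵥ v) = 0) :
    ¬ Cfsg.IsConjUnder (Cfsg.inndiagPSL n F) (PN.gam g₁) (PN.gam 1) := by
  classical
  intro hc
  obtain ⟨A, c, hAc⟩ := PN.congr_of_conj hn2 g₁ 1 hc
  obtain ⟨v, hv⟩ : ∃ v : Fin n → F, v = Pi.single ⟨0, by omega⟩ 1 := ⟨_, rfl⟩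
  have h5 := form_mul ((A : Matrix (Fin n) (Fin n) F)ᵀ) (g₁ : Matrix (Fin n) (Fin n) F) v v
  rw [halt₁, Matrix.transpose_transpose, hAc, Units.val_one, Matrix.smul_mulVec,
    Matrix.one_mulVec, dotProduct_smul, smul_eq_mul, hv, single_dotProduct, one_mul,
    Pi.single_eq_same, mul_one] at h5
  exact c.ne_zero h5.symm

/-- a symmetric invertible matrix in even dimension over a finite field of characteristic two is
congruent to the symplectic one or to the identity -/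
theorem classify_sym2 [Finite F] [CharP F 2] {n m : ℕ} (hnm : n = 2 * m)
    (g g₁ : GL (Fin n) F) (R : (Fin n → F) ≃ₗ[F] (Fin m ⊕ Fin m → F))
    (hg₁ : ∀ u v : Fin n → F, u ⬝ᵥ ((g₁ : Matrix (Fin n) (Fin n) F) *ᵥ v) =
      Cfsg.sympForm m F (R u) (R v))
    (z₀ : Fin m ⊕ Fin m → F) (hz₀ : z₀ ≠ 0) (T₃ : (Fin n → F) ≃ₗ[F] (Fin m ⊕ Fin m → F))
    (hT₃ : ∀ u v : Fin n → F,
      u ⬝ᵥ (((1 : GL (Fin n) F) : Matrix (Fin n) (Fin n) F) *ᵥ v) =
        Cfsg.sympForm m F (T₃ u) (T₃ v) +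
          Cfsg.sympForm m F z₀ (T₃ u) * Cfsg.sympForm m F z₀ (T₃ v))
    (hsym : (g : Matrix (Fin n) (Fin n) F)ᵀ = g) :
    Cfsg.IsConjUnder (Cfsg.inndiagPSL n F) (PN.gam g₁) (PN.gam g) ∨
      Cfsg.IsConjUnder (Cfsg.inndiagPSL n F) (PN.gam 1) (PN.gam g) := by
  classical
  by_cases halt : ∀ v : Fin n → F, v ⬝ᵥ ((g : Matrix (Fin n) (Fin n) F) *ᵥ v) = 0
  · left
    obtain ⟨T, hT⟩ := alt_classify m hnm g halt
    have h3 : ∀ u v : Fin n → F, u ⬝ᵥ ((g : Matrix (Fin n) (Fin n) F) *ᵥ v) =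
        (-1 : F) * ((T.trans R.symm u) ⬝ᵥ ((g₁ : Matrix (Fin n) (Fin n) F) *ᵥ
          (T.trans R.symm v))) := by
      intro u v
      rw [hg₁, LinearEquiv.trans_apply, LinearEquiv.trans_apply, LinearEquiv.apply_symm_apply,
        LinearEquiv.apply_symm_apply, hT]
      ring
    obtain ⟨A, hA⟩ := PN.congr_of_bil_eq g g₁ (T.trans R.symm) (-1 : F) h3
    exact PN.isConjUnder_symm _ (PN.conj_of_congr g g₁ A (-1 : Fˣ) (by
      rw [Units.val_neg, Units.val_one]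
      exact hA))
  · right
    push Not at halt
    obtain ⟨T, hT⟩ := nonalt_classify m hnm g hsym halt z₀ hz₀
    have h3 : ∀ u v : Fin n → F, u ⬝ᵥ ((g : Matrix (Fin n) (Fin n) F) *ᵥ v) =
        (1 : F) * ((T.trans T₃.symm u) ⬝ᵥ
          (((1 : GL (Fin n) F) : Matrix (Fin n) (Fin n) F) *ᵥ (T.trans T₃.symm v))) := by
      intro u v
      rw [hT₃, LinearEquiv.trans_apply, LinearEquiv.trans_apply, LinearEquiv.apply_symm_apply,
        LinearEquiv.apply_symm_apply, hT, one_mul]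
    obtain ⟨A, hA⟩ := PN.congr_of_bil_eq g 1 (T.trans T₃.symm) (1 : F) h3
    exact PN.isConjUnder_symm _ (PN.conj_of_congr g 1 A (1 : Fˣ) (by
      rw [Units.val_one]
      exact hA))

/-- the standard data in characteristic two -/
theorem std_data [Finite F] [CharP F 2] {n m : ℕ} (hm : 1 ≤ m) (hnm : n = 2 * m) :
    ∃ (g₁ : GL (Fin n) F) (R : (Fin n → F) ≃ₗ[F] (Fin m ⊕ Fin m → F))
      (z₀ : Fin m ⊕ Fin m → F) (T₃ : (Fin n → F) ≃ₗ[F] (Fin m ⊕ Fin m → F)),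
      z₀ ≠ 0 ∧ (g₁ : Matrix (Fin n) (Fin n) F)ᵀ = -(g₁ : Matrix (Fin n) (Fin n) F) ∧
      (∀ u v : Fin n → F, u ⬝ᵥ ((g₁ : Matrix (Fin n) (Fin n) F) *ᵥ v) =
        Cfsg.sympForm m F (R u) (R v)) ∧
      (∀ u v : Fin n → F,
        u ⬝ᵥ (((1 : GL (Fin n) F) : Matrix (Fin n) (Fin n) F) *ᵥ v) =
          Cfsg.sympForm m F (T₃ u) (T₃ v) +
            Cfsg.sympForm m F z₀ (T₃ u) * Cfsg.sympForm m F z₀ (T₃ v)) := by
  classical
  obtain ⟨R, -, -⟩ := GF.exists_reindex (F := F) hnm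
  obtain ⟨g₁, hs₁, hg₁⟩ := PN.exists_skew_of_symp R
  obtain ⟨z₀, hz₀⟩ : ∃ z₀ : Fin m ⊕ Fin m → F, z₀ ≠ 0 :=
    ⟨Pi.single (Sum.inl ⟨0, by omega⟩) 1, fun h => by
      have h5 := congrFun h (Sum.inl ⟨0, by omega⟩)
      rw [Pi.single_eq_same, Pi.zero_apply] at h5
      exact one_ne_zero h5⟩
  have h1sym : ((1 : GL (Fin n) F) : Matrix (Fin n) (Fin n) F)ᵀ =
      ((1 : GL (Fin n) F) : Matrix (Fin n) (Fin n) F) := by
    rw [Units.val_one, Matrix.transpose_one]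
  have h1na : ∃ v : Fin n → F,
      v ⬝ᵥ (((1 : GL (Fin n) F) : Matrix (Fin n) (Fin n) F) *ᵥ v) ≠ 0 :=
    ⟨Pi.single ⟨0, by omega⟩ 1, by
      rw [Units.val_one, Matrix.one_mulVec, single_dotProduct, one_mul, Pi.single_eq_same]
      exact one_ne_zero⟩
  obtain ⟨T₃, hT₃⟩ := nonalt_classify m hnm (1 : GL (Fin n) F) h1sym h1na z₀ hz₀
  exact ⟨g₁, R, z₀, T₃, hz₀, hs₁, hg₁, hT₃⟩

end Cfsg.Agent.Lib.helper13.C2
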