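import Mathlib
import Cfsg.Prelude.Def_LieTypeDatum
import Cfsg.Agent.Lib.helper13.Char2Graph
import Cfsg.Agent.Lib.helper4.OrthOddForm
import Cfsg.Agent.Lib.helper6.OddSp

set_option autoImplicit false
set_option linter.unusedSectionVars false
set_option linter.unusedVariables false
set_option linter.style.longLine false

/-!
Characteristic two, odd dimension: a nondegenerate symmetric bilinear form over a finite field is
equivalent to `x₀ y₀ + (symplectic form)`; its projective similarity group is the symplectic group,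
which is also the projective similarity group of the quadratic form `x₀² + Σ xᵢ yᵢ`.
-/

namespace Cfsg.Agent.Lib.helper13.C2

open Matrix
open Cfsg.Agent.S0766

variable {F : Type*} [Field F]

/-- the standard symmetric form in odd dimension -/
def bOne (m : ℕ) (u v : Unit ⊕ (Fin m ⊕ Fin m) → F) : F :=
  u (Sum.inl ()) * v (Sum.inl ()) +
    Cfsg.sympForm m F (fun k => u (Sum.inr k)) (fun k => v (Sum.inr k))

/-- a nondegenerate symmetric form on an odd-dimensional space -/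
theorem odd_abstract [Finite F] [CharP F 2] {V : Type*} [AddCommGroup V] [Module F V]
    [FiniteDimensional F V] (m : ℕ) (hV : Module.finrank F V = 2 * m + 1)
    (B : LinearMap.BilinForm F V) (hsymm : ∀ u v, B u v = B v u) (hnd : B.Nondegenerate) :
    ∃ T : V ≃ₗ[F] (Unit ⊕ (Fin m ⊕ Fin m) → F), ∀ u v, B u v = bOne m (T u) (T v) := by
  classical
  have h2 : (2 : F) = 0 := CharTwo.two_eq_zero
  obtain ⟨ℓ, hℓ⟩ := exists_sqrt_form B hsymm
  obtain ⟨z, hz⟩ : ∃ z : V, ∀ v, B z v = ℓ v :=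
    ⟨(LinearMap.BilinForm.toDual B hnd).symm ℓ, fun v =>
      LinearMap.BilinForm.apply_toDual_symm_apply ℓ v⟩
  have hzz : ℓ z = 0 ∨ ℓ z = 1 := by
    have h1 := hℓ z
    rw [hz] at h1
    have h3 : ℓ z * (ℓ z - 1) = 0 := by linear_combination h1
    rcases mul_eq_zero.1 h3 with h4 | h4
    · exact Or.inl h4
    · exact Or.inr (sub_eq_zero.1 h4)
  have hz1 : ℓ z = 1 := by
    rcases hzz with hz0 | h
    · exfalso
      obtain ⟨B', hB'⟩ : ∃ B' : LinearMap.BilinForm F V, ∀ u v, B' u v = B u v + ℓ u * ℓ v :=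
        ⟨B + LinearMap.BilinForm.linMulLin ℓ ℓ, fun u v => by
          rw [LinearMap.add_apply, LinearMap.add_apply, LinearMap.BilinForm.linMulLin_apply]⟩
      have hA' : B'.IsAlt := by
        intro x
        rw [hB', ← hℓ x]
        exact CharTwo.add_self_eq_zero _
      have hnd' : B'.Nondegenerate := by
        have key : ∀ u, (∀ v, B u v + ℓ u * ℓ v = 0) → u = 0 := by
          intro u hu
          have h1 : u + ℓ u • z = 0 := by
            apply hnd.1
            intro v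
            rw [map_add, LinearMap.add_apply, map_smul, LinearMap.smul_apply, hz, smul_eq_mul]
            exact hu v
          have h3 := congrArg ℓ h1
          rw [map_add, map_smul, hz0, smul_zero, add_zero, map_zero] at h3
          rw [h3, zero_smul, add_zero] at h1
          exact h1
        constructor
        · intro x hx
          exact key x (fun v => by rw [← hB']; exact hx v)
        · intro y hy
          exact key y (fun v => by rw [hsymm, mul_comm, ← hB']; exact hy v)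
      obtain ⟨k, hk, -⟩ := symp_fam_main (2 * m + 1) B' hA' hnd' hV
      omega
    · exact h
  obtain ⟨W, hW⟩ : ∃ W : Submodule F V, W = LinearMap.ker ℓ := ⟨_, rfl⟩
  have hWm : ∀ x : W, ℓ (x : V) = 0 := fun x => by
    have h9 : (x : V) ∈ LinearMap.ker ℓ := hW ▸ x.2
    exact LinearMap.mem_ker.1 h9
  have hmemW : ∀ v, v - ℓ v • z ∈ W := fun v => by
    rw [hW, LinearMap.mem_ker, map_sub, map_smul, hz1, smul_eq_mul, mul_one, sub_self]
  obtain ⟨BW, hBW⟩ : ∃ BW : LinearMap.BilinForm F W, ∀ x y : W, BW x y = B (x : V) (y : V) :=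
    ⟨B.compl₁₂ W.subtype W.subtype, fun x y => rfl⟩
  have hAW : BW.IsAlt := by
    intro x
    rw [hBW, ← hℓ, hWm, mul_zero]
  have key : ∀ x : W, (∀ y : W, B (x : V) (y : V) = 0) → x = 0 := by
    intro x hx
    apply Subtype.ext
    apply hnd.1
    intro v
    have h5 := hx ⟨_, hmemW v⟩
    rw [map_sub, map_smul, hsymm (x : V) z, hz, hWm, smul_zero, sub_zero] at h5
    exact h5
  have hndW : BW.Nondegenerate := by
    constructor
    · intro x hx
      exact key x (fun y => by rw [← hBW]; exact hx y)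
    · intro y hy
      exact key y (fun x => by rw [hsymm, ← hBW]; exact hy x)
  have hfin : Module.finrank F W = 2 * m := by
    have h5 := LinearMap.finrank_range_add_finrank_ker ℓ
    have h6 : LinearMap.range ℓ = ⊤ := LinearMap.range_eq_top.2 (fun c =>
      ⟨c • z, by rw [map_smul, hz1, smul_eq_mul, mul_one]⟩)
    rw [h6, finrank_top, Module.finrank_self, ← hW, hV] at h5
    omega
  obtain ⟨TW, hTW⟩ := symp_basis_equiv BW hAW hndW hfin
  obtain ⟨P, hP⟩ : ∃ P : V →ₗ[F] W, ∀ v, (P v : V) = v - ℓ v • z :=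
    ⟨LinearMap.codRestrict W (LinearMap.id - ℓ.smulRight z) (fun v => hmemW v), fun v => rfl⟩
  obtain ⟨T₀, hT₀l, hT₀r⟩ : ∃ T₀ : V →ₗ[F] (Unit ⊕ (Fin m ⊕ Fin m) → F),
      (∀ v, T₀ v (Sum.inl ()) = ℓ v) ∧ (∀ v, (fun k => T₀ v (Sum.inr k)) = TW (P v)) :=
    ⟨LinearMap.pi (Sum.elim (fun _ => ℓ) (fun j => (LinearMap.proj j).comp
      ((TW : W →ₗ[F] (Fin m ⊕ Fin m → F)).comp P))), fun v => rfl, fun v => rfl⟩
  have hinj : Function.Injective T₀ := by
    rw [← LinearMap.ker_eq_bot, LinearMap.ker_eq_bot']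
    intro v hv
    have h5 : ℓ v = 0 := by rw [← hT₀l, hv]; rfl
    have h6 : TW (P v) = 0 := by rw [← hT₀r, hv]; rfl
    have h7 : P v = 0 := TW.map_eq_zero_iff.1 h6
    have h8 := hP v
    rw [h7, h5, zero_smul, sub_zero] at h8
    exact h8.symm
  obtain ⟨T, hT⟩ : ∃ T : V ≃ₗ[F] (Unit ⊕ (Fin m ⊕ Fin m) → F), ∀ v, T v = T₀ v :=
    ⟨LinearMap.linearEquivOfInjective T₀ hinj (by
      rw [Module.finrank_fintype_fun_eq_card, hV]
      simp only [Fintype.card_sum, Fintype.card_unit, Fintype.card_fin]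
      omega), fun v => rfl⟩
  refine ⟨T, fun u v => ?_⟩
  unfold bOne
  rw [hT, hT, hT₀l, hT₀l, hT₀r, hT₀r]
  have e : B (P u : V) (P v : V) = B u v - ℓ v * ℓ u - ℓ u * ℓ v + ℓ u * ℓ v * ℓ z := by
    rw [hP, hP]
    simp only [map_sub, map_smul, LinearMap.sub_apply, LinearMap.smul_apply, smul_eq_mul, hz,
      hsymm u z]
    ring
  have e2 : Cfsg.sympForm m F (TW (P u)) (TW (P v)) = B (P u : V) (P v : V) := by
    rw [← hBW, hTW]
    exact (CharTwo.neg_eq _).symm
  rw [e2, e, hz1]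
  ring

/-- a symmetric invertible matrix of odd size: normal form -/
theorem odd_classify2 [Finite F] [CharP F 2] {n : ℕ} (m : ℕ) (hnm : n = 2 * m + 1)
    (g : GL (Fin n) F) (hg : (g : Matrix (Fin n) (Fin n) F)ᵀ = g) :
    ∃ T : (Fin n → F) ≃ₗ[F] (Unit ⊕ (Fin m ⊕ Fin m) → F), ∀ u v : Fin n → F,
      u ⬝ᵥ ((g : Matrix (Fin n) (Fin n) F) *ᵥ v) = bOne m (T u) (T v) := by
  classical
  obtain ⟨B, hB⟩ : ∃ B : LinearMap.BilinForm F (Fin n → F),
      ∀ u v, B u v = u ⬝ᵥ ((g : Matrix (Fin n) (Fin n) F) *ᵥ v) :=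
    ⟨Matrix.toLinearMap₂' F (g : Matrix (Fin n) (Fin n) F),
      fun u v => Matrix.toLinearMap₂'_apply' _ u v⟩
  have hsymm : ∀ u v, B u v = B v u := by
    intro u v
    rw [hB, hB, ← PN.transpose_form, hg]
  obtain ⟨T, hT⟩ := odd_abstract m (by rw [Module.finrank_fin_fun, hnm]) B hsymm
    (bil_nondeg g B hB)
  exact ⟨T, fun u v => by rw [← hB]; exact hT u v⟩

/-- any two symmetric invertible matrices of odd size give conjugate graph automorphisms -/
theorem char2_odd_conj [Finite F] [CharP F 2] {n : ℕ} (m : ℕ) (hnm : n = 2 * m + 1)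
    (g g' : GL (Fin n) F) (hg : (g : Matrix (Fin n) (Fin n) F)ᵀ = g)
    (hg' : (g' : Matrix (Fin n) (Fin n) F)ᵀ = g') :
    Cfsg.IsConjUnder (Cfsg.inndiagPSL n F) (PN.gam g) (PN.gam g') := by
  obtain ⟨T, hT⟩ := odd_classify2 m hnm g hg
  obtain ⟨T', hT'⟩ := odd_classify2 m hnm g' hg'
  have h3 : ∀ u v : Fin n → F, u ⬝ᵥ ((g : Matrix (Fin n) (Fin n) F) *ᵥ v) =
      (1 : F) * ((T.trans T'.symm u) ⬝ᵥ
        ((g' : Matrix (Fin n) (Fin n) F) *ᵥ (T.trans T'.symm v))) := by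
    intro u v
    rw [hT', LinearEquiv.trans_apply, LinearEquiv.trans_apply, LinearEquiv.apply_symm_apply,
      LinearEquiv.apply_symm_apply, hT, one_mul]
  obtain ⟨A, hA⟩ := PN.congr_of_bil_eq g g' (T.trans T'.symm) (1 : F) h3
  exact PN.conj_of_congr g g' A (1 : Fˣ) (by
    rw [Units.val_one]
    exact hA)

/-! ### the projective similarity group of `bOne` -/

theorem blk_mulVec {m : ℕ} (Y : Matrix (Fin m ⊕ Fin m) (Fin m ⊕ Fin m) F)
    (u : Unit ⊕ (Fin m ⊕ Fin m) → F) :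
    (Matrix.fromBlocks (1 : Matrix Unit Unit F) 0 0 Y) *ᵥ u =
      Sum.elim (fun _ => u (Sum.inl ())) (Y *ᵥ (fun k => u (Sum.inr k))) := by
  rw [Matrix.fromBlocks_mulVec]
  funext k
  rcases k with ⟨⟩ | k
  · simp [Function.comp_def]
  · simp [Function.comp_def]

/-- the block diagonal embedding of the symplectic group -/
def blkGL {m : ℕ} (Y : Matrix.symplecticGroup (Fin m) F) : GL (Unit ⊕ (Fin m ⊕ Fin m)) F :=
  ⟨Matrix.fromBlocks 1 0 0 Y.1,
    Matrix.fromBlocks 1 0 0 (Y⁻¹ : Matrix.symplecticGroup (Fin m) F).1,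
    by rw [Matrix.fromBlocks_multiply, PS.val_mul_inv]; simp,
    by rw [Matrix.fromBlocks_multiply, PS.inv_val_mul]; simp⟩

theorem blkGL_coe {m : ℕ} (Y : Matrix.symplecticGroup (Fin m) F) :
    ((blkGL Y : GL (Unit ⊕ (Fin m ⊕ Fin m)) F) :
      Matrix (Unit ⊕ (Fin m ⊕ Fin m)) (Unit ⊕ (Fin m ⊕ Fin m)) F) =
      Matrix.fromBlocks 1 0 0 Y.1 := rfl

theorem blkGL_mem {m : ℕ} (Y : Matrix.symplecticGroup (Fin m) F) :
    blkGL Y ∈ Cfsg.Geo.similarityGroup (bOne (F := F) m) := by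
  refine ⟨1, fun u v => ?_⟩
  rw [blkGL_coe, blk_mulVec, blk_mulVec, Units.val_one, one_mul]
  show u (Sum.inl ()) * v (Sum.inl ()) +
    Cfsg.sympForm m F (Y.1 *ᵥ fun k => u (Sum.inr k)) (Y.1 *ᵥ fun k => v (Sum.inr k)) = _
  rw [sp_pres]
  rfl

/-- the projective similarity group of `bOne` is the symplectic group -/
theorem psim_bOne_iso [Finite F] [CharP F 2] (m : ℕ) :
    Nonempty (Cfsg.projQuot (Cfsg.Geo.similarityGroup (bOne (F := F) m)) ≃*
      ↥(Matrix.symplecticGroup (Fin m) F)) := by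
  classical
  obtain ⟨φ₀, hφ₀⟩ : ∃ φ₀ : ↥(Matrix.symplecticGroup (Fin m) F) →*
      ↥(Cfsg.Geo.similarityGroup (bOne (F := F) m)),
      ∀ Y, ((φ₀ Y : ↥(Cfsg.Geo.similarityGroup (bOne (F := F) m))) :
        GL (Unit ⊕ (Fin m ⊕ Fin m)) F) = blkGL Y :=
    ⟨MonoidHom.mk' (fun Y => ⟨blkGL Y, blkGL_mem Y⟩) (fun Y Y' => Subtype.ext (Units.ext (by
      show Matrix.fromBlocks 1 0 0 (Y * Y').1 =
        Matrix.fromBlocks 1 0 0 Y.1 * Matrix.fromBlocks 1 0 0 Y'.1
      rw [Matrix.fromBlocks_multiply, val_mul]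
      simp))), fun Y => rfl⟩
  apply projQuot_iso_of_section _ φ₀
  · intro Y hY
    rw [hφ₀, Cfsg.Geo.mem_scalars_iff] at hY
    obtain ⟨c, hc⟩ := hY
    rw [blkGL_coe, ← Matrix.fromBlocks_one, Matrix.fromBlocks_smul, Matrix.fromBlocks_inj] at hc
    obtain ⟨h11, -, -, h22⟩ := hc
    have hc1 : (c : F) = 1 := by
      have h5 := congrFun (congrFun h11 ()) ()
      simpa using h5.symm
    apply Subtype.ext
    rw [h22, hc1, one_smul]
    rfl
  · intro x
    obtain ⟨c, hc⟩ := x.2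
    obtain ⟨s, hs⟩ := exists_sqrt (c : F)
    have hs0 : s ≠ 0 := by
      rintro rfl
      rw [mul_zero] at hs
      exact c.ne_zero hs.symm
    obtain ⟨X, hX⟩ : ∃ X : Matrix (Unit ⊕ (Fin m ⊕ Fin m)) (Unit ⊕ (Fin m ⊕ Fin m)) F,
        X = ((x : GL (Unit ⊕ (Fin m ⊕ Fin m)) F) :
          Matrix (Unit ⊕ (Fin m ⊕ Fin m)) (Unit ⊕ (Fin m ⊕ Fin m)) F) := ⟨_, rfl⟩
    have hc' : ∀ u v, bOne m (X *ᵥ u) (X *ᵥ v) = (c : F) * bOne m u v := by
      intro u v
      rw [hX]
      exact hc u v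
    have h0 : ∀ v, (X *ᵥ v) (Sum.inl ()) = s * v (Sum.inl ()) := by
      intro v
      apply sq_inj2
      have h5 := hc' v v
      unfold bOne at h5
      rw [sf_self, sf_self, add_zero, add_zero] at h5
      rw [h5, ← hs]
      ring
    have hsf : ∀ u v, Cfsg.sympForm m F (fun k => (X *ᵥ u) (Sum.inr k))
        (fun k => (X *ᵥ v) (Sum.inr k)) =
        (c : F) * Cfsg.sympForm m F (fun k => u (Sum.inr k)) (fun k => v (Sum.inr k)) := by
      intro u v
      have h5 := hc' u v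
      unfold bOne at h5
      rw [h0, h0] at h5
      linear_combination h5 - u (Sum.inl ()) * v (Sum.inl ()) * hs
    obtain ⟨D, hD⟩ : ∃ D : Matrix (Fin m ⊕ Fin m) (Fin m ⊕ Fin m) F,
        ∀ i j, D i j = X (Sum.inr i) (Sum.inr j) :=
      ⟨Matrix.of (fun i j => X (Sum.inr i) (Sum.inr j)), fun i j => rfl⟩
    have hDv : ∀ w : Fin m ⊕ Fin m → F,
        (fun k => (X *ᵥ (Sum.elim (fun _ => (0 : F)) w)) (Sum.inr k)) = D *ᵥ w := by
      intro w
      funext k
      simp only [Matrix.mulVec, dotProduct, Fintype.sum_sum_type, Sum.elim_inl, Sum.elim_inr,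
        mul_zero, Finset.sum_const_zero, zero_add, hD]
    have hDsp : ∀ w w', Cfsg.sympForm m F (D *ᵥ w) (D *ᵥ w') =
        (c : F) * Cfsg.sympForm m F w w' := by
      intro w w'
      have h5 := hsf (Sum.elim (fun _ => (0 : F)) w) (Sum.elim (fun _ => (0 : F)) w')
      rw [hDv, hDv] at h5
      exact h5
    have hmem : s⁻¹ • D ∈ Matrix.symplecticGroup (Fin m) F := by
      apply Cfsg.Agent.Lib.helper4.mem_sp_of_pres
      intro u v
      rw [Matrix.smul_mulVec, Matrix.smul_mulVec, sf_smul_left, sf_smul_right, hDsp, ← hs]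
      field_simp
    obtain ⟨Y, hY⟩ : ∃ Y : ↥(Matrix.symplecticGroup (Fin m) F), Y.1 = s⁻¹ • D :=
      ⟨⟨_, hmem⟩, rfl⟩
    have hDY : D = s • Y.1 := by rw [hY, smul_smul, mul_inv_cancel₀ hs0, one_smul]
    have ha : ∀ k, X (Sum.inr k) (Sum.inl ()) = 0 := by
      obtain ⟨a, ha⟩ : ∃ a : Fin m ⊕ Fin m → F, a = fun k => X (Sum.inr k) (Sum.inl ()) :=
        ⟨_, rfl⟩
      have hae : (fun k => (X *ᵥ (Pi.single (Sum.inl ()) 1)) (Sum.inr k)) = a := by
        rw [ha]
        funext k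
        rw [Matrix.mulVec_single_one]
        rfl
      have h5 : ∀ w, Cfsg.sympForm m F a (D *ᵥ w) = 0 := by
        intro w
        have h6 := hsf (Pi.single (Sum.inl ()) 1) (Sum.elim (fun _ => (0 : F)) w)
        rw [hae, hDv] at h6
        rw [h6]
        have h7 : (fun k : Fin m ⊕ Fin m =>
            (Pi.single (Sum.inl ()) (1 : F) : Unit ⊕ (Fin m ⊕ Fin m) → F) (Sum.inr k)) = 0 := by
          funext k
          simp
        have h10 : ∀ w' : Fin m ⊕ Fin m → F, Cfsg.sympForm m F 0 w' = 0 := by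
          intro w'
          have h11 := sf_smul_left (0 : F) (0 : Fin m ⊕ Fin m → F) w'
          rw [zero_smul, zero_mul] at h11
          exact h11
        rw [h7, h10, mul_zero]
      have ha0 : a = 0 := by
        by_contra hne
        obtain ⟨w, hw⟩ := Cfsg.Agent.Lib.helper4.exists_sf_eq_one a hne
        have h8 := h5 (s⁻¹ • ((Y⁻¹ : ↥(Matrix.symplecticGroup (Fin m) F)).1 *ᵥ w))
        rw [hDY, Matrix.smul_mulVec, Matrix.mulVec_smul, smul_smul, mul_inv_cancel₀ hs0, one_smul,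
          Matrix.mulVec_mulVec, PS.val_mul_inv, Matrix.one_mulVec, sf_anti, hw] at h8
        exact one_ne_zero (neg_eq_zero.1 h8)
      intro k
      have h9 := congrFun ha0 k
      rw [ha] at h9
      exact h9
    have hrow : ∀ j, X (Sum.inl ()) (Sum.inr j) = 0 := by
      intro j
      have h5 := h0 (Pi.single (Sum.inr j) 1)
      rw [Matrix.mulVec_single_one] at h5
      simpa using h5
    have h00 : X (Sum.inl ()) (Sum.inl ()) = s := by
      have h5 := h0 (Pi.single (Sum.inl ()) 1)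
      rw [Matrix.mulVec_single_one] at h5
      simpa using h5
    refine ⟨Y, Units.mk0 s hs0, ?_⟩
    rw [hφ₀, blkGL_coe, ← hX, Units.val_mk0]
    ext i j
    rcases i with ⟨⟩ | i <;> rcases j with ⟨⟩ | j
    · simp [h00]
    · simp [hrow]
    · simp [ha]
    · simp
      rw [← hD, hDY, Matrix.smul_apply, smul_eq_mul]

/-! ### the quadratic form in odd dimension -/

theorem qodd_smul (m : ℕ) (a : F) (v : Unit ⊕ (Fin m ⊕ Fin m) → F) :
    Cfsg.quadFormOdd m F (a • v) = a * a * Cfsg.quadFormOdd m F v := by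
  rw [← Cfsg.Agent.Lib.helper4.qOdd_apply, ← Cfsg.Agent.Lib.helper4.qOdd_apply,
    QuadraticMap.map_smul, smul_eq_mul]

/-- in characteristic two over a finite field, the projective similarity group of the
odd-dimensional quadratic form is its isometry group -/
theorem pgo_odd_iso [Finite F] [CharP F 2] (m : ℕ) :
    Nonempty (Cfsg.PGO F (Cfsg.quadFormOdd m F) ≃*
      ↥(Cfsg.isometryGroup F (Cfsg.quadFormOdd m F))) := by
  classical
  have hle : Cfsg.isometryGroup F (Cfsg.quadFormOdd m F) ≤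
      Cfsg.Geo.quadSimilarityGroup (Cfsg.quadFormOdd m F) := by
    intro g hg
    exact ⟨1, fun v => by rw [Units.val_one, one_mul]; exact hg v v⟩
  have hQe : Cfsg.quadFormOdd m F (Pi.single (Sum.inl ()) 1) = 1 := by
    simp [Cfsg.quadFormOdd]
  apply projQuot_iso_of_section _ (Subgroup.inclusion hle)
  · intro g hg
    rw [Cfsg.Geo.mem_scalars_iff] at hg
    obtain ⟨c, hc⟩ := hg
    have hc' : ((g : GL (Unit ⊕ (Fin m ⊕ Fin m)) F) :
        Matrix (Unit ⊕ (Fin m ⊕ Fin m)) (Unit ⊕ (Fin m ⊕ Fin m)) F) = (c : F) • 1 := hc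
    have h6 : Cfsg.quadFormOdd m F (((g : GL (Unit ⊕ (Fin m ⊕ Fin m)) F) :
        Matrix (Unit ⊕ (Fin m ⊕ Fin m)) (Unit ⊕ (Fin m ⊕ Fin m)) F) *ᵥ
          Pi.single (Sum.inl ()) 1) = Cfsg.quadFormOdd m F (Pi.single (Sum.inl ()) 1) :=
      g.2 (Pi.single (Sum.inl ()) 1) (Pi.single (Sum.inl ()) 1)
    rw [hc', Matrix.smul_mulVec, Matrix.one_mulVec, qodd_smul, hQe, mul_one] at h6
    have hc1 : (c : F) = 1 := sq_inj2 _ _ (by rw [h6, one_mul])
    apply Subtype.ext
    apply Units.ext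
    rw [hc', hc1, one_smul]
    rfl
  · intro x
    obtain ⟨c, hc⟩ := x.2
    obtain ⟨s, hs⟩ := exists_sqrt (c : F)
    have hs0 : s ≠ 0 := by
      rintro rfl
      rw [mul_zero] at hs
      exact c.ne_zero hs.symm
    obtain ⟨y, hy⟩ : ∃ y : GL (Unit ⊕ (Fin m ⊕ Fin m)) F,
        (y : Matrix (Unit ⊕ (Fin m ⊕ Fin m)) (Unit ⊕ (Fin m ⊕ Fin m)) F) =
          s⁻¹ • ((x : GL (Unit ⊕ (Fin m ⊕ Fin m)) F) :
            Matrix (Unit ⊕ (Fin m ⊕ Fin m)) (Unit ⊕ (Fin m ⊕ Fin m)) F) :=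
      ⟨Matrix.GeneralLinearGroup.scalar _ (Units.mk0 s hs0)⁻¹ *
        (x : GL (Unit ⊕ (Fin m ⊕ Fin m)) F), by
        rw [Units.val_mul, Matrix.GeneralLinearGroup.coe_scalar, Matrix.scalar_apply,
          ← Matrix.smul_one_eq_diagonal, Matrix.smul_mul, Matrix.one_mul,
          Units.val_inv_eq_inv_val, Units.val_mk0]⟩
    have hyi : y ∈ Cfsg.isometryGroup F (Cfsg.quadFormOdd m F) := by
      intro u v
      show Cfsg.quadFormOdd m F ((y : Matrix (Unit ⊕ (Fin m ⊕ Fin m))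
        (Unit ⊕ (Fin m ⊕ Fin m)) F) *ᵥ u) = Cfsg.quadFormOdd m F u
      rw [hy, Matrix.smul_mulVec, qodd_smul, hc, ← hs]
      field_simp
    refine ⟨⟨y, hyi⟩, Units.mk0 s hs0, ?_⟩
    show ((x : GL (Unit ⊕ (Fin m ⊕ Fin m)) F) :
      Matrix (Unit ⊕ (Fin m ⊕ Fin m)) (Unit ⊕ (Fin m ⊕ Fin m)) F) =
        s • (y : Matrix (Unit ⊕ (Fin m ⊕ Fin m)) (Unit ⊕ (Fin m ⊕ Fin m)) F)
    rw [hy, smul_smul, mul_inv_cancel₀ hs0, one_smul]

/-- the projective similarity group of a symmetric invertible matrix of odd size -/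
theorem char2_odd_cent_iso [Fintype F] [CharP F 2] {n : ℕ} (m : ℕ) (hnm : n = 2 * m + 1)
    (g : GL (Fin n) F) (hg : (g : Matrix (Fin n) (Fin n) F)ᵀ = g) :
    Nonempty (Cfsg.projQuot (Cfsg.Geo.similarityGroup
      (fun u v : Fin n → F => u ⬝ᵥ ((g : Matrix (Fin n) (Fin n) F) *ᵥ v))) ≃*
        Cfsg.PGO F (Cfsg.quadFormOdd m F)) := by
  obtain ⟨T, hT⟩ := odd_classify2 m hnm g hg
  obtain ⟨e₁⟩ := GF.psim_congr
    (fun u v : Fin n → F => u ⬝ᵥ ((g : Matrix (Fin n) (Fin n) F) *ᵥ v)) (bOne (F := F) m) T 1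
    one_ne_zero (fun u v => by rw [one_mul]; exact (hT u v).symm)
  obtain ⟨e₂⟩ := psim_bOne_iso (F := F) m
  obtain ⟨e₃⟩ := Cfsg.Agent.Lib.helper6.oddO_equiv_sp (F := F) m
  obtain ⟨e₄⟩ := pgo_odd_iso (F := F) m
  exact ⟨e₁.trans (e₂.trans (e₃.symm.trans e₄.symm))⟩

end Cfsg.Agent.Lib.helper13.C2
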