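import Mathlib
import Cfsg.Prelude.Def_GeometricClasses

set_option autoImplicit false

/-!
# The 3-part of the index of a subgroup of SL_3(p) containing a group of order 27 (p ≡ 4, 7 mod 9)
-/

namespace Cfsg.Agent.Lib.helper13.E27

open Matrix

theorem card_specialLinear_three (F : Type*) [Field F] [Fintype F] :
    Nat.card (Cfsg.Geo.specialLinear (Fin 3) F) * (Fintype.card F - 1)
      = (Fintype.card F ^ 3 - 1) * (Fintype.card F ^ 3 - Fintype.card F)
        * (Fintype.card F ^ 3 - Fintype.card F ^ 2) := by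
  classical
  have h1 := Subgroup.card_mul_index (Matrix.GeneralLinearGroup.det (n := Fin 3) (R := F)).ker
  rw [Subgroup.index_ker, MonoidHom.range_eq_top.2 Matrix.GeneralLinearGroup.det_surjective,
    Subgroup.card_top, Nat.card_units, Nat.card_eq_fintype_card (α := F), Matrix.card_GL_field,
    Fin.prod_univ_three] at h1
  simp only [Fin.val_zero, Fin.val_one, Fin.val_two, pow_zero, pow_one] at h1
  exact h1

theorem arith3 (p C : ℕ) (hp9 : p % 9 = 4 ∨ p % 9 = 7)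
    (h : C * (p - 1) = (p ^ 3 - 1) * (p ^ 3 - p) * (p ^ 3 - p ^ 2)) (h81 : 81 ∣ C) : False := by
  have hp1 : 1 ≤ p := by omega
  have hle1 : 1 ≤ p ^ 3 := Nat.one_le_pow _ _ hp1
  have hle2 : p ≤ p ^ 3 := Nat.le_self_pow (by norm_num) p
  have hle3 : p ^ 2 ≤ p ^ 3 := Nat.pow_le_pow_right hp1 (by norm_num)
  have hz : (C : ℤ) * ((p : ℤ) - 1)
      = ((p : ℤ) ^ 3 - 1) * ((p : ℤ) ^ 3 - p) * ((p : ℤ) ^ 3 - (p : ℤ) ^ 2) := by
    have h' := congrArg (Nat.cast : ℕ → ℤ) h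
    push_cast [Nat.cast_sub hp1, Nat.cast_sub hle1, Nat.cast_sub hle2, Nat.cast_sub hle3] at h'
    exact h'
  have hp0 : (p : ℤ) - 1 ≠ 0 := by omega
  have hCz : (C : ℤ) = (p : ℤ) ^ 3 * ((p : ℤ) - 1) ^ 2 * ((p : ℤ) + 1) * ((p : ℤ) ^ 2 + p + 1) := by
    apply mul_right_cancel₀ hp0
    rw [hz]
    ring
  obtain ⟨k, hk⟩ := h81
  have hk' : (C : ℤ) = 81 * k := by
    rw [hk]
    push_cast
    ring
  have h3p : Prime (3 : ℤ) := Int.prime_three
  obtain ⟨t, ht⟩ : ∃ t : ℤ, ((p : ℤ) = 9 * t + 4 ∨ (p : ℤ) = 9 * t + 7) :=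
    ⟨(p : ℤ) / 9, by omega⟩
  rcases ht with ht | ht
  · rw [ht] at hCz
    have hB : (3 : ℤ) ∣ (9 * t + 4) ^ 3 * (3 * t + 1) ^ 2 * (9 * t + 5)
        * (27 * t ^ 2 + 27 * t + 7) := by
      refine ⟨k, ?_⟩
      have h27 : (27 : ℤ) * ((9 * t + 4) ^ 3 * (3 * t + 1) ^ 2 * (9 * t + 5)
          * (27 * t ^ 2 + 27 * t + 7)) = 27 * (3 * k) := by
        linear_combination hk' - hCz
      exact mul_left_cancel₀ (by norm_num) h27
    rcases h3p.dvd_mul.mp hB with h | h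
    · rcases h3p.dvd_mul.mp h with h | h
      · rcases h3p.dvd_mul.mp h with h | h
        · have h' := h3p.dvd_of_dvd_pow h
          omega
        · have h' := h3p.dvd_of_dvd_pow h
          omega
      · omega
    · obtain ⟨s, hs⟩ : ∃ s : ℤ, s = t ^ 2 := ⟨_, rfl⟩
      rw [← hs] at h
      omega
  · rw [ht] at hCz
    have hB : (3 : ℤ) ∣ (9 * t + 7) ^ 3 * (3 * t + 2) ^ 2 * (9 * t + 8)
        * (27 * t ^ 2 + 45 * t + 19) := by
      refine ⟨k, ?_⟩
      have h27 : (27 : ℤ) * ((9 * t + 7) ^ 3 * (3 * t + 2) ^ 2 * (9 * t + 8)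
          * (27 * t ^ 2 + 45 * t + 19)) = 27 * (3 * k) := by
        linear_combination hk' - hCz
      exact mul_left_cancel₀ (by norm_num) h27
    rcases h3p.dvd_mul.mp hB with h | h
    · rcases h3p.dvd_mul.mp h with h | h
      · rcases h3p.dvd_mul.mp h with h | h
        · have h' := h3p.dvd_of_dvd_pow h
          omega
        · have h' := h3p.dvd_of_dvd_pow h
          omega
      · omega
    · obtain ⟨s, hs⟩ : ∃ s : ℤ, s = t ^ 2 := ⟨_, rfl⟩
      rw [← hs] at h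
      omega

theorem not_dvd_relIndex {F : Type*} [Field F] [Fintype F] (p : ℕ) (hF : Fintype.card F = p)
    (hp9 : p % 9 = 4 ∨ p % 9 = 7) (N R : Subgroup (GL (Fin 3) F)) (hR : Nat.card R = 27)
    (hRN : R ≤ N) (hRS : R ≤ Cfsg.Geo.specialLinear (Fin 3) F) :
    ¬ 3 ∣ N.relIndex (Cfsg.Geo.specialLinear (Fin 3) F) := by
  classical
  intro h3
  have hcard := card_specialLinear_three F
  obtain ⟨S, hS⟩ : ∃ S : Subgroup (GL (Fin 3) F), S = Cfsg.Geo.specialLinear (Fin 3) F :=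
    ⟨_, rfl⟩
  rw [← hS] at h3 hRS hcard
  rw [hF] at hcard
  have h27 : 27 ∣ Nat.card ↥(N ⊓ S) := by
    rw [← hR]
    exact Subgroup.card_dvd_of_le (le_inf hRN hRS)
  have hmul : Nat.card ↥(N ⊓ S) * N.relIndex S = Nat.card ↥S := by
    have h := Subgroup.relIndex_mul_relIndex (⊥ : Subgroup (GL (Fin 3) F)) (N ⊓ S) S bot_le
      inf_le_right
    rwa [Subgroup.relIndex_bot_left, Subgroup.relIndex_bot_left, Subgroup.inf_relIndex_right]
      at h
  have h81 : 81 ∣ Nat.card ↥S := by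
    rw [← hmul]
    exact Nat.mul_dvd_mul h27 h3
  exact arith3 p (Nat.card ↥S) hp9 hcard h81

end Cfsg.Agent.Lib.helper13.E27
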