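import Mathlib
import Cfsg.Agent.Lib.helper4.UPerp

set_option autoImplicit false

/-!
# Orthogonal eigenbasis of a unitary 3 × 3 matrix with two eigenvalues
-/

namespace Cfsg.Agent.Lib.helper13.E27

open Matrix
open Cfsg.Agent.Lib.helper4

theorem det_eig {F : Type*} [Field F] (Xm : Matrix (Fin 3) (Fin 3) F) (W : Fin 3 → (Fin 3 → F))
    (hW : LinearIndependent F W) (μ : Fin 3 → F) (h : ∀ i, Xm *ᵥ W i = μ i • W i) :
    Xm.det = μ 0 * μ 1 * μ 2 := by
  classical
  obtain ⟨P, hP⟩ : ∃ P : Matrix (Fin 3) (Fin 3) F, P = Matrix.of (fun i j => W j i) := ⟨_, rfl⟩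
  have hXP : Xm * P = P * Matrix.diagonal μ := by
    ext i j
    have h1 := congrFun (h j) i
    simp only [Matrix.mulVec, dotProduct, Pi.smul_apply, smul_eq_mul] at h1
    rw [Matrix.mul_apply, Matrix.mul_diagonal, hP]
    simp only [Matrix.of_apply]
    rw [h1, mul_comm]
  have hdP : P.det ≠ 0 := by
    intro h0
    obtain ⟨v, hv0, hv⟩ := Matrix.exists_mulVec_eq_zero_iff.mpr h0
    apply hv0
    have h2 : ∑ i, v i • W i = 0 := by
      funext k
      have h3 := congrFun hv k
      simp only [Matrix.mulVec, dotProduct, hP, Matrix.of_apply, Pi.zero_apply] at h3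
      simp only [Finset.sum_apply, Pi.smul_apply, smul_eq_mul, Pi.zero_apply]
      rw [← h3]
      exact Finset.sum_congr rfl (fun i _ => mul_comm _ _)
    funext i
    exact Fintype.linearIndependent_iff.mp hW v h2 i
  have h4 := congrArg Matrix.det hXP
  rw [Matrix.det_mul, Matrix.det_mul, Matrix.det_diagonal, Fin.prod_univ_three] at h4
  have h5 : Xm.det * P.det = (μ 0 * μ 1 * μ 2) * P.det := by rw [h4]; ring
  exact mul_right_cancel₀ hdP h5

theorem indep3 {F : Type*} [Field F] (Xm : Matrix (Fin 3) (Fin 3) F) (μ ν : F) (hμν : μ ≠ ν)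
    (x y z : Fin 3 → F) (hx : Xm *ᵥ x = μ • x) (hy : Xm *ᵥ y = ν • y) (hz : Xm *ᵥ z = ν • z)
    (hx0 : x ≠ 0) (hy0 : y ≠ 0) (hz' : ∀ t : F, z ≠ t • y) : LinearIndependent F ![x, y, z] := by
  rw [Fintype.linearIndependent_iff]
  intro g hg
  rw [Fin.sum_univ_three] at hg
  simp only [Matrix.cons_val_zero, Matrix.cons_val_one, Matrix.cons_val_two, Matrix.head_cons,
    Matrix.tail_cons] at hg
  have hk : ∀ k, g 0 * x k + g 1 * y k + g 2 * z k = 0 := by
    intro k
    have h := congrFun hg k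
    simpa using h
  have hX := congrArg (fun w => Xm *ᵥ w) hg
  simp only [mulVec_add, mulVec_smul, hx, hy, hz, mulVec_zero] at hX
  have hk2 : ∀ k, g 0 * (μ * x k) + g 1 * (ν * y k) + g 2 * (ν * z k) = 0 := by
    intro k
    have h := congrFun hX k
    simpa using h
  obtain ⟨k₀, hk₀⟩ := Function.ne_iff.mp hx0
  have hg0 : g 0 = 0 := by
    have h1 : g 0 * (μ - ν) * x k₀ = 0 := by linear_combination hk2 k₀ - ν * hk k₀
    rcases mul_eq_zero.mp h1 with h2 | h2
    · rcases mul_eq_zero.mp h2 with h3 | h3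
      · exact h3
      · exact absurd (sub_eq_zero.mp h3) hμν
    · exact absurd h2 hk₀
  have hg2 : g 2 = 0 := by
    by_contra h2
    apply hz' (-(g 1) / g 2)
    funext k
    have h := hk k
    rw [hg0, zero_mul, zero_add] at h
    simp only [Pi.smul_apply, smul_eq_mul]
    field_simp
    linear_combination h
  obtain ⟨k₁, hk₁⟩ := Function.ne_iff.mp hy0
  have hg1 : g 1 = 0 := by
    have h := hk k₁
    rw [hg0, hg2, zero_mul, zero_mul, zero_add, add_zero] at h
    rcases mul_eq_zero.mp h with h2 | h2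
    · exact h2
    · exact absurd h2 hk₁
  intro i
  fin_cases i
  · exact hg0
  · exact hg1
  · exact hg2

theorem two_eig {F : Type*} [Field F] [Fintype F] {q : ℕ} (hF : Fintype.card F = q ^ 2)
    (X : GL (Fin 3) F) (hX : X ∈ Cfsg.GU 3 F q) (l m : F) (hlm : l ≠ m) (hl : l * m ^ q ≠ 1)
    (hquad : ((X : Matrix (Fin 3) (Fin 3) F) - l • 1) * ((X : Matrix (Fin 3) (Fin 3) F) - m • 1)
      = 0)
    (hdet : (X : Matrix (Fin 3) (Fin 3) F).det = l * m ^ 2)
    (hns : ∀ z : F, (X : Matrix (Fin 3) (Fin 3) F) ≠ z • (1 : Matrix (Fin 3) (Fin 3) F)) :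
    ∃ W : Fin 3 → (Fin 3 → F), LinearIndependent F W ∧
      (∀ i j, i ≠ j → Cfsg.hermForm 3 F q (W i) (W j) = 0) ∧
      (X : Matrix (Fin 3) (Fin 3) F) *ᵥ W 0 = l • W 0 ∧
      (X : Matrix (Fin 3) (Fin 3) F) *ᵥ W 1 = m • W 1 ∧
      (X : Matrix (Fin 3) (Fin 3) F) *ᵥ W 2 = m • W 2 := by
  classical
  obtain ⟨Xm, hXm⟩ : ∃ Xm : Matrix (Fin 3) (Fin 3) F, Xm = (X : Matrix (Fin 3) (Fin 3) F) :=
    ⟨_, rfl⟩
  rw [← hXm] at hquad hdet hns ⊢
  have hpres : ∀ u v, Cfsg.hermForm 3 F q (Xm *ᵥ u) (Xm *ᵥ v) = Cfsg.hermForm 3 F q u v := by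
    intro u v
    rw [hXm]
    exact hX u v
  have hinj : ∀ u : Fin 3 → F, Xm *ᵥ u = 0 → u = 0 := by
    intro u hu
    have h := congrArg (fun w => ((X⁻¹ : GL (Fin 3) F) : Matrix (Fin 3) (Fin 3) F) *ᵥ w) hu
    simp only [hXm, mulVec_mulVec, ← Units.val_mul, inv_mul_cancel, Units.val_one, one_mulVec,
      mulVec_zero] at h
    exact h
  have hsub : ∀ (c : F) (u : Fin 3 → F), (Xm - c • 1) *ᵥ u = Xm *ᵥ u - c • u := by
    intro c u
    rw [sub_mulVec, smul_mulVec, one_mulVec]
  have hquad' : (Xm - m • 1) * (Xm - l • 1) = 0 := by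
    rw [← hquad]
    simp only [sub_mul, mul_sub, Matrix.smul_mul, Matrix.mul_smul, one_mul, mul_one, smul_sub,
      smul_smul]
    rw [mul_comm m l]
    abel
  have hEl : ∀ u, Xm *ᵥ ((Xm - m • 1) *ᵥ u) = l • ((Xm - m • 1) *ᵥ u) := by
    intro u
    have h := congrArg (fun A => A *ᵥ u) hquad
    simp only [← mulVec_mulVec, zero_mulVec] at h
    rw [hsub l] at h
    exact sub_eq_zero.mp h
  have hEm : ∀ u, Xm *ᵥ ((Xm - l • 1) *ᵥ u) = m • ((Xm - l • 1) *ᵥ u) := by
    intro u
    have h := congrArg (fun A => A *ᵥ u) hquad'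
    simp only [← mulVec_mulVec, zero_mulVec] at h
    rw [hsub m] at h
    exact sub_eq_zero.mp h
  have hex : ∀ c : F, ∃ u, (Xm - c • 1) *ᵥ u ≠ 0 := by
    intro c
    by_contra hcon
    push Not at hcon
    apply hns c
    have h0 : Xm - c • 1 = 0 := by
      ext i j
      have h := congrFun (hcon (Pi.single j 1)) i
      simpa [Matrix.mulVec, dotProduct, Pi.single_apply] using h
    exact sub_eq_zero.mp h0
  obtain ⟨u₁, hu₁⟩ := hex m
  obtain ⟨u₂, hu₂⟩ := hex l
  obtain ⟨a, ha⟩ : ∃ a, a = (Xm - m • 1) *ᵥ u₁ := ⟨_, rfl⟩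
  obtain ⟨b, hb⟩ : ∃ b, b = (Xm - l • 1) *ᵥ u₂ := ⟨_, rfl⟩
  have ha0 : a ≠ 0 := by rw [ha]; exact hu₁
  have hb0 : b ≠ 0 := by rw [hb]; exact hu₂
  have hXa : Xm *ᵥ a = l • a := by rw [ha]; exact hEl u₁
  have hXb : Xm *ᵥ b = m • b := by rw [hb]; exact hEm u₂
  have hl0 : l ≠ 0 := by
    rintro rfl
    rw [zero_smul] at hXa
    exact ha0 (hinj a hXa)
  have hm0 : m ≠ 0 := by
    rintro rfl
    rw [zero_smul] at hXb
    exact hb0 (hinj b hXb)
  have hlm' : l - m ≠ 0 := sub_ne_zero.mpr hlm
  have horth : ∀ x y : Fin 3 → F, Xm *ᵥ x = l • x → Xm *ᵥ y = m • y →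
      Cfsg.hermForm 3 F q x y = 0 := by
    intro x y hx hy
    have h := hpres x y
    rw [hx, hy, herm_smul_left, herm_smul_right] at h
    have h2 : (l * m ^ q - 1) * Cfsg.hermForm 3 F q x y = 0 := by linear_combination h
    rcases mul_eq_zero.mp h2 with h3 | h3
    · exact absurd (sub_eq_zero.mp h3) hl
    · exact h3
  have horth' : ∀ x y : Fin 3 → F, Xm *ᵥ x = l • x → Xm *ᵥ y = m • y →
      Cfsg.hermForm 3 F q y x = 0 :=
    fun x y hx hy => herm_zero_of_symm hF (horth x y hx hy)
  -- a third eigenvector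
  have hthird : ∃ c' : Fin 3 → F, Xm *ᵥ c' = m • c' ∧ LinearIndependent F ![a, b, c'] := by
    have hab : LinearIndependent F ![a, b] := by
      rw [LinearIndependent.pair_iff]
      intro s t hst
      have hk : ∀ k, s * a k + t * b k = 0 := by
        intro k
        have h := congrFun hst k
        simpa using h
      have hX' := congrArg (fun w => Xm *ᵥ w) hst
      simp only [mulVec_add, mulVec_smul, hXa, hXb, mulVec_zero] at hX'
      have hk2 : ∀ k, s * (l * a k) + t * (m * b k) = 0 := by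
        intro k
        have h := congrFun hX' k
        simpa using h
      obtain ⟨k₀, hk₀⟩ := Function.ne_iff.mp ha0
      obtain ⟨k₁, hk₁⟩ := Function.ne_iff.mp hb0
      have hs : s = 0 := by
        have h1 : s * (l - m) * a k₀ = 0 := by linear_combination hk2 k₀ - m * hk k₀
        rcases mul_eq_zero.mp h1 with h2 | h2
        · rcases mul_eq_zero.mp h2 with h3 | h3
          · exact h3
          · exact absurd h3 hlm'
        · exact absurd h2 hk₀
      refine ⟨hs, ?_⟩
      have h := hk k₁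
      rw [hs, zero_mul, zero_add] at h
      rcases mul_eq_zero.mp h with h2 | h2
      · exact h2
      · exact absurd h2 hk₁
    obtain ⟨c, hc'⟩ := exists_linearIndependent_cons_of_lt_finrank hab
      (by rw [Module.finrank_fin_fun]; norm_num)
    have hc : LinearIndependent F ![c, a, b] := hc'
    have hcspan : ∀ s t : F, c ≠ s • a + t • b := by
      intro s t hst
      have h := Fintype.linearIndependent_iff.mp hc ![1, -s, -t] (by
        rw [Fin.sum_univ_three]
        simp only [Matrix.cons_val_zero, Matrix.cons_val_one, Matrix.cons_val_two,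
          Matrix.head_cons, Matrix.tail_cons]
        rw [hst]
        funext k
        simp only [Pi.add_apply, Pi.smul_apply, smul_eq_mul, Pi.zero_apply]
        ring) 0
      simp at h
    obtain ⟨cl, hcl⟩ : ∃ cl, cl = (l - m)⁻¹ • ((Xm - m • 1) *ᵥ c) := ⟨_, rfl⟩
    obtain ⟨cm, hcm⟩ : ∃ cm, cm = (-(l - m)⁻¹) • ((Xm - l • 1) *ᵥ c) := ⟨_, rfl⟩
    have hXcl : Xm *ᵥ cl = l • cl := by
      rw [hcl, mulVec_smul, hEl, smul_comm]
    have hXcm : Xm *ᵥ cm = m • cm := by
      rw [hcm, mulVec_smul, hEm, smul_comm]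
    have hcsum : c = cl + cm := by
      rw [hcl, hcm, hsub, hsub]
      funext k
      simp only [Pi.add_apply, Pi.smul_apply, Pi.sub_apply, smul_eq_mul]
      field_simp
      ring
    by_cases hcase : ∃ t : F, cm = t • b
    · exfalso
      obtain ⟨t, ht⟩ := hcase
      have hcl' : ∀ s : F, cl ≠ s • a := by
        intro s hs
        apply hcspan s t
        rw [hcsum, hs, ht]
      have hli := indep3 Xm m l (Ne.symm hlm) b a cl hXb hXa hXcl hb0 ha0 hcl'
      have hd := det_eig Xm ![b, a, cl] hli ![m, l, l] (by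
        intro i
        fin_cases i
        · exact hXb
        · exact hXa
        · exact hXcl)
      simp only [Matrix.cons_val_zero, Matrix.cons_val_one, Matrix.cons_val_two,
        Matrix.head_cons, Matrix.tail_cons] at hd
      rw [hdet] at hd
      have h1 : l * m * (l - m) = 0 := by linear_combination -hd
      rcases mul_eq_zero.mp h1 with h2 | h2
      · rcases mul_eq_zero.mp h2 with h3 | h3
        · exact hl0 h3
        · exact hm0 h3
      · exact hlm' h2
    · push Not at hcase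
      exact ⟨cm, hXcm, indep3 Xm l m hlm a b cm hXa hXb hXcm ha0 hb0 hcase⟩
  obtain ⟨c', hXc', hli⟩ := hthird
  -- coordinates in the eigenbasis
  have hspan : ∀ y : Fin 3 → F, ∃ r0 r1 r2 : F, y = r0 • a + r1 • b + r2 • c' := by
    intro y
    obtain ⟨B, hB⟩ : ∃ B : Module.Basis (Fin 3) F (Fin 3 → F), ⇑B = ![a, b, c'] :=
      ⟨basisOfLinearIndependentOfCardEqFinrank hli (by rw [Module.finrank_fin_fun]; rfl),
        coe_basisOfLinearIndependentOfCardEqFinrank _ _⟩
    refine ⟨B.repr y 0, B.repr y 1, B.repr y 2, ?_⟩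
    have h := (B.sum_repr y).symm
    rw [Fin.sum_univ_three, hB] at h
    simpa using h
  have haa : Cfsg.hermForm 3 F q a a ≠ 0 := by
    intro h0
    apply ha0
    apply herm_nondeg hF a
    intro y
    obtain ⟨r0, r1, r2, rfl⟩ := hspan y
    rw [herm_add_right hF, herm_add_right hF, herm_smul_right, herm_smul_right, herm_smul_right,
      h0, horth a b hXa hXb, horth a c' hXa hXc']
    ring
  have hbne : ∀ c : F, b ≠ c • a := by
    intro c hc
    have h1 : Xm *ᵥ b = l • b := by rw [hc, mulVec_smul, hXa, smul_comm]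
    rw [hXb] at h1
    obtain ⟨k₁, hk₁⟩ := Function.ne_iff.mp hb0
    have h2 := congrFun h1 k₁
    simp only [Pi.smul_apply, smul_eq_mul] at h2
    have h3 : (l - m) * b k₁ = 0 := by linear_combination -h2
    rcases mul_eq_zero.mp h3 with h4 | h4
    · exact hlm' h4
    · exact hk₁ h4
  have hU : ∀ y ∈ (⊤ : Submodule F (Fin 3 → F)), y ≠ 0 →
      ∃ x ∈ (⊤ : Submodule F (Fin 3 → F)), Cfsg.hermForm 3 F q y x ≠ 0 := by
    intro y _ hy0
    by_contra hcon
    push Not at hcon
    exact hy0 (herm_nondeg hF y (fun x => hcon x Submodule.mem_top))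
  obtain ⟨v, -, hva, hvv⟩ := exists_aniso_perp hF ⊤ hU a b Submodule.mem_top Submodule.mem_top
    (horth' a b hXa hXb) hbne
  have hXv : Xm *ᵥ v = m • v := by
    obtain ⟨r0, r1, r2, hv⟩ := hspan v
    have h1 : Cfsg.hermForm 3 F q v a = r0 * Cfsg.hermForm 3 F q a a := by
      rw [hv, herm_add_left, herm_add_left, herm_smul_left, herm_smul_left, herm_smul_left,
        horth' a b hXa hXb, horth' a c' hXa hXc']
      ring
    rw [hva] at h1
    have hr0 : r0 = 0 := by
      rcases mul_eq_zero.mp h1.symm with h2 | h2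
      · exact h2
      · exact absurd h2 haa
    rw [hv, hr0, zero_smul, zero_add, mulVec_add, mulVec_smul, mulVec_smul, hXb, hXc', smul_add,
      smul_comm m r1, smul_comm m r2]
  -- the last vector
  have hlast : ∃ w : Fin 3 → F, w ≠ 0 ∧ Xm *ᵥ w = m • w ∧ Cfsg.hermForm 3 F q w v = 0 := by
    by_cases hz : Cfsg.hermForm 3 F q c' v = 0 ∧ Cfsg.hermForm 3 F q b v = 0
    · exact ⟨b, hb0, hXb, hz.2⟩
    · refine ⟨Cfsg.hermForm 3 F q c' v • b - Cfsg.hermForm 3 F q b v • c', ?_, ?_, ?_⟩
      · intro h0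
        apply hz
        have h := Fintype.linearIndependent_iff.mp hli
          ![0, Cfsg.hermForm 3 F q c' v, -Cfsg.hermForm 3 F q b v] (by
            rw [Fin.sum_univ_three]
            simp only [Matrix.cons_val_zero, Matrix.cons_val_one, Matrix.cons_val_two,
              Matrix.head_cons, Matrix.tail_cons]
            rw [zero_smul, zero_add, neg_smul, ← sub_eq_add_neg]
            exact h0)
        have h1 := h 1
        have h2 := h 2
        simp only [Matrix.cons_val_one, Matrix.cons_val_two, Matrix.head_cons,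
          Matrix.tail_cons, neg_eq_zero] at h1 h2
        exact ⟨h1, h2⟩
      · rw [mulVec_sub, mulVec_smul, mulVec_smul, hXb, hXc', smul_sub, smul_comm m,
          smul_comm m]
      · rw [herm_sub_left, herm_smul_left, herm_smul_left]
        ring
  obtain ⟨w, hw0, hXw, hwv⟩ := hlast
  have hvw : Cfsg.hermForm 3 F q v w = 0 := herm_zero_of_symm hF hwv
  have hav : Cfsg.hermForm 3 F q a v = 0 := horth a v hXa hXv
  have haw : Cfsg.hermForm 3 F q a w = 0 := horth a w hXa hXw
  have hwa : Cfsg.hermForm 3 F q w a = 0 := horth' a w hXa hXw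
  refine ⟨![a, v, w], ?_, ?_, hXa, hXv, hXw⟩
  · rw [Fintype.linearIndependent_iff]
    intro g hg
    rw [Fin.sum_univ_three] at hg
    simp only [Matrix.cons_val_zero, Matrix.cons_val_one, Matrix.cons_val_two, Matrix.head_cons,
      Matrix.tail_cons] at hg
    have h1 := congrArg (fun y => Cfsg.hermForm 3 F q y a) hg
    simp only [herm_add_left, herm_smul_left, hva, hwa, herm_zero_left, mul_zero, add_zero]
      at h1
    have hg0 : g 0 = 0 := by
      rcases mul_eq_zero.mp h1 with h2 | h2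
      · exact h2
      · exact absurd h2 haa
    have h3 := congrArg (fun y => Cfsg.hermForm 3 F q y v) hg
    simp only [herm_add_left, herm_smul_left, hav, hwv, herm_zero_left, mul_zero, add_zero,
      zero_add] at h3
    have hg1 : g 1 = 0 := by
      rcases mul_eq_zero.mp h3 with h2 | h2
      · exact h2
      · exact absurd h2 hvv
    have hg2 : g 2 = 0 := by
      rw [hg0, hg1, zero_smul, zero_smul, zero_add, zero_add] at hg
      rcases smul_eq_zero.mp hg with h2 | h2
      · exact h2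
      · exact absurd h2 hw0
    intro i
    fin_cases i
    · exact hg0
    · exact hg1
    · exact hg2
  · intro i j hij
    fin_cases i <;> fin_cases j
    · exact absurd rfl hij
    · exact hav
    · exact haw
    · exact hva
    · exact absurd rfl hij
    · exact hvw
    · exact hwa
    · exact hwv
    · exact absurd rfl hij

end Cfsg.Agent.Lib.helper13.E27
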