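import Mathlib
import Cfsg.Prelude.Def_GeometricClasses
import Cfsg.Prelude.Def_LieClassical
import Cfsg.Agent.S0278

set_option autoImplicit false

/-!
# The 3-part of the index of a subgroup of SU_3(p) containing a group of order 27 (p ≡ 2, 5 mod 9)
-/

namespace Cfsg.Agent.Lib.helper13.E27

open Matrix

theorem card_GU_inf_SL {F : Type*} [Field F] (n q : ℕ) :
    Nat.card ↥(Cfsg.GU n F q ⊓ Cfsg.Geo.specialLinear (Fin n) F) = Nat.card ↥(Cfsg.SU n F q) := by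
  classical
  symm
  have hmem : ∀ A : Cfsg.SU n F q, Matrix.SpecialLinearGroup.toGL A.1
      ∈ Cfsg.GU n F q ⊓ Cfsg.Geo.specialLinear (Fin n) F := by
    intro A
    refine ⟨fun u v => A.2 u v, ?_⟩
    show Matrix.SpecialLinearGroup.toGL A.1 ∈ (Matrix.GeneralLinearGroup.det :
      Matrix.GeneralLinearGroup (Fin n) F →* Fˣ).ker
    rw [MonoidHom.mem_ker]
    apply Units.ext
    rw [Matrix.GeneralLinearGroup.val_det_apply, Units.val_one]
    exact A.1.2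
  apply Nat.card_eq_of_bijective (fun A : Cfsg.SU n F q =>
    (⟨Matrix.SpecialLinearGroup.toGL A.1, hmem A⟩ :
      ↥(Cfsg.GU n F q ⊓ Cfsg.Geo.specialLinear (Fin n) F)))
  constructor
  · intro A B h
    have h1 : Matrix.SpecialLinearGroup.toGL A.1 = Matrix.SpecialLinearGroup.toGL B.1 :=
      congrArg Subtype.val h
    exact Subtype.ext (Matrix.SpecialLinearGroup.toGL_injective h1)
  · rintro ⟨g, hgU, hgS⟩
    have hdet : (g : Matrix (Fin n) (Fin n) F).det = 1 := by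
      have h1 : g ∈ (Matrix.GeneralLinearGroup.det :
        Matrix.GeneralLinearGroup (Fin n) F →* Fˣ).ker := hgS
      rw [MonoidHom.mem_ker] at h1
      have h2 := congrArg Units.val h1
      rw [Matrix.GeneralLinearGroup.val_det_apply, Units.val_one] at h2
      exact h2
    exact ⟨⟨⟨g.1, hdet⟩, fun u v => hgU u v⟩, Subtype.ext (Units.ext rfl)⟩

theorem card_SU_three {F : Type*} [Field F] [Fintype F] (q : ℕ) (hF : Fintype.card F = q ^ 2) :
    (q + 1) * Nat.card ↥(Cfsg.SU 3 F q) = q ^ 3 * ((q + 1) * (q ^ 2 - 1) * (q ^ 3 + 1)) := by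
  have h := Cfsg.Agent.S0278.result hF 3 (by norm_num)
  rw [Finset.prod_range_succ, Finset.prod_range_succ, Finset.prod_range_one] at h
  rw [h]
  have e0 : Even 0 := ⟨0, rfl⟩
  have e1 : ¬ Even 1 := by decide
  have e2 : Even 2 := ⟨1, rfl⟩
  rw [if_pos e0, if_neg e1, if_pos e2]
  norm_num

theorem arith3U (p C : ℕ) (hp9 : p % 9 = 2 ∨ p % 9 = 5)
    (h : (p + 1) * C = p ^ 3 * ((p + 1) * (p ^ 2 - 1) * (p ^ 3 + 1))) (h81 : 81 ∣ C) : False := by
  have hp1 : 1 ≤ p := by omega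
  have hle1 : 1 ≤ p ^ 2 := Nat.one_le_pow _ _ hp1
  have hz : ((p : ℤ) + 1) * (C : ℤ)
      = (p : ℤ) ^ 3 * (((p : ℤ) + 1) * ((p : ℤ) ^ 2 - 1) * ((p : ℤ) ^ 3 + 1)) := by
    have h' := congrArg (Nat.cast : ℕ → ℤ) h
    push_cast [Nat.cast_sub hle1] at h'
    exact h'
  have hp0 : (p : ℤ) + 1 ≠ 0 := by omega
  have hCz : (C : ℤ) = (p : ℤ) ^ 3 * ((p : ℤ) - 1) * ((p : ℤ) + 1) ^ 2 * ((p : ℤ) ^ 2 - p + 1) := by
    apply mul_left_cancel₀ hp0
    rw [hz]
    ring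
  obtain ⟨k, hk⟩ := h81
  have hk' : (C : ℤ) = 81 * k := by
    rw [hk]
    push_cast
    ring
  have h3p : Prime (3 : ℤ) := Int.prime_three
  obtain ⟨t, ht⟩ : ∃ t : ℤ, ((p : ℤ) = 9 * t + 2 ∨ (p : ℤ) = 9 * t + 5) :=
    ⟨(p : ℤ) / 9, by omega⟩
  rcases ht with ht | ht
  · rw [ht] at hCz
    have hB : (3 : ℤ) ∣ (9 * t + 2) ^ 3 * (9 * t + 1) * (3 * t + 1) ^ 2
        * (27 * t ^ 2 + 9 * t + 1) := by
      refine ⟨k, ?_⟩
      have h27 : (27 : ℤ) * ((9 * t + 2) ^ 3 * (9 * t + 1) * (3 * t + 1) ^ 2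
          * (27 * t ^ 2 + 9 * t + 1)) = 27 * (3 * k) := by
        linear_combination hk' - hCz
      exact mul_left_cancel₀ (by norm_num) h27
    rcases h3p.dvd_mul.mp hB with h | h
    · rcases h3p.dvd_mul.mp h with h | h
      · rcases h3p.dvd_mul.mp h with h | h
        · have h' := h3p.dvd_of_dvd_pow h
          omega
        · omega
      · have h' := h3p.dvd_of_dvd_pow h
        omega
    · obtain ⟨s, hs⟩ : ∃ s : ℤ, s = t ^ 2 := ⟨_, rfl⟩
      rw [← hs] at h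
      omega
  · rw [ht] at hCz
    have hB : (3 : ℤ) ∣ (9 * t + 5) ^ 3 * (9 * t + 4) * (3 * t + 2) ^ 2
        * (27 * t ^ 2 + 27 * t + 7) := by
      refine ⟨k, ?_⟩
      have h27 : (27 : ℤ) * ((9 * t + 5) ^ 3 * (9 * t + 4) * (3 * t + 2) ^ 2
          * (27 * t ^ 2 + 27 * t + 7)) = 27 * (3 * k) := by
        linear_combination hk' - hCz
      exact mul_left_cancel₀ (by norm_num) h27
    rcases h3p.dvd_mul.mp hB with h | h
    · rcases h3p.dvd_mul.mp h with h | h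
      · rcases h3p.dvd_mul.mp h with h | h
        · have h' := h3p.dvd_of_dvd_pow h
          omega
        · omega
      · have h' := h3p.dvd_of_dvd_pow h
        omega
    · obtain ⟨s, hs⟩ : ∃ s : ℤ, s = t ^ 2 := ⟨_, rfl⟩
      rw [← hs] at h
      omega

theorem not_dvd_relIndex_U {F : Type*} [Field F] [Fintype F] (p : ℕ) [Fact p.Prime]
    (hF : Fintype.card F = p ^ 2) (hp9 : p % 9 = 2 ∨ p % 9 = 5) (N R : Subgroup (GL (Fin 3) F))
    (hR : Nat.card R = 27) (hRN : R ≤ N)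
    (hRS : R ≤ Cfsg.GU 3 F p ⊓ Cfsg.Geo.specialLinear (Fin 3) F) :
    ¬ 3 ∣ N.relIndex (Cfsg.GU 3 F p ⊓ Cfsg.Geo.specialLinear (Fin 3) F) := by
  classical
  intro h3
  have hcard := card_SU_three p hF
  rw [← card_GU_inf_SL 3 p] at hcard
  obtain ⟨S, hS⟩ : ∃ S : Subgroup (GL (Fin 3) F),
      S = Cfsg.GU 3 F p ⊓ Cfsg.Geo.specialLinear (Fin 3) F := ⟨_, rfl⟩
  rw [← hS] at h3 hRS hcard
  have h27 : 27 ∣ Nat.card ↥(N ⊓ S) := by
    rw [← hR]
    exact Subgroup.card_dvd_of_le (le_inf hRN hRS)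
  have hmul : Nat.card ↥(N ⊓ S) * N.relIndex S = Nat.card ↥S := by
    have h := Subgroup.relIndex_mul_relIndex (⊥ : Subgroup (GL (Fin 3) F)) (N ⊓ S) S bot_le
      inf_le_right
    rwa [Subgroup.relIndex_bot_left, Subgroup.relIndex_bot_left, Subgroup.inf_relIndex_right]
      at h
  have h81 : 81 ∣ Nat.card ↥S := by
    rw [← hmul]
    exact Nat.mul_dvd_mul h27 h3
  exact arith3U p (Nat.card ↥S) hp9 hcard h81

end Cfsg.Agent.Lib.helper13.E27
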