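import Mathlib
import Cfsg.Prelude.Def_GeometricClasses
import Cfsg.Agent.Lib.helper4.Singer5

/-!
# Degree 3 Singer normalisers: elements of order 3 in dimension 3
-/

namespace Cfsg.Agent.Lib.helper13.SF

open Matrix Polynomial
open Cfsg.Agent.Lib.helper4.Singer

variable {F : Type*} [Field F]

/-- The Frobenius element of the normaliser, with a witness that it does not centralise. -/
theorem exists_frob' [Fintype F] {p : ℕ} [Fact p.Prime] [CharP F p] {n : ℕ} (hn : n.Prime)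
    (K : Subalgebra F (Matrix (Fin n) (Fin n) F)) (hK : Cfsg.Geo.IsFieldSubalgebra n K) :
    ∃ S : GL (Fin n) F, S ∈ Cfsg.Geo.subalgebraNormalizer K ∧
      (S : Matrix (Fin n) (Fin n) F) ^ n = 1 ∧
      ∃ κ₀ ∈ K, (S : Matrix (Fin n) (Fin n) F) * κ₀ ≠ κ₀ * (S : Matrix (Fin n) (Fin n) F) := by
  classical
  haveI : Nonempty (Fin n) := ⟨⟨0, hn.pos⟩⟩
  obtain ⟨q, hq⟩ : ∃ q : ℕ, q = Fintype.card F := ⟨_, rfl⟩
  obtain ⟨f, hp, hf⟩ := FiniteField.card F p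
  obtain ⟨hF1, κ₀, hκ₀, hκ₀q⟩ := frob_facts hn.two_le K hK
  rw [← hq] at hF1 hκ₀q
  obtain ⟨v, hv⟩ : ∃ v : Fin n → F, v = Pi.single (⟨0, hn.pos⟩ : Fin n) 1 := ⟨_, rfl⟩
  have hv0 : v ≠ 0 := by
    intro h
    have := congrFun h ⟨0, hn.pos⟩
    rw [hv, Pi.single_eq_same, Pi.zero_apply] at this
    exact one_ne_zero this
  obtain ⟨φ, hφ⟩ : ∃ φ : ↥K →ₗ[F] (Fin n → F), ∀ κ : ↥K, φ κ = κ.1 *ᵥ v :=
    ⟨{ toFun := fun κ => κ.1 *ᵥ v
       map_add' := fun a b => by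
         show (a.1 + b.1) *ᵥ v = a.1 *ᵥ v + b.1 *ᵥ v
         rw [add_mulVec]
       map_smul' := fun a κ => by
         show (a • κ.1) *ᵥ v = a • (κ.1 *ᵥ v)
         rw [smul_mulVec] }, fun _ => rfl⟩
  have hinj : Function.Injective φ := by
    rw [← LinearMap.ker_eq_bot, LinearMap.ker_eq_bot']
    intro κ hκ
    rw [hφ] at hκ
    exact Subtype.ext (mulVec_inj K n hK κ.1 κ.2 v hv0 hκ)
  have hsurj : Function.Surjective φ :=
    (LinearMap.injective_iff_surjective_of_finrank_eq_finrank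
      (by rw [hK.finrank_eq, Module.finrank_fin_fun])).mp hinj
  obtain ⟨φe, hφe⟩ : ∃ φe : ↥K ≃ₗ[F] (Fin n → F), ∀ κ : ↥K, φe κ = κ.1 *ᵥ v :=
    ⟨LinearEquiv.ofBijective φ ⟨hinj, hsurj⟩, fun κ => hφ κ⟩
  obtain ⟨Fr, hFr⟩ : ∃ Fr : ↥K →ₗ[F] ↥K, ∀ κ : ↥K, (Fr κ).1 = κ.1 ^ q :=
    ⟨{ toFun := fun κ => ⟨κ.1 ^ q, K.pow_mem κ.2 q⟩
       map_add' := fun a b => by
         apply Subtype.ext
         show (a.1 + b.1) ^ q = a.1 ^ q + b.1 ^ q
         rw [hq, hf]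
         exact add_pow_char_pow_of_commute p (f : ℕ) (hK.comm a.1 a.2 b.1 b.2)
       map_smul' := fun a κ => by
         apply Subtype.ext
         show (a • κ.1) ^ q = a • κ.1 ^ q
         rw [_root_.smul_pow, hq, FiniteField.pow_card] }, fun _ => rfl⟩
  obtain ⟨Sm, hSm⟩ : ∃ Sm : Matrix (Fin n) (Fin n) F,
      Sm = LinearMap.toMatrix' (φe.toLinearMap ∘ₗ Fr ∘ₗ φe.symm.toLinearMap) := ⟨_, rfl⟩
  have hkey : ∀ κ : ↥K, Sm *ᵥ (κ.1 *ᵥ v) = (κ.1 ^ q) *ᵥ v := by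
    intro κ
    rw [hSm, LinearMap.toMatrix'_mulVec, ← hφe κ]
    show φe (Fr (φe.symm (φe κ))) = _
    rw [LinearEquiv.symm_apply_apply, hφe, hFr]
  have hpow : ∀ (j : ℕ) (κ : ↥K), (Sm ^ j) *ᵥ (κ.1 *ᵥ v) = (κ.1 ^ (q ^ j)) *ᵥ v := by
    intro j
    induction j with
    | zero => intro κ; simp
    | succ j ih =>
      intro κ
      rw [pow_succ, ← mulVec_mulVec, hkey κ]
      have := ih ⟨κ.1 ^ q, K.pow_mem κ.2 q⟩
      rw [this, ← pow_mul, pow_succ, mul_comm (q ^ j) q]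
  have hext : ∀ M N : Matrix (Fin n) (Fin n) F,
      (∀ κ : ↥K, M *ᵥ (κ.1 *ᵥ v) = N *ᵥ (κ.1 *ᵥ v)) → M = N := by
    intro M N h
    apply Matrix.toLin'.injective
    apply LinearMap.ext
    intro u
    obtain ⟨κ, hκ⟩ := φe.surjective u
    rw [hφe] at hκ
    rw [Matrix.toLin'_apply, Matrix.toLin'_apply, ← hκ, h κ]
  have hSn : Sm ^ n = 1 := by
    apply hext
    intro κ
    rw [hpow n κ, hF1 κ.1 κ.2, one_mulVec]
  have hSκ : ∀ κ ∈ K, Sm * κ = κ ^ q * Sm := by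
    intro κ hκ
    apply hext
    intro κ₁
    calc (Sm * κ) *ᵥ (κ₁.1 *ᵥ v) = Sm *ᵥ ((κ * κ₁.1) *ᵥ v) := by
          rw [← mulVec_mulVec, mulVec_mulVec v κ κ₁.1]
      _ = ((κ * κ₁.1) ^ q) *ᵥ v := hkey ⟨κ * κ₁.1, K.mul_mem hκ κ₁.2⟩
      _ = (κ ^ q * κ₁.1 ^ q) *ᵥ v := by
          rw [(show Commute κ κ₁.1 from hK.comm κ hκ κ₁.1 κ₁.2).mul_pow]
      _ = (κ ^ q) *ᵥ (Sm *ᵥ (κ₁.1 *ᵥ v)) := by rw [hkey κ₁, mulVec_mulVec]
      _ = (κ ^ q * Sm) *ᵥ (κ₁.1 *ᵥ v) := by rw [mulVec_mulVec]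
  obtain ⟨m, hm⟩ : ∃ m, n = m + 1 := ⟨n - 1, by have := hn.pos; omega⟩
  obtain ⟨S, hS, hS'⟩ : ∃ S : GL (Fin n) F, (S : Matrix (Fin n) (Fin n) F) = Sm ∧
      ((S⁻¹ : GL (Fin n) F) : Matrix (Fin n) (Fin n) F) = Sm ^ m :=
    ⟨⟨Sm, Sm ^ m, by rw [← pow_succ', ← hm, hSn], by rw [← pow_succ, ← hm, hSn]⟩, rfl, rfl⟩
  refine ⟨S, ?_, by rw [hS]; exact hSn, κ₀, hκ₀, ?_⟩
  · apply mem_norm_of_forall
    intro κ hκ
    rw [hS, hS', hSκ κ hκ, mul_assoc, ← pow_succ', ← hm, hSn, mul_one]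
    exact K.pow_mem hκ q
  · rw [hS]
    intro hc
    rw [hSκ κ₀ hκ₀] at hc
    apply hκ₀q
    have h2 := congrArg (fun t => t * Sm ^ m) hc
    simp only [mul_assoc, ← pow_succ', ← hm, hSn, mul_one] at h2
    exact h2

/-- Cayley–Hamilton in dimension three, in coordinates. -/
theorem cp3 (M : Matrix (Fin 3) (Fin 3) F) : ∃ a b : F,
    M.charpoly = X ^ 3 + C a * X ^ 2 + C b * X - C M.det ∧
    M ^ 3 + a • M ^ 2 + b • M - M.det • (1 : Matrix (Fin 3) (Fin 3) F) = 0 := by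
  have hdeg : M.charpoly.natDegree = 3 := by
    rw [Matrix.charpoly_natDegree_eq_dim, Fintype.card_fin]
  have hmon := Matrix.charpoly_monic M
  have hc3 : M.charpoly.coeff 3 = 1 := by
    have := hmon.coeff_natDegree
    rwa [hdeg] at this
  have hc0 : M.charpoly.coeff 0 = - M.det := by
    have := Matrix.det_eq_sign_charpoly_coeff M
    rw [Fintype.card_fin] at this
    rw [this]; ring
  obtain ⟨a, ha⟩ : ∃ a : F, a = M.charpoly.coeff 2 := ⟨_, rfl⟩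
  obtain ⟨b, hb⟩ : ∃ b : F, b = M.charpoly.coeff 1 := ⟨_, rfl⟩
  have h := M.charpoly.as_sum_range_C_mul_X_pow
  rw [hdeg, Finset.sum_range_succ, Finset.sum_range_succ, Finset.sum_range_succ,
    Finset.sum_range_one, hc3, hc0, ← ha, ← hb] at h
  have hexp : M.charpoly = X ^ 3 + C a * X ^ 2 + C b * X - C M.det := by
    refine h.trans ?_
    simp only [map_neg, map_one, pow_zero, pow_one, mul_one, one_mul]
    ring
  refine ⟨a, b, hexp, ?_⟩
  have h2 := Matrix.aeval_self_charpoly M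
  rw [hexp] at h2
  simpa only [map_sub, map_add, map_mul, map_pow, aeval_X, aeval_C,
    Algebra.algebraMap_eq_smul_one, smul_mul_assoc, one_mul] using h2

theorem cube_struct (M : Matrix (Fin 3) (Fin 3) F) (hns : ∀ c : F, M ≠ c • 1) (z : F)
    (hM : M ^ 3 = z • (1 : Matrix (Fin 3) (Fin 3) F)) :
    (M.det = z ∧ M.charpoly = X ^ 3 - C z) ∨
    (∃ s a : F, a ≠ 0 ∧ M ^ 2 = s • M + ((M.det - z) / a) • (1 : Matrix (Fin 3) (Fin 3) F)) := by
  obtain ⟨a, b, hcp, hch⟩ := cp3 M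
  rw [hM] at hch
  by_cases ha : a = 0
  · left
    subst ha
    rw [zero_smul, add_zero] at hch
    have hb : b = 0 := by
      by_contra hb
      apply hns ((M.det - z) / b)
      have h1 : b • M = (M.det - z) • (1 : Matrix (Fin 3) (Fin 3) F) := by
        rw [sub_smul, ← sub_eq_zero, ← hch]; abel
      rw [div_eq_inv_mul, mul_smul, ← h1, smul_smul, inv_mul_cancel₀ hb, one_smul]
    subst hb
    rw [zero_smul, add_zero] at hch
    have hdz : M.det = z := by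
      have h1 := congrFun (congrFun hch 0) 0
      simp only [Matrix.sub_apply, Matrix.smul_apply, Matrix.one_apply_eq, smul_eq_mul, mul_one,
        Matrix.zero_apply] at h1
      linear_combination -h1
    refine ⟨hdz, ?_⟩
    rw [hcp, hdz]
    simp
  · right
    refine ⟨-b / a, a, ha, ?_⟩
    have h1 : a • M ^ 2 = (-b) • M + (M.det - z) • (1 : Matrix (Fin 3) (Fin 3) F) := by
      rw [neg_smul, sub_smul, ← sub_eq_zero, ← hch]; abel
    have h2 : M ^ 2 = a⁻¹ • (a • M ^ 2) := by rw [smul_smul, inv_mul_cancel₀ ha, one_smul]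
    rw [h2, h1, smul_add, smul_smul, smul_smul]
    congr 2 <;> field_simp

/-- A normalising element of order three that does not centralise satisfies no quadratic. -/
theorem no_quad {n : ℕ} (K : Subalgebra F (Matrix (Fin n) (Fin n) F)) (k : ℕ)
    (hK : Cfsg.Geo.IsFieldSubalgebra k K) (S : GL (Fin n) F)
    (hS : S ∈ Cfsg.Geo.subalgebraNormalizer K)
    (κ₀ : Matrix (Fin n) (Fin n) F) (hκ₀ : κ₀ ∈ K)
    (hne : (S : Matrix (Fin n) (Fin n) F) * κ₀ ≠ κ₀ * (S : Matrix (Fin n) (Fin n) F))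
    (s d : F)
    (hq : (S : Matrix (Fin n) (Fin n) F) ^ 2
      = s • (S : Matrix (Fin n) (Fin n) F) + d • (1 : Matrix (Fin n) (Fin n) F))
    (h3 : (S : Matrix (Fin n) (Fin n) F) ^ 3 = 1) : False := by
  obtain ⟨Sm, hSm⟩ : ∃ Sm : Matrix (Fin n) (Fin n) F, Sm = (S : Matrix (Fin n) (Fin n) F) :=
    ⟨_, rfl⟩
  obtain ⟨Si, hSi⟩ : ∃ Si : Matrix (Fin n) (Fin n) F,
      Si = ((S⁻¹ : GL (Fin n) F) : Matrix (Fin n) (Fin n) F) := ⟨_, rfl⟩
  have h1 : Sm * Si = 1 := by rw [hSm, hSi, ← Units.val_mul, mul_inv_cancel, Units.val_one]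
  have h2 : Si * Sm = 1 := by rw [hSm, hSi, ← Units.val_mul, inv_mul_cancel, Units.val_one]
  have hN : ∀ κ : Matrix (Fin n) (Fin n) F, κ ∈ K → Sm * κ * Si ∈ K := by
    intro κ hκ
    rw [hSm, hSi]
    exact (hS κ).1 hκ
  rw [← hSm] at hne hq h3
  obtain ⟨κ₁, hκ₁⟩ : ∃ κ₁ : Matrix (Fin n) (Fin n) F, κ₁ = Sm * κ₀ * Si := ⟨_, rfl⟩
  obtain ⟨κ₂, hκ₂⟩ : ∃ κ₂ : Matrix (Fin n) (Fin n) F, κ₂ = Sm * κ₁ * Si := ⟨_, rfl⟩
  have hκ₁K : κ₁ ∈ K := by rw [hκ₁]; exact hN κ₀ hκ₀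
  have hκ₂K : κ₂ ∈ K := by rw [hκ₂]; exact hN κ₁ hκ₁K
  have e1 : Sm * κ₀ = κ₁ * Sm := by rw [hκ₁, mul_assoc, h2, mul_one]
  have e2 : Sm * κ₁ = κ₂ * Sm := by rw [hκ₂, mul_assoc, h2, mul_one]
  have e3 : Sm ^ 2 * κ₀ = κ₂ * Sm ^ 2 := by
    rw [pow_two, mul_assoc, e1, ← mul_assoc, e2, mul_assoc]
  rw [hq] at e3
  simp only [add_mul, mul_add, smul_mul_assoc, mul_smul_comm, one_mul, mul_one] at e3
  rw [e1] at e3
  have e4 : (s • (κ₁ - κ₂)) * Sm = d • (κ₂ - κ₀) := by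
    rw [smul_mul_assoc, sub_mul, smul_sub, smul_sub, ← sub_eq_zero]
    have := sub_eq_zero.mpr e3
    rw [← this]; abel
  have hcomm : Sm ∈ K → False := fun hSK => hne (hK.comm Sm hSK κ₀ hκ₀)
  by_cases hA : s • (κ₁ - κ₂) = 0
  · rcases smul_eq_zero.mp hA with hs | hκ
    · subst hs
      rw [zero_smul, zero_add] at hq
      have e5 : d • Sm = 1 := by
        rw [← h3, pow_succ, hq, smul_mul_assoc, one_mul]
      have hd : d ≠ 0 := by
        rintro rfl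
        rw [zero_smul] at e5
        have := congrArg (fun t => t * κ₀) e5
        simp only [zero_mul, one_mul] at this
        apply hne
        rw [← this]; simp
      apply hcomm
      have : Sm = d⁻¹ • (1 : Matrix (Fin n) (Fin n) F) := by
        rw [← e5, smul_smul, inv_mul_cancel₀ hd, one_smul]
      rw [this]
      exact K.smul_mem K.one_mem _
    · have e5 : κ₁ = κ₂ := sub_eq_zero.mp hκ
      have e6 : κ₀ = κ₁ := by
        have := congrArg (fun t => Si * t * Sm) (hκ₂.symm.trans (e5.symm.trans hκ₁))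
        simp only [mul_assoc, h2, mul_one] at this
        simp only [← mul_assoc, h2, one_mul] at this
        exact this.symm
      apply hne
      rw [e1, ← e6]
  · obtain ⟨A', hA'K, hAA', hA'A⟩ := inv_two_sided K k hK _
      (K.smul_mem (K.sub_mem hκ₁K hκ₂K) s) hA
    apply hcomm
    have : Sm = A' * (d • (κ₂ - κ₀)) := by
      rw [← e4, ← mul_assoc, hA'A, one_mul]
    rw [this]
    exact K.mul_mem hA'K (K.smul_mem (K.sub_mem hκ₂K hκ₀) d)

theorem no_eig2 (K : Subalgebra F (Matrix (Fin 3) (Fin 3) F))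
    (hK : Cfsg.Geo.IsFieldSubalgebra 3 K)
    (g : GL (Fin 3) F) (hg : g ∈ Cfsg.Geo.subalgebraNormalizer K) (μ : F) (w₁ w₂ : Fin 3 → F)
    (h₁ : (g : Matrix (Fin 3) (Fin 3) F) *ᵥ w₁ = μ • w₁)
    (h₂ : (g : Matrix (Fin 3) (Fin 3) F) *ᵥ w₂ = μ • w₂)
    (hli : ∀ a : F, w₂ ≠ a • w₁) (hw₁ : w₁ ≠ 0) :
    (g : Matrix (Fin 3) (Fin 3) F) = μ • (1 : Matrix (Fin 3) (Fin 3) F) := by
  have hμ : μ ≠ 0 := by
    rintro rfl
    rw [zero_smul] at h₁
    apply hw₁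
    have h := congrArg (fun w => ((g⁻¹ : GL (Fin 3) F) : Matrix (Fin 3) (Fin 3) F) *ᵥ w) h₁
    simp only [mulVec_mulVec, ← Units.val_mul, inv_mul_cancel, Units.val_one, one_mulVec,
      mulVec_zero] at h
    exact h
  obtain ⟨lG, hlG⟩ : ∃ lG : GL (Fin 3) F,
      (lG : Matrix (Fin 3) (Fin 3) F) = μ⁻¹ • (1 : Matrix (Fin 3) (Fin 3) F) :=
    ⟨⟨μ⁻¹ • 1, μ • 1, by rw [smul_mul_smul_comm, mul_one, inv_mul_cancel₀ hμ, one_smul],
      by rw [smul_mul_smul_comm, mul_one, mul_inv_cancel₀ hμ, one_smul]⟩, rfl⟩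
  have hlN : lG ∈ Cfsg.Geo.subalgebraNormalizer K := by
    apply mem_norm_of_forall
    intro κ hκ
    have e1 : (lG : Matrix (Fin 3) (Fin 3) F) * κ = κ * (lG : Matrix (Fin 3) (Fin 3) F) := by
      rw [hlG, Matrix.smul_mul, Matrix.mul_smul, one_mul, mul_one]
    rw [e1, mul_assoc, ← Units.val_mul, mul_inv_cancel, Units.val_one, mul_one]
    exact hκ
  have hmem := Subgroup.mul_mem _ hlN hg
  have hv : ((lG * g : GL (Fin 3) F) : Matrix (Fin 3) (Fin 3) F)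
      = μ⁻¹ • (g : Matrix (Fin 3) (Fin 3) F) := by
    rw [Units.val_mul, hlG, Matrix.smul_mul, one_mul]
  have hf : ∀ w : Fin 3 → F, (g : Matrix (Fin 3) (Fin 3) F) *ᵥ w = μ • w →
      ((lG * g : GL (Fin 3) F) : Matrix (Fin 3) (Fin 3) F) *ᵥ w = w := by
    intro w hw
    rw [hv, smul_mulVec, hw, smul_smul, inv_mul_cancel₀ hμ, one_smul]
  have h1 := no_fix2 (by norm_num) K hK (lG * g) hmem w₁ w₂ (hf _ h₁) (hf _ h₂) hli hw₁
  rw [hv] at h1
  rw [← one_smul F (g : Matrix (Fin 3) (Fin 3) F), ← mul_inv_cancel₀ hμ, mul_smul, h1]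

theorem derange (K : Subalgebra F (Matrix (Fin 3) (Fin 3) F))
    (hK : Cfsg.Geo.IsFieldSubalgebra 3 K)
    (x : SpecialLinearGroup (Fin 3) F) (μ : F)
    (h0 : (x : Matrix (Fin 3) (Fin 3) F) *ᵥ (Pi.single 0 1) = μ • Pi.single 0 1)
    (h1 : (x : Matrix (Fin 3) (Fin 3) F) *ᵥ (Pi.single 1 1) = μ • Pi.single 1 1)
    (hns : ∀ z : F, (x : Matrix (Fin 3) (Fin 3) F) ≠ z • (1 : Matrix (Fin 3) (Fin 3) F))
    (P : SpecialLinearGroup (Fin 3) F) :
    P⁻¹ * x * P ∉ (Cfsg.Geo.subalgebraNormalizer K).comap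
      (SpecialLinearGroup.toGL : SpecialLinearGroup (Fin 3) F →* GL (Fin 3) F) := by
  intro hmem
  rw [Subgroup.mem_comap] at hmem
  obtain ⟨Y, hY⟩ : ∃ Y : GL (Fin 3) F, Y = SpecialLinearGroup.toGL (P⁻¹ * x * P) := ⟨_, rfl⟩
  rw [← hY] at hmem
  obtain ⟨Pi', hPi'⟩ : ∃ Pi' : Matrix (Fin 3) (Fin 3) F,
      Pi' = ((P⁻¹ : SpecialLinearGroup (Fin 3) F) : Matrix (Fin 3) (Fin 3) F) := ⟨_, rfl⟩
  have hYv : (Y : Matrix (Fin 3) (Fin 3) F) = Pi' * (x : Matrix (Fin 3) (Fin 3) F)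
      * (P : Matrix (Fin 3) (Fin 3) F) := by
    rw [hY, hPi']; rfl
  have hPP : (P : Matrix (Fin 3) (Fin 3) F) * Pi' = 1 := by
    rw [hPi']
    exact congrArg Subtype.val (mul_inv_cancel P)
  have hPP' : Pi' * (P : Matrix (Fin 3) (Fin 3) F) = 1 := by
    rw [hPi']
    exact congrArg Subtype.val (inv_mul_cancel P)
  have key : ∀ i : Fin 3, (x : Matrix (Fin 3) (Fin 3) F) *ᵥ (Pi.single i 1) = μ • Pi.single i 1 →
      (Y : Matrix (Fin 3) (Fin 3) F) *ᵥ (Pi' *ᵥ Pi.single i 1) = μ • (Pi' *ᵥ Pi.single i 1) := by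
    intro i hi
    rw [hYv, mulVec_mulVec, mul_assoc, hPP, mul_one, ← mulVec_mulVec, hi, mulVec_smul]
  have hinj : ∀ u : Fin 3 → F, Pi' *ᵥ u = 0 → u = 0 := by
    intro u hu
    have h := congrArg (fun w => (P : Matrix (Fin 3) (Fin 3) F) *ᵥ w) hu
    simp only [mulVec_mulVec, hPP, one_mulVec, mulVec_zero] at h
    exact h
  have hres := no_eig2 K hK Y hmem μ _ _ (key 0 h0) (key 1 h1) ?_ ?_
  · apply hns μ
    have h : (x : Matrix (Fin 3) (Fin 3) F) = (P : Matrix (Fin 3) (Fin 3) F)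
        * (Y : Matrix (Fin 3) (Fin 3) F) * Pi' := by
      rw [hYv, ← mul_assoc, ← mul_assoc, hPP, one_mul, mul_assoc, hPP, mul_one]
    rw [h, hres, Matrix.mul_smul, mul_one, Matrix.smul_mul, hPP]
  · intro a ha
    have h : Pi' *ᵥ (Pi.single 1 1 - a • Pi.single 0 1) = 0 := by
      rw [mulVec_sub, mulVec_smul, ha, sub_self]
    have h' := congrFun (hinj _ h) 1
    simp at h'
  · intro h
    have h' := congrFun (hinj _ h) 0
    simp at h'

theorem good3 [Fintype F] {p : ℕ} [Fact p.Prime] [CharP F p]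
    (K : Subalgebra F (Matrix (Fin 3) (Fin 3) F)) (hK : Cfsg.Geo.IsFieldSubalgebra 3 K)
    (h3 : (3 : F) ≠ 0) (h9 : ¬ 9 ∣ Fintype.card F - 1)
    (x : SpecialLinearGroup (Fin 3) F) (z : F)
    (hx : (x : Matrix (Fin 3) (Fin 3) F) ^ 3 = z • (1 : Matrix (Fin 3) (Fin 3) F))
    (hxns : ∀ z : F, (x : Matrix (Fin 3) (Fin 3) F) ≠ z • (1 : Matrix (Fin 3) (Fin 3) F)) :
    ∃ P : SpecialLinearGroup (Fin 3) F, P⁻¹ * x * P
      ∈ (Cfsg.Geo.subalgebraNormalizer K).comap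
        (SpecialLinearGroup.toGL : SpecialLinearGroup (Fin 3) F →* GL (Fin 3) F) := by
  classical
  have hz3 : z ^ 3 = 1 := by
    have h := congrArg Matrix.det hx
    rw [det_pow, x.2, one_pow, det_smul, det_one, Fintype.card_fin, mul_one] at h
    exact h.symm
  have hz0 : z ≠ 0 := by
    rintro rfl
    simp at hz3
  have hxc : z = 1 ∧ (x : Matrix (Fin 3) (Fin 3) F).charpoly = X ^ 3 - C 1 := by
    rcases cube_struct (x : Matrix (Fin 3) (Fin 3) F) hxns z hx with ⟨h1, h2⟩ | ⟨s, a, ha, h2⟩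
    · rw [x.2] at h1
      subst h1
      exact ⟨rfl, h2⟩
    · exfalso
      rw [x.2] at h2
      obtain ⟨d, hd⟩ : ∃ d : F, d = (1 - z) / a := ⟨_, rfl⟩
      rw [← hd] at h2
      have e1 : (x : Matrix (Fin 3) (Fin 3) F) ^ 3
          = (s * s + d) • (x : Matrix (Fin 3) (Fin 3) F)
            + (s * d) • (1 : Matrix (Fin 3) (Fin 3) F) := by
        rw [pow_succ, h2, add_mul, smul_mul_assoc, smul_mul_assoc, one_mul, ← pow_two, h2,
          smul_add, smul_smul, smul_smul, add_smul]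
        abel
      rw [hx] at e1
      have e2 : s * s + d = 0 := by
        by_contra hne
        apply hxns ((z - s * d) / (s * s + d))
        have h4 : (s * s + d) • (x : Matrix (Fin 3) (Fin 3) F)
            = (z - s * d) • (1 : Matrix (Fin 3) (Fin 3) F) := by
          rw [sub_smul, e1]; abel
        rw [div_eq_inv_mul, mul_smul, ← h4, smul_smul, inv_mul_cancel₀ hne, one_smul]
      rw [e2, zero_smul, zero_add] at e1
      have e3 : z = s * d := by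
        have h4 := congrFun (congrFun e1 0) 0
        simpa using h4
      have e4 : z = (-s) ^ 3 := by rw [e3]; linear_combination s * e2
      have e5 : (-s) ^ 9 = 1 := by
        rw [show (9 : ℕ) = 3 * 3 from rfl, pow_mul, ← e4, hz3]
      have hs0 : -s ≠ 0 := by
        intro h
        rw [h] at e4
        simp at e4
        exact hz0 e4
      have e6 : (-s) ^ (Fintype.card F - 1) = 1 := FiniteField.pow_card_sub_one_eq_one _ hs0
      have ho9 : orderOf (-s) ∣ 3 ^ 2 := orderOf_dvd_of_pow_eq_one e5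
      obtain ⟨m, hm, hom⟩ := (Nat.dvd_prime_pow Nat.prime_three).1 ho9
      have ho3 : orderOf (-s) ∣ 3 := by
        rcases (by omega : m = 0 ∨ m = 1 ∨ m = 2) with rfl | rfl | rfl
        · rw [hom]; norm_num
        · rw [hom]; norm_num
        · exfalso
          apply h9
          rw [show (9 : ℕ) = 3 ^ 2 from rfl, ← hom]
          exact orderOf_dvd_of_pow_eq_one e6
      have e9 : (-s) ^ 3 = 1 := orderOf_dvd_iff_pow_eq_one.mp ho3
      have hz1 : z = 1 := e4.trans e9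
      have hd0 : d = 0 := by rw [hd, hz1, sub_self, zero_div]
      rw [hd0, mul_zero] at e3
      exact hz0 e3
  obtain ⟨hz1, hcx⟩ := hxc
  subst hz1
  rw [one_smul] at hx
  obtain ⟨S, hSN, hS3, κ₀, hκ₀, hSne⟩ := exists_frob' Nat.prime_three K hK
  have hSns : ∀ c : F, (S : Matrix (Fin 3) (Fin 3) F) ≠ c • 1 := by
    intro c hc
    apply hSne
    rw [hc, Matrix.smul_mul, Matrix.mul_smul, one_mul, mul_one]
  have hcS : (S : Matrix (Fin 3) (Fin 3) F).charpoly = X ^ 3 - C 1 := by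
    rcases cube_struct (S : Matrix (Fin 3) (Fin 3) F) hSns 1 (by rw [one_smul]; exact hS3)
      with ⟨-, h2⟩ | ⟨s, a, ha, h2⟩
    · exact h2
    · exact (no_quad K 3 hK S hSN κ₀ hκ₀ hSne s _ h2 hS3).elim
  have h3' : ((3 : ℕ) : F) ≠ 0 := by exact_mod_cast h3
  obtain ⟨Cm, Dm, hCD, hDC, hCA⟩ := Cfsg.Agent.Lib.helper18.RCF.ss_conj_mat
    (x : Matrix (Fin 3) (Fin 3) F) (S : Matrix (Fin 3) (Fin 3) F) 3 3 h3' h3' hx hS3
    (by rw [hcx, hcS])
  obtain ⟨g, hg, hg'⟩ : ∃ g : GL (Fin 3) F, (g : Matrix (Fin 3) (Fin 3) F) = Dm ∧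
      ((g⁻¹ : GL (Fin 3) F) : Matrix (Fin 3) (Fin 3) F) = Cm := ⟨⟨Dm, Cm, hDC, hCD⟩, rfl, rfl⟩
  have hconj : g⁻¹ * SpecialLinearGroup.toGL x * g = S := by
    apply Units.ext
    rw [Units.val_mul, Units.val_mul, hg, hg']
    show Cm * (x : Matrix (Fin 3) (Fin 3) F) * Dm = (S : Matrix (Fin 3) (Fin 3) F)
    rw [hCA, mul_assoc, hCD, mul_one]
  exact ss_sl_conj' _ (by norm_num) x 3 h3' hx g (by rw [hconj]; exact hSN)

end Cfsg.Agent.Lib.helper13.SF
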