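import Mathlib
import Cfsg.Prelude.Def_LieTypeDatum
import Cfsg.Agent.Lib.helper13.GraphCent
import Cfsg.Agent.Lib.helper13.SplitCount
import Cfsg.Agent.Lib.helper13.OrthDiag

set_option autoImplicit false
set_option linter.unusedSectionVars false
set_option linter.unusedVariables false
set_option linter.style.longLine false

/-!
The class of an involutory graph automorphism (induced by a similarity) of `PΩ(Q)` under the
inner-diagonal group splits into at most two classes under the inner automorphisms.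
-/

namespace Cfsg.Agent.Lib.helper13.OA

open Matrix

section split

open Cfsg.Agent.Lib.helper4

variable {F : Type*} [Field F] [Fintype F] {ι : Type} [Fintype ι] [DecidableEq ι]

/-- every special isometry is inner, or inner times `z` -/
theorem so_decomp (h2 : (2 : F) ≠ 0) (Q : QuadraticForm F (ι → F))
    (hQ : (QuadraticMap.polarBilin Q).Nondegenerate) (c : F) (hc : ¬ IsSquare c)
    (z : ↥(soSub (⇑Q))) (hz : spin Q c (soToO (⇑Q) z) = -1) (y : ↥(soSub (⇑Q))) :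
    soAut (⇑Q) y ∈ Cfsg.Inn (Cfsg.POmega F ⇑Q) ∨
      soAut (⇑Q) (y * z⁻¹) ∈ Cfsg.Inn (Cfsg.POmega F ⇑Q) := by
  rcases Int.units_eq_one_or (spin Q c (soToO (⇑Q) y)) with h | h
  · left
    have h1 : soToO (⇑Q) y ∈ Cfsg.Omega F ⇑Q := (so_mem_omega_iff h2 Q hQ c hc y).2 h
    exact ⟨_, (soAut_of_omega (⇑Q) y h1).symm⟩
  · right
    have h1 : soToO (⇑Q) (y * z⁻¹) ∈ Cfsg.Omega F ⇑Q := by
      rw [so_mem_omega_iff h2 Q hQ c hc, map_mul, map_mul, map_inv, map_inv, h, hz]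
      decide
    exact ⟨_, (soAut_of_omega (⇑Q) _ h1).symm⟩

/-- decomposition of the inner-diagonal automorphisms -/
theorem dSub_decomp (h2 : (2 : F) ≠ 0) (m : ℕ) (hm : Fintype.card ι = 2 * m)
    (Q : QuadraticForm F (ι → F)) (hQ : (QuadraticMap.polarBilin Q).Nondegenerate)
    (h0 : ∃ v, (⇑Q) v ≠ 0) (d : ↥(Cfsg.Geo.quadSimilarityGroup (⇑Q)))
    (hd : delta (⇑Q) h0 m d = 1) (hdc : ¬ IsSquare ((mult (⇑Q) d : Fˣ) : F))
    (c : F) (hc : ¬ IsSquare c) (z : ↥(soSub (⇑Q))) (hz : spin Q c (soToO (⇑Q) z) = -1)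
    (γ : MulAut (Cfsg.POmega F ⇑Q)) (hzγ : soAut (⇑Q) z * γ = γ * soAut (⇑Q) z) :
    ∀ h ∈ dSub Q h0 m, ∃ k ∈ Cfsg.Inn (Cfsg.POmega F ⇑Q), ∃ c' : MulAut (Cfsg.POmega F ⇑Q),
      c' * γ = γ * c' ∧ (h = k * c' ∨ h = k * conjAut (⇑Q) d * c') := by
  have hsq : ∀ x : ↥(Cfsg.Geo.quadSimilarityGroup (⇑Q)), delta (⇑Q) h0 m x = 1 →
      IsSquare ((mult (⇑Q) x : Fˣ) : F) → ∃ k ∈ Cfsg.Inn (Cfsg.POmega F ⇑Q),
        ∃ c' : MulAut (Cfsg.POmega F ⇑Q), c' * γ = γ * c' ∧ conjAut (⇑Q) x = k * c' := by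
    intro x hx hxsq
    obtain ⟨y, hy, hxy⟩ := exists_so_of_data Q h0 m hm x hxsq hx
    have hy' : y ∈ soSub (⇑Q) := hy
    rcases so_decomp h2 Q hQ c hc z hz ⟨y, hy'⟩ with h | h
    · refine ⟨_, h, 1, by rw [one_mul, mul_one], ?_⟩
      rw [mul_one, hxy]
      rfl
    · refine ⟨_, h, soAut (⇑Q) z, hzγ, ?_⟩
      rw [hxy, ← map_mul, inv_mul_cancel_right]
      rfl
  intro h hh
  obtain ⟨x, hx, rfl⟩ := hh
  have hx' : delta (⇑Q) h0 m x = 1 := hx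
  by_cases hxsq : IsSquare ((mult (⇑Q) x : Fˣ) : F)
  · obtain ⟨k, hk, c', hc', hkc⟩ := hsq x hx' hxsq
    exact ⟨k, hk, c', hc', Or.inl hkc⟩
  · have hx'' : delta (⇑Q) h0 m (d⁻¹ * x) = 1 := by
      rw [map_mul, map_inv, hd, hx', inv_one, one_mul]
    have hsq' : IsSquare ((mult (⇑Q) (d⁻¹ * x) : Fˣ) : F) := by
      have h5 : mult (⇑Q) (d⁻¹ * x) = (mult (⇑Q) d)⁻¹ * mult (⇑Q) x := by
        rw [mult_mul (⇑Q) h0]
        congr 1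
        exact map_inv (multHom (⇑Q) h0) d
      rw [h5, Units.val_mul, Units.val_inv_eq_inv_val, mul_comm]
      exact isSquare_mul_inv_of_nonsq h2 _ _ hxsq hdc
    obtain ⟨k, hk, c', hc', hkc⟩ := hsq (d⁻¹ * x) hx'' hsq'
    have hnorm : (Cfsg.Inn (Cfsg.POmega F ⇑Q)).Normal := inferInstance
    refine ⟨conjAut (⇑Q) d * k * (conjAut (⇑Q) d)⁻¹, hnorm.conj_mem k hk _, c', hc', Or.inr ?_⟩
    have h6 : conjAut (⇑Q) x = conjAut (⇑Q) d * conjAut (⇑Q) (d⁻¹ * x) := by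
      rw [← map_mul, mul_inv_cancel_left]
    rw [h6, hkc]
    group

theorem soAut_comm (Q : QuadraticForm F (ι → F)) (z : ↥(Cfsg.isometryGroup F ⇑Q))
    (hdet : ((z : GL ι F) : Matrix ι ι F).det = 1) (G : ↥(Cfsg.Geo.quadSimilarityGroup (⇑Q)))
    (hcomm : ((G : GL ι F) : Matrix ι ι F) * ((z : GL ι F) : Matrix ι ι F) =
      ((z : GL ι F) : Matrix ι ι F) * ((G : GL ι F) : Matrix ι ι F)) :
    soAut (⇑Q) (ofO (⇑Q) z hdet) * conjAut (⇑Q) G =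
      conjAut (⇑Q) G * soAut (⇑Q) (ofO (⇑Q) z hdet) := by
  have h1 : ((ofO (⇑Q) z hdet : ↥(soSub (⇑Q))) : ↥(Cfsg.Geo.quadSimilarityGroup (⇑Q))) * G =
      G * ((ofO (⇑Q) z hdet : ↥(soSub (⇑Q))) : ↥(Cfsg.Geo.quadSimilarityGroup (⇑Q))) := by
    apply Subtype.ext
    apply Units.ext
    show ((z : GL ι F) : Matrix ι ι F) * ((G : GL ι F) : Matrix ι ι F) =
      ((G : GL ι F) : Matrix ι ι F) * ((z : GL ι F) : Matrix ι ι F)
    exact hcomm.symm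
  show conjAut (⇑Q) ((ofO (⇑Q) z hdet : ↥(soSub (⇑Q))) :
      ↥(Cfsg.Geo.quadSimilarityGroup (⇑Q))) * conjAut (⇑Q) G =
    conjAut (⇑Q) G * conjAut (⇑Q) ((ofO (⇑Q) z hdet : ↥(soSub (⇑Q))) :
      ↥(Cfsg.Geo.quadSimilarityGroup (⇑Q)))
  rw [← (conjAut (⇑Q)).map_mul, ← (conjAut (⇑Q)).map_mul, h1]

/-- `-1 ∈ Ω`: a graph automorphism does not commute, modulo inner automorphisms, with a
diagonal automorphism of non-square multiplier -/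
theorem graph_comm_not_inn (h2 : (2 : F) ≠ 0) (m : ℕ) (hm : Fintype.card ι = 2 * m)
    (hn : 6 ≤ Fintype.card ι) (Q : QuadraticForm F (ι → F))
    (hQ : (QuadraticMap.polarBilin Q).Nondegenerate) (h0 : ∃ v, (⇑Q) v ≠ 0)
    (d : ↥(Cfsg.Geo.quadSimilarityGroup (⇑Q))) (hd : delta (⇑Q) h0 m d = 1)
    (hdc : ¬ IsSquare ((mult (⇑Q) d : Fˣ) : F)) (hneg : negEl Q ∈ Cfsg.Omega F ⇑Q)
    (hab : ∀ a b : MulAut (Cfsg.POmega F ⇑Q), a ∈ dSub Q h0 m → b ∈ dSub Q h0 m →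
      a * b * a⁻¹ * b⁻¹ ∈ Cfsg.Inn (Cfsg.POmega F ⇑Q))
    (G : ↥(Cfsg.Geo.quadSimilarityGroup (⇑Q))) (hG : delta (⇑Q) h0 m G = -1) :
    conjAut (⇑Q) G * conjAut (⇑Q) d * (conjAut (⇑Q) G)⁻¹ * (conjAut (⇑Q) d)⁻¹ ∉
      Cfsg.Inn (Cfsg.POmega F ⇑Q) := by
  obtain ⟨v, hv⟩ := universal Q hQ (by omega) 1 one_ne_zero
  have hv0 : Q v ≠ 0 := by rw [hv]; exact one_ne_zero
  have hno := comm_not_inn h2 hn Q hQ d (mult (⇑Q) d) (mult_spec (⇑Q) d) hdc hneg v hv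
  obtain ⟨r, hr⟩ : ∃ r, r = reflSim Q v := ⟨_, rfl⟩
  rw [← hr] at hno
  have hrd : delta (⇑Q) h0 m r = -1 := by rw [hr]; exact (reflSim_data h2 Q h0 m v hv0).2
  obtain ⟨G', hG'⟩ : ∃ G', G' = G * r⁻¹ := ⟨_, rfl⟩
  have hG'd : delta (⇑Q) h0 m G' = 1 := by
    rw [hG', map_mul, map_inv, hG, hrd, mul_inv_cancel]
  have hGeq : G = G' * r := by rw [hG', inv_mul_cancel_right]
  have hnorm : (Cfsg.Inn (Cfsg.POmega F ⇑Q)).Normal := inferInstance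
  have hB := hab _ _ (mem_dSub Q h0 m G' hG'd) (mem_dSub Q h0 m d hd)
  intro hmem
  apply hno
  have hE : conjAut (⇑Q) (d * r * d⁻¹ * r⁻¹) =
      ((conjAut (⇑Q) G')⁻¹ * ((conjAut (⇑Q) G * conjAut (⇑Q) d * (conjAut (⇑Q) G)⁻¹ *
        (conjAut (⇑Q) d)⁻¹) * (conjAut (⇑Q) G' * conjAut (⇑Q) d * (conjAut (⇑Q) G')⁻¹ *
          (conjAut (⇑Q) d)⁻¹)⁻¹) * (conjAut (⇑Q) G')⁻¹⁻¹)⁻¹ := by
    rw [hGeq]
    simp only [(conjAut (⇑Q)).map_mul, (conjAut (⇑Q)).map_inv]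
    group
  rw [hE]
  exact (Cfsg.Inn (Cfsg.POmega F ⇑Q)).inv_mem (hnorm.conj_mem _
    ((Cfsg.Inn (Cfsg.POmega F ⇑Q)).mul_mem hmem ((Cfsg.Inn (Cfsg.POmega F ⇑Q)).inv_mem hB)) _)

/-- **splitting of the class of an involutory graph automorphism** -/
theorem graph_split (h2 : (2 : F) ≠ 0) (m : ℕ) (hm : Fintype.card ι = 2 * m) (h3 : 3 ≤ m)
    (Q : QuadraticForm F (ι → F)) (hQ : (QuadraticMap.polarBilin Q).Nondegenerate)
    (h0 : ∃ v, (⇑Q) v ≠ 0) (d : ↥(Cfsg.Geo.quadSimilarityGroup (⇑Q)))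
    (hd : delta (⇑Q) h0 m d = 1) (hdc : ¬ IsSquare ((mult (⇑Q) d : Fˣ) : F))
    (hab : negEl Q ∈ Cfsg.Omega F ⇑Q → ∀ a b : MulAut (Cfsg.POmega F ⇑Q), a ∈ dSub Q h0 m →
      b ∈ dSub Q h0 m → a * b * a⁻¹ * b⁻¹ ∈ Cfsg.Inn (Cfsg.POmega F ⇑Q))
    (G : ↥(Cfsg.Geo.quadSimilarityGroup (⇑Q))) (hG : delta (⇑Q) h0 m G ≠ 1)
    (hGG : conjAut (⇑Q) (G * G) = 1) :
    (Cfsg.splitClassCount (dSub Q h0 m) (Cfsg.Inn (Cfsg.POmega F ⇑Q)) (conjAut (⇑Q) G) = 1 ∨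
      Cfsg.splitClassCount (dSub Q h0 m) (Cfsg.Inn (Cfsg.POmega F ⇑Q)) (conjAut (⇑Q) G) = 2) ∧
    (negEl Q ∈ Cfsg.Omega F ⇑Q →
      Cfsg.splitClassCount (dSub Q h0 m) (Cfsg.Inn (Cfsg.POmega F ⇑Q)) (conjAut (⇑Q) G) = 2) := by
  have hn : 6 ≤ Fintype.card ι := by omega
  obtain ⟨c, hc⟩ := exists_nonsq (F := F) h2
  obtain ⟨lam, hlam⟩ := scalar_of_conjAut_eq_one h2 hn Q hQ (G * G) hGG
  have hgg : ∀ v, ((G : GL ι F) : Matrix ι ι F) *ᵥ (((G : GL ι F) : Matrix ι ι F) *ᵥ v) =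
      lam • v := by
    intro v
    rw [Matrix.mulVec_mulVec]
    exact hlam v
  obtain ⟨z, hzdet, hzspin, hzcomm⟩ := exists_cent h2 Q hQ m hm h3 G lam hgg c hc
  have hdec := dSub_decomp h2 m hm Q hQ h0 d hd hdc c hc (ofO (⇑Q) z hzdet)
    (by rw [soToO_ofO]; exact hzspin) (conjAut (⇑Q) G) (soAut_comm Q z hzdet G hzcomm)
  have hh₁ : conjAut (⇑Q) d ∈ dSub Q h0 m := mem_dSub Q h0 m d hd
  refine ⟨SC.split_one_or_two _ _ _ _ hh₁ hdec, fun hneg => ?_⟩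
  have hG' : delta (⇑Q) h0 m G = -1 := by
    rcases units_sq_one _ (delta_sq h2 Q hQ h0 m hm G) with h | h
    · exact absurd h hG
    · exact h
  exact SC.split_two _ _ _ _ hh₁ hdec
    (graph_comm_not_inn h2 m hm hn Q hQ h0 d hd hdc hneg (hab hneg) G hG')

end split

end Cfsg.Agent.Lib.helper13.OA
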