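import Mathlib
import Cfsg.Prelude.Def_LieTypeDatum
import Cfsg.Agent.Lib.helper13.QuadNormal
import Cfsg.Agent.Lib.helper4.OrthOddForm

set_option autoImplicit false
set_option linter.unusedSectionVars false
set_option linter.unusedVariables false
set_option linter.style.longLine false

/-!
Nondegenerate quadratic forms of odd dimension over a finite field (odd characteristic) are
similar to the standard form `x₀² + Σ xᵢ yᵢ`.
-/

namespace Cfsg.Agent.Lib.helper13.QO

open Cfsg.Agent.S2562 Cfsg.Agent.S2616 Cfsg.Agent.Lib.helper4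

universe u v

variable {F : Type u} [Field F]

/-- hyperbolic pairs and one anisotropic vector orthogonal to them -/
lemma odd_fam_main [Finite F] : ∀ (m : ℕ) {V : Type v} [AddCommGroup V] [Module F V]
    [FiniteDimensional F V] (Q : QuadraticForm F V), Module.finrank F V = 2 * m + 1 →
    (QuadraticMap.polarBilin Q).Nondegenerate →
    ∃ (e f : Fin m → V) (x : V), HypFam Q e f ∧
      (∀ i, QuadraticMap.polar Q (e i) x = 0 ∧ QuadraticMap.polar Q (f i) x = 0) ∧ Q x ≠ 0 := by
  intro m
  induction m with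
  | zero =>
    intro V _ _ _ Q hV hQ
    have hpos : 0 < Module.finrank F V := by omega
    obtain ⟨x, hx⟩ := Module.finrank_pos_iff_exists_ne_zero.mp hpos
    refine ⟨Fin.elim0, Fin.elim0, x, ⟨fun i => i.elim0, fun i => i.elim0, fun i => i.elim0⟩,
      fun i => i.elim0, ?_⟩
    intro h0
    apply hx
    apply hQ.1
    intro y
    obtain ⟨c, rfl⟩ := (finrank_eq_one_iff_of_nonzero' x hx).1 (by omega) y
    rw [QuadraticMap.polarBilin_apply_apply, QuadraticMap.polar_smul_right,
      QuadraticMap.polar_self, h0]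
    simp
  | succ m ih =>
    intro V _ _ _ Q hV hQ
    obtain ⟨e₀, he0, he⟩ := exists_singular Q (by omega)
    obtain ⟨f₀, hf, hef⟩ := exists_partner Q hQ e₀ he0 he
    have hfin := perp_finrank Q e₀ f₀ he hf hef
    have pe : ∀ x : perp Q e₀ f₀, QuadraticMap.polar Q e₀ x = 0 :=
      fun x => ((mem_perp Q e₀ f₀ x).mp x.2).1
    have pf : ∀ x : perp Q e₀ f₀, QuadraticMap.polar Q f₀ x = 0 :=
      fun x => ((mem_perp Q e₀ f₀ x).mp x.2).2
    obtain ⟨e', f', x, h', hort, hx⟩ := ih (res Q (perp Q e₀ f₀)) (by omega)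
      (perp_nondeg Q hQ e₀ f₀ he hf hef)
    refine ⟨_, _, (x : V), hyp_cons Q e₀ f₀ he hf hef e' f' h', ?_, ?_⟩
    · intro i
      refine Fin.cases ?_ (fun i' => ?_) i
      · simp [pe, pf]
      · have := hort i'
        simp only [polar_res] at this
        simpa using this
    · rw [← res_apply Q (perp Q e₀ f₀) x]
      exact hx

/-- normal form from such a family -/
lemma odd_normal {V : Type v} [AddCommGroup V] [Module F V] [FiniteDimensional F V]
    (h2 : (2 : F) ≠ 0) (Q : QuadraticForm F V) {m : ℕ} (hV : Module.finrank F V = 2 * m + 1)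
    (e f : Fin m → V) (x : V) (h : HypFam Q e f)
    (hx : ∀ i, QuadraticMap.polar Q (e i) x = 0 ∧ QuadraticMap.polar Q (f i) x = 0)
    (hQx : Q x ≠ 0) :
    ∃ T : V ≃ₗ[F] (Unit ⊕ (Fin m ⊕ Fin m) → F),
      ∀ v, Q v = Q x * Cfsg.quadFormOdd m F (T v) := by
  classical
  obtain ⟨h1, h2', h3⟩ := h
  obtain ⟨c, hc⟩ : ∃ c, c = Q x := ⟨_, rfl⟩
  have hcne : c ≠ 0 := by rw [hc]; exact hQx
  obtain ⟨bv, hbv⟩ : ∃ bv : Unit ⊕ (Fin m ⊕ Fin m) → V,
      bv = Sum.elim (fun _ => x) (Sum.elim (fun i => c • e i) f) := ⟨_, rfl⟩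
  obtain ⟨S, hS⟩ : ∃ S : (Unit ⊕ (Fin m ⊕ Fin m) → F) →ₗ[F] V,
      ∀ k, S (Pi.single k 1) = bv k :=
    ⟨(Pi.basisFun F _).constr F bv, fun k => by
      rw [← Pi.basisFun_apply, Module.Basis.constr_basis]⟩
  have hxe : ∀ i, QuadraticMap.polar Q x (e i) = 0 := fun i => by
    rw [QuadraticMap.polar_comm]; exact (hx i).1
  have hxf : ∀ i, QuadraticMap.polar Q x (f i) = 0 := fun i => by
    rw [QuadraticMap.polar_comm]; exact (hx i).2
  have hfe : ∀ i j, QuadraticMap.polar Q (f i) (e j) = if j = i then 1 else 0 := fun i j => by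
    rw [QuadraticMap.polar_comm]; exact h2' j i
  have key : Q.comp S = c • qOdd F m := by
    apply quad_ext_basis (Pi.basisFun F (Unit ⊕ (Fin m ⊕ Fin m)))
    · intro k
      rw [Pi.basisFun_apply, QuadraticMap.comp_apply, hS, QuadraticMap.smul_apply, qOdd_apply, hbv]
      rcases k with ⟨⟩ | i | i
      · simp [Cfsg.quadFormOdd, hc]
      · simp [Cfsg.quadFormOdd, QuadraticMap.map_smul, (h1 i).1]
      · simp [Cfsg.quadFormOdd, (h1 i).2]
    · intro k l
      rw [Pi.basisFun_apply, Pi.basisFun_apply, polar_comp', hS, hS, QuadraticMap.coeFn_smul,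
        QuadraticMap.polar_smul, qOdd_coe, polar_odd, hbv]
      rcases k with ⟨⟩ | i | i <;> rcases l with ⟨⟩ | j | j
      · simp [QuadraticMap.polar_self, hc]
        ring
      · simp [QuadraticMap.polar_smul_right, hxe]
      · simp [hxf]
      · simp [QuadraticMap.polar_smul_left, (hx i).1]
      · simp [QuadraticMap.polar_smul_left, QuadraticMap.polar_smul_right, (h3 i j).1]
      · simp [QuadraticMap.polar_smul_left, h2', Pi.single_apply]
        rcases eq_or_ne i j with rfl | hij
        · simp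
        · simp [hij, hij.symm]
      · simp [(hx i).2]
      · simp [QuadraticMap.polar_smul_right, hfe, Pi.single_apply]
        rcases eq_or_ne i j with rfl | hij
        · simp
        · simp [hij, hij.symm]
      · simp [(h3 i j).2]
  have hSinj : Function.Injective S := by
    rw [← LinearMap.ker_eq_bot, LinearMap.ker_eq_bot']
    intro w hw
    apply sep_qOdd h2 m w
    intro w'
    have h5 : QuadraticMap.polar (Q.comp S) w w' = 0 := by
      rw [polar_comp', hw]
      simp [QuadraticMap.polar]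
    rw [key, QuadraticMap.coeFn_smul, QuadraticMap.polar_smul, qOdd_coe, smul_eq_mul] at h5
    exact (mul_eq_zero.1 h5).resolve_left hcne
  obtain ⟨SE, hSE⟩ : ∃ SE : (Unit ⊕ (Fin m ⊕ Fin m) → F) ≃ₗ[F] V, ∀ w, SE w = S w :=
    ⟨LinearMap.linearEquivOfInjective S hSinj (by
      rw [Module.finrank_fintype_fun_eq_card, hV]
      simp only [Fintype.card_sum, Fintype.card_unit, Fintype.card_fin]
      omega), fun w => rfl⟩
  refine ⟨SE.symm, fun v => ?_⟩
  have h6 : Q v = (Q.comp S) (SE.symm v) := by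
    rw [QuadraticMap.comp_apply, ← hSE, LinearEquiv.apply_symm_apply]
  rw [h6, key, QuadraticMap.smul_apply, qOdd_apply, smul_eq_mul, hc]

/-- classification up to similarity in odd dimension -/
theorem odd_classify [Finite F] {V : Type v} [AddCommGroup V] [Module F V]
    [FiniteDimensional F V] (h2 : (2 : F) ≠ 0) {m : ℕ} (hV : Module.finrank F V = 2 * m + 1)
    (Q : QuadraticForm F V) (hQ : (QuadraticMap.polarBilin Q).Nondegenerate) :
    ∃ (c : F) (T : V ≃ₗ[F] (Unit ⊕ (Fin m ⊕ Fin m) → F)), c ≠ 0 ∧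
      ∀ v, Q v = c * Cfsg.quadFormOdd m F (T v) := by
  obtain ⟨e, f, x, h, hort, hx⟩ := odd_fam_main m Q hV hQ
  obtain ⟨T, hT⟩ := odd_normal h2 Q hV e f x h hort hx
  exact ⟨Q x, T, hx, hT⟩

end Cfsg.Agent.Lib.helper13.QO
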