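import Mathlib
import Cfsg.Prelude.Def_LieTypeDatum
import Cfsg.Agent.Lib.helper13.QuadOdd
import Cfsg.Agent.Lib.helper13.PSLnSplit2

set_option autoImplicit false
set_option linter.unusedSectionVars false
set_option linter.unusedVariables false
set_option linter.style.longLine false

/-!
Odd dimension, odd characteristic: symmetric invertible matrices over a finite field are congruent
up to scalars, and the corresponding projective similarity groups are those of the standard form.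
-/

namespace Cfsg.Agent.Lib.helper13.QO

open Matrix

variable {F : Type*} [Field F]

/-- there is no invertible skew-symmetric matrix of odd size in odd characteristic -/
theorem not_skew_odd (h2 : (2 : F) ≠ 0) {n m : ℕ} (hnm : n = 2 * m + 1) (g : GL (Fin n) F)
    (hg : (g : Matrix (Fin n) (Fin n) F)ᵀ = -(g : Matrix (Fin n) (Fin n) F)) : False := by
  have h5 := congrArg Matrix.det hg
  have hpow : (-1 : F) ^ n = -1 := by
    rw [hnm, pow_succ, pow_mul, neg_one_sq, one_pow, one_mul]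
  rw [Matrix.det_transpose, Matrix.det_neg, Fintype.card_fin, hpow] at h5
  have h6 : (2 : F) * (g : Matrix (Fin n) (Fin n) F).det = 0 := by linear_combination h5
  have h7 : (g : Matrix (Fin n) (Fin n) F).det ≠ 0 := by
    rw [← Matrix.GeneralLinearGroup.val_det_apply]
    exact Units.ne_zero _
  exact h7 ((mul_eq_zero.1 h6).resolve_left h2)

/-- the quadratic form of a symmetric invertible matrix of odd size -/
theorem odd_form [Finite F] (h2 : (2 : F) ≠ 0) {n m : ℕ} (hnm : n = 2 * m + 1)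
    (g : GL (Fin n) F) (hg : (g : Matrix (Fin n) (Fin n) F)ᵀ = g) :
    ∃ (c : F) (T : (Fin n → F) ≃ₗ[F] (Unit ⊕ (Fin m ⊕ Fin m) → F)), c ≠ 0 ∧
      ∀ v, v ⬝ᵥ ((g : Matrix (Fin n) (Fin n) F) *ᵥ v) = c * Cfsg.quadFormOdd m F (T v) := by
  have hfin : Module.finrank F (Fin n → F) = 2 * m + 1 := by
    rw [Module.finrank_fin_fun, hnm]
  obtain ⟨Q, hQ, hQnd⟩ := PN.sym_quad h2 g hg
  obtain ⟨c, T, hc, hT⟩ := odd_classify h2 hfin Q hQnd
  exact ⟨c, T, hc, fun v => by rw [← hQ]; exact hT v⟩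

theorem odd_pgo_iso [Finite F] (h2 : (2 : F) ≠ 0) {n m : ℕ} (hnm : n = 2 * m + 1)
    (g : GL (Fin n) F) (hg : (g : Matrix (Fin n) (Fin n) F)ᵀ = g) :
    Nonempty (Cfsg.PGO F (fun v : Fin n → F => v ⬝ᵥ ((g : Matrix (Fin n) (Fin n) F) *ᵥ v)) ≃*
      Cfsg.PGO F (Cfsg.quadFormOdd m F)) := by
  obtain ⟨c, T, hc, hT⟩ := odd_form h2 hnm g hg
  exact GF.pgo_congr
    (fun v : Fin n → F => v ⬝ᵥ ((g : Matrix (Fin n) (Fin n) F) *ᵥ v))
    (Cfsg.quadFormOdd m F) T c⁻¹ (inv_ne_zero hc)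
    (fun v => by rw [hT, ← mul_assoc, inv_mul_cancel₀ hc, one_mul])

theorem odd_conj [Finite F] (h2 : (2 : F) ≠ 0) {n m : ℕ} (hnm : n = 2 * m + 1)
    (g g' : GL (Fin n) F) (hg : (g : Matrix (Fin n) (Fin n) F)ᵀ = g)
    (hg' : (g' : Matrix (Fin n) (Fin n) F)ᵀ = g') :
    Cfsg.IsConjUnder (Cfsg.inndiagPSL n F) (PN.gam g) (PN.gam g') := by
  obtain ⟨c, T, hc, hT⟩ := odd_form h2 hnm g hg
  obtain ⟨c', T', hc', hT'⟩ := odd_form h2 hnm g' hg'
  have h3 : ∀ v : Fin n → F, v ⬝ᵥ ((g : Matrix (Fin n) (Fin n) F) *ᵥ v) =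
      (c * c'⁻¹) * ((T.trans T'.symm v) ⬝ᵥ ((g' : Matrix (Fin n) (Fin n) F) *ᵥ
        (T.trans T'.symm v))) := by
    intro v
    rw [hT', LinearEquiv.trans_apply, LinearEquiv.apply_symm_apply, hT]
    field_simp
  obtain ⟨A, hA⟩ := PN.congr_of_quad_eq h2 g g' hg hg' (T.trans T'.symm) (c * c'⁻¹) h3
  exact PN.conj_of_congr g g' A (Units.mk0 (c * c'⁻¹) (mul_ne_zero hc (inv_ne_zero hc'))) hA

end Cfsg.Agent.Lib.helper13.QO
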