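import Mathlib
import Cfsg.Agent.Lib.helper13.PSUBasic
import Cfsg.Agent.Lib.helper4.UThree

set_option autoImplicit false
set_option linter.unusedSectionVars false
set_option linter.unusedVariables false
set_option linter.style.longLine false

/-!
Transvection classes in `PSU_n(q)` and automorphisms permuting the transvection groups.
-/

namespace Cfsg.Agent.Lib.helper13.PU

open Matrix
open Cfsg.Agent.Lib.helper4

variable {F : Type*} [Field F] [Fintype F] {q n : ℕ}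

theorem exists_herm_ne (hF : Fintype.card F = q ^ 2) {v : Fin n → F} (hv0 : v ≠ 0) :
    ∃ x : Fin n → F, Cfsg.hermForm n F q x v ≠ 0 := by
  by_contra hcon
  push Not at hcon
  exact hv0 (herm_nondeg hF v (fun y => herm_zero_of_symm hF (hcon y)))

theorem smul_eq_zero_vec {v : Fin n → F} (hv : v ≠ 0) {c : F} (h : c • v = 0) : c = 0 :=
  (smul_eq_zero.mp h).resolve_right hv

theorem iso_smul (hF : Fintype.card F = q ^ 2) {v : Fin n → F}
    (hv : Cfsg.hermForm n F q v v = 0) (l : F) : Cfsg.hermForm n F q (l • v) (l • v) = 0 := by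
  rw [herm_smul_left, herm_smul_right, hv, mul_zero, mul_zero]

theorem k0_neg (hF : Fintype.card F = q ^ 2) {c : F} (hc : c + c ^ q = 0) : -c + (-c) ^ q = 0 := by
  rw [frob_neg hF]; linear_combination -hc

theorem k0_add (hF : Fintype.card F = q ^ 2) {a b : F} (ha : a + a ^ q = 0) (hb : b + b ^ q = 0) :
    (a + b) + (a + b) ^ q = 0 := by
  rw [frob_add hF]; linear_combination ha + hb

theorem k0_sub (hF : Fintype.card F = q ^ 2) {a b : F} (ha : a + a ^ q = 0) (hb : b + b ^ q = 0) :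
    (a - b) + (a - b) ^ q = 0 := by
  rw [frob_sub hF]; linear_combination ha - hb

theorem k0_zero (hF : Fintype.card F = q ^ 2) : (0 : F) + (0 : F) ^ q = 0 := by
  have hq := uq_ge_two hF
  rw [zero_pow (by omega), add_zero]

/-- the class of a unitary transvection -/
noncomputable def tvb (hF : Fintype.card F = q ^ 2) (v : Fin n → F) (c : F) : Cfsg.PSU n F q :=
  QuotientGroup.mk (utvSU hF v c)

theorem tvb_zero (hF : Fintype.card F = q ^ 2) (v : Fin n → F) : tvb hF v (0 : F) = 1 := by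
  unfold tvb
  rw [utvSU_zero hF]
  rfl

theorem tvb_of_not (hF : Fintype.card F = q ^ 2) (v : Fin n → F) (c : F)
    (h : ¬ (Cfsg.hermForm n F q v v = 0 ∧ c + c ^ q = 0)) : tvb hF v c = 1 := by
  unfold tvb
  rw [utvSU_of_not hF v c h]
  rfl

theorem tvb_add (hF : Fintype.card F = q ^ 2) (v : Fin n → F) (a b : F)
    (hv : Cfsg.hermForm n F q v v = 0) (ha : a + a ^ q = 0) (hb : b + b ^ q = 0) :
    tvb hF v (a + b) = tvb hF v a * tvb hF v b := by
  unfold tvb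
  rw [← utvSU_add hF v a b hv ha hb]
  rfl

theorem tvb_inv (hF : Fintype.card F = q ^ 2) (v : Fin n → F) (a : F)
    (hv : Cfsg.hermForm n F q v v = 0) (ha : a + a ^ q = 0) :
    (tvb hF v a)⁻¹ = tvb hF v (-a) := by
  rw [inv_eq_iff_mul_eq_one, ← tvb_add hF v a (-a) hv ha (k0_neg hF ha), add_neg_cancel, tvb_zero]

theorem conj_utv (hF : Fintype.card F = q ^ 2) (g : Cfsg.SU n F q) (v : Fin n → F) (c : F) :
    g * utvSU hF v c * g⁻¹ = utvSU hF (suM g *ᵥ v) c := by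
  by_cases h : Cfsg.hermForm n F q v v = 0 ∧ c + c ^ q = 0
  · rw [utvSU_conj hF g v c h.1 h.2, mul_assoc, mul_inv_cancel, mul_one]
  · rw [utvSU_of_not hF v c h, utvSU_of_not hF _ c (by rw [su_pres g]; exact h), mul_one,
      mul_inv_cancel]

theorem conj_tvb (hF : Fintype.card F = q ^ 2) (g : Cfsg.SU n F q) (v : Fin n → F) (c : F) :
    (QuotientGroup.mk g : Cfsg.PSU n F q) * tvb hF v c * (QuotientGroup.mk g)⁻¹ =
      tvb hF (suM g *ᵥ v) c := by
  unfold tvb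
  rw [← conj_utv hF g v c]
  rfl

theorem tvb_eq_one (hF : Fintype.card F = q ^ 2) (hn : 2 ≤ n) {v : Fin n → F} (hv0 : v ≠ 0)
    (hv : Cfsg.hermForm n F q v v = 0) {c : F} (hc : c + c ^ q = 0) (h : tvb hF v c = 1) :
    c = 0 := by
  have h1 : (QuotientGroup.mk (1 : Cfsg.SU n F q) : Cfsg.PSU n F q) =
      QuotientGroup.mk (utvSU hF v c) := h.symm
  rw [mk_eq_iff hF hn] at h1
  obtain ⟨ζ, hζ⟩ := h1
  have h2 := hζ v
  rw [utvSU_mulVec hF v c hv hc, hv, mul_zero, zero_smul, add_zero, suM_one, Matrix.one_mulVec] at h2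
  have hζ1 : ζ = 1 := by
    have h3 : (ζ - 1) • v = 0 := by rw [sub_smul, one_smul, ← h2, sub_self]
    have := smul_eq_zero_vec hv0 h3
    linear_combination this
  obtain ⟨x, hx⟩ := exists_herm_ne hF hv0
  have h4 := hζ x
  rw [utvSU_mulVec hF v c hv hc, hζ1, one_smul, suM_one, Matrix.one_mulVec] at h4
  have h5 : (c * Cfsg.hermForm n F q x v) • v = 0 := by
    have : x + (c * Cfsg.hermForm n F q x v) • v = x + 0 := by rw [add_zero]; exact h4
    exact add_left_cancel this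
  have h6 := smul_eq_zero_vec hv0 h5
  exact (mul_eq_zero.mp h6).resolve_right hx

theorem tvb_inj (hF : Fintype.card F = q ^ 2) (hn : 2 ≤ n) {v : Fin n → F} (hv0 : v ≠ 0)
    (hv : Cfsg.hermForm n F q v v = 0) {a b : F} (ha : a + a ^ q = 0) (hb : b + b ^ q = 0)
    (h : tvb hF v a = tvb hF v b) : a = b := by
  have h1 : tvb hF v (a - b) = 1 := by
    rw [sub_eq_add_neg, tvb_add hF v a (-b) hv ha (k0_neg hF hb), ← tvb_inv hF v b hv hb, h,
      mul_inv_cancel]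
  have := tvb_eq_one hF hn hv0 hv (k0_sub hF ha hb) h1
  linear_combination this

/-- equal transvection classes have proportional centres -/
theorem tvb_eq_imp (hF : Fintype.card F = q ^ 2) (hn : 2 ≤ n) {v w : Fin n → F} (hv0 : v ≠ 0)
    (hv : Cfsg.hermForm n F q v v = 0) (hw : Cfsg.hermForm n F q w w = 0) {a b : F}
    (ha0 : a ≠ 0) (ha : a + a ^ q = 0) (hb : b + b ^ q = 0) (h : tvb hF v a = tvb hF w b) :
    ∃ t : F, w = t • v := by
  have h1 : (QuotientGroup.mk (utvSU hF v a) : Cfsg.PSU n F q) =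
      QuotientGroup.mk (utvSU hF w b) := h
  rw [mk_eq_iff hF hn] at h1
  obtain ⟨ζ, hζ⟩ := h1
  have hx : ∀ x, x + (b * Cfsg.hermForm n F q x w) • w =
      ζ • (x + (a * Cfsg.hermForm n F q x v) • v) := by
    intro x
    have := hζ x
    rwa [utvSU_mulVec hF w b hw hb, utvSU_mulVec hF v a hv ha] at this
  have h2 := hx v
  rw [hv, mul_zero, zero_smul, add_zero] at h2
  by_cases hb0 : b * Cfsg.hermForm n F q v w = 0
  · rw [hb0, zero_smul, add_zero] at h2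
    have hζ1 : ζ = 1 := by
      have h3 : (ζ - 1) • v = 0 := by rw [sub_smul, one_smul, ← h2, sub_self]
      have := smul_eq_zero_vec hv0 h3
      linear_combination this
    obtain ⟨x, hx0⟩ := exists_herm_ne hF hv0
    have h4 := hx x
    rw [hζ1, one_smul] at h4
    have h5 : (b * Cfsg.hermForm n F q x w) • w = (a * Cfsg.hermForm n F q x v) • v :=
      add_left_cancel h4
    have h6 : a * Cfsg.hermForm n F q x v ≠ 0 := mul_ne_zero ha0 hx0
    have h7 : b * Cfsg.hermForm n F q x w ≠ 0 := by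
      intro h0
      rw [h0, zero_smul] at h5
      exact h6 (smul_eq_zero_vec hv0 h5.symm)
    refine ⟨(b * Cfsg.hermForm n F q x w)⁻¹ * (a * Cfsg.hermForm n F q x v), ?_⟩
    rw [← smul_smul, ← h5, smul_smul, inv_mul_cancel₀ h7, one_smul]
  · refine ⟨(b * Cfsg.hermForm n F q v w)⁻¹ * (ζ - 1), ?_⟩
    have h3 : (b * Cfsg.hermForm n F q v w) • w = (ζ - 1) • v := by
      rw [sub_smul, one_smul, ← h2]; abel
    rw [← smul_smul, ← h3, smul_smul, inv_mul_cancel₀ hb0, one_smul]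

theorem tvb_smul (hF : Fintype.card F = q ^ 2) (v : Fin n → F) (l c : F)
    (hv : Cfsg.hermForm n F q v v = 0) (hc : c + c ^ q = 0) :
    tvb hF (l • v) c = tvb hF v (c * l ^ (q + 1)) := by
  unfold tvb
  rw [utvSU_smul hF v l c hv hc]

theorem k0_mul_norm (hF : Fintype.card F = q ^ 2) {c : F} (hc : c + c ^ q = 0) (l : F) :
    c * l ^ (q + 1) + (c * l ^ (q + 1)) ^ q = 0 := by
  rw [mul_pow, unorm_fixed hF]; linear_combination (l ^ (q + 1)) * hc

theorem range_tvb_smul (hF : Fintype.card F = q ^ 2) (v : Fin n → F)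
    (hv : Cfsg.hermForm n F q v v = 0) {l : F} (hl : l ≠ 0) :
    Set.range (tvb hF (l • v)) = Set.range (tvb hF v) := by
  have hN : l ^ (q + 1) ≠ 0 := pow_ne_zero _ hl
  ext x
  constructor
  · rintro ⟨c, rfl⟩
    by_cases hc : c + c ^ q = 0
    · exact ⟨c * l ^ (q + 1), (tvb_smul hF v l c hv hc).symm⟩
    · refine ⟨0, ?_⟩
      rw [tvb_zero, tvb_of_not hF _ c (fun h => hc h.2)]
  · rintro ⟨c, rfl⟩
    by_cases hc : c + c ^ q = 0
    · have hc' : c / l ^ (q + 1) + (c / l ^ (q + 1)) ^ q = 0 := by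
        rw [div_pow, unorm_fixed hF]
        field_simp
        linear_combination hc
      refine ⟨c / l ^ (q + 1), ?_⟩
      rw [tvb_smul hF v l _ hv hc', div_mul_cancel₀ _ hN]
    · refine ⟨0, ?_⟩
      rw [tvb_zero, tvb_of_not hF _ c (fun h => hc h.2)]

theorem utv_comm_of_perp (hF : Fintype.card F = q ^ 2) {v w : Fin n → F}
    (hv : Cfsg.hermForm n F q v v = 0) (hw : Cfsg.hermForm n F q w w = 0)
    (hvw : Cfsg.hermForm n F q v w = 0) {a b : F} (ha : a + a ^ q = 0) (hb : b + b ^ q = 0) :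
    utvSU hF v a * utvSU hF w b = utvSU hF w b * utvSU hF v a := by
  have hwv := herm_zero_of_symm hF hvw
  apply su_ext
  intro x
  rw [suM_mul, suM_mul, ← Matrix.mulVec_mulVec, ← Matrix.mulVec_mulVec,
    utvSU_mulVec hF w b hw hb, utvSU_mulVec hF v a hv ha, utvSU_mulVec hF v a hv ha,
    utvSU_mulVec hF w b hw hb]
  simp only [herm_add_left, herm_smul_left, hvw, hwv, mul_zero, add_zero]
  module

theorem tvb_comm_iff (hF : Fintype.card F = q ^ 2) (hn : 2 ≤ n) {v w : Fin n → F}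
    (hv0 : v ≠ 0) (hv : Cfsg.hermForm n F q v v = 0) (hw0 : w ≠ 0)
    (hw : Cfsg.hermForm n F q w w = 0) {a b : F} (ha0 : a ≠ 0) (ha : a + a ^ q = 0)
    (hb0 : b ≠ 0) (hb : b + b ^ q = 0) :
    tvb hF v a * tvb hF w b = tvb hF w b * tvb hF v a ↔ Cfsg.hermForm n F q v w = 0 := by
  constructor
  · intro h
    have h1 : tvb hF v a * tvb hF w b * (tvb hF v a)⁻¹ = tvb hF w b := by
      rw [h, mul_assoc, mul_inv_cancel, mul_one]
    have h2 : tvb hF (suM (utvSU hF v a) *ᵥ w) b = tvb hF w b := by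
      rw [← conj_tvb hF (utvSU hF v a) w b]
      exact h1
    have hw' : Cfsg.hermForm n F q (suM (utvSU hF v a) *ᵥ w) (suM (utvSU hF v a) *ᵥ w) = 0 := by
      rw [su_pres, hw]
    obtain ⟨t, ht⟩ := tvb_eq_imp hF hn hw0 hw hw' hb0 hb hb h2.symm
    rw [utvSU_mulVec hF v a hv ha] at ht
    by_contra hne
    have hwv : Cfsg.hermForm n F q w v ≠ 0 := fun h0 => hne (herm_zero_of_symm hF h0)
    have h3 : (a * Cfsg.hermForm n F q w v) • v = (t - 1) • w := by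
      rw [sub_smul, one_smul, ← ht]; abel
    have h4 : a * Cfsg.hermForm n F q w v ≠ 0 := mul_ne_zero ha0 hwv
    have h5 : v = ((a * Cfsg.hermForm n F q w v)⁻¹ * (t - 1)) • w := by
      rw [← smul_smul, ← h3, smul_smul, inv_mul_cancel₀ h4, one_smul]
    apply hwv
    rw [h5, herm_smul_right, hw, mul_zero]
  · intro h
    unfold tvb
    rw [← QuotientGroup.mk_mul, ← QuotientGroup.mk_mul, utv_comm_of_perp hF hv hw h ha hb]

/-! ### transvection groups under automorphisms -/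

/-- `α` maps the transvection group of `v` onto that of `w` -/
def TG (hF : Fintype.card F = q ^ 2) (α : MulAut (Cfsg.PSU n F q)) (v w : Fin n → F) : Prop :=
  (v ≠ 0 ∧ Cfsg.hermForm n F q v v = 0) ∧ (w ≠ 0 ∧ Cfsg.hermForm n F q w w = 0) ∧
    α '' Set.range (tvb hF v) = Set.range (tvb hF w)

theorem mem_range_tvb (hF : Fintype.card F = q ^ 2) {w : Fin n → F} {x : Cfsg.PSU n F q}
    (hx : x ∈ Set.range (tvb hF w)) : ∃ b : F, b + b ^ q = 0 ∧ x = tvb hF w b := by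
  obtain ⟨b, rfl⟩ := hx
  by_cases hb : b + b ^ q = 0
  · exact ⟨b, hb, rfl⟩
  · exact ⟨0, k0_zero hF, by rw [tvb_zero, tvb_of_not hF _ b (fun h => hb h.2)]⟩

theorem TG.elt {hF : Fintype.card F = q ^ 2} {α : MulAut (Cfsg.PSU n F q)} {v w : Fin n → F}
    (h : TG hF α v w) (a : F) : ∃ b : F, b + b ^ q = 0 ∧ α (tvb hF v a) = tvb hF w b := by
  have h1 : α (tvb hF v a) ∈ α '' Set.range (tvb hF v) := ⟨_, ⟨a, rfl⟩, rfl⟩
  rw [h.2.2] at h1
  exact mem_range_tvb hF h1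

theorem TG.elt_ne {hF : Fintype.card F = q ^ 2} (hn : 2 ≤ n) {α : MulAut (Cfsg.PSU n F q)}
    {v w : Fin n → F} (h : TG hF α v w) {a : F} (ha0 : a ≠ 0) (ha : a + a ^ q = 0) :
    ∃ b : F, b ≠ 0 ∧ b + b ^ q = 0 ∧ α (tvb hF v a) = tvb hF w b := by
  obtain ⟨b, hb, e⟩ := h.elt a
  refine ⟨b, ?_, hb, e⟩
  rintro rfl
  rw [tvb_zero] at e
  have h2 : α (tvb hF v a) = α 1 := by rw [e, map_one]
  exact ha0 (tvb_eq_one hF hn h.1.1 h.1.2 ha (α.injective h2))

theorem TG.perp {hF : Fintype.card F = q ^ 2} (hn : 2 ≤ n) {α : MulAut (Cfsg.PSU n F q)}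
    {v v' w w' : Fin n → F} (h₁ : TG hF α v v') (h₂ : TG hF α w w') :
    Cfsg.hermForm n F q v w = 0 ↔ Cfsg.hermForm n F q v' w' = 0 := by
  obtain ⟨κ, hκ0, hκ⟩ := exists_trace_zero hF
  obtain ⟨a, ha0, ha, ea⟩ := h₁.elt_ne hn hκ0 hκ
  obtain ⟨b, hb0, hb, eb⟩ := h₂.elt_ne hn hκ0 hκ
  rw [← tvb_comm_iff hF hn h₁.1.1 h₁.1.2 h₂.1.1 h₂.1.2 hκ0 hκ hκ0 hκ,
    ← tvb_comm_iff hF hn h₁.2.1.1 h₁.2.1.2 h₂.2.1.1 h₂.2.1.2 ha0 ha hb0 hb, ← ea, ← eb,
    ← map_mul, ← map_mul]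
  exact ⟨fun h => by rw [h], fun h => α.injective h⟩

theorem TG.par {hF : Fintype.card F = q ^ 2} (hn : 2 ≤ n) {α : MulAut (Cfsg.PSU n F q)}
    {v w w₂ : Fin n → F} (h₁ : TG hF α v w) (h₂ : TG hF α v w₂) : ∃ d : F, w₂ = d • w := by
  obtain ⟨κ, hκ0, hκ⟩ := exists_trace_zero hF
  have h3 : tvb hF w κ ∈ Set.range (tvb hF w₂) := by
    rw [← h₂.2.2, h₁.2.2]
    exact ⟨κ, rfl⟩
  obtain ⟨b, hb, e⟩ := mem_range_tvb hF h3
  exact tvb_eq_imp hF hn h₁.2.1.1 h₁.2.1.2 h₂.2.1.2 hκ0 hκ hb e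

theorem TG.of_smul {hF : Fintype.card F = q ^ 2} {α : MulAut (Cfsg.PSU n F q)} {v w : Fin n → F}
    (h : TG hF α v w) {d : F} (hd : d ≠ 0) : TG hF α v (d • w) := by
  refine ⟨h.1, ⟨smul_ne_zero hd h.2.1.1, iso_smul hF h.2.1.2 d⟩, ?_⟩
  rw [h.2.2, range_tvb_smul hF w h.2.1.2 hd]

theorem TG.smul_left {hF : Fintype.card F = q ^ 2} {α : MulAut (Cfsg.PSU n F q)} {v w : Fin n → F}
    (h : TG hF α v w) {d : F} (hd : d ≠ 0) : TG hF α (d • v) w := by
  refine ⟨⟨smul_ne_zero hd h.1.1, iso_smul hF h.1.2 d⟩, h.2.1, ?_⟩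
  rw [range_tvb_smul hF v h.1.2 hd, h.2.2]

theorem su_mulVec_ne (g : Cfsg.SU n F q) {x : Fin n → F} (hx : x ≠ 0) : suM g *ᵥ x ≠ 0 := by
  intro h
  apply hx
  have := suM_inv_mulVec g x
  rw [h, Matrix.mulVec_zero] at this
  exact this.symm

theorem range_conj (hF : Fintype.card F = q ^ 2) (g : Cfsg.SU n F q) (v : Fin n → F) :
    (fun x : Cfsg.PSU n F q => (QuotientGroup.mk g : Cfsg.PSU n F q) * x * (QuotientGroup.mk g)⁻¹) ''
      Set.range (tvb hF v) = Set.range (tvb hF (suM g *ᵥ v)) := by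
  ext x
  constructor
  · rintro ⟨_, ⟨c, rfl⟩, rfl⟩
    exact ⟨c, (conj_tvb hF g v c).symm⟩
  · rintro ⟨c, rfl⟩
    exact ⟨tvb hF v c, ⟨c, rfl⟩, conj_tvb hF g v c⟩

theorem TG.conj {hF : Fintype.card F = q ^ 2} {α : MulAut (Cfsg.PSU n F q)} {v w : Fin n → F}
    (h : TG hF α v w) (g g' : Cfsg.SU n F q)
    (hg : α (QuotientGroup.mk g) = QuotientGroup.mk g') :
    TG hF α (suM g *ᵥ v) (suM g' *ᵥ w) := by
  refine ⟨⟨su_mulVec_ne g h.1.1, by rw [su_pres, h.1.2]⟩,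
    ⟨su_mulVec_ne g' h.2.1.1, by rw [su_pres, h.2.1.2]⟩, ?_⟩
  rw [← range_conj hF g v, ← range_conj hF g' w, ← h.2.2]
  ext x
  constructor
  · rintro ⟨_, ⟨y, hy, rfl⟩, rfl⟩
    refine ⟨α y, ⟨y, hy, rfl⟩, ?_⟩
    rw [map_mul, map_mul, map_inv, hg]
  · rintro ⟨_, ⟨y, hy, rfl⟩, rfl⟩
    refine ⟨_, ⟨y, hy, rfl⟩, ?_⟩
    rw [map_mul, map_mul, map_inv, hg]

theorem TG.mul {hF : Fintype.card F = q ^ 2} {α β : MulAut (Cfsg.PSU n F q)} {v w u : Fin n → F}
    (h₁ : TG hF α v w) (h₂ : TG hF β w u) : TG hF (β * α) v u := by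
  refine ⟨h₁.1, h₂.2.1, ?_⟩
  rw [← h₂.2.2, ← h₁.2.2, ← Set.image_comp]
  rfl

theorem TG.inv {hF : Fintype.card F = q ^ 2} {α : MulAut (Cfsg.PSU n F q)} {v w : Fin n → F}
    (h : TG hF α v w) : TG hF α⁻¹ w v := by
  refine ⟨h.2.1, h.1, ?_⟩
  rw [← h.2.2, ← Set.image_comp]
  have : (⇑α⁻¹ ∘ ⇑α) = id := by
    funext x
    show α⁻¹ (α x) = x
    exact α.symm_apply_apply x
  rw [this, Set.image_id]

theorem TG_one (hF : Fintype.card F = q ^ 2) {v : Fin n → F} (hv0 : v ≠ 0)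
    (hv : Cfsg.hermForm n F q v v = 0) : TG hF (1 : MulAut (Cfsg.PSU n F q)) v v := by
  refine ⟨⟨hv0, hv⟩, ⟨hv0, hv⟩, ?_⟩
  show (fun x => x) '' _ = _
  rw [Set.image_id']

theorem TG_conjSU (hF : Fintype.card F = q ^ 2) (A : Cfsg.SU n F q) {v : Fin n → F} (hv0 : v ≠ 0)
    (hv : Cfsg.hermForm n F q v v = 0) :
    TG hF (conjAut (suToGU A)) v (suM A *ᵥ v) := by
  refine ⟨⟨hv0, hv⟩, ⟨su_mulVec_ne A hv0, by rw [su_pres, hv]⟩, ?_⟩
  rw [← range_conj hF A v]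
  apply Set.image_congr
  intro x _
  exact conjAut_suToGU A x

end Cfsg.Agent.Lib.helper13.PU
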