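import Mathlib
import Cfsg.Agent.Lib.helper13.PSUTv

set_option autoImplicit false
set_option linter.unusedSectionVars false
set_option linter.unusedVariables false
set_option linter.style.longLine false

/-!
Siegel elements `x ↦ x + h(x,e) b - h(x,b) e + d h(x,e) e` of `SU_n(q)` and hyperbolic pairs.
-/

namespace Cfsg.Agent.Lib.helper13.PU

open Matrix
open Cfsg.Agent.Lib.helper4

variable {F : Type*} [Field F] [Fintype F] {q n : ℕ}

/-- the matrix of the Siegel element -/
noncomputable def sgM (q : ℕ) (e b : Fin n → F) (d : F) : Mn n F :=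
  (1 + (1 : F) • Matrix.vecMulVec (b + d • e) (fun j => e j ^ q)) *
    (1 + (-1 : F) • Matrix.vecMulVec e (fun j => b j ^ q))

theorem sgM_mulVec (e b : Fin n → F) (d : F) (he : Cfsg.hermForm n F q e e = 0) (x : Fin n → F) :
    sgM q e b d *ᵥ x = x + Cfsg.hermForm n F q x e • b - Cfsg.hermForm n F q x b • e +
      (d * Cfsg.hermForm n F q x e) • e := by
  unfold sgM
  rw [← Matrix.mulVec_mulVec, rk1_mulVec, rk1_mulVec, herm_add_left, herm_smul_left, he]
  module

theorem sgM_det (hF : Fintype.card F = q ^ 2) (e b : Fin n → F) (d : F)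
    (he : Cfsg.hermForm n F q e e = 0) (hbe : Cfsg.hermForm n F q b e = 0) :
    (sgM q e b d).det = 1 := by
  have heb := herm_zero_of_symm hF hbe
  unfold sgM
  rw [Matrix.det_mul, rk1_det, rk1_det, herm_add_left, herm_smul_left, he, hbe, heb]
  ring

theorem sgM_pres (hF : Fintype.card F = q ^ 2) (e b : Fin n → F) (d : F)
    (he : Cfsg.hermForm n F q e e = 0) (hbe : Cfsg.hermForm n F q b e = 0)
    (hd : d + d ^ q + Cfsg.hermForm n F q b b = 0) (u v : Fin n → F) :
    Cfsg.hermForm n F q (sgM q e b d *ᵥ u) (sgM q e b d *ᵥ v) = Cfsg.hermForm n F q u v := by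
  have heb := herm_zero_of_symm hF hbe
  rw [sgM_mulVec e b d he, sgM_mulVec e b d he]
  simp only [herm_add_left, herm_sub_left, herm_add_right hF, herm_sub_right hF, herm_smul_left,
    herm_smul_right, he, hbe, heb, mul_pow]
  rw [herm_symm hF v e, herm_symm hF v b]
  linear_combination (Cfsg.hermForm n F q u e * Cfsg.hermForm n F q e v) * hd

/-- the Siegel element as an element of `SU` (equal to `1` for invalid parameters) -/
noncomputable def sg (hF : Fintype.card F = q ^ 2) (e b : Fin n → F) (d : F) : Cfsg.SU n F q :=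
  open Classical in
  if h : Cfsg.hermForm n F q e e = 0 ∧ Cfsg.hermForm n F q b e = 0 ∧
      d + d ^ q + Cfsg.hermForm n F q b b = 0 then
    ⟨⟨sgM q e b d, sgM_det hF e b d h.1 h.2.1⟩, (mem_SU_iff _).mpr (fun x y => by
      show Cfsg.hermForm n F q (sgM q e b d *ᵥ x) (sgM q e b d *ᵥ y) = _
      exact sgM_pres hF e b d h.1 h.2.1 h.2.2 x y)⟩
  else 1

theorem sg_mulVec (hF : Fintype.card F = q ^ 2) (e b : Fin n → F) (d : F)
    (he : Cfsg.hermForm n F q e e = 0) (hbe : Cfsg.hermForm n F q b e = 0)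
    (hd : d + d ^ q + Cfsg.hermForm n F q b b = 0) (x : Fin n → F) :
    suM (sg hF e b d) *ᵥ x = x + Cfsg.hermForm n F q x e • b - Cfsg.hermForm n F q x b • e +
      (d * Cfsg.hermForm n F q x e) • e := by
  unfold sg
  rw [dif_pos ⟨he, hbe, hd⟩]
  exact sgM_mulVec e b d he x

theorem sg_mul (hF : Fintype.card F = q ^ 2) (e b b' : Fin n → F) (d d' : F)
    (he : Cfsg.hermForm n F q e e = 0) (hbe : Cfsg.hermForm n F q b e = 0)
    (hd : d + d ^ q + Cfsg.hermForm n F q b b = 0) (hbe' : Cfsg.hermForm n F q b' e = 0)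
    (hd' : d' + d' ^ q + Cfsg.hermForm n F q b' b' = 0) :
    (Cfsg.hermForm n F q (b + b') e = 0 ∧
      (d + d' - Cfsg.hermForm n F q b' b) + (d + d' - Cfsg.hermForm n F q b' b) ^ q +
        Cfsg.hermForm n F q (b + b') (b + b') = 0) ∧
    sg hF e b d * sg hF e b' d' = sg hF e (b + b') (d + d' - Cfsg.hermForm n F q b' b) := by
  have heb := herm_zero_of_symm hF hbe
  have heb' := herm_zero_of_symm hF hbe'
  have h1 : Cfsg.hermForm n F q (b + b') e = 0 := by rw [herm_add_left, hbe, hbe', add_zero]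
  have h2 : (d + d' - Cfsg.hermForm n F q b' b) + (d + d' - Cfsg.hermForm n F q b' b) ^ q +
      Cfsg.hermForm n F q (b + b') (b + b') = 0 := by
    rw [frob_sub hF, frob_add hF, herm_symm hF b' b]
    simp only [herm_add_left, herm_add_right hF]
    linear_combination hd + hd'
  refine ⟨⟨h1, h2⟩, ?_⟩
  apply su_ext
  intro x
  rw [suM_mul, ← Matrix.mulVec_mulVec, sg_mulVec hF e b' d' he hbe' hd', sg_mulVec hF e b d he hbe hd,
    sg_mulVec hF e (b + b') _ he h1 h2]
  simp only [herm_add_left, herm_sub_left, herm_add_right hF, herm_smul_left, he, hbe', heb, mul_zero,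
    add_zero, sub_zero]
  module

theorem sg_zero (hF : Fintype.card F = q ^ 2) (e : Fin n → F) (c : F)
    (he : Cfsg.hermForm n F q e e = 0) (hc : c + c ^ q = 0) : sg hF e 0 c = utvSU hF e c := by
  apply su_ext
  intro x
  rw [sg_mulVec hF e 0 c he (herm_zero_left e) (by rw [herm_zero_left, add_zero]; exact hc),
    utvSU_mulVec hF e c he hc, herm_zero_right hF]
  module

theorem sg_conj (hF : Fintype.card F = q ^ 2) (g : Cfsg.SU n F q) (e b : Fin n → F) (d : F)
    (he : Cfsg.hermForm n F q e e = 0) (hbe : Cfsg.hermForm n F q b e = 0)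
    (hd : d + d ^ q + Cfsg.hermForm n F q b b = 0) :
    g * sg hF e b d = sg hF (suM g *ᵥ e) (suM g *ᵥ b) d * g := by
  apply su_ext
  intro x
  rw [suM_mul, suM_mul, ← Matrix.mulVec_mulVec, ← Matrix.mulVec_mulVec, sg_mulVec hF e b d he hbe hd,
    sg_mulVec hF _ _ d (by rw [su_pres, he]) (by rw [su_pres, hbe]) (by rw [su_pres]; exact hd),
    su_pres, su_pres]
  simp only [Matrix.mulVec_add, Matrix.mulVec_sub, Matrix.mulVec_smul]

theorem sg_conj' (hF : Fintype.card F = q ^ 2) (g : Cfsg.SU n F q) (e b : Fin n → F) (d : F)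
    (he : Cfsg.hermForm n F q e e = 0) (hbe : Cfsg.hermForm n F q b e = 0)
    (hd : d + d ^ q + Cfsg.hermForm n F q b b = 0) :
    g * sg hF e b d * g⁻¹ = sg hF (suM g *ᵥ e) (suM g *ᵥ b) d := by
  rw [sg_conj hF g e b d he hbe hd, mul_assoc, mul_inv_cancel, mul_one]

theorem sg_smul (hF : Fintype.card F = q ^ 2) (e b : Fin n → F) (d t : F)
    (he : Cfsg.hermForm n F q e e = 0) (hbe : Cfsg.hermForm n F q b e = 0)
    (hd : d + d ^ q + Cfsg.hermForm n F q b b = 0) :
    (Cfsg.hermForm n F q (t ^ q • b) e = 0 ∧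
      t ^ (q + 1) * d + (t ^ (q + 1) * d) ^ q + Cfsg.hermForm n F q (t ^ q • b) (t ^ q • b) = 0) ∧
    sg hF (t • e) b d = sg hF e (t ^ q • b) (t ^ (q + 1) * d) := by
  have h1 : Cfsg.hermForm n F q (t ^ q • b) e = 0 := by rw [herm_smul_left, hbe, mul_zero]
  have h2 : t ^ (q + 1) * d + (t ^ (q + 1) * d) ^ q +
      Cfsg.hermForm n F q (t ^ q • b) (t ^ q • b) = 0 := by
    rw [herm_smul_left, herm_smul_right, frob_frob hF, mul_pow, unorm_fixed hF, unorm_eq]
    linear_combination (t * t ^ q) * hd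
  refine ⟨⟨h1, h2⟩, ?_⟩
  apply su_ext
  intro x
  rw [sg_mulVec hF (t • e) b d (iso_smul hF he t) (by rw [herm_smul_right, hbe, mul_zero]) hd,
    sg_mulVec hF e _ _ he h1 h2]
  simp only [herm_smul_right, frob_frob hF, unorm_eq]
  module

theorem sg_shift (hF : Fintype.card F = q ^ 2) (e b : Fin n → F) (d t : F)
    (he : Cfsg.hermForm n F q e e = 0) (hbe : Cfsg.hermForm n F q b e = 0)
    (hd : d + d ^ q + Cfsg.hermForm n F q (b + t • e) (b + t • e) = 0) :
    (d + t - t ^ q + (d + t - t ^ q) ^ q + Cfsg.hermForm n F q b b = 0) ∧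
    sg hF e (b + t • e) d = sg hF e b (d + t - t ^ q) := by
  have heb := herm_zero_of_symm hF hbe
  have h0 : Cfsg.hermForm n F q (b + t • e) (b + t • e) = Cfsg.hermForm n F q b b := by
    simp only [herm_add_left, herm_add_right hF, herm_smul_left, herm_smul_right, he, hbe, heb]
    ring
  have h1 : Cfsg.hermForm n F q (b + t • e) e = 0 := by
    rw [herm_add_left, herm_smul_left, hbe, he]; ring
  have h2 : d + t - t ^ q + (d + t - t ^ q) ^ q + Cfsg.hermForm n F q b b = 0 := by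
    rw [frob_sub hF, frob_add hF, frob_frob hF]
    rw [h0] at hd
    linear_combination hd
  refine ⟨h2, ?_⟩
  apply su_ext
  intro x
  rw [sg_mulVec hF e _ d he h1 hd, sg_mulVec hF e b _ he hbe h2]
  simp only [herm_add_right hF, herm_smul_right]
  module

theorem sg_one (hF : Fintype.card F = q ^ 2) (e : Fin n → F) (he : Cfsg.hermForm n F q e e = 0) :
    sg hF e 0 0 = 1 := by
  rw [sg_zero hF e 0 he (k0_zero hF), utvSU_zero hF]

theorem sg_inv (hF : Fintype.card F = q ^ 2) (e b : Fin n → F) (d : F)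
    (he : Cfsg.hermForm n F q e e = 0) (hbe : Cfsg.hermForm n F q b e = 0)
    (hd : d + d ^ q + Cfsg.hermForm n F q b b = 0) :
    (Cfsg.hermForm n F q (-b) e = 0 ∧ d ^ q + (d ^ q) ^ q + Cfsg.hermForm n F q (-b) (-b) = 0) ∧
    (sg hF e b d)⁻¹ = sg hF e (-b) (d ^ q) := by
  have h1 : Cfsg.hermForm n F q (-b) e = 0 := by rw [herm_neg_left, hbe, neg_zero]
  have h2 : d ^ q + (d ^ q) ^ q + Cfsg.hermForm n F q (-b) (-b) = 0 := by
    rw [frob_frob hF, herm_neg_left, herm_neg_right hF]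
    linear_combination hd
  refine ⟨⟨h1, h2⟩, ?_⟩
  rw [inv_eq_iff_mul_eq_one]
  obtain ⟨-, h3⟩ := sg_mul hF e b (-b) d (d ^ q) he hbe hd h1 h2
  rw [h3]
  have h4 : d + d ^ q - Cfsg.hermForm n F q (-b) b = 0 := by
    rw [herm_neg_left]; linear_combination hd
  rw [h4, add_neg_cancel]
  exact sg_one hF e he

/-! ### hyperbolic pairs -/

/-- a hyperbolic pair -/
structure HP (n : ℕ) (F : Type*) [Field F] [Fintype F] (q : ℕ) where
  e : Fin n → F
  f : Fin n → F
  ee : Cfsg.hermForm n F q e e = 0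
  ff : Cfsg.hermForm n F q f f = 0
  ef : Cfsg.hermForm n F q e f = 1

namespace HP

variable (D : HP n F q)

theorem fe (hF : Fintype.card F = q ^ 2) : Cfsg.hermForm n F q D.f D.e = 1 :=
  herm_one_of_symm hF D.ef

theorem e_ne : D.e ≠ 0 := by
  intro h
  have := D.ef
  rw [h, herm_zero_left] at this
  exact zero_ne_one this

theorem f_ne (hF : Fintype.card F = q ^ 2) : D.f ≠ 0 := by
  intro h
  have := D.fe hF
  rw [h, herm_zero_left] at this
  exact zero_ne_one this

/-- the orthogonal complement of the hyperbolic pair -/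
def W : Submodule F (Fin n → F) where
  carrier := {b | Cfsg.hermForm n F q b D.e = 0 ∧ Cfsg.hermForm n F q b D.f = 0}
  add_mem' := by
    intro a b ha hb
    exact ⟨by rw [herm_add_left, ha.1, hb.1, add_zero], by rw [herm_add_left, ha.2, hb.2, add_zero]⟩
  zero_mem' := ⟨herm_zero_left _, herm_zero_left _⟩
  smul_mem' := by
    intro c b hb
    exact ⟨by rw [herm_smul_left, hb.1, mul_zero], by rw [herm_smul_left, hb.2, mul_zero]⟩

theorem mem_W {b : Fin n → F} :
    b ∈ D.W ↔ Cfsg.hermForm n F q b D.e = 0 ∧ Cfsg.hermForm n F q b D.f = 0 := Iff.rfl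

theorem W_e (hF : Fintype.card F = q ^ 2) {b : Fin n → F} (hb : b ∈ D.W) :
    Cfsg.hermForm n F q D.e b = 0 := herm_zero_of_symm hF hb.1

theorem W_f (hF : Fintype.card F = q ^ 2) {b : Fin n → F} (hb : b ∈ D.W) :
    Cfsg.hermForm n F q D.f b = 0 := herm_zero_of_symm hF hb.2

/-- the projection onto `W` -/
def pw (x : Fin n → F) : Fin n → F :=
  x - Cfsg.hermForm n F q x D.f • D.e - Cfsg.hermForm n F q x D.e • D.f

theorem pw_mem (hF : Fintype.card F = q ^ 2) (x : Fin n → F) : D.pw x ∈ D.W := by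
  unfold pw
  constructor
  · rw [herm_sub_left, herm_sub_left, herm_smul_left, herm_smul_left, D.ee, D.fe hF]; ring
  · rw [herm_sub_left, herm_sub_left, herm_smul_left, herm_smul_left, D.ef, D.ff]; ring

theorem decomp (x : Fin n → F) :
    x = Cfsg.hermForm n F q x D.f • D.e + Cfsg.hermForm n F q x D.e • D.f + D.pw x := by
  unfold pw; abel

theorem pw_of_mem {b : Fin n → F} (hb : b ∈ D.W) : D.pw b = b := by
  unfold pw
  rw [hb.1, hb.2, zero_smul, zero_smul, sub_zero, sub_zero]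

theorem pw_add (x y : Fin n → F) : D.pw (x + y) = D.pw x + D.pw y := by
  unfold pw
  rw [herm_add_left, herm_add_left]
  module

theorem pw_smul (t : F) (x : Fin n → F) : D.pw (t • x) = t • D.pw x := by
  unfold pw
  rw [herm_smul_left, herm_smul_left]
  module

theorem pw_e : D.pw D.e = 0 := by
  unfold pw
  rw [D.ee, D.ef]; module

theorem pw_f (hF : Fintype.card F = q ^ 2) : D.pw D.f = 0 := by
  unfold pw
  rw [D.ff, D.fe hF]; module

theorem herm_pw_left (hF : Fintype.card F = q ^ 2) (x : Fin n → F) {b : Fin n → F} (hb : b ∈ D.W) :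
    Cfsg.hermForm n F q (D.pw x) b = Cfsg.hermForm n F q x b := by
  unfold pw
  rw [herm_sub_left, herm_sub_left, herm_smul_left, herm_smul_left, D.W_e hF hb, D.W_f hF hb]; ring

theorem herm_pw_right (hF : Fintype.card F = q ^ 2) {b : Fin n → F} (hb : b ∈ D.W) (x : Fin n → F) :
    Cfsg.hermForm n F q b (D.pw x) = Cfsg.hermForm n F q b x := by
  unfold pw
  rw [herm_sub_right hF, herm_sub_right hF, herm_smul_right, herm_smul_right, hb.1, hb.2]; ring

theorem herm_decomp (hF : Fintype.card F = q ^ 2) (x y : Fin n → F) :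
    Cfsg.hermForm n F q x y = Cfsg.hermForm n F q x D.f * Cfsg.hermForm n F q y D.e ^ q +
      Cfsg.hermForm n F q x D.e * Cfsg.hermForm n F q y D.f ^ q +
      Cfsg.hermForm n F q (D.pw x) (D.pw y) := by
  have hx := D.pw_mem hF x
  have hy := D.pw_mem hF y
  conv_lhs => rw [D.decomp x, D.decomp y]
  simp only [herm_add_left, herm_add_right hF, herm_smul_left, herm_smul_right, D.ee, D.ff, D.ef,
    D.fe hF, hx.1, hx.2, D.W_e hF hy, D.W_f hF hy]
  ring

theorem W_nondeg (hF : Fintype.card F = q ^ 2) {b : Fin n → F} (hb : b ∈ D.W) (hb0 : b ≠ 0) :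
    ∃ x ∈ D.W, Cfsg.hermForm n F q b x ≠ 0 := by
  by_contra hcon
  push Not at hcon
  apply hb0
  apply herm_nondeg hF
  intro y
  rw [← D.herm_pw_right hF hb y]
  exact hcon _ (D.pw_mem hF y)

theorem eq_zero_of_W (hF : Fintype.card F = q ^ 2) {b : Fin n → F} (hb : b ∈ D.W)
    (h : ∀ x ∈ D.W, Cfsg.hermForm n F q b x = 0) : b = 0 := by
  by_contra hb0
  obtain ⟨x, hx, hne⟩ := D.W_nondeg hF hb hb0
  exact hne (h x hx)

theorem sg_e (hF : Fintype.card F = q ^ 2) {b : Fin n → F} {d : F}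
    (hbe : Cfsg.hermForm n F q b D.e = 0)
    (hd : d + d ^ q + Cfsg.hermForm n F q b b = 0) : suM (sg hF D.e b d) *ᵥ D.e = D.e := by
  rw [sg_mulVec hF D.e b d D.ee hbe hd, D.ee, herm_zero_of_symm hF hbe]
  module

theorem sg_f (hF : Fintype.card F = q ^ 2) {b : Fin n → F} {d : F} (hb : b ∈ D.W)
    (hd : d + d ^ q + Cfsg.hermForm n F q b b = 0) :
    suM (sg hF D.e b d) *ᵥ D.f = D.f + b + d • D.e := by
  rw [sg_mulVec hF D.e b d D.ee hb.1 hd, D.fe hF, D.W_f hF hb]
  module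

theorem sg_W (hF : Fintype.card F = q ^ 2) {b : Fin n → F} {d : F} (hb : b ∈ D.W)
    (hd : d + d ^ q + Cfsg.hermForm n F q b b = 0) {x : Fin n → F} (hx : x ∈ D.W) :
    suM (sg hF D.e b d) *ᵥ x = x - Cfsg.hermForm n F q x b • D.e := by
  rw [sg_mulVec hF D.e b d D.ee hb.1 hd, hx.1]
  module

end HP

/-- the class of a Siegel element -/
noncomputable def sgb (hF : Fintype.card F = q ^ 2) (e b : Fin n → F) (d : F) : Cfsg.PSU n F q :=
  QuotientGroup.mk (sg hF e b d)

theorem sgb_inj (hF : Fintype.card F = q ^ 2) (hn : 2 ≤ n) (D : HP n F q) {b b' : Fin n → F}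
    {d d' : F} (hb : b ∈ D.W) (hb' : b' ∈ D.W) (hd : d + d ^ q + Cfsg.hermForm n F q b b = 0)
    (hd' : d' + d' ^ q + Cfsg.hermForm n F q b' b' = 0)
    (h : sgb hF D.e b d = sgb hF D.e b' d') : b = b' ∧ d = d' := by
  have h1 : (QuotientGroup.mk (sg hF D.e b d) : Cfsg.PSU n F q) =
      QuotientGroup.mk (sg hF D.e b' d') := h
  rw [mk_eq_iff hF hn] at h1
  obtain ⟨ζ, hζ⟩ := h1
  have h2 := hζ D.e
  rw [D.sg_e hF hb.1 hd, D.sg_e hF hb'.1 hd'] at h2
  have hζ1 : ζ = 1 := by
    have h3 : (ζ - 1) • D.e = 0 := by rw [sub_smul, one_smul, ← h2, sub_self]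
    have := smul_eq_zero_vec D.e_ne h3
    linear_combination this
  have h4 := hζ D.f
  rw [D.sg_f hF hb hd, D.sg_f hF hb' hd', hζ1, one_smul] at h4
  have h5 : b' - b = (d - d') • D.e := by
    have : D.f + b' + d' • D.e - (D.f + b + d • D.e) = 0 := by rw [h4, sub_self]
    have h6 : b' - b - (d - d') • D.e = 0 := by rw [← this]; module
    exact sub_eq_zero.mp h6
  have h7 : d - d' = 0 := by
    have := congrArg (fun y => Cfsg.hermForm n F q y D.f) h5
    simp only [herm_sub_left, herm_smul_left, hb.2, hb'.2, D.ef] at this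
    linear_combination -this
  rw [h7, zero_smul] at h5
  exact ⟨(sub_eq_zero.mp h5).symm, sub_eq_zero.mp h7⟩

/-! ### general unitary conjugation and field automorphisms on root elements -/

theorem conjSU_mulVec_inv (g : ↥(Cfsg.GU n F q)) (M : Cfsg.SU n F q) (x : Fin n → F) :
    suM (conjSU g M) *ᵥ x = ((g : GL (Fin n) F) : Mn n F) *ᵥ (suM M *ᵥ
      ((((g : GL (Fin n) F)⁻¹ : GL (Fin n) F) : Mn n F) *ᵥ x)) := by
  rw [conjSU_coe, ← Matrix.mulVec_mulVec, ← Matrix.mulVec_mulVec]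

theorem gu_herm_inv (g : ↥(Cfsg.GU n F q)) (x v : Fin n → F) :
    Cfsg.hermForm n F q ((((g : GL (Fin n) F)⁻¹ : GL (Fin n) F) : Mn n F) *ᵥ x) v =
      Cfsg.hermForm n F q x (((g : GL (Fin n) F) : Mn n F) *ᵥ v) := by
  have h := gu_pres (g : GL (Fin n) F) g.2 ((((g : GL (Fin n) F)⁻¹ : GL (Fin n) F) : Mn n F) *ᵥ x) v
  rw [gu_mulVec_inv'] at h
  exact h.symm

theorem conjSU_utv (hF : Fintype.card F = q ^ 2) (g : ↥(Cfsg.GU n F q)) (v : Fin n → F) (c : F) :
    conjSU g (utvSU hF v c) = utvSU hF (((g : GL (Fin n) F) : Mn n F) *ᵥ v) c := by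
  by_cases h : Cfsg.hermForm n F q v v = 0 ∧ c + c ^ q = 0
  · apply su_ext
    intro x
    rw [conjSU_mulVec_inv, utvSU_mulVec hF v c h.1 h.2,
      utvSU_mulVec hF _ c (by rw [gu_pres _ g.2, h.1]) h.2, gu_herm_inv, Matrix.mulVec_add,
      Matrix.mulVec_smul, gu_mulVec_inv']
  · rw [utvSU_of_not hF v c h, utvSU_of_not hF _ c (by rw [gu_pres _ g.2]; exact h), map_one]

theorem conjSU_sg (hF : Fintype.card F = q ^ 2) (g : ↥(Cfsg.GU n F q)) (e b : Fin n → F) (d : F)
    (he : Cfsg.hermForm n F q e e = 0) (hbe : Cfsg.hermForm n F q b e = 0)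
    (hd : d + d ^ q + Cfsg.hermForm n F q b b = 0) :
    conjSU g (sg hF e b d) = sg hF (((g : GL (Fin n) F) : Mn n F) *ᵥ e)
      (((g : GL (Fin n) F) : Mn n F) *ᵥ b) d := by
  apply su_ext
  intro x
  rw [conjSU_mulVec_inv, sg_mulVec hF e b d he hbe hd,
    sg_mulVec hF _ _ d (by rw [gu_pres _ g.2, he]) (by rw [gu_pres _ g.2, hbe])
      (by rw [gu_pres _ g.2]; exact hd), gu_herm_inv, gu_herm_inv]
  simp only [Matrix.mulVec_add, Matrix.mulVec_sub, Matrix.mulVec_smul, gu_mulVec_inv']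

theorem fieldSU_mulVec (σ : F ≃+* F) (M : Cfsg.SU n F q) (x : Fin n → F) :
    suM (fieldSU σ M) *ᵥ x = fun i => σ ((suM M *ᵥ (fun j => σ.symm (x j))) i) := by
  rw [fieldSU_coe, map_mulVec]

theorem herm_map_symm (σ : F ≃+* F) (x v : Fin n → F) :
    σ (Cfsg.hermForm n F q (fun j => σ.symm (x j)) v) =
      Cfsg.hermForm n F q x (fun i => σ (v i)) := by
  rw [← herm_map]
  simp only [RingEquiv.apply_symm_apply]

theorem fieldSU_utv (hF : Fintype.card F = q ^ 2) (σ : F ≃+* F) (v : Fin n → F) (c : F) :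
    fieldSU σ (utvSU hF v c) = utvSU hF (fun i => σ (v i)) (σ c) := by
  have e1 : Cfsg.hermForm n F q (fun i => σ (v i)) (fun i => σ (v i)) = 0 ↔
      Cfsg.hermForm n F q v v = 0 := by
    rw [herm_map]
    exact map_eq_zero_iff σ σ.injective
  have e2 : σ c + σ c ^ q = 0 ↔ c + c ^ q = 0 := by
    rw [← map_pow, ← map_add]
    exact map_eq_zero_iff σ σ.injective
  by_cases h : Cfsg.hermForm n F q v v = 0 ∧ c + c ^ q = 0
  · apply su_ext
    intro x
    rw [fieldSU_mulVec, utvSU_mulVec hF v c h.1 h.2,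
      utvSU_mulVec hF _ (σ c) (e1.mpr h.1) (e2.mpr h.2), ← herm_map_symm]
    ext i
    simp only [Pi.add_apply, Pi.smul_apply, smul_eq_mul, map_add, map_mul,
      RingEquiv.apply_symm_apply]
  · rw [utvSU_of_not hF v c h, utvSU_of_not hF _ (σ c) (by rw [e1, e2]; exact h), map_one]

theorem fieldSU_sg (hF : Fintype.card F = q ^ 2) (σ : F ≃+* F) (e b : Fin n → F) (d : F)
    (he : Cfsg.hermForm n F q e e = 0) (hbe : Cfsg.hermForm n F q b e = 0)
    (hd : d + d ^ q + Cfsg.hermForm n F q b b = 0) :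
    (Cfsg.hermForm n F q (fun i => σ (e i)) (fun i => σ (e i)) = 0 ∧
      Cfsg.hermForm n F q (fun i => σ (b i)) (fun i => σ (e i)) = 0 ∧
      σ d + σ d ^ q + Cfsg.hermForm n F q (fun i => σ (b i)) (fun i => σ (b i)) = 0) ∧
    fieldSU σ (sg hF e b d) = sg hF (fun i => σ (e i)) (fun i => σ (b i)) (σ d) := by
  have h1 : Cfsg.hermForm n F q (fun i => σ (e i)) (fun i => σ (e i)) = 0 := by
    rw [herm_map, he, map_zero]
  have h2 : Cfsg.hermForm n F q (fun i => σ (b i)) (fun i => σ (e i)) = 0 := by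
    rw [herm_map, hbe, map_zero]
  have h3 : σ d + σ d ^ q + Cfsg.hermForm n F q (fun i => σ (b i)) (fun i => σ (b i)) = 0 := by
    rw [herm_map, ← map_pow, ← map_add, ← map_add, hd, map_zero]
  refine ⟨⟨h1, h2, h3⟩, ?_⟩
  apply su_ext
  intro x
  rw [fieldSU_mulVec, sg_mulVec hF e b d he hbe hd, sg_mulVec hF _ _ (σ d) h1 h2 h3,
    ← herm_map_symm, ← herm_map_symm]
  ext i
  simp only [Pi.add_apply, Pi.sub_apply, Pi.smul_apply, smul_eq_mul, map_add, map_sub, map_mul,
    RingEquiv.apply_symm_apply]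

end Cfsg.Agent.Lib.helper13.PU
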