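import Mathlib
import Cfsg.Agent.Lib.helper13.PSUSg

set_option autoImplicit false
set_option linter.unusedSectionVars false
set_option linter.unusedVariables false
set_option linter.style.longLine false

/-!
The unipotent radical `Q` of the stabiliser of an isotropic point in `PSU_n(q)`: its
centraliser, the centre of a Sylow subgroup containing it, and the consequence that every
automorphism permutes the transvection groups.
-/

namespace Cfsg.Agent.Lib.helper13.PU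

open Matrix
open Cfsg.Agent.Lib.helper4

variable {F : Type*} [Field F] [Fintype F] {q n : ℕ}

namespace HP

/-- the image in `PSU` of the unipotent radical of the stabiliser of `⟨e⟩` -/
def Q (D : HP n F q) (hF : Fintype.card F = q ^ 2) : Subgroup (Cfsg.PSU n F q) where
  carrier := {x | ∃ b d, b ∈ D.W ∧ d + d ^ q + Cfsg.hermForm n F q b b = 0 ∧ x = sgb hF D.e b d}
  mul_mem' := by
    rintro _ _ ⟨b, d, hb, hd, rfl⟩ ⟨b', d', hb', hd', rfl⟩
    obtain ⟨⟨h1, h2⟩, h3⟩ := sg_mul hF D.e b b' d d' D.ee hb.1 hd hb'.1 hd'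
    exact ⟨b + b', _, D.W.add_mem hb hb', h2, by unfold sgb; rw [← h3]; rfl⟩
  one_mem' := ⟨0, 0, D.W.zero_mem, by rw [herm_zero_left, add_zero]; exact k0_zero hF, by
    unfold sgb; rw [sg_one hF D.e D.ee]; rfl⟩
  inv_mem' := by
    rintro _ ⟨b, d, hb, hd, rfl⟩
    obtain ⟨⟨h1, h2⟩, h3⟩ := sg_inv hF D.e b d D.ee hb.1 hd
    exact ⟨-b, d ^ q, D.W.neg_mem hb, h2, by unfold sgb; rw [← h3]; rfl⟩

theorem mem_Q (D : HP n F q) (hF : Fintype.card F = q ^ 2) {x : Cfsg.PSU n F q} :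
    x ∈ D.Q hF ↔ ∃ b d, b ∈ D.W ∧ d + d ^ q + Cfsg.hermForm n F q b b = 0 ∧ x = sgb hF D.e b d :=
  Iff.rfl

theorem sgb_zero (D : HP n F q) (hF : Fintype.card F = q ^ 2) {c : F} (hc : c + c ^ q = 0) :
    sgb hF D.e 0 c = tvb hF D.e c := by
  unfold tvb sgb
  rw [sg_zero hF D.e c D.ee hc]

theorem tvb_mem_Q (D : HP n F q) (hF : Fintype.card F = q ^ 2) (c : F) : tvb hF D.e c ∈ D.Q hF := by
  by_cases hc : c + c ^ q = 0
  · exact ⟨0, c, D.W.zero_mem, by rw [herm_zero_left, add_zero]; exact hc, (D.sgb_zero hF hc).symm⟩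
  · rw [tvb_of_not hF _ c (fun h => hc h.2)]
    exact one_mem _

theorem sgb_mul (D : HP n F q) (hF : Fintype.card F = q ^ 2) {b b' : Fin n → F} {d d' : F}
    (hb : b ∈ D.W) (hd : d + d ^ q + Cfsg.hermForm n F q b b = 0) (hb' : b' ∈ D.W)
    (hd' : d' + d' ^ q + Cfsg.hermForm n F q b' b' = 0) :
    ((d + d' - Cfsg.hermForm n F q b' b) + (d + d' - Cfsg.hermForm n F q b' b) ^ q +
        Cfsg.hermForm n F q (b + b') (b + b') = 0) ∧
    sgb hF D.e b d * sgb hF D.e b' d' = sgb hF D.e (b + b') (d + d' - Cfsg.hermForm n F q b' b) := by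
  obtain ⟨⟨h1, h2⟩, h3⟩ := sg_mul hF D.e b b' d d' D.ee hb.1 hd hb'.1 hd'
  exact ⟨h2, by unfold sgb; rw [← h3]; rfl⟩

theorem sgb_pow (D : HP n F q) (hF : Fintype.card F = q ^ 2) {b : Fin n → F} {d : F}
    (hb : b ∈ D.W) (hd : d + d ^ q + Cfsg.hermForm n F q b b = 0) (m : ℕ) :
    ∃ d' : F, d' + d' ^ q + Cfsg.hermForm n F q ((m : F) • b) ((m : F) • b) = 0 ∧
      sgb hF D.e b d ^ m = sgb hF D.e ((m : F) • b) d' := by
  induction m with
  | zero =>
    refine ⟨0, by rw [Nat.cast_zero, zero_smul, herm_zero_left, add_zero]; exact k0_zero hF, ?_⟩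
    rw [pow_zero, Nat.cast_zero, zero_smul]
    unfold sgb
    rw [sg_one hF D.e D.ee]
    rfl
  | succ m ih =>
    obtain ⟨d', hd', e⟩ := ih
    obtain ⟨h2, h3⟩ := D.sgb_mul hF (D.W.smul_mem _ hb) hd' hb hd
    have e2 : ((m : F) • b + b) = ((m + 1 : ℕ) : F) • b := by push_cast; module
    rw [e2] at h2 h3
    exact ⟨_, h2, by rw [pow_succ, e, h3]⟩

theorem tvb_pow (hF : Fintype.card F = q ^ 2) (v : Fin n → F)
    (hv : Cfsg.hermForm n F q v v = 0) {c : F} (hc : c + c ^ q = 0) (m : ℕ) :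
    (m • c) + (m • c) ^ q = 0 ∧ tvb hF v c ^ m = tvb hF v (m • c) := by
  induction m with
  | zero =>
    rw [zero_smul, pow_zero, tvb_zero]
    exact ⟨k0_zero hF, rfl⟩
  | succ m ih =>
    obtain ⟨h1, h2⟩ := ih
    rw [succ_nsmul, pow_succ, h2, ← tvb_add hF v _ _ hv h1 hc]
    exact ⟨k0_add hF h1 hc, rfl⟩

theorem Q_isPGroup (D : HP n F q) (hF : Fintype.card F = q ^ 2) (p : ℕ) [Fact p.Prime]
    [CharP F p] : IsPGroup p ↥(D.Q hF) := by
  rintro ⟨x, b, d, hb, hd, rfl⟩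
  refine ⟨2, Subtype.ext ?_⟩
  show sgb hF D.e b d ^ p ^ 2 = 1
  rw [pow_two, pow_mul]
  obtain ⟨d', hd', e1⟩ := D.sgb_pow hF hb hd p
  rw [e1]
  rw [CharP.cast_eq_zero, zero_smul, herm_zero_left, add_zero] at hd'
  rw [CharP.cast_eq_zero, zero_smul, D.sgb_zero hF hd']
  obtain ⟨-, h2⟩ := tvb_pow hF D.e D.ee hd' p
  rw [h2, nsmul_eq_mul, CharP.cast_eq_zero, zero_mul, tvb_zero]

end HP

/-- the centraliser of `Q` in `PSU` is the transvection group of `e` -/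
theorem cent_Q (hF : Fintype.card F = q ^ 2) (hn : 3 ≤ n) (D : HP n F q) (z : Cfsg.SU n F q)
    (hz : ∀ b d, b ∈ D.W → d + d ^ q + Cfsg.hermForm n F q b b = 0 →
      (QuotientGroup.mk z : Cfsg.PSU n F q) * sgb hF D.e b d =
        sgb hF D.e b d * QuotientGroup.mk z) :
    ∃ c : F, c + c ^ q = 0 ∧ (QuotientGroup.mk z : Cfsg.PSU n F q) = tvb hF D.e c := by
  have hn2 : 2 ≤ n := by omega
  -- Step A: `z` commutes with the Siegel elements in `SU`
  have hA : ∀ b d, b ∈ D.W → d + d ^ q + Cfsg.hermForm n F q b b = 0 →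
      z * sg hF D.e b d = sg hF D.e b d * z := by
    intro b d hb hd
    have h1 : (QuotientGroup.mk (z * sg hF D.e b d) : Cfsg.PSU n F q) =
        QuotientGroup.mk (sg hF D.e b d * z) := hz b d hb hd
    rw [mk_eq_iff hF hn2] at h1
    obtain ⟨ζ, hζ⟩ := h1
    obtain ⟨y, hy⟩ : ∃ y, y = suM z *ᵥ D.e := ⟨_, rfl⟩
    have hy0 : y ≠ 0 := by rw [hy]; exact su_mulVec_ne z D.e_ne
    have h2 : suM (sg hF D.e b d) *ᵥ y = ζ • y := by
      have := hζ D.e
      rw [suM_mul, suM_mul, ← Matrix.mulVec_mulVec, ← Matrix.mulVec_mulVec, D.sg_e hF hb.1 hd] at this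
      rw [hy]; exact this
    have hζ1 : ζ = 1 := by
      by_contra hne
      have hne' : ζ - 1 ≠ 0 := sub_ne_zero.mpr hne
      have h3 : Cfsg.hermForm n F q y D.e = 0 := by
        have h4 : Cfsg.hermForm n F q (suM (sg hF D.e b d) *ᵥ y) D.e =
            Cfsg.hermForm n F q (ζ • y) D.e := by rw [h2]
        rw [sg_mulVec hF D.e b d D.ee hb.1 hd] at h4
        simp only [herm_add_left, herm_sub_left, herm_smul_left, D.ee, hb.1] at h4
        have h5 : (ζ - 1) * Cfsg.hermForm n F q y D.e = 0 := by linear_combination -h4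
        exact (mul_eq_zero.mp h5).resolve_left hne'
      rw [sg_mulVec hF D.e b d D.ee hb.1 hd, h3] at h2
      have h6 : (ζ - 1) • y = (-Cfsg.hermForm n F q y b) • D.e := by
        linear_combination (norm := module) -h2
      have h7 : y = ((ζ - 1)⁻¹ * (-Cfsg.hermForm n F q y b)) • D.e := by
        rw [← smul_smul, ← h6, smul_smul, inv_mul_cancel₀ hne', one_smul]
      have h8 : Cfsg.hermForm n F q y b = 0 := by
        rw [h7, herm_smul_left, D.W_e hF hb, mul_zero]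
      rw [h8, neg_zero, zero_smul] at h6
      exact hy0 ((smul_eq_zero.mp h6).resolve_left hne')
    apply su_ext
    intro x
    have := hζ x
    rw [hζ1, one_smul] at this
    exact this.symm
  -- Step B: `z e = μ e` with `N(μ) = 1`
  obtain ⟨κ, hκ0, hκ⟩ := exists_trace_zero hF
  have hB1 : utvSU hF (suM z *ᵥ D.e) κ = utvSU hF D.e κ := by
    have h1 := hA 0 κ D.W.zero_mem (by rw [herm_zero_left, add_zero]; exact hκ)
    rw [sg_zero hF D.e κ D.ee hκ] at h1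
    rw [← conj_utv hF z D.e κ, h1, mul_assoc, mul_inv_cancel, mul_one]
  have hze : Cfsg.hermForm n F q (suM z *ᵥ D.e) (suM z *ᵥ D.e) = 0 := by rw [su_pres, D.ee]
  have hB2 : Cfsg.hermForm n F q D.f (suM z *ᵥ D.e) • (suM z *ᵥ D.e) = D.e := by
    have h1 : suM (utvSU hF (suM z *ᵥ D.e) κ) *ᵥ D.f = suM (utvSU hF D.e κ) *ᵥ D.f := by rw [hB1]
    rw [utvSU_mulVec hF _ κ hze hκ, utvSU_mulVec hF D.e κ D.ee hκ, D.fe hF] at h1
    have h2 := add_left_cancel h1
    have h3 : κ • (Cfsg.hermForm n F q D.f (suM z *ᵥ D.e) • (suM z *ᵥ D.e)) = κ • D.e := by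
      rw [smul_smul, h2, mul_one]
    exact smul_right_injective _ hκ0 h3
  obtain ⟨μ, hμ⟩ : ∃ μ : F, suM z *ᵥ D.e = μ • D.e := by
    have hne : Cfsg.hermForm n F q D.f (suM z *ᵥ D.e) ≠ 0 := by
      intro h0
      rw [h0, zero_smul] at hB2
      exact D.e_ne hB2.symm
    refine ⟨(Cfsg.hermForm n F q D.f (suM z *ᵥ D.e))⁻¹, ?_⟩
    calc suM z *ᵥ D.e = ((Cfsg.hermForm n F q D.f (suM z *ᵥ D.e))⁻¹ *
          Cfsg.hermForm n F q D.f (suM z *ᵥ D.e)) • (suM z *ᵥ D.e) := by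
          rw [inv_mul_cancel₀ hne, one_smul]
      _ = _ := by rw [← smul_smul, hB2]
  have hμ0 : μ ≠ 0 := by
    rintro rfl
    rw [zero_smul] at hμ
    exact su_mulVec_ne z D.e_ne hμ
  have hN : μ ^ (q + 1) = 1 := by
    rw [hμ, utvSU_smul hF D.e μ κ D.ee hκ] at hB1
    have h1 : suM (utvSU hF D.e (κ * μ ^ (q + 1))) *ᵥ D.f = suM (utvSU hF D.e κ) *ᵥ D.f := by
      rw [hB1]
    rw [utvSU_mulVec hF D.e _ D.ee (k0_mul_norm hF hκ μ), utvSU_mulVec hF D.e κ D.ee hκ,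
      D.fe hF] at h1
    have h2 := add_left_cancel h1
    have h3 := smul_left_injective F D.e_ne h2
    have h4 : κ * (μ ^ (q + 1) - 1) = 0 := by linear_combination h3
    have := (mul_eq_zero.mp h4).resolve_left hκ0
    linear_combination this
  have hμq : μ * μ ^ q = 1 := by rw [← unorm_eq]; exact hN
  -- Step C: `z b = μ b` on `W`
  have hC1 : ∀ b ∈ D.W, suM z *ᵥ b = μ • b +
      (μ * μ * Cfsg.hermForm n F q D.f (suM z *ᵥ b)) • D.e ∧
      (μ * Cfsg.hermForm n F q D.f (suM z *ᵥ b)) ^ q =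
        μ * Cfsg.hermForm n F q D.f (suM z *ᵥ b) := by
    intro b hb
    obtain ⟨d, hd⟩ := utrace_surj hF (-(Cfsg.hermForm n F q b b))
      (by rw [frob_neg hF, herm_self_fixed hF])
    have hd' : d + d ^ q + Cfsg.hermForm n F q b b = 0 := by linear_combination hd
    have h1 := hA b d hb hd'
    rw [sg_conj hF z D.e b d D.ee hb.1 hd'] at h1
    have h2 : sg hF (μ • D.e) (suM z *ᵥ b) d = sg hF D.e b d := by
      rw [← hμ]; exact mul_right_cancel h1
    have hzb : Cfsg.hermForm n F q (suM z *ᵥ b) (μ • D.e) = 0 := by rw [← hμ, su_pres, hb.1]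
    have hzbd : d + d ^ q + Cfsg.hermForm n F q (suM z *ᵥ b) (suM z *ᵥ b) = 0 := by
      rw [su_pres]; exact hd'
    have h3 : suM (sg hF (μ • D.e) (suM z *ᵥ b) d) *ᵥ D.f = suM (sg hF D.e b d) *ᵥ D.f := by
      rw [h2]
    rw [sg_mulVec hF (μ • D.e) _ d (iso_smul hF D.ee μ) hzb hzbd, D.sg_f hF hb hd'] at h3
    obtain ⟨ε, hε⟩ : ∃ ε, ε = Cfsg.hermForm n F q D.f (suM z *ᵥ b) := ⟨_, rfl⟩
    simp only [herm_smul_right, D.fe hF, ← hε] at h3
    have h6 : μ ^ q • (suM z *ᵥ b) = b + (μ * ε) • D.e := by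
      linear_combination (norm := module) h3 - (d * hμq) • D.e
    have h5 : suM z *ᵥ b = μ • b + (μ * μ * ε) • D.e := by
      calc suM z *ᵥ b = (μ * μ ^ q) • (suM z *ᵥ b) := by rw [hμq, one_smul]
        _ = μ • (μ ^ q • (suM z *ᵥ b)) := by rw [smul_smul]
        _ = _ := by rw [h6]; module
    rw [← hε]
    refine ⟨h5, ?_⟩
    have h7 : ε = (μ * μ * ε) ^ q := by
      conv_lhs => rw [hε, h5]
      rw [herm_add_right hF, herm_smul_right, herm_smul_right, D.W_f hF hb, D.fe hF]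
      ring
    rw [mul_pow, mul_pow] at h7
    rw [mul_pow]
    linear_combination (-μ) * h7 - (μ ^ q * ε ^ q) * hμq
  have hC : ∀ b ∈ D.W, suM z *ᵥ b = μ • b := by
    intro b hb
    obtain ⟨t, ht⟩ := exists_frob_ne hF
    obtain ⟨h1, h2⟩ := hC1 b hb
    obtain ⟨-, h3⟩ := hC1 (t • b) (D.W.smul_mem t hb)
    rw [Matrix.mulVec_smul, herm_smul_right] at h3
    rw [mul_pow, mul_pow, frob_frob hF] at h3
    rw [mul_pow] at h2
    have h4 : (t - t ^ q) * (μ * Cfsg.hermForm n F q D.f (suM z *ᵥ b)) = 0 := by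
      linear_combination h3 - t * h2
    have h5 : Cfsg.hermForm n F q D.f (suM z *ᵥ b) = 0 := by
      rcases mul_eq_zero.mp h4 with h | h
      · exact absurd (by linear_combination -h) ht
      · exact (mul_eq_zero.mp h).resolve_left hμ0
    rw [h1, h5, mul_zero, zero_smul, add_zero]
  -- Step D: `z f = δ e + μ f`
  have hD1 : Cfsg.hermForm n F q (suM z *ᵥ D.f) D.e = μ := by
    have h1 : Cfsg.hermForm n F q (suM z *ᵥ D.f) (suM z *ᵥ D.e) = 1 := by rw [su_pres, D.fe hF]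
    rw [hμ, herm_smul_right] at h1
    linear_combination μ * h1 - Cfsg.hermForm n F q (suM z *ᵥ D.f) D.e * hμq
  have hD2 : D.pw (suM z *ᵥ D.f) = 0 := by
    apply D.eq_zero_of_W hF (D.pw_mem hF _)
    intro x hx
    rw [D.herm_pw_left hF _ hx]
    have h1 : Cfsg.hermForm n F q (suM z *ᵥ D.f) (suM z *ᵥ x) = 0 := by
      rw [su_pres, D.W_f hF hx]
    rw [hC x hx, herm_smul_right] at h1
    exact (mul_eq_zero.mp h1).resolve_left (pow_ne_zero _ hμ0)
  obtain ⟨δ, hδ⟩ : ∃ δ, δ = Cfsg.hermForm n F q (suM z *ᵥ D.f) D.f := ⟨_, rfl⟩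
  have hD : suM z *ᵥ D.f = δ • D.e + μ • D.f := by
    have := D.decomp (suM z *ᵥ D.f)
    rw [hD1, hD2, add_zero, ← hδ] at this
    exact this
  -- Step E
  have hc : δ * μ ^ q + (δ * μ ^ q) ^ q = 0 := by
    have h1 : Cfsg.hermForm n F q (suM z *ᵥ D.f) (suM z *ᵥ D.f) = 0 := by rw [su_pres, D.ff]
    rw [hD] at h1
    simp only [herm_add_left, herm_add_right hF, herm_smul_left, herm_smul_right, D.ee, D.ff, D.ef,
      D.fe hF] at h1
    rw [mul_pow, frob_frob hF]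
    linear_combination h1
  refine ⟨δ * μ ^ q, hc, ?_⟩
  symm
  show (QuotientGroup.mk (utvSU hF D.e (δ * μ ^ q)) : Cfsg.PSU n F q) = QuotientGroup.mk z
  rw [mk_eq_iff hF hn2]
  refine ⟨μ, fun x => ?_⟩
  rw [utvSU_mulVec hF D.e _ D.ee hc]
  have hx := D.decomp x
  conv_lhs => rw [hx]
  rw [Matrix.mulVec_add, Matrix.mulVec_add, Matrix.mulVec_smul, Matrix.mulVec_smul, hμ, hD,
    hC _ (D.pw_mem hF x)]
  linear_combination (norm := module) (-μ) • hx - (δ * Cfsg.hermForm n F q x D.e * hμq) • D.e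

instance psuFinite : Finite (Cfsg.PSU n F q) := by
  classical
  infer_instance

/-- the centre of a Sylow subgroup containing `Q` is the transvection group of `e` -/
theorem zc_sylow (hF : Fintype.card F = q ^ 2) (hn : 3 ≤ n) (D : HP n F q) (p : ℕ) [Fact p.Prime]
    (S : Sylow p (Cfsg.PSU n F q)) (hS : D.Q hF ≤ S) :
    PN.Zc (S : Subgroup (Cfsg.PSU n F q)) = Set.range (tvb hF D.e) := by
  have hn2 : 2 ≤ n := by omega
  obtain ⟨κ, hκ0, hκ⟩ := exists_trace_zero hF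
  have hsub : PN.Zc (S : Subgroup (Cfsg.PSU n F q)) ⊆ Set.range (tvb hF D.e) := by
    rintro z ⟨hzS, hzc⟩
    obtain ⟨z₀, rfl⟩ := exists_rep z
    obtain ⟨c, hc, e⟩ := cent_Q hF hn D z₀ (fun b d hb hd => hzc _ (hS ⟨b, d, hb, hd, rfl⟩))
    exact ⟨c, e.symm⟩
  apply Set.Subset.antisymm hsub
  have hnt : Nontrivial ↥(S : Subgroup (Cfsg.PSU n F q)) := by
    refine ⟨⟨⟨tvb hF D.e κ, hS (D.tvb_mem_Q hF κ)⟩, 1, ?_⟩⟩
    intro h
    have h1 : tvb hF D.e κ = 1 := congrArg Subtype.val h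
    exact hκ0 (tvb_eq_one hF hn2 D.e_ne D.ee hκ h1)
  have hcn := IsPGroup.center_nontrivial S.isPGroup'
  obtain ⟨z, hz⟩ := exists_ne (1 : Subgroup.center ↥(S : Subgroup (Cfsg.PSU n F q)))
  have hzZ : ((z : ↥(S : Subgroup (Cfsg.PSU n F q))) : Cfsg.PSU n F q) ∈
      PN.Zc (S : Subgroup (Cfsg.PSU n F q)) := by
    refine ⟨z.1.2, fun h hh => ?_⟩
    have := Subgroup.mem_center_iff.mp z.2 ⟨h, hh⟩
    exact (congrArg Subtype.val this).symm
  obtain ⟨c₀, hc₀, ez⟩ := mem_range_tvb hF (hsub hzZ)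
  have hc₀0 : c₀ ≠ 0 := by
    rintro rfl
    rw [tvb_zero] at ez
    apply hz
    apply Subtype.ext
    apply Subtype.ext
    exact ez
  rintro x ⟨c, rfl⟩
  refine ⟨hS (D.tvb_mem_Q hF c), fun s hs => ?_⟩
  by_cases hc : c + c ^ q = 0
  swap
  · rw [tvb_of_not hF _ c (fun h => hc h.2), one_mul, mul_one]
  obtain ⟨g, rfl⟩ := exists_rep s
  have h1 : (QuotientGroup.mk g : Cfsg.PSU n F q) * tvb hF D.e c₀ * (QuotientGroup.mk g)⁻¹ =
      tvb hF D.e c₀ := by
    have := hzZ.2 _ hs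
    rw [ez] at this
    rw [← this, mul_assoc, mul_inv_cancel, mul_one]
  rw [conj_tvb] at h1
  obtain ⟨t, ht⟩ := tvb_eq_imp hF hn2 D.e_ne D.ee (by rw [su_pres, D.ee]) hc₀0 hc₀ hc₀ h1.symm
  rw [ht, tvb_smul hF D.e t c₀ D.ee hc₀] at h1
  have hN := tvb_inj hF hn2 D.e_ne D.ee (k0_mul_norm hF hc₀ t) hc₀ h1
  have hN1 : t ^ (q + 1) = 1 := by
    have h2 : c₀ * (t ^ (q + 1) - 1) = 0 := by linear_combination hN
    have := (mul_eq_zero.mp h2).resolve_left hc₀0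
    linear_combination this
  have h2 := conj_tvb hF g D.e c
  rw [ht, tvb_smul hF D.e t c D.ee hc, hN1, mul_one] at h2
  calc tvb hF D.e c * QuotientGroup.mk g
      = ((QuotientGroup.mk g : Cfsg.PSU n F q) * tvb hF D.e c * (QuotientGroup.mk g)⁻¹) *
          QuotientGroup.mk g := by rw [h2]
    _ = _ := by group

/-- every automorphism maps the transvection group of `e` onto a transvection group -/
theorem tg_base (hF : Fintype.card F = q ^ 2) (hn : 3 ≤ n) (D : HP n F q) (p : ℕ) [Fact p.Prime]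
    [CharP F p] (α : MulAut (Cfsg.PSU n F q)) : ∃ w, TG hF α D.e w := by
  obtain ⟨S, hS⟩ := (D.Q_isPGroup hF p).exists_le_sylow
  obtain ⟨g, hg⟩ := PS.aut_sylow_conj p (S : Subgroup (Cfsg.PSU n F q)) S.isPGroup'
    S.not_dvd_index α
  obtain ⟨g₀, rfl⟩ := exists_rep g
  have h1 : α '' Set.range (tvb hF D.e) =
      (MulAut.conj (QuotientGroup.mk g₀ : Cfsg.PSU n F q)) '' Set.range (tvb hF D.e) := by
    rw [← zc_sylow hF hn D p S hS, ← PN.Zc_map, ← PN.Zc_map, hg]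
  refine ⟨suM g₀ *ᵥ D.e, ⟨D.e_ne, D.ee⟩, ⟨su_mulVec_ne g₀ D.e_ne, by rw [su_pres, D.ee]⟩, ?_⟩
  rw [h1, ← range_conj hF g₀ D.e]
  rfl

theorem tg_all (hF : Fintype.card F = q ^ 2) (hn : 3 ≤ n) (D : HP n F q) (p : ℕ) [Fact p.Prime]
    [CharP F p] (α : MulAut (Cfsg.PSU n F q)) (v : Fin n → F) (hv0 : v ≠ 0)
    (hv : Cfsg.hermForm n F q v v = 0) : ∃ w, TG hF α v w := by
  obtain ⟨w, hw⟩ := tg_base hF hn D p α
  obtain ⟨v', hv', hvv'⟩ := exists_partner hF (by omega) v hv0 hv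
  obtain ⟨A, hA, -⟩ := su_trans_hyp hF hn D.e D.f v v' D.ee D.ff D.ef hv hv' hvv'
  obtain ⟨B, hB⟩ := exists_rep (α (QuotientGroup.mk A))
  refine ⟨suM B *ᵥ w, ?_⟩
  have := hw.conj A B hB
  rw [hA] at this
  exact this

/-- normalisation: after composing with an inner automorphism, the transvection groups of `e` and
`f` are stabilised -/
theorem tg_norm (hF : Fintype.card F = q ^ 2) (hn : 3 ≤ n) (D : HP n F q) (p : ℕ) [Fact p.Prime]
    [CharP F p] (α : MulAut (Cfsg.PSU n F q)) : ∃ A : Cfsg.SU n F q,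
      TG hF ((conjAut (suToGU A))⁻¹ * α) D.e D.e ∧ TG hF ((conjAut (suToGU A))⁻¹ * α) D.f D.f := by
  obtain ⟨e', he'⟩ := tg_all hF hn D p α D.e D.e_ne D.ee
  obtain ⟨f', hf'⟩ := tg_all hF hn D p α D.f (D.f_ne hF) D.ff
  have hne : Cfsg.hermForm n F q e' f' ≠ 0 := by
    intro h0
    have := (TG.perp (by omega) he' hf').mpr h0
    rw [D.ef] at this
    exact one_ne_zero this
  obtain ⟨t, ht⟩ : ∃ t : F, t = ((Cfsg.hermForm n F q e' f')⁻¹) ^ q := ⟨_, rfl⟩
  have ht0 : t ≠ 0 := by rw [ht]; exact pow_ne_zero _ (inv_ne_zero hne)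
  have hf'' := hf'.of_smul ht0
  have h1 : Cfsg.hermForm n F q e' (t • f') = 1 := by
    rw [herm_smul_right, ht, frob_frob hF, inv_mul_cancel₀ hne]
  obtain ⟨A, hAe, hAf⟩ := su_trans_hyp hF hn D.e D.f e' (t • f') D.ee D.ff D.ef he'.2.1.2
    hf''.2.1.2 h1
  refine ⟨A, ?_, ?_⟩
  · have h2 := TG_conjSU hF A D.e_ne D.ee
    rw [hAe] at h2
    exact TG.mul he' h2.inv
  · have h2 := TG_conjSU hF A (D.f_ne hF) D.ff
    rw [hAf] at h2
    exact TG.mul hf'' h2.inv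

end Cfsg.Agent.Lib.helper13.PU
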