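import Mathlib
import Cfsg.Agent.Lib.helper13.PSUPar

set_option autoImplicit false
set_option linter.unusedSectionVars false
set_option linter.unusedVariables false
set_option linter.style.longLine false

/-!
The stabiliser of an isotropic point acting on the unipotent radical; torus elements.
-/

namespace Cfsg.Agent.Lib.helper13.PU

open Matrix
open Cfsg.Agent.Lib.helper4

variable {F : Type*} [Field F] [Fintype F] {q n : ℕ}

namespace HP

theorem exists_W_ne (D : HP n F q) (hF : Fintype.card F = q ^ 2) (hn : 3 ≤ n) :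
    ∃ b ∈ D.W, b ≠ 0 := by
  classical
  by_contra hcon
  push Not at hcon
  have h1 : ∀ x : Fin n → F, x ∈ Submodule.span F (({D.e, D.f} : Finset (Fin n → F)) : Set (Fin n → F)) := by
    intro x
    rw [D.decomp x, hcon _ (D.pw_mem hF x), add_zero]
    exact add_mem (Submodule.smul_mem _ _ (Submodule.subset_span (by simp)))
      (Submodule.smul_mem _ _ (Submodule.subset_span (by simp)))
  have h2 : Submodule.span F (({D.e, D.f} : Finset (Fin n → F)) : Set (Fin n → F)) = ⊤ :=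
    eq_top_iff.mpr (fun x _ => h1 x)
  have h3 : Module.finrank F ↥(Submodule.span F
      (({D.e, D.f} : Finset (Fin n → F)) : Set (Fin n → F))) ≤ _ :=
    finrank_span_finset_le_card (R := F) ({D.e, D.f} : Finset (Fin n → F))
  rw [h2, finrank_top, Module.finrank_fin_fun] at h3
  have h4 : ({D.e, D.f} : Finset (Fin n → F)).card ≤ 2 := Finset.card_le_two
  omega

/-- for `n = 3` the complement `W` is a line -/
theorem W_line (D : HP n F q) (hF : Fintype.card F = q ^ 2) (hn : n = 3) {w : Fin n → F}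
    (hw : w ∈ D.W) (hw0 : w ≠ 0) {b : Fin n → F} (hb : b ∈ D.W) : ∃ t : F, b = t • w := by
  have h1 : ¬ LinearIndependent F ![D.e, D.f, w, b] := by
    intro hli
    have := hli.fintype_card_le_finrank
    rw [Module.finrank_fin_fun, Fintype.card_fin] at this
    omega
  rw [Fintype.not_linearIndependent_iff] at h1
  obtain ⟨g, hg, hne⟩ := h1
  rw [Fin.sum_univ_four] at hg
  simp only [Matrix.cons_val_zero, Matrix.cons_val_one, Matrix.cons_val_two, Matrix.cons_val_three,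
    Matrix.head_cons, Matrix.tail_cons] at hg
  have e0 : g 0 = 0 := by
    have := congrArg (fun v => Cfsg.hermForm n F q v D.f) hg
    simp only [herm_add_left, herm_smul_left, D.ef, D.ff, hw.2, hb.2, herm_zero_left] at this
    linear_combination this
  have e1 : g 1 = 0 := by
    have := congrArg (fun v => Cfsg.hermForm n F q v D.e) hg
    simp only [herm_add_left, herm_smul_left, D.ee, D.fe hF, hw.1, hb.1, herm_zero_left] at this
    linear_combination this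
  rw [e0, e1, zero_smul, zero_smul, zero_add, zero_add] at hg
  have e3 : g 3 ≠ 0 := by
    intro h3
    rw [h3, zero_smul, add_zero] at hg
    have e2 : g 2 = 0 := smul_eq_zero_vec hw0 hg
    obtain ⟨i, hi⟩ := hne
    fin_cases i
    · exact hi e0
    · exact hi e1
    · exact hi e2
    · exact hi h3
  refine ⟨-(g 3)⁻¹ * g 2, ?_⟩
  have h4 : g 3 • b = -(g 2 • w) := by
    rw [eq_neg_iff_add_eq_zero, add_comm]; exact hg
  calc b = ((g 3)⁻¹ * g 3) • b := by rw [inv_mul_cancel₀ e3, one_smul]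
    _ = (g 3)⁻¹ • (g 3 • b) := by rw [smul_smul]
    _ = _ := by rw [h4]; module

end HP

theorem stab_ne (D : HP n F q) (g : Cfsg.SU n F q) {μ : F} (hμ : suM g *ᵥ D.e = μ • D.e) :
    μ ≠ 0 := by
  rintro rfl
  rw [zero_smul] at hμ
  exact su_mulVec_ne g D.e_ne hμ

/-- an automorphism stabilising the transvection group of `e` preserves the stabiliser of `⟨e⟩` -/
theorem aut_P (hF : Fintype.card F = q ^ 2) (hn : 2 ≤ n) (D : HP n F q)
    {α : MulAut (Cfsg.PSU n F q)} (he : TG hF α D.e D.e) (g g' : Cfsg.SU n F q)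
    (hg : α (QuotientGroup.mk g) = QuotientGroup.mk g') {μ : F} (hμ : suM g *ᵥ D.e = μ • D.e) :
    ∃ μ' : F, suM g' *ᵥ D.e = μ' • D.e := by
  have hμ0 := stab_ne D g hμ
  have h1 := he.conj g g' hg
  rw [hμ] at h1
  have h2 := h1.smul_left (inv_ne_zero hμ0)
  rw [smul_smul, inv_mul_cancel₀ hμ0, one_smul] at h2
  exact he.par hn h2

/-- conjugating a Siegel element by an element of the stabiliser of `⟨e⟩` -/
theorem conj_sg_P (hF : Fintype.card F = q ^ 2) (D : HP n F q) (g : Cfsg.SU n F q) {μ : F}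
    (hμ : suM g *ᵥ D.e = μ • D.e) {b : Fin n → F} {d : F} (hb : b ∈ D.W)
    (hd : d + d ^ q + Cfsg.hermForm n F q b b = 0) :
    ∃ d' : F, d' + d' ^ q + Cfsg.hermForm n F q (μ ^ q • D.pw (suM g *ᵥ b))
        (μ ^ q • D.pw (suM g *ᵥ b)) = 0 ∧
      g * sg hF D.e b d * g⁻¹ = sg hF D.e (μ ^ q • D.pw (suM g *ᵥ b)) d' := by
  have hμ0 := stab_ne D g hμ
  have hgbe : Cfsg.hermForm n F q (suM g *ᵥ b) D.e = 0 := by
    have h1 : Cfsg.hermForm n F q (suM g *ᵥ b) (suM g *ᵥ D.e) = 0 := by rw [su_pres, hb.1]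
    rw [hμ, herm_smul_right] at h1
    exact (mul_eq_zero.mp h1).resolve_left (pow_ne_zero _ hμ0)
  have hgd : d + d ^ q + Cfsg.hermForm n F q (suM g *ᵥ b) (suM g *ᵥ b) = 0 := by
    rw [su_pres]; exact hd
  rw [sg_conj' hF g D.e b d D.ee hb.1 hd, hμ]
  obtain ⟨⟨h1, h2⟩, h3⟩ := sg_smul hF D.e (suM g *ᵥ b) d μ D.ee hgbe hgd
  rw [h3]
  have e1 : μ ^ q • (suM g *ᵥ b) = μ ^ q • D.pw (suM g *ᵥ b) +
      (μ ^ q * Cfsg.hermForm n F q (suM g *ᵥ b) D.f) • D.e := by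
    conv_lhs => rw [D.decomp (suM g *ᵥ b), hgbe]
    module
  rw [e1] at h2 ⊢
  obtain ⟨h4, h5⟩ := sg_shift hF D.e (μ ^ q • D.pw (suM g *ᵥ b)) (μ ^ (q + 1) * d)
    (μ ^ q * Cfsg.hermForm n F q (suM g *ᵥ b) D.f) D.ee
    (by rw [herm_smul_left, (D.pw_mem hF _).1, mul_zero]) h2
  exact ⟨_, h4, h5⟩

theorem conj_sgb_P (hF : Fintype.card F = q ^ 2) (D : HP n F q) (g : Cfsg.SU n F q) {μ : F}
    (hμ : suM g *ᵥ D.e = μ • D.e) {b : Fin n → F} {d : F} (hb : b ∈ D.W)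
    (hd : d + d ^ q + Cfsg.hermForm n F q b b = 0) :
    ∃ d' : F, d' + d' ^ q + Cfsg.hermForm n F q (μ ^ q • D.pw (suM g *ᵥ b))
        (μ ^ q • D.pw (suM g *ᵥ b)) = 0 ∧
      (QuotientGroup.mk g : Cfsg.PSU n F q) * sgb hF D.e b d * (QuotientGroup.mk g)⁻¹ =
        sgb hF D.e (μ ^ q • D.pw (suM g *ᵥ b)) d' := by
  obtain ⟨d', h1, h2⟩ := conj_sg_P hF D g hμ hb hd
  refine ⟨d', h1, ?_⟩
  unfold sgb
  rw [← h2]
  rfl

/-- an element of the stabiliser of `⟨e⟩` acting trivially on `Q/Z(Q)` lies in `Q` (mod scalars) -/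
theorem mem_Q_of_star (hF : Fintype.card F = q ^ 2) (hn : 3 ≤ n) (D : HP n F q)
    (g : Cfsg.SU n F q) {μ : F} (hμ : suM g *ᵥ D.e = μ • D.e)
    (hst : ∀ b ∈ D.W, μ ^ q • D.pw (suM g *ᵥ b) = b) :
    (QuotientGroup.mk g : Cfsg.PSU n F q) ∈ D.Q hF := by
  have hn2 : 2 ≤ n := by omega
  have hμ0 := stab_ne D g hμ
  have hμq0 : μ ^ q ≠ 0 := pow_ne_zero _ hμ0
  obtain ⟨w, hw, hw0⟩ := D.exists_W_ne hF hn
  obtain ⟨w', hw', hww'⟩ := D.W_nondeg hF hw hw0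
  have hgbe : ∀ b ∈ D.W, Cfsg.hermForm n F q (suM g *ᵥ b) D.e = 0 := by
    intro b hb
    have h1 : Cfsg.hermForm n F q (suM g *ᵥ b) (suM g *ᵥ D.e) = 0 := by rw [su_pres, hb.1]
    rw [hμ, herm_smul_right] at h1
    exact (mul_eq_zero.mp h1).resolve_left hμq0
  have hgb : ∀ b ∈ D.W, suM g *ᵥ b = (μ ^ q)⁻¹ • b +
      Cfsg.hermForm n F q (suM g *ᵥ b) D.f • D.e := by
    intro b hb
    have h2 : D.pw (suM g *ᵥ b) = (μ ^ q)⁻¹ • b := by
      calc D.pw (suM g *ᵥ b) = (μ ^ q)⁻¹ • (μ ^ q • D.pw (suM g *ᵥ b)) := by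
            rw [smul_smul, inv_mul_cancel₀ hμq0, one_smul]
        _ = _ := by rw [hst b hb]
    have h1 := D.decomp (suM g *ᵥ b)
    rw [hgbe b hb, zero_smul, add_zero, h2] at h1
    rw [add_comm]
    exact h1
  have hμq : μ * μ ^ q = 1 := by
    have h1 : Cfsg.hermForm n F q (suM g *ᵥ w) (suM g *ᵥ w') = Cfsg.hermForm n F q w w' :=
      su_pres g w w'
    rw [hgb w hw, hgb w' hw'] at h1
    simp only [herm_add_left, herm_add_right hF, herm_smul_left, herm_smul_right, D.ee, hw.1,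
      D.W_e hF hw', inv_pow, frob_frob hF] at h1
    have h2 : Cfsg.hermForm n F q w w' * (μ * μ ^ q - 1) = 0 := by
      field_simp at h1
      linear_combination -h1
    have := (mul_eq_zero.mp h2).resolve_left hww'
    linear_combination this
  have hinv : (μ ^ q)⁻¹ = μ := inv_eq_of_mul_eq_one_left hμq
  have hgfe : Cfsg.hermForm n F q (suM g *ᵥ D.f) D.e = μ := by
    have h1 : Cfsg.hermForm n F q (suM g *ᵥ D.f) (suM g *ᵥ D.e) = 1 := by rw [su_pres, D.fe hF]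
    rw [hμ, herm_smul_right] at h1
    linear_combination μ * h1 - Cfsg.hermForm n F q (suM g *ᵥ D.f) D.e * hμq
  obtain ⟨b₀, hb₀⟩ : ∃ b₀, b₀ = μ ^ q • D.pw (suM g *ᵥ D.f) := ⟨_, rfl⟩
  obtain ⟨d₀, hd₀⟩ : ∃ d₀, d₀ = μ ^ q * Cfsg.hermForm n F q (suM g *ᵥ D.f) D.f := ⟨_, rfl⟩
  have hb₀W : b₀ ∈ D.W := by rw [hb₀]; exact D.W.smul_mem _ (D.pw_mem hF _)
  have hval : d₀ + d₀ ^ q + Cfsg.hermForm n F q b₀ b₀ = 0 := by
    have h1 : Cfsg.hermForm n F q (suM g *ᵥ D.f) (suM g *ᵥ D.f) = 0 := by rw [su_pres, D.ff]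
    rw [D.herm_decomp hF, hgfe] at h1
    rw [hb₀, hd₀, herm_smul_left, herm_smul_right, mul_pow, frob_frob hF]
    linear_combination h1 + (Cfsg.hermForm n F q (D.pw (suM g *ᵥ D.f)) (D.pw (suM g *ᵥ D.f))) * hμq
  have hgf : suM g *ᵥ D.f = μ • (D.f + b₀ + d₀ • D.e) := by
    have h1 := D.decomp (suM g *ᵥ D.f)
    rw [hgfe] at h1
    rw [hb₀, hd₀]
    linear_combination (norm := module) h1 -
      ((Cfsg.hermForm n F q (suM g *ᵥ D.f) D.f) * hμq) • D.e - hμq • D.pw (suM g *ᵥ D.f)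
  have hgW : ∀ b ∈ D.W, suM g *ᵥ b = μ • (b - Cfsg.hermForm n F q b b₀ • D.e) := by
    intro b hb
    have h1 : Cfsg.hermForm n F q (suM g *ᵥ b) (suM g *ᵥ D.f) = 0 := by rw [su_pres, hb.2]
    have h2 := hgb b hb
    rw [hinv] at h2
    obtain ⟨t, ht⟩ : ∃ t, t = Cfsg.hermForm n F q (suM g *ᵥ b) D.f := ⟨_, rfl⟩
    rw [← ht] at h2
    rw [h2, hgf] at h1
    simp only [herm_add_left, herm_add_right hF, herm_smul_left, herm_smul_right, hb.1, hb.2,
      D.ee, D.ef, D.W_e hF hb₀W] at h1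
    rw [h2]
    have h3 : t = -(μ * Cfsg.hermForm n F q b b₀) := by
      have h4 : μ ^ q * (μ * Cfsg.hermForm n F q b b₀ + t) = 0 := by linear_combination h1
      have := (mul_eq_zero.mp h4).resolve_left hμq0
      linear_combination this
    rw [h3]
    module
  refine ⟨b₀, d₀, hb₀W, hval, ?_⟩
  symm
  show (QuotientGroup.mk (sg hF D.e b₀ d₀) : Cfsg.PSU n F q) = QuotientGroup.mk g
  rw [mk_eq_iff hF hn2]
  refine ⟨μ, fun x => ?_⟩
  have hx := D.decomp x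
  conv_lhs => rw [hx]
  conv_rhs => rw [hx]
  simp only [Matrix.mulVec_add, Matrix.mulVec_smul, smul_add]
  rw [hμ, hgf, hgW _ (D.pw_mem hF x), D.sg_e hF hb₀W.1 hval, D.sg_f hF hb₀W hval,
    D.sg_W hF hb₀W hval (D.pw_mem hF x)]
  module

/-! ### torus elements -/

theorem frob_mul_inv (hF : Fintype.card F = q ^ 2) {μ : F} (hμ0 : μ ≠ 0) :
    μ⁻¹ * (μ ^ q) ^ q = 1 := by
  rw [frob_frob hF, inv_mul_cancel₀ hμ0]

/-- the torus element of two orthogonal hyperbolic pairs -/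
theorem torus_iso (hF : Fintype.card F = q ^ 2) (D D' : HP n F q) (hy : D'.e ∈ D.W)
    (hz : D'.f ∈ D.W) {μ : F} (hμ0 : μ ≠ 0) :
    ∃ l : Cfsg.SU n F q, suM l *ᵥ D.e = μ • D.e ∧ suM l *ᵥ D'.e = μ ^ q • D'.e := by
  have hμq0 : μ ^ q ≠ 0 := pow_ne_zero _ hμ0
  obtain ⟨g₁, hg₁, hg₁x, hg₁det⟩ := exists_gu_torus hF D.e D.f D.ee D.ff D.ef μ ((μ ^ q)⁻¹)
    (inv_mul_cancel₀ hμq0)
  obtain ⟨g₂, hg₂, hg₂x, hg₂det⟩ := exists_gu_torus hF D'.e D'.f D'.ee D'.ff D'.ef (μ ^ q) (μ⁻¹)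
    (frob_mul_inv hF hμ0)
  obtain ⟨l, hl⟩ := su_mk (q := q) ((g₁ : Mn n F) * (g₂ : Mn n F))
    (fun u v => by
      rw [← Matrix.mulVec_mulVec, ← Matrix.mulVec_mulVec, gu_pres g₁ hg₁, gu_pres g₂ hg₂])
    (by rw [Matrix.det_mul, hg₁det, hg₂det]; field_simp)
  refine ⟨l, ?_, ?_⟩
  · show suM l *ᵥ D.e = _
    rw [show suM l = _ from hl, ← Matrix.mulVec_mulVec, hg₂x, D.W_e hF hy, D.W_e hF hz, mul_zero,
      mul_zero, zero_smul, zero_smul, add_zero, add_zero, hg₁x, D.ee, D.ef]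
    module
  · show suM l *ᵥ D'.e = _
    rw [show suM l = _ from hl, ← Matrix.mulVec_mulVec, hg₂x, D'.ee, D'.ef, mul_zero, zero_smul,
      add_zero, hg₁x, herm_add_left, herm_add_left, herm_smul_left, herm_smul_left, hy.1, hy.2]
    module

/-- the torus element of a hyperbolic pair and an anisotropic vector orthogonal to it -/
theorem torus_aniso (hF : Fintype.card F = q ^ 2) (D : HP n F q) {w : Fin n → F} (hw : w ∈ D.W)
    (hww : Cfsg.hermForm n F q w w ≠ 0) {μ : F} (hμ0 : μ ≠ 0) :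
    ∃ l : Cfsg.SU n F q, suM l *ᵥ D.e = μ • D.e ∧ suM l *ᵥ w = (μ ^ q / μ) • w := by
  have hμq0 : μ ^ q ≠ 0 := pow_ne_zero _ hμ0
  obtain ⟨g₁, hg₁, hg₁x, hg₁det⟩ := exists_gu_torus hF D.e D.f D.ee D.ff D.ef μ ((μ ^ q)⁻¹)
    (inv_mul_cancel₀ hμq0)
  have hδ : (μ ^ q / μ) ^ (q + 1) = 1 := by
    rw [div_pow, ← pow_mul, mul_comm q (q + 1), pow_mul, unorm_fixed hF]
    exact div_self (pow_ne_zero _ hμ0)
  obtain ⟨g₂, hg₂, hg₂x, hg₂det⟩ := exists_gu_refl hF w hww (μ ^ q / μ) hδ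
  obtain ⟨l, hl⟩ := su_mk (q := q) ((g₁ : Mn n F) * (g₂ : Mn n F))
    (fun u v => by
      rw [← Matrix.mulVec_mulVec, ← Matrix.mulVec_mulVec, gu_pres g₁ hg₁, gu_pres g₂ hg₂])
    (by rw [Matrix.det_mul, hg₁det, hg₂det]; field_simp)
  refine ⟨l, ?_, ?_⟩
  · show suM l *ᵥ D.e = _
    rw [show suM l = _ from hl, ← Matrix.mulVec_mulVec, hg₂x, D.W_e hF hw, mul_zero, zero_smul,
      add_zero, hg₁x, D.ee, D.ef]
    module
  · show suM l *ᵥ w = _
    rw [show suM l = _ from hl, ← Matrix.mulVec_mulVec, hg₂x, Matrix.mulVec_add,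
      Matrix.mulVec_smul, hg₁x, hw.1, hw.2]
    have h1 : (μ ^ q / μ - 1) / Cfsg.hermForm n F q w w * Cfsg.hermForm n F q w w =
        μ ^ q / μ - 1 := div_mul_cancel₀ _ hww
    rw [h1]
    module

/-- `δ` is realised on the line of `y` by an element of the stabiliser of `⟨e⟩` -/
def Tor (D : HP n F q) (y : Fin n → F) (δ : F) : Prop :=
  δ = 0 ∨ ∃ (l : Cfsg.SU n F q) (μ : F), suM l *ᵥ D.e = μ • D.e ∧ μ ^ q • (suM l *ᵥ y) = δ • y

/-- every scalar is a difference of two scalars realised by tori on the line of `y` -/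
def GoodLine (D : HP n F q) (y : Fin n → F) : Prop :=
  ∀ t : F, ∃ δ₁ δ₂ : F, t = δ₁ - δ₂ ∧ Tor D y δ₁ ∧ Tor D y δ₂

theorem diff_squares (t : F) : ∃ s₁ s₂ : F, t = s₁ ^ 2 - s₂ ^ 2 := by
  by_cases h2 : (2 : F) = 0
  · have hinj : Function.Injective (fun x : F => x ^ 2) := by
      intro x y hxy
      have h1 : (x - y) ^ 2 = 0 := by
        have h3 : x ^ 2 = y ^ 2 := hxy
        linear_combination h3 + (y ^ 2 - x * y) * h2
      have := pow_eq_zero_iff (two_ne_zero) |>.mp h1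
      exact sub_eq_zero.mp this
    obtain ⟨s, hs⟩ := (Finite.injective_iff_surjective.mp hinj) t
    exact ⟨s, 0, by simp only at hs; rw [hs]; ring⟩
  · exact ⟨(t + 1) / 2, (t - 1) / 2, by field_simp; ring⟩

theorem goodLine_iso (hF : Fintype.card F = q ^ 2) (D D' : HP n F q) (hy : D'.e ∈ D.W)
    (hz : D'.f ∈ D.W) : GoodLine D D'.e := by
  have key : ∀ s : F, Tor D D'.e (s ^ 2) := by
    intro s
    by_cases hs : s = 0
    · left; rw [hs]; ring
    · right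
      obtain ⟨l, h1, h2⟩ := torus_iso hF D D' hy hz (μ := s ^ q) (pow_ne_zero _ hs)
      refine ⟨l, s ^ q, h1, ?_⟩
      rw [h2, frob_frob hF, smul_smul]
      congr 1
      ring
  intro t
  obtain ⟨s₁, s₂, h⟩ := diff_squares t
  exact ⟨s₁ ^ 2, s₂ ^ 2, h, key s₁, key s₂⟩

theorem exists_dl_ne (hF : Fintype.card F = q ^ 2) (hq : q ≠ 2) :
    ∃ μ : F, μ ≠ 0 ∧ (μ ^ q) ^ 3 ≠ μ ^ 3 := by
  classical
  have hq2 := uq_ge_two hF
  obtain ⟨ζ, hζ⟩ := IsCyclic.exists_generator (α := Fˣ)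
  have hord : orderOf ζ = q ^ 2 - 1 := by
    rw [orderOf_eq_card_of_forall_mem_zpowers hζ, Nat.card_eq_fintype_card, Fintype.card_units, hF]
  refine ⟨(ζ : F), Units.ne_zero ζ, ?_⟩
  intro h
  have h1 : ζ ^ (q * 3) = ζ ^ 3 := by
    apply Units.ext
    rw [Units.val_pow_eq_pow_val, Units.val_pow_eq_pow_val, pow_mul]
    exact h
  rw [pow_eq_pow_iff_modEq, hord] at h1
  have h2 : q ^ 2 - 1 ∣ q * 3 - 3 := (Nat.modEq_iff_dvd' (by omega)).mp h1.symm
  have hq3 : 3 ≤ q := by omega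
  have h3 : q ^ 2 - 1 ≤ q * 3 - 3 := Nat.le_of_dvd (by omega) h2
  have h4 : 3 * q ≤ q ^ 2 := by nlinarith
  obtain ⟨Q, hQ⟩ : ∃ Q, Q = q ^ 2 := ⟨_, rfl⟩
  rw [← hQ] at h3 h4
  omega

theorem goodLine_aniso (hF : Fintype.card F = q ^ 2) (hq : q ≠ 2) (D : HP n F q) {w : Fin n → F}
    (hw : w ∈ D.W) (hww : Cfsg.hermForm n F q w w ≠ 0) : GoodLine D w := by
  have key : ∀ μ : F, Tor D w (μ ^ q * (μ ^ q / μ)) := by
    intro μ
    by_cases hμ : μ = 0
    · left; rw [hμ, div_zero, mul_zero]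
    · right
      obtain ⟨l, h1, h2⟩ := torus_aniso hF D hw hww hμ
      exact ⟨l, μ, h1, by rw [h2, smul_smul]⟩
  have keyq : ∀ a : F, a ^ q = a → Tor D w a := by
    intro a ha
    by_cases ha0 : a = 0
    · left; exact ha0
    · have := key a
      rw [ha, div_self ha0, mul_one] at this
      exact this
  obtain ⟨μ₀, hμ₀, hne⟩ := exists_dl_ne hF hq
  obtain ⟨δ₀, hδ₀⟩ : ∃ δ₀, δ₀ = μ₀ ^ q * (μ₀ ^ q / μ₀) := ⟨_, rfl⟩
  have hδq : δ₀ ^ q = μ₀ * (μ₀ / μ₀ ^ q) := by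
    rw [hδ₀, mul_pow, div_pow, frob_frob hF]
  have hδne : δ₀ - δ₀ ^ q ≠ 0 := by
    intro h0
    apply hne
    rw [hδq, hδ₀] at h0
    have hμq0 : μ₀ ^ q ≠ 0 := pow_ne_zero _ hμ₀
    field_simp at h0
    linear_combination h0
  have keyb : ∀ b : F, b ^ q = b → Tor D w (b * δ₀) := by
    intro b hb
    by_cases hb0 : b = 0
    · left; rw [hb0, zero_mul]
    · have := key (b * μ₀)
      have e : (b * μ₀) ^ q * ((b * μ₀) ^ q / (b * μ₀)) = b * δ₀ := by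
        rw [mul_pow, hb, hδ₀]
        field_simp
      rw [e] at this
      exact this
  intro t
  obtain ⟨b, hb⟩ : ∃ b, b = (t - t ^ q) / (δ₀ - δ₀ ^ q) := ⟨_, rfl⟩
  have hbq : b ^ q = b := by
    rw [hb, div_pow, frob_sub hF, frob_sub hF, frob_frob hF, frob_frob hF]
    rw [div_eq_div_iff (by intro h; exact hδne (by linear_combination -h)) hδne]
    ring
  have hb' : b * (δ₀ - δ₀ ^ q) = t - t ^ q := by rw [hb, div_mul_cancel₀ _ hδne]
  have haq : (t - b * δ₀) ^ q = t - b * δ₀ := by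
    rw [frob_sub hF, mul_pow, hbq]
    linear_combination hb'
  refine ⟨t - b * δ₀, (-b) * δ₀, by ring, keyq _ haq, keyb (-b) (by rw [frob_neg hF, hbq])⟩

/-- for `n ≥ 4` there is a hyperbolic pair orthogonal to a given one -/
theorem exists_hp_in_W (hF : Fintype.card F = q ^ 2) (hn : 4 ≤ n) (D : HP n F q) :
    ∃ D' : HP n F q, D'.e ∈ D.W ∧ D'.f ∈ D.W := by
  classical
  obtain ⟨i0, hi0⟩ : ∃ i : Fin n, i = ⟨0, by omega⟩ := ⟨_, rfl⟩
  obtain ⟨i1, hi1⟩ : ∃ i : Fin n, i = ⟨1, by omega⟩ := ⟨_, rfl⟩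
  obtain ⟨i2, hi2⟩ : ∃ i : Fin n, i = ⟨2, by omega⟩ := ⟨_, rfl⟩
  obtain ⟨i3, hi3⟩ : ∃ i : Fin n, i = ⟨3, by omega⟩ := ⟨_, rfl⟩
  have hs : ∀ a b : Fin n, Cfsg.hermForm n F q (Pi.single a (1 : F)) (Pi.single b 1) =
      if a = b then 1 else 0 := herm_single_single hF
  have h00 := hs i0 i0
  have h11 := hs i1 i1
  have h22 := hs i2 i2
  have h33 := hs i3 i3
  have h01 := hs i0 i1
  have h23 := hs i2 i3
  have h20 := hs i2 i0
  have h21 := hs i2 i1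
  have h30 := hs i3 i0
  have h31 := hs i3 i1
  rw [if_pos rfl] at h00 h11 h22 h33
  rw [if_neg (by rw [hi0, hi1]; simp [Fin.ext_iff])] at h01
  rw [if_neg (by rw [hi2, hi3]; simp [Fin.ext_iff])] at h23
  rw [if_neg (by rw [hi2, hi0]; simp [Fin.ext_iff])] at h20
  rw [if_neg (by rw [hi2, hi1]; simp [Fin.ext_iff])] at h21
  rw [if_neg (by rw [hi3, hi0]; simp [Fin.ext_iff])] at h30
  rw [if_neg (by rw [hi3, hi1]; simp [Fin.ext_iff])] at h31
  obtain ⟨a, b, c, d, h1, h2, h3, -⟩ := exists_hyp_of_orth hF _ _ h00 h11 h01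
  obtain ⟨a', b', c', d', h1', h2', h3', -⟩ := exists_hyp_of_orth hF _ _ h22 h33 h23
  obtain ⟨A, hAe, hAf⟩ := su_trans_hyp hF (by omega) _ _ D.e D.f h1 h2 h3 D.ee D.ff D.ef
  refine ⟨⟨suM A *ᵥ (a' • Pi.single i2 1 + b' • Pi.single i3 1),
    suM A *ᵥ (c' • Pi.single i2 1 + d' • Pi.single i3 1), by rw [su_pres]; exact h1',
    by rw [su_pres]; exact h2', by rw [su_pres]; exact h3'⟩, ⟨?_, ?_⟩, ⟨?_, ?_⟩⟩
  · show Cfsg.hermForm n F q (suM A *ᵥ _) D.e = 0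
    rw [← hAe, su_pres]
    exact herm_comb_disjoint hF _ _ _ _ h20 h21 h30 h31 a' b' a b
  · show Cfsg.hermForm n F q (suM A *ᵥ _) D.f = 0
    rw [← hAf, su_pres]
    exact herm_comb_disjoint hF _ _ _ _ h20 h21 h30 h31 a' b' c d
  · show Cfsg.hermForm n F q (suM A *ᵥ _) D.e = 0
    rw [← hAe, su_pres]
    exact herm_comb_disjoint hF _ _ _ _ h20 h21 h30 h31 c' d' a b
  · show Cfsg.hermForm n F q (suM A *ᵥ _) D.f = 0
    rw [← hAf, su_pres]
    exact herm_comb_disjoint hF _ _ _ _ h20 h21 h30 h31 c' d' c d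

end Cfsg.Agent.Lib.helper13.PU
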