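import Mathlib
import Cfsg.Agent.Lib.helper13.PSUQ1

set_option autoImplicit false
set_option linter.unusedSectionVars false
set_option linter.unusedVariables false
set_option linter.style.longLine false

/-!
Irreducibility of the stabiliser of an isotropic point on `Q/Z(Q)` and invariance of `Q` under
automorphisms stabilising the transvection group of `e`.
-/

namespace Cfsg.Agent.Lib.helper13.PU

open Matrix
open Cfsg.Agent.Lib.helper4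

variable {F : Type*} [Field F] [Fintype F] {q n : ℕ}

theorem line_of_good (hF : Fintype.card F = q ^ 2) (D : HP n F q) (B : AddSubgroup (Fin n → F))
    (hinv : ∀ (g : Cfsg.SU n F q) (μ : F), suM g *ᵥ D.e = μ • D.e →
      ∀ b ∈ B, μ ^ q • D.pw (suM g *ᵥ b) ∈ B)
    {y : Fin n → F} (hyW : y ∈ D.W) (hy : y ∈ B) (hg : GoodLine D y) (t : F) : t • y ∈ B := by
  obtain ⟨δ₁, δ₂, rfl, h1, h2⟩ := hg t
  have key : ∀ δ, Tor D y δ → δ • y ∈ B := by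
    intro δ hδ
    rcases hδ with rfl | ⟨l, μ, hl, hly⟩
    · rw [zero_smul]; exact B.zero_mem
    · have := hinv l μ hl y hy
      rw [← D.pw_smul, hly, D.pw_smul, D.pw_of_mem hyW] at this
      exact this
  rw [sub_smul]
  exact B.sub_mem (key _ h1) (key _ h2)

theorem tv_step (hF : Fintype.card F = q ^ 2) (D : HP n F q) (B : AddSubgroup (Fin n → F))
    (hBW : ∀ b ∈ B, b ∈ D.W)
    (hinv : ∀ (g : Cfsg.SU n F q) (μ : F), suM g *ᵥ D.e = μ • D.e →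
      ∀ b ∈ B, μ ^ q • D.pw (suM g *ᵥ b) ∈ B)
    {b y : Fin n → F} (hb : b ∈ B) (hyW : y ∈ D.W) (hyy : Cfsg.hermForm n F q y y = 0) {c : F}
    (hc : c + c ^ q = 0) : (c * Cfsg.hermForm n F q b y) • y ∈ B := by
  have h1 : suM (utvSU hF y c) *ᵥ D.e = (1 : F) • D.e := by
    rw [utvSU_mulVec hF y c hyy hc, D.W_e hF hyW, mul_zero, zero_smul, add_zero, one_smul]
  have h2 := hinv _ 1 h1 b hb
  rw [one_pow, one_smul, utvSU_mulVec hF y c hyy hc, D.pw_add, D.pw_smul, D.pw_of_mem (hBW b hb),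
    D.pw_of_mem hyW] at h2
  have := B.sub_mem h2 hb
  rwa [add_sub_cancel_left] at this

/-- an isotropic vector `f + w + d e` over a vector `w` orthogonal to the hyperbolic pair -/
theorem iso_combo (hF : Fintype.card F = q ^ 2) (D' : HP n F q) {w : Fin n → F}
    (hw : w ∈ D'.W) : ∃ d : F,
      Cfsg.hermForm n F q (D'.f + w + d • D'.e) (D'.f + w + d • D'.e) = 0 ∧
      Cfsg.hermForm n F q D'.e (D'.f + w + d • D'.e) = 1 := by
  obtain ⟨d, hd⟩ := utrace_surj hF (-(Cfsg.hermForm n F q w w))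
    (by rw [frob_neg hF, herm_self_fixed hF])
  refine ⟨d, ?_, ?_⟩
  · simp only [herm_add_left, herm_add_right hF, herm_smul_left, herm_smul_right, D'.ee, D'.ff,
      D'.ef, D'.fe hF, hw.1, hw.2, D'.W_e hF hw, D'.W_f hF hw]
    linear_combination hd
  · simp only [herm_add_right hF, herm_smul_right, D'.ee, D'.ef, D'.W_e hF hw]
    ring

theorem exists_iso_nonperp (hF : Fintype.card F = q ^ 2) (D D' : HP n F q) (hy : D'.e ∈ D.W)
    (hz : D'.f ∈ D.W) {b : Fin n → F} (hb : b ∈ D.W) (hb0 : b ≠ 0) :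
    ∃ y ∈ D.W, Cfsg.hermForm n F q y y = 0 ∧ Cfsg.hermForm n F q b y ≠ 0 := by
  by_cases h1 : Cfsg.hermForm n F q b D'.e = 0
  swap
  · exact ⟨D'.e, hy, D'.ee, h1⟩
  by_cases h2 : Cfsg.hermForm n F q b D'.f = 0
  swap
  · exact ⟨D'.f, hz, D'.ff, h2⟩
  obtain ⟨x, hx, hbx⟩ := D.W_nondeg hF hb hb0
  have hpw : D'.pw x ∈ D.W := by
    unfold HP.pw
    exact D.W.sub_mem (D.W.sub_mem hx (D.W.smul_mem _ hy)) (D.W.smul_mem _ hz)
  obtain ⟨d, hd1, hd2⟩ := iso_combo hF D' (D'.pw_mem hF x)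
  refine ⟨D'.f + D'.pw x + d • D'.e, D.W.add_mem (D.W.add_mem hz hpw) (D.W.smul_mem _ hy), hd1, ?_⟩
  rw [herm_add_right hF, herm_add_right hF, herm_smul_right, h1, h2, mul_zero, add_zero, zero_add]
  unfold HP.pw
  rw [herm_sub_right hF, herm_sub_right hF, herm_smul_right, herm_smul_right, h1, h2, mul_zero,
    mul_zero, sub_zero, sub_zero]
  exact hbx

/-- the stabiliser of `⟨e⟩` acts irreducibly (over the prime field) on `Q/Z(Q)` -/
theorem irr_W (hF : Fintype.card F = q ^ 2) (hn : 3 ≤ n) (hs : ¬ (n = 3 ∧ q = 2)) (D : HP n F q)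
    (B : AddSubgroup (Fin n → F)) (hBW : ∀ b ∈ B, b ∈ D.W)
    (hinv : ∀ (g : Cfsg.SU n F q) (μ : F), suM g *ᵥ D.e = μ • D.e →
      ∀ b ∈ B, μ ^ q • D.pw (suM g *ᵥ b) ∈ B)
    {b₀ : Fin n → F} (hb₀ : b₀ ∈ B) (hb₀0 : b₀ ≠ 0) : ∀ b ∈ D.W, b ∈ B := by
  have hb₀W := hBW b₀ hb₀
  by_cases hn3 : n = 3
  · have hq : q ≠ 2 := fun h => hs ⟨hn3, h⟩
    have hani : Cfsg.hermForm n F q b₀ b₀ ≠ 0 := by
      intro h0
      apply hb₀0
      apply D.eq_zero_of_W hF hb₀W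
      intro x hx
      obtain ⟨t, rfl⟩ := D.W_line hF hn3 hb₀W hb₀0 hx
      rw [herm_smul_right, h0, mul_zero]
    have hg := goodLine_aniso hF hq D hb₀W hani
    intro b hb
    obtain ⟨t, rfl⟩ := D.W_line hF hn3 hb₀W hb₀0 hb
    exact line_of_good hF D B hinv hb₀W hb₀ hg t
  · have hn4 : 4 ≤ n := by omega
    obtain ⟨D', hy, hz⟩ := exists_hp_in_W hF hn4 D
    obtain ⟨κ, hκ0, hκ⟩ := exists_trace_zero hF
    obtain ⟨y, hyW, hyy, hby⟩ := exists_iso_nonperp hF D D' hy hz hb₀W hb₀0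
    obtain ⟨y₁, hy₁⟩ : ∃ y₁, y₁ = (κ * Cfsg.hermForm n F q b₀ y) • y := ⟨_, rfl⟩
    have hy₁B : y₁ ∈ B := by rw [hy₁]; exact tv_step hF D B hBW hinv hb₀ hyW hyy hκ
    have hy₁W : y₁ ∈ D.W := hBW _ hy₁B
    have hy0 : y ≠ 0 := by
      rintro rfl
      exact hby (herm_zero_right hF _)
    have hy₁0 : y₁ ≠ 0 := by rw [hy₁]; exact smul_ne_zero (mul_ne_zero hκ0 hby) hy0
    have hy₁y₁ : Cfsg.hermForm n F q y₁ y₁ = 0 := by rw [hy₁]; exact iso_smul hF hyy _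
    obtain ⟨z₁, hz₁W, hz₁z₁, hy₁z₁⟩ := exists_hyp_in hF D.W (fun y hy hy0 => D.W_nondeg hF hy hy0)
      y₁ hy₁W hy₁0 hy₁y₁
    obtain ⟨D₁, hD₁e, hD₁f⟩ : ∃ D₁ : HP n F q, D₁.e = y₁ ∧ D₁.f = z₁ :=
      ⟨⟨y₁, z₁, hy₁y₁, hz₁z₁, hy₁z₁⟩, rfl, rfl⟩
    have hD₁eW : D₁.e ∈ D.W := by rw [hD₁e]; exact hy₁W
    have hD₁fW : D₁.f ∈ D.W := by rw [hD₁f]; exact hz₁W
    have hline : ∀ t : F, t • D₁.e ∈ B := by
      intro t
      exact line_of_good hF D B hinv hD₁eW (by rw [hD₁e]; exact hy₁B)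
        (goodLine_iso hF D D₁ hD₁eW hD₁fW) t
    have hstep : ∀ y' ∈ D.W, Cfsg.hermForm n F q y' y' = 0 → Cfsg.hermForm n F q D₁.e y' ≠ 0 →
        ∀ t : F, t • y' ∈ B := by
      intro y' hy'W hy'y' hne t
      have := tv_step hF D B hBW hinv (hline (t / (κ * Cfsg.hermForm n F q D₁.e y'))) hy'W hy'y' hκ
      rw [herm_smul_left] at this
      have e : κ * (t / (κ * Cfsg.hermForm n F q D₁.e y') * Cfsg.hermForm n F q D₁.e y') = t := by
        field_simp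
      rw [e] at this
      exact this
    intro b hb
    have hpwW : D₁.pw b ∈ D.W := by
      unfold HP.pw
      exact D.W.sub_mem (D.W.sub_mem hb (D.W.smul_mem _ hD₁eW)) (D.W.smul_mem _ hD₁fW)
    obtain ⟨d, hd1, hd2⟩ := iso_combo hF D₁ (D₁.pw_mem hF b)
    have h1 := hstep _ (D.W.add_mem (D.W.add_mem hD₁fW hpwW) (D.W.smul_mem _ hD₁eW)) hd1
      (by rw [hd2]; exact one_ne_zero) 1
    have h2 := hstep D₁.f hD₁fW D₁.ff (by rw [D₁.ef]; exact one_ne_zero)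
    have h3 : D₁.pw b ∈ B := by
      have := B.sub_mem (B.sub_mem h1 (h2 1)) (hline d)
      have e : (1 : F) • (D₁.f + D₁.pw b + d • D₁.e) - (1 : F) • D₁.f - d • D₁.e = D₁.pw b := by
        module
      rwa [e] at this
    rw [D₁.decomp b]
    exact B.add_mem (B.add_mem (hline _) (h2 _)) h3

/-- an automorphism stabilising the transvection group of `e` stabilises `Q` -/
theorem Q_invariant (hF : Fintype.card F = q ^ 2) (hn : 3 ≤ n) (hs : ¬ (n = 3 ∧ q = 2))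
    (D : HP n F q) {α : MulAut (Cfsg.PSU n F q)} (he : TG hF α D.e D.e) :
    ∀ x ∈ D.Q hF, α x ∈ D.Q hF := by
  have hn2 : 2 ≤ n := by omega
  have he' : TG hF α⁻¹ D.e D.e := he.inv
  -- the image of `Q`
  obtain ⟨N, hN⟩ : ∃ N : Subgroup (Cfsg.PSU n F q), N = (D.Q hF).map α.toMonoidHom := ⟨_, rfl⟩
  have hNmem : ∀ x, x ∈ N ↔ ∃ u ∈ D.Q hF, α u = x := by
    intro x; rw [hN]; rfl
  -- `N` is normalised by the stabiliser of `⟨e⟩`
  have hNnorm : ∀ (g : Cfsg.SU n F q) (μ : F), suM g *ᵥ D.e = μ • D.e → ∀ x ∈ N,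
      (QuotientGroup.mk g : Cfsg.PSU n F q) * x * (QuotientGroup.mk g)⁻¹ ∈ N := by
    intro g μ hμ x hx
    obtain ⟨u, ⟨b, d, hb, hd, rfl⟩, rfl⟩ := (hNmem x).mp hx
    obtain ⟨g₀, hg₀⟩ := exists_rep (α⁻¹ (QuotientGroup.mk g))
    obtain ⟨μ₀, hμ₀⟩ := aut_P hF hn2 D he' g g₀ hg₀ hμ
    obtain ⟨d', hd', e1⟩ := conj_sgb_P hF D g₀ hμ₀ hb hd
    rw [hNmem]
    refine ⟨_, ⟨_, d', D.W.smul_mem _ (D.pw_mem hF _), hd', rfl⟩, ?_⟩
    rw [← e1, map_mul, map_mul, map_inv, ← hg₀]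
    have : α (α⁻¹ (QuotientGroup.mk g)) = QuotientGroup.mk g := α.apply_symm_apply _
    rw [this]
  have htN : ∀ c : F, tvb hF D.e c ∈ N := by
    intro c
    have h1 : tvb hF D.e c ∈ α '' Set.range (tvb hF D.e) := by
      rw [he.2.2]; exact ⟨c, rfl⟩
    obtain ⟨_, ⟨c', rfl⟩, h2⟩ := h1
    rw [hNmem]
    exact ⟨_, D.tvb_mem_Q hF c', h2⟩
  -- the additive group of `W`-coordinates of `N ∩ Q`
  obtain ⟨B, hB⟩ : ∃ B : AddSubgroup (Fin n → F), ∀ b, b ∈ B ↔ (b ∈ D.W ∧ ∃ d : F,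
      d + d ^ q + Cfsg.hermForm n F q b b = 0 ∧ sgb hF D.e b d ∈ N) := by
    refine ⟨{ carrier := {b | b ∈ D.W ∧ ∃ d : F,
        d + d ^ q + Cfsg.hermForm n F q b b = 0 ∧ sgb hF D.e b d ∈ N}
              add_mem' := ?_
              zero_mem' := ?_
              neg_mem' := ?_ }, fun b => Iff.rfl⟩
    · rintro b b' ⟨hb, d, hd, h1⟩ ⟨hb', d', hd', h1'⟩
      obtain ⟨h2, h3⟩ := D.sgb_mul hF hb hd hb' hd'
      exact ⟨D.W.add_mem hb hb', _, h2, by rw [← h3]; exact N.mul_mem h1 h1'⟩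
    · refine ⟨D.W.zero_mem, 0, by rw [herm_zero_left, add_zero]; exact k0_zero hF, ?_⟩
      rw [D.sgb_zero hF (k0_zero hF), tvb_zero]
      exact N.one_mem
    · rintro b ⟨hb, d, hd, h1⟩
      obtain ⟨⟨h2, h3⟩, h4⟩ := sg_inv hF D.e b d D.ee hb.1 hd
      refine ⟨D.W.neg_mem hb, d ^ q, h3, ?_⟩
      have : sgb hF D.e (-b) (d ^ q) = (sgb hF D.e b d)⁻¹ := by
        unfold sgb; rw [← h4]; rfl
      rw [this]
      exact N.inv_mem h1
  have hBW : ∀ b ∈ B, b ∈ D.W := fun b hb => ((hB b).mp hb).1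
  have hinv : ∀ (g : Cfsg.SU n F q) (μ : F), suM g *ᵥ D.e = μ • D.e →
      ∀ b ∈ B, μ ^ q • D.pw (suM g *ᵥ b) ∈ B := by
    intro g μ hμ b hb
    obtain ⟨hbW, d, hd, h1⟩ := (hB b).mp hb
    obtain ⟨d', hd', e1⟩ := conj_sgb_P hF D g hμ hbW hd
    rw [hB]
    refine ⟨D.W.smul_mem _ (D.pw_mem hF _), d', hd', ?_⟩
    rw [← e1]
    exact hNnorm g μ hμ _ h1
  -- dichotomy
  have hdich : (∀ b ∈ B, b = 0) ∨ (∀ b ∈ D.W, b ∈ B) := by
    by_cases h : ∀ b ∈ B, b = 0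
    · exact Or.inl h
    · push Not at h
      obtain ⟨b₀, hb₀, hb₀0⟩ := h
      exact Or.inr (irr_W hF hn hs D B hBW hinv hb₀ hb₀0)
  -- main argument
  intro x hx
  obtain ⟨a₀, d₀, ha₀, hd₀, rfl⟩ := hx
  obtain ⟨g, hg⟩ := exists_rep (α (sgb hF D.e a₀ d₀))
  have hse : suM (sg hF D.e a₀ d₀) *ᵥ D.e = (1 : F) • D.e := by
    rw [D.sg_e hF ha₀.1 hd₀, one_smul]
  obtain ⟨μ, hμ⟩ := aut_P hF hn2 D he (sg hF D.e a₀ d₀) g hg hse
  rw [hg]
  apply mem_Q_of_star hF hn D g hμ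
  intro b hb
  obtain ⟨d, hd⟩ := utrace_surj hF (-(Cfsg.hermForm n F q b b))
    (by rw [frob_neg hF, herm_self_fixed hF])
  have hd' : d + d ^ q + Cfsg.hermForm n F q b b = 0 := by linear_combination hd
  obtain ⟨d₁, hd₁, e1⟩ := conj_sgb_P hF D g hμ hb hd'
  have hgN : (QuotientGroup.mk g : Cfsg.PSU n F q) ∈ N := by
    rw [hNmem]; exact ⟨_, ⟨a₀, d₀, ha₀, hd₀, rfl⟩, hg⟩
  have hb₁W : μ ^ q • D.pw (suM g *ᵥ b) ∈ D.W := D.W.smul_mem _ (D.pw_mem hF _)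
  rcases hdich with h0 | hW
  · -- `N ∩ Q` is the transvection group
    have hsb : suM (sg hF D.e b d) *ᵥ D.e = (1 : F) • D.e := by
      rw [D.sg_e hF hb.1 hd', one_smul]
    have h1 : sgb hF D.e (μ ^ q • D.pw (suM g *ᵥ b)) d₁ * (sgb hF D.e b d)⁻¹ ∈ N := by
      rw [← e1]
      have h2 := hNnorm (sg hF D.e b d) 1 hsb _ (N.inv_mem hgN)
      have h3 := N.mul_mem hgN h2
      have e2 : (QuotientGroup.mk g : Cfsg.PSU n F q) *
          ((QuotientGroup.mk (sg hF D.e b d) : Cfsg.PSU n F q) * (QuotientGroup.mk g)⁻¹ *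
            (QuotientGroup.mk (sg hF D.e b d))⁻¹) =
          (QuotientGroup.mk g : Cfsg.PSU n F q) * sgb hF D.e b d * (QuotientGroup.mk g)⁻¹ *
            (sgb hF D.e b d)⁻¹ := by
        unfold sgb; group
      rw [e2] at h3
      exact h3
    obtain ⟨⟨h2, h3⟩, h4⟩ := sg_inv hF D.e b d D.ee hb.1 hd'
    have e3 : (sgb hF D.e b d)⁻¹ = sgb hF D.e (-b) (d ^ q) := by
      unfold sgb; rw [← h4]; rfl
    rw [e3] at h1
    obtain ⟨h5, h6⟩ := D.sgb_mul hF hb₁W hd₁ (D.W.neg_mem hb) h3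
    rw [h6] at h1
    have h7 : μ ^ q • D.pw (suM g *ᵥ b) + -b ∈ B := by
      rw [hB]
      exact ⟨D.W.add_mem hb₁W (D.W.neg_mem hb), _, h5, h1⟩
    have := h0 _ h7
    exact add_neg_eq_zero.mp this
  · -- `Q ≤ N`
    have hbB := hW b hb
    obtain ⟨-, d₂, hd₂, h1⟩ := (hB b).mp hbB
    obtain ⟨u, ⟨a₁, d₃, ha₁, hd₃, rfl⟩, hu⟩ := (hNmem _).mp h1
    -- the two elements `sgb a₀ d₀`, `sgb a₁ d₃` of `Q` commute up to a transvection
    obtain ⟨h5, h6⟩ := D.sgb_mul hF ha₀ hd₀ ha₁ hd₃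
    obtain ⟨h5', h6'⟩ := D.sgb_mul hF ha₁ hd₃ ha₀ hd₀
    obtain ⟨c, hc⟩ : ∃ c : F, c = Cfsg.hermForm n F q a₀ a₁ - Cfsg.hermForm n F q a₁ a₀ := ⟨_, rfl⟩
    have hcK : c + c ^ q = 0 := by
      rw [hc, frob_sub hF, herm_symm hF, herm_symm hF]; ring
    have hcomm : sgb hF D.e a₀ d₀ * sgb hF D.e a₁ d₃ =
        sgb hF D.e a₁ d₃ * sgb hF D.e a₀ d₀ * tvb hF D.e c := by
      rw [h6, h6', ← D.sgb_zero hF hcK]
      have hz : (0 : Fin n → F) ∈ D.W := D.W.zero_mem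
      obtain ⟨h7, h8⟩ := D.sgb_mul hF (D.W.add_mem ha₁ ha₀) h5' hz
        (show c + c ^ q + Cfsg.hermForm n F q (0 : Fin n → F) 0 = 0 by
          rw [herm_zero_left, add_zero]; exact hcK)
      rw [h8, herm_zero_left, add_zero, add_comm a₁ a₀]
      congr 1
      rw [hc]; ring
    obtain ⟨c', hc', ec⟩ := he.elt c
    have h9 := congrArg α hcomm
    rw [map_mul, map_mul, map_mul, hg, hu, ec] at h9
    -- conjugate
    obtain ⟨d₁', hd₁', e1'⟩ := conj_sgb_P hF D g hμ hb hd₂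
    have h10 : (QuotientGroup.mk g : Cfsg.PSU n F q) * sgb hF D.e b d₂ * (QuotientGroup.mk g)⁻¹ =
        sgb hF D.e b d₂ * ((QuotientGroup.mk g : Cfsg.PSU n F q) * tvb hF D.e c' *
          (QuotientGroup.mk g)⁻¹) := by
      calc (QuotientGroup.mk g : Cfsg.PSU n F q) * sgb hF D.e b d₂ * (QuotientGroup.mk g)⁻¹
          = (sgb hF D.e b d₂ * QuotientGroup.mk g * tvb hF D.e c') * (QuotientGroup.mk g)⁻¹ := by
            rw [h9]
        _ = _ := by group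
    rw [conj_tvb, hμ, tvb_smul hF D.e μ c' D.ee hc', e1',
      ← D.sgb_zero hF (k0_mul_norm hF hc' μ)] at h10
    obtain ⟨h12, h13⟩ := D.sgb_mul hF hb hd₂ D.W.zero_mem
      (show c' * μ ^ (q + 1) + (c' * μ ^ (q + 1)) ^ q + Cfsg.hermForm n F q (0 : Fin n → F) 0 = 0 by
        rw [herm_zero_left, add_zero]; exact k0_mul_norm hF hc' μ)
    rw [h13] at h10
    have := (sgb_inj hF hn2 D hb₁W (D.W.add_mem hb D.W.zero_mem) hd₁' h12 h10).1
    rw [this, add_zero]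

end Cfsg.Agent.Lib.helper13.PU
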