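import Mathlib
import Cfsg.Agent.Lib.helper13.PSUQ2

set_option autoImplicit false
set_option linter.unusedSectionVars false
set_option linter.unusedVariables false
set_option linter.style.longLine false

/-!
The map induced on `Q/Z(Q)` by an automorphism of `PSU_n(q)` stabilising the transvection group of
`e`: additivity, equivariance and semilinearity.
-/

namespace Cfsg.Agent.Lib.helper13.PU

open Matrix
open Cfsg.Agent.Lib.helper4

variable {F : Type*} [Field F] [Fintype F] {q n : ℕ}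

namespace HP

theorem sgb_mul_tvb (D : HP n F q) (hF : Fintype.card F = q ^ 2) {b : Fin n → F} {d c : F}
    (hb : b ∈ D.W) (hd : d + d ^ q + Cfsg.hermForm n F q b b = 0) (hc : c + c ^ q = 0) :
    ((d + c) + (d + c) ^ q + Cfsg.hermForm n F q b b = 0) ∧
      sgb hF D.e b d * tvb hF D.e c = sgb hF D.e b (d + c) := by
  obtain ⟨h1, h2⟩ := D.sgb_mul hF hb hd D.W.zero_mem
    (show c + c ^ q + Cfsg.hermForm n F q (0 : Fin n → F) 0 = 0 by
      rw [herm_zero_left, add_zero]; exact hc)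
  rw [herm_zero_left, sub_zero, add_zero] at h1 h2
  rw [D.sgb_zero hF hc] at h2
  exact ⟨h1, h2⟩

theorem sgb_comm (D : HP n F q) (hF : Fintype.card F = q ^ 2) {b b' : Fin n → F} {d d' : F}
    (hb : b ∈ D.W) (hd : d + d ^ q + Cfsg.hermForm n F q b b = 0) (hb' : b' ∈ D.W)
    (hd' : d' + d' ^ q + Cfsg.hermForm n F q b' b' = 0) :
    ((Cfsg.hermForm n F q b b' - Cfsg.hermForm n F q b' b) +
        (Cfsg.hermForm n F q b b' - Cfsg.hermForm n F q b' b) ^ q = 0) ∧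
      sgb hF D.e b d * sgb hF D.e b' d' = sgb hF D.e b' d' * sgb hF D.e b d *
        tvb hF D.e (Cfsg.hermForm n F q b b' - Cfsg.hermForm n F q b' b) := by
  have hcK : (Cfsg.hermForm n F q b b' - Cfsg.hermForm n F q b' b) +
      (Cfsg.hermForm n F q b b' - Cfsg.hermForm n F q b' b) ^ q = 0 := by
    rw [frob_sub hF, herm_symm hF, herm_symm hF]; ring
  refine ⟨hcK, ?_⟩
  obtain ⟨h5, h6⟩ := D.sgb_mul hF hb hd hb' hd'
  obtain ⟨h5', h6'⟩ := D.sgb_mul hF hb' hd' hb hd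
  obtain ⟨h7, h8⟩ := D.sgb_mul_tvb hF (D.W.add_mem hb' hb) h5' hcK
  rw [h6, h6', h8, add_comm b' b]
  congr 1
  ring

end HP

/-- the data of the map induced on `Q` by an automorphism -/
structure IsPhi (hF : Fintype.card F = q ^ 2) (D : HP n F q) (α : MulAut (Cfsg.PSU n F q))
    (φ : (Fin n → F) → (Fin n → F)) (ψ : F → F) : Prop where
  he : TG hF α D.e D.e
  mem : ∀ b ∈ D.W, φ b ∈ D.W
  sg : ∀ b ∈ D.W, ∀ d : F, d + d ^ q + Cfsg.hermForm n F q b b = 0 →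
    ∃ d' : F, d' + d' ^ q + Cfsg.hermForm n F q (φ b) (φ b) = 0 ∧
      α (sgb hF D.e b d) = sgb hF D.e (φ b) d'
  tv : ∀ c : F, ψ c + ψ c ^ q = 0 ∧ α (tvb hF D.e c) = tvb hF D.e (ψ c)

theorem exists_valid (hF : Fintype.card F = q ^ 2) (b : Fin n → F) :
    ∃ d : F, d + d ^ q + Cfsg.hermForm n F q b b = 0 := by
  obtain ⟨d, hd⟩ := utrace_surj hF (-(Cfsg.hermForm n F q b b))
    (by rw [frob_neg hF, herm_self_fixed hF])
  exact ⟨d, by linear_combination hd⟩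

theorem exists_phi (hF : Fintype.card F = q ^ 2) (hn : 3 ≤ n) (hs : ¬ (n = 3 ∧ q = 2))
    (D : HP n F q) {α : MulAut (Cfsg.PSU n F q)} (he : TG hF α D.e D.e) :
    ∃ (φ : (Fin n → F) → (Fin n → F)) (ψ : F → F), IsPhi hF D α φ ψ := by
  have hQ := Q_invariant hF hn hs D he
  choose ψ hψ using he.elt
  choose d₀ hd₀ using exists_valid (n := n) hF
  have h1 : ∀ b : Fin n → F, ∃ b' : Fin n → F, b ∈ D.W → (b' ∈ D.W ∧ ∃ d' : F,
      d' + d' ^ q + Cfsg.hermForm n F q b' b' = 0 ∧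
        α (sgb hF D.e b (d₀ b)) = sgb hF D.e b' d') := by
    intro b
    by_cases hb : b ∈ D.W
    · obtain ⟨b', d', hb', hd', e⟩ := hQ _ ⟨b, d₀ b, hb, hd₀ b, rfl⟩
      exact ⟨b', fun _ => ⟨hb', d', hd', e⟩⟩
    · exact ⟨0, fun h => absurd h hb⟩
  choose φ hφ using h1
  refine ⟨φ, ψ, he, fun b hb => (hφ b hb).1, ?_, hψ⟩
  intro b hb d hd
  obtain ⟨hb', d', hd', e⟩ := hφ b hb
  have hc : (d - d₀ b) + (d - d₀ b) ^ q = 0 := by
    rw [frob_sub hF]; linear_combination hd - hd₀ b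
  obtain ⟨h2, h3⟩ := D.sgb_mul_tvb hF hb (hd₀ b) hc
  have e2 : d₀ b + (d - d₀ b) = d := by ring
  rw [e2] at h3
  obtain ⟨h4, h5⟩ := D.sgb_mul_tvb hF hb' hd' (hψ (d - d₀ b)).1
  refine ⟨_, h4, ?_⟩
  rw [← h3, map_mul, e, (hψ _).2, h5]

namespace IsPhi

variable {hF : Fintype.card F = q ^ 2} {D : HP n F q} {α : MulAut (Cfsg.PSU n F q)}
  {φ : (Fin n → F) → (Fin n → F)} {ψ : F → F}

theorem add (P : IsPhi hF D α φ ψ) (hn : 2 ≤ n) {b b' : Fin n → F} (hb : b ∈ D.W)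
    (hb' : b' ∈ D.W) : φ (b + b') = φ b + φ b' := by
  obtain ⟨d, hd⟩ := exists_valid hF b
  obtain ⟨d', hd'⟩ := exists_valid hF b'
  obtain ⟨h1, h2⟩ := D.sgb_mul hF hb hd hb' hd'
  obtain ⟨d₁, hd₁, e₁⟩ := P.sg b hb d hd
  obtain ⟨d₂, hd₂, e₂⟩ := P.sg b' hb' d' hd'
  obtain ⟨d₃, hd₃, e₃⟩ := P.sg (b + b') (D.W.add_mem hb hb') _ h1
  obtain ⟨h3, h4⟩ := D.sgb_mul hF (P.mem b hb) hd₁ (P.mem b' hb') hd₂
  have h5 := congrArg α h2
  rw [map_mul, e₁, e₂, e₃, h4] at h5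
  exact (sgb_inj hF hn D (D.W.add_mem (P.mem b hb) (P.mem b' hb'))
    (P.mem _ (D.W.add_mem hb hb')) h3 hd₃ h5).1.symm

theorem zero (P : IsPhi hF D α φ ψ) (hn : 2 ≤ n) : φ 0 = 0 := by
  have := P.add hn D.W.zero_mem D.W.zero_mem
  rw [add_zero] at this
  exact left_eq_add.mp this

theorem neg (P : IsPhi hF D α φ ψ) (hn : 2 ≤ n) {b : Fin n → F} (hb : b ∈ D.W) :
    φ (-b) = -φ b := by
  have := P.add hn hb (D.W.neg_mem hb)
  rw [add_neg_cancel, P.zero hn] at this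
  exact (neg_eq_of_add_eq_zero_right this.symm).symm

theorem sub (P : IsPhi hF D α φ ψ) (hn : 2 ≤ n) {b b' : Fin n → F} (hb : b ∈ D.W)
    (hb' : b' ∈ D.W) : φ (b - b') = φ b - φ b' := by
  rw [sub_eq_add_neg, P.add hn hb (D.W.neg_mem hb'), P.neg hn hb', sub_eq_add_neg]

theorem inj (P : IsPhi hF D α φ ψ) (hn : 2 ≤ n) {b : Fin n → F} (hb : b ∈ D.W)
    (h : φ b = 0) : b = 0 := by
  obtain ⟨d, hd⟩ := exists_valid hF b
  obtain ⟨d₁, hd₁, e₁⟩ := P.sg b hb d hd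
  rw [h, herm_zero_left, add_zero] at hd₁
  rw [h, D.sgb_zero hF hd₁] at e₁
  have h1 : tvb hF D.e d₁ ∈ α '' Set.range (tvb hF D.e) := by
    rw [P.he.2.2]; exact ⟨d₁, rfl⟩
  obtain ⟨x, hx, h2⟩ := h1
  obtain ⟨c, hc, rfl⟩ := mem_range_tvb hF hx
  have h3 : sgb hF D.e b d = tvb hF D.e c := α.injective (by rw [e₁, h2])
  rw [← D.sgb_zero hF hc] at h3
  exact (sgb_inj hF hn D hb D.W.zero_mem hd
    (by rw [herm_zero_left, add_zero]; exact hc) h3).1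

theorem inj' (P : IsPhi hF D α φ ψ) (hn : 2 ≤ n) {b b' : Fin n → F} (hb : b ∈ D.W)
    (hb' : b' ∈ D.W) (h : φ b = φ b') : b = b' := by
  have h1 : φ (b - b') = 0 := by rw [P.sub hn hb hb', h, sub_self]
  exact sub_eq_zero.mp (P.inj hn (D.W.sub_mem hb hb') h1)

/-- equivariance with respect to the stabiliser of `⟨e⟩` -/
theorem equiv (P : IsPhi hF D α φ ψ) (hn : 2 ≤ n) (g g' : Cfsg.SU n F q)
    (hg : α (QuotientGroup.mk g) = QuotientGroup.mk g') {μ μ' : F}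
    (hμ : suM g *ᵥ D.e = μ • D.e) (hμ' : suM g' *ᵥ D.e = μ' • D.e) {b : Fin n → F}
    (hb : b ∈ D.W) :
    φ (μ ^ q • D.pw (suM g *ᵥ b)) = μ' ^ q • D.pw (suM g' *ᵥ φ b) := by
  obtain ⟨d, hd⟩ := exists_valid hF b
  obtain ⟨d₁, hd₁, e₁⟩ := conj_sgb_P hF D g hμ hb hd
  obtain ⟨d₂, hd₂, e₂⟩ := P.sg b hb d hd
  obtain ⟨d₃, hd₃, e₃⟩ := conj_sgb_P hF D g' hμ' (P.mem b hb) hd₂
  obtain ⟨d₄, hd₄, e₄⟩ := P.sg _ (D.W.smul_mem (μ ^ q) (D.pw_mem hF (suM g *ᵥ b))) d₁ hd₁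
  have h5 := congrArg α e₁
  rw [map_mul, map_mul, map_inv, hg, e₂, e₃, e₄] at h5
  exact (sgb_inj hF hn D (D.W.smul_mem _ (D.pw_mem hF _))
    (P.mem _ (D.W.smul_mem _ (D.pw_mem hF _))) hd₃ hd₄ h5).1.symm

theorem psi_zero (P : IsPhi hF D α φ ψ) (hn : 2 ≤ n) : ψ 0 = 0 := by
  have h1 := (P.tv 0).2
  rw [tvb_zero, map_one] at h1
  exact tvb_eq_one hF hn D.e_ne D.ee (P.tv 0).1 h1.symm

theorem psi_add (P : IsPhi hF D α φ ψ) (hn : 2 ≤ n) {a b : F} (ha : a + a ^ q = 0)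
    (hb : b + b ^ q = 0) : ψ (a + b) = ψ a + ψ b := by
  have h1 := (P.tv (a + b)).2
  rw [tvb_add hF D.e a b D.ee ha hb, map_mul, (P.tv a).2, (P.tv b).2,
    ← tvb_add hF D.e _ _ D.ee (P.tv a).1 (P.tv b).1] at h1
  exact (tvb_inj hF hn D.e_ne D.ee (k0_add hF (P.tv a).1 (P.tv b).1) (P.tv (a + b)).1 h1).symm

theorem psi_inj (P : IsPhi hF D α φ ψ) (hn : 2 ≤ n) {c : F} (hc : c + c ^ q = 0)
    (h : ψ c = 0) : c = 0 := by
  have h1 := (P.tv c).2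
  rw [h, tvb_zero] at h1
  have h2 : α (tvb hF D.e c) = α 1 := by rw [h1, map_one]
  exact tvb_eq_one hF hn D.e_ne D.ee hc (α.injective h2)

theorem comm (P : IsPhi hF D α φ ψ) (hn : 2 ≤ n) {b b' : Fin n → F} (hb : b ∈ D.W)
    (hb' : b' ∈ D.W) :
    Cfsg.hermForm n F q (φ b) (φ b') - Cfsg.hermForm n F q (φ b') (φ b) =
      ψ (Cfsg.hermForm n F q b b' - Cfsg.hermForm n F q b' b) := by
  obtain ⟨d, hd⟩ := exists_valid hF b
  obtain ⟨d', hd'⟩ := exists_valid hF b'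
  obtain ⟨hc, h1⟩ := D.sgb_comm hF hb hd hb' hd'
  obtain ⟨d₁, hd₁, e₁⟩ := P.sg b hb d hd
  obtain ⟨d₂, hd₂, e₂⟩ := P.sg b' hb' d' hd'
  obtain ⟨hc', h2⟩ := D.sgb_comm hF (P.mem b hb) hd₁ (P.mem b' hb') hd₂
  have h3 := congrArg α h1
  rw [map_mul, map_mul, map_mul, e₁, e₂, (P.tv _).2, h2] at h3
  have h4 := mul_left_cancel h3
  exact tvb_inj hF hn D.e_ne D.ee hc' (P.tv _).1 h4

end IsPhi

/-! ### semilinearity on good lines -/

theorem sl_of_good {hF : Fintype.card F = q ^ 2} {D : HP n F q} {α : MulAut (Cfsg.PSU n F q)}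
    {φ : (Fin n → F) → (Fin n → F)} {ψ : F → F} (P : IsPhi hF D α φ ψ) (hn : 2 ≤ n)
    {y : Fin n → F} (hyW : y ∈ D.W) (hy0 : y ≠ 0) (hg : GoodLine D y)
    (hLP : ∀ t : F, ∃ s : F, φ (t • y) = s • φ y) :
    ∃ σ : F →+* F, ∀ t : F, φ (t • y) = σ t • φ y := by
  have hφy : φ y ≠ 0 := fun h => hy0 (P.inj hn hyW h)
  choose σ hσ using hLP
  have huniq : ∀ a b : F, a • φ y = b • φ y → a = b := by
    intro a b h
    have h1 : (a - b) • φ y = 0 := by rw [sub_smul, h, sub_self]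
    exact sub_eq_zero.mp (smul_eq_zero_vec hφy h1)
  have h1 : σ 1 = 1 := huniq _ _ (by rw [← hσ, one_smul, one_smul])
  have hadd : ∀ s t, σ (s + t) = σ s + σ t := by
    intro s t
    apply huniq
    rw [← hσ, add_smul, P.add hn (D.W.smul_mem s hyW) (D.W.smul_mem t hyW), hσ, hσ, add_smul]
  have h0 : σ 0 = 0 := by
    apply huniq
    rw [← hσ, zero_smul, zero_smul, P.zero hn]
  have hsub : ∀ s t, σ (s - t) = σ s - σ t := by
    intro s t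
    have := hadd (s - t) t
    rw [sub_add_cancel] at this
    rw [this]; ring
  have hTor : ∀ δ, Tor D y δ → ∀ t, σ (δ * t) = σ δ * σ t := by
    intro δ hδ t
    rcases hδ with rfl | ⟨l, μ, hl, hly⟩
    · rw [zero_mul, h0, zero_mul]
    · obtain ⟨l', hl'⟩ := exists_rep (α (QuotientGroup.mk l))
      obtain ⟨μ', hμ'⟩ := aut_P hF hn D P.he l l' hl' hl
      have key : ∀ t : F, φ ((δ * t) • y) = μ' ^ q • D.pw (suM l' *ᵥ φ (t • y)) := by
        intro t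
        rw [← P.equiv hn l l' hl' hl hμ' (D.W.smul_mem t hyW)]
        congr 1
        rw [Matrix.mulVec_smul, D.pw_smul, smul_comm, ← D.pw_smul, hly, D.pw_smul,
          D.pw_of_mem hyW, smul_smul, mul_comm]
      have key1 := key 1
      rw [mul_one, one_smul] at key1
      apply huniq
      rw [← hσ, key t, hσ t, Matrix.mulVec_smul, D.pw_smul, smul_comm, ← key1, hσ δ, smul_smul,
        mul_comm]
  have hmul : ∀ s t, σ (s * t) = σ s * σ t := by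
    intro s t
    obtain ⟨δ₁, δ₂, rfl, h1, h2⟩ := hg s
    rw [sub_mul, hsub, hTor δ₁ h1, hTor δ₂ h2, hsub]
    ring
  exact ⟨{ toFun := σ, map_one' := h1, map_mul' := hmul, map_zero' := h0, map_add' := hadd }, hσ⟩

/-- line preservation on isotropic lines -/
theorem lp_iso (hF : Fintype.card F = q ^ 2) (hn : 3 ≤ n) (D : HP n F q) (p : ℕ) [Fact p.Prime]
    [CharP F p] {α : MulAut (Cfsg.PSU n F q)} {φ : (Fin n → F) → (Fin n → F)} {ψ : F → F}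
    (P : IsPhi hF D α φ ψ) (D₁ : HP n F q) (hy : D₁.e ∈ D.W) (hz : D₁.f ∈ D.W) :
    ∀ t : F, ∃ s : F, φ (t • D₁.e) = s • φ D₁.e := by
  have hn2 : 2 ≤ n := by omega
  obtain ⟨y', hy'⟩ := tg_all hF hn D p α D₁.e D₁.e_ne D₁.ee
  have hy'e : Cfsg.hermForm n F q y' D.e = 0 := (TG.perp hn2 hy' P.he).mp hy.1
  obtain ⟨κ, hκ0, hκ⟩ := exists_trace_zero hF
  obtain ⟨κ', hκ'0, hκ', eκ⟩ := hy'.elt_ne hn2 hκ0 hκ
  have hT : suM (utvSU hF D₁.e κ) *ᵥ D.e = (1 : F) • D.e := by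
    rw [utvSU_mulVec hF D₁.e κ D₁.ee hκ, D.W_e hF hy, mul_zero, zero_smul, add_zero, one_smul]
  have hT' : suM (utvSU hF y' κ') *ᵥ D.e = (1 : F) • D.e := by
    rw [utvSU_mulVec hF y' κ' hy'.2.1.2 hκ', herm_zero_of_symm hF hy'e, mul_zero, zero_smul,
      add_zero, one_smul]
  have key : ∀ b ∈ D.W, φ ((κ * Cfsg.hermForm n F q b D₁.e) • D₁.e) =
      (κ' * Cfsg.hermForm n F q (φ b) y') • D.pw y' := by
    intro b hb
    have h1 := P.equiv hn2 (utvSU hF D₁.e κ) (utvSU hF y' κ') eκ hT hT' hb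
    rw [one_pow, one_smul, one_smul, utvSU_mulVec hF D₁.e κ D₁.ee hκ,
      utvSU_mulVec hF y' κ' hy'.2.1.2 hκ', D.pw_add, D.pw_add, D.pw_smul, D.pw_smul,
      D.pw_of_mem hb, D.pw_of_mem hy, D.pw_of_mem (P.mem b hb),
      P.add hn2 hb (D.W.smul_mem _ hy)] at h1
    exact add_left_cancel h1
  have key2 : ∀ t : F, ∃ s : F, φ (t • D₁.e) = s • D.pw y' := by
    intro t
    have h1 := key ((t / κ) • D₁.f) (D.W.smul_mem _ hz)
    rw [herm_smul_left, D₁.fe hF, mul_one, mul_div_cancel₀ _ hκ0] at h1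
    exact ⟨_, h1⟩
  obtain ⟨s₁, hs₁⟩ := key2 1
  rw [one_smul] at hs₁
  have hφy : φ D₁.e ≠ 0 := fun h => D₁.e_ne (P.inj hn2 hy h)
  have hs₁0 : s₁ ≠ 0 := by
    rintro rfl
    rw [zero_smul] at hs₁
    exact hφy hs₁
  intro t
  obtain ⟨s, hs⟩ := key2 t
  refine ⟨s / s₁, ?_⟩
  rw [hs, hs₁, smul_smul, div_mul_cancel₀ _ hs₁0]

theorem sl_iso (hF : Fintype.card F = q ^ 2) (hn : 3 ≤ n) (D : HP n F q) (p : ℕ) [Fact p.Prime]
    [CharP F p] {α : MulAut (Cfsg.PSU n F q)} {φ : (Fin n → F) → (Fin n → F)} {ψ : F → F}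
    (P : IsPhi hF D α φ ψ) (D₁ : HP n F q) (hy : D₁.e ∈ D.W) (hz : D₁.f ∈ D.W) :
    ∃ σ : F →+* F, ∀ t : F, φ (t • D₁.e) = σ t • φ D₁.e :=
  sl_of_good P (by omega) hy D₁.e_ne (goodLine_iso hF D D₁ hy hz) (lp_iso hF hn D p P D₁ hy hz)

/-- the swapped hyperbolic pair -/
def HP.swap (D : HP n F q) (hF : Fintype.card F = q ^ 2) : HP n F q :=
  ⟨D.f, D.e, D.ff, D.ee, D.fe hF⟩

theorem ringHom_surj (σ : F →+* F) : Function.Surjective σ :=
  Finite.injective_iff_surjective.mp σ.injective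

/-- the field automorphisms attached to the two vectors of a hyperbolic pair agree -/
theorem sl_pair (hF : Fintype.card F = q ^ 2) (hn : 3 ≤ n) (D : HP n F q) (p : ℕ) [Fact p.Prime]
    [CharP F p] {α : MulAut (Cfsg.PSU n F q)} {φ : (Fin n → F) → (Fin n → F)} {ψ : F → F}
    (P : IsPhi hF D α φ ψ) (D₁ : HP n F q) (hy : D₁.e ∈ D.W) (hz : D₁.f ∈ D.W)
    (σ₁ σ₂ : F →+* F) (h₁ : ∀ t : F, φ (t • D₁.e) = σ₁ t • φ D₁.e)
    (h₂ : ∀ t : F, φ (t • D₁.f) = σ₂ t • φ D₁.f) (t : F) : σ₁ t = σ₂ t := by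
  have hn2 : 2 ≤ n := by omega
  obtain ⟨κ, hκ0, hκ⟩ := exists_trace_zero hF
  -- independence of `φ y`, `φ z`
  have hind : ∀ A B : F, A • φ D₁.e + B • φ D₁.f = 0 → A = 0 ∧ B = 0 := by
    intro A B h
    have hφy : φ D₁.e ≠ 0 := fun h => D₁.e_ne (P.inj hn2 hy h)
    have hB : B = 0 := by
      by_contra hB
      obtain ⟨t₀, ht₀⟩ := ringHom_surj σ₁ (-A / B)
      have h1 : φ D₁.f = φ (t₀ • D₁.e) := by
        rw [h₁, ht₀]
        have h2 : B • φ D₁.f = (-A) • φ D₁.e := by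
          linear_combination (norm := module) h
        calc φ D₁.f = (B⁻¹ * B) • φ D₁.f := by rw [inv_mul_cancel₀ hB, one_smul]
          _ = B⁻¹ • (B • φ D₁.f) := by rw [smul_smul]
          _ = _ := by rw [h2, smul_smul]; congr 1; field_simp
      have h3 := P.inj' hn2 hz (D.W.smul_mem t₀ hy) h1
      have h4 := D₁.ef
      rw [h3, herm_smul_right, D₁.ee, mul_zero] at h4
      exact zero_ne_one h4
    rw [hB, zero_smul, add_zero] at h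
    exact ⟨smul_eq_zero_vec hφy h, hB⟩
  -- the isotropic vector `y + κ z`
  obtain ⟨y₃, hy₃⟩ : ∃ y₃, y₃ = D₁.e + κ • D₁.f := ⟨_, rfl⟩
  have hy₃W : y₃ ∈ D.W := by rw [hy₃]; exact D.W.add_mem hy (D.W.smul_mem _ hz)
  have hy₃iso : Cfsg.hermForm n F q y₃ y₃ = 0 := by
    rw [hy₃]
    simp only [herm_add_left, herm_add_right hF, herm_smul_left, herm_smul_right, D₁.ee, D₁.ff,
      D₁.ef, D₁.fe hF]
    linear_combination hκ
  have hy₃0 : y₃ ≠ 0 := by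
    intro h0
    have h1 : Cfsg.hermForm n F q y₃ D₁.e = κ := by
      rw [hy₃, herm_add_left, herm_smul_left, D₁.ee, D₁.fe hF]; ring
    rw [h0, herm_zero_left] at h1
    exact hκ0 h1.symm
  obtain ⟨z₃, hz₃W, hz₃z₃, hy₃z₃⟩ := exists_hyp_in hF D.W (fun y hy hy0 => D.W_nondeg hF hy hy0)
    y₃ hy₃W hy₃0 hy₃iso
  obtain ⟨D₃, hD₃e, hD₃f⟩ : ∃ D₃ : HP n F q, D₃.e = y₃ ∧ D₃.f = z₃ :=
    ⟨⟨y₃, z₃, hy₃iso, hz₃z₃, hy₃z₃⟩, rfl, rfl⟩
  obtain ⟨σ₃, h₃⟩ := sl_iso hF hn D p P D₃ (by rw [hD₃e]; exact hy₃W) (by rw [hD₃f]; exact hz₃W)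
  rw [hD₃e, hy₃] at h₃
  have e1 := h₃ t
  rw [smul_add, smul_smul, P.add hn2 (D.W.smul_mem _ hy) (D.W.smul_mem _ hz), h₁, h₂,
    P.add hn2 hy (D.W.smul_mem _ hz), h₂, smul_add, smul_smul, map_mul] at e1
  have e2 : (σ₁ t - σ₃ t) • φ D₁.e + ((σ₂ t - σ₃ t) * σ₂ κ) • φ D₁.f = 0 := by
    linear_combination (norm := module) e1
  obtain ⟨hA, hB⟩ := hind _ _ e2
  have hσκ : σ₂ κ ≠ 0 := by
    intro h0
    exact hκ0 ((map_eq_zero σ₂).mp h0)
  have hB' := (mul_eq_zero.mp hB).resolve_right hσκ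
  linear_combination hA - hB'

/-- spanning `W` by an isotropic vector and the isotropic vectors not orthogonal to it -/
theorem span_iso (hF : Fintype.card F = q ^ 2) (D D₁ : HP n F q) (hy : D₁.e ∈ D.W)
    (hz : D₁.f ∈ D.W) (S : AddSubgroup (Fin n → F)) (h1 : ∀ t : F, t • D₁.e ∈ S)
    (h2 : ∀ y' ∈ D.W, Cfsg.hermForm n F q y' y' = 0 → Cfsg.hermForm n F q D₁.e y' ≠ 0 →
      ∀ t : F, t • y' ∈ S) : ∀ b ∈ D.W, b ∈ S := by
  intro b hb
  have hpwW : D₁.pw b ∈ D.W := by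
    unfold HP.pw
    exact D.W.sub_mem (D.W.sub_mem hb (D.W.smul_mem _ hy)) (D.W.smul_mem _ hz)
  obtain ⟨d, hd1, hd2⟩ := iso_combo hF D₁ (D₁.pw_mem hF b)
  have h3 := h2 _ (D.W.add_mem (D.W.add_mem hz hpwW) (D.W.smul_mem _ hy)) hd1
    (by rw [hd2]; exact one_ne_zero) 1
  have h4 := h2 D₁.f hz D₁.ff (by rw [D₁.ef]; exact one_ne_zero)
  have h5 : D₁.pw b ∈ S := by
    have := S.sub_mem (S.sub_mem h3 (h4 1)) (h1 d)
    have e : (1 : F) • (D₁.f + D₁.pw b + d • D₁.e) - (1 : F) • D₁.f - d • D₁.e = D₁.pw b := by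
      module
    rwa [e] at this
  rw [D₁.decomp b]
  exact S.add_mem (S.add_mem (h1 _) (h4 _)) h5

/-- the induced map on `Q/Z(Q)` is semilinear -/
theorem phi_semilinear (hF : Fintype.card F = q ^ 2) (hn : 3 ≤ n) (hs : ¬ (n = 3 ∧ q = 2))
    (D : HP n F q) (p : ℕ) [Fact p.Prime] [CharP F p] {α : MulAut (Cfsg.PSU n F q)}
    {φ : (Fin n → F) → (Fin n → F)} {ψ : F → F} (P : IsPhi hF D α φ ψ) :
    ∃ σ : F →+* F, ∀ b ∈ D.W, ∀ t : F, φ (t • b) = σ t • φ b := by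
  have hn2 : 2 ≤ n := by omega
  by_cases hn3 : n = 3
  · have hq : q ≠ 2 := fun h => hs ⟨hn3, h⟩
    obtain ⟨w, hw, hw0⟩ := D.exists_W_ne hF hn
    have hani : Cfsg.hermForm n F q w w ≠ 0 := by
      intro h0
      apply hw0
      apply D.eq_zero_of_W hF hw
      intro x hx
      obtain ⟨t, rfl⟩ := D.W_line hF hn3 hw hw0 hx
      rw [herm_smul_right, h0, mul_zero]
    have hφw : φ w ≠ 0 := fun h => hw0 (P.inj hn2 hw h)
    obtain ⟨σ, hσ⟩ := sl_of_good P hn2 hw hw0 (goodLine_aniso hF hq D hw hani)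
      (fun t => D.W_line hF hn3 (P.mem w hw) hφw (P.mem _ (D.W.smul_mem t hw)))
    refine ⟨σ, fun b hb t => ?_⟩
    obtain ⟨s, rfl⟩ := D.W_line hF hn3 hw hw0 hb
    rw [smul_smul, hσ, hσ, map_mul, smul_smul]
  · have hn4 : 4 ≤ n := by omega
    obtain ⟨D₁, hy, hz⟩ := exists_hp_in_W hF hn4 D
    obtain ⟨σ, hσ⟩ := sl_iso hF hn D p P D₁ hy hz
    refine ⟨σ, ?_⟩
    obtain ⟨S, hS⟩ : ∃ S : AddSubgroup (Fin n → F), ∀ b, b ∈ S ↔
        (b ∈ D.W ∧ ∀ t : F, φ (t • b) = σ t • φ b) := by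
      refine ⟨{ carrier := {b | b ∈ D.W ∧ ∀ t : F, φ (t • b) = σ t • φ b}
                add_mem' := ?_
                zero_mem' := ?_
                neg_mem' := ?_ }, fun b => Iff.rfl⟩
      · rintro b b' ⟨hb, h1⟩ ⟨hb', h1'⟩
        refine ⟨D.W.add_mem hb hb', fun t => ?_⟩
        rw [smul_add, P.add hn2 (D.W.smul_mem t hb) (D.W.smul_mem t hb'), h1, h1',
          P.add hn2 hb hb', smul_add]
      · refine ⟨D.W.zero_mem, fun t => ?_⟩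
        rw [smul_zero, P.zero hn2, smul_zero]
      · rintro b ⟨hb, h1⟩
        refine ⟨D.W.neg_mem hb, fun t => ?_⟩
        rw [smul_neg, P.neg hn2 (D.W.smul_mem t hb), h1, P.neg hn2 hb, smul_neg]
    have hSsmul : ∀ b ∈ S, ∀ s : F, s • b ∈ S := by
      intro b hb s
      obtain ⟨hbW, h1⟩ := (hS b).mp hb
      rw [hS]
      refine ⟨D.W.smul_mem s hbW, fun t => ?_⟩
      rw [smul_smul, h1, h1, map_mul, smul_smul]
    have hy₁ : D₁.e ∈ S := by rw [hS]; exact ⟨hy, hσ⟩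
    have key := span_iso hF D D₁ hy hz S (fun t => hSsmul _ hy₁ t) (by
      intro y' hy'W hy'y' hne t
      apply hSsmul
      obtain ⟨s, hs⟩ : ∃ s : F, s = ((Cfsg.hermForm n F q D₁.e y')⁻¹) ^ q := ⟨_, rfl⟩
      have hs0 : s ≠ 0 := by rw [hs]; exact pow_ne_zero _ (inv_ne_zero hne)
      have h1 : Cfsg.hermForm n F q D₁.e (s • y') = 1 := by
        rw [herm_smul_right, hs, frob_frob hF, inv_mul_cancel₀ hne]
      obtain ⟨D₂, hD₂e, hD₂f⟩ : ∃ D₂ : HP n F q, D₂.e = D₁.e ∧ D₂.f = s • y' :=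
        ⟨⟨D₁.e, s • y', D₁.ee, iso_smul hF hy'y' s, h1⟩, rfl, rfl⟩
      have hD₂eW : D₂.e ∈ D.W := by rw [hD₂e]; exact hy
      have hD₂fW : D₂.f ∈ D.W := by rw [hD₂f]; exact D.W.smul_mem _ hy'W
      obtain ⟨σ₂, hσ₂⟩ := sl_iso hF hn D p P (D₂.swap hF) hD₂fW hD₂eW
      have hσ' : ∀ t : F, φ (t • D₂.e) = σ t • φ D₂.e := by rw [hD₂e]; exact hσ
      have heq := sl_pair hF hn D p P D₂ hD₂eW hD₂fW σ σ₂ hσ' hσ₂
      have h3 : s • y' ∈ S := by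
        rw [hS]
        refine ⟨D.W.smul_mem _ hy'W, fun t => ?_⟩
        have := hσ₂ t
        rw [← heq t] at this
        rw [← hD₂f]
        exact this
      have := hSsmul _ h3 s⁻¹
      rwa [smul_smul, inv_mul_cancel₀ hs0, one_smul] at this)
    intro b hb
    exact ((hS b).mp (key b hb)).2

end Cfsg.Agent.Lib.helper13.PU
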