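import Mathlib
import Cfsg.Agent.Lib.helper13.PSUSemi

set_option autoImplicit false
set_option linter.unusedSectionVars false
set_option linter.unusedVariables false
set_option linter.style.longLine false

/-!
The Hermitian form on `Q/Z(Q)` is preserved up to a scalar by the induced semilinear map; the
semilinear unitary map extending it, and the normalisation of an automorphism of `PSU_n(q)`.
-/

namespace Cfsg.Agent.Lib.helper13.PU

open Matrix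
open Cfsg.Agent.Lib.helper4

variable {F : Type*} [Field F] [Fintype F] {q n : ℕ}

theorem eq_zero_of_frob_lin (hF : Fintype.card F = q ^ 2) {X : F}
    (h : ∀ s : F, s * X = s ^ q * X ^ q) : X = 0 := by
  have h1 := h 1
  rw [one_mul, one_pow, one_mul] at h1
  obtain ⟨s, hs⟩ := exists_frob_ne hF
  have h2 := h s
  rw [← h1] at h2
  have h3 : (s ^ q - s) * X = 0 := by linear_combination -h2
  rcases mul_eq_zero.mp h3 with h4 | h4
  · exact absurd (sub_eq_zero.mp h4) hs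
  · exact h4

theorem phi_form (hF : Fintype.card F = q ^ 2) (hn : 3 ≤ n) (D : HP n F q)
    {α : MulAut (Cfsg.PSU n F q)} {φ : (Fin n → F) → (Fin n → F)} {ψ : F → F}
    (P : IsPhi hF D α φ ψ) (σ : F ≃+* F)
    (hσ : ∀ b ∈ D.W, ∀ t : F, φ (t • b) = σ t • φ b) :
    ∃ c₀ : F, c₀ ≠ 0 ∧ c₀ ^ q = c₀ ∧ (∀ c : F, c + c ^ q = 0 → ψ c = c₀ * σ c) ∧
      ∀ b₁ ∈ D.W, ∀ b₂ ∈ D.W,
        Cfsg.hermForm n F q (φ b₁) (φ b₂) = c₀ * σ (Cfsg.hermForm n F q b₁ b₂) := by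
  have hn2 : 2 ≤ n := by omega
  have key : ∀ b₁ ∈ D.W, ∀ b₂ ∈ D.W, ∀ t : F,
      σ t * Cfsg.hermForm n F q (φ b₁) (φ b₂) - (σ t * Cfsg.hermForm n F q (φ b₁) (φ b₂)) ^ q =
        ψ (t * Cfsg.hermForm n F q b₁ b₂ - (t * Cfsg.hermForm n F q b₁ b₂) ^ q) := by
    intro b₁ hb₁ b₂ hb₂ t
    have h1 := P.comm hn2 (D.W.smul_mem t hb₁) hb₂
    rw [hσ b₁ hb₁, herm_smul_left, herm_smul_left, ← herm_symm hF (σ t • φ b₁) (φ b₂),
      herm_smul_left, ← herm_symm hF (t • b₁) b₂, herm_smul_left] at h1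
    exact h1
  obtain ⟨b, hb, hb0⟩ := D.exists_W_ne hF hn
  obtain ⟨x, hx, hbx⟩ := D.W_nondeg hF hb hb0
  obtain ⟨b₀, hb₀⟩ : ∃ b₀ : Fin n → F, b₀ = (Cfsg.hermForm n F q b x)⁻¹ • b := ⟨_, rfl⟩
  have hb₀W : b₀ ∈ D.W := by rw [hb₀]; exact D.W.smul_mem _ hb
  have hH : Cfsg.hermForm n F q b₀ x = 1 := by
    rw [hb₀, herm_smul_left, inv_mul_cancel₀ hbx]
  obtain ⟨τ, hτ⟩ := utrace_surj hF (1 : F) (one_pow q)
  obtain ⟨B, hB⟩ : ∃ B : F, B = Cfsg.hermForm n F q (φ b₀) (φ x) := ⟨_, rfl⟩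
  obtain ⟨c₀, hc₀⟩ : ∃ c₀ : F, c₀ = σ τ * B + (σ τ * B) ^ q := ⟨_, rfl⟩
  have hc₀q : c₀ ^ q = c₀ := by
    rw [hc₀, frob_add hF, frob_frob hF]; ring
  have hψ : ∀ c : F, c + c ^ q = 0 → ψ c = c₀ * σ c := by
    intro c hc
    have h1 := key b₀ hb₀W x hx (c * τ)
    rw [hH, mul_one, ← hB] at h1
    have e1 : c * τ - (c * τ) ^ q = c := by
      rw [mul_pow]; linear_combination c * hτ - τ ^ q * hc
    rw [e1] at h1
    rw [← h1, hc₀, map_mul]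
    have e2 : σ c ^ q = - σ c := by
      rw [← map_pow, ← map_neg]; congr 1; linear_combination hc
    have e3 : (σ c * σ τ * B) ^ q = σ c ^ q * (σ τ * B) ^ q := by ring
    rw [e3, e2]
    ring
  have hform : ∀ b₁ ∈ D.W, ∀ b₂ ∈ D.W,
      Cfsg.hermForm n F q (φ b₁) (φ b₂) = c₀ * σ (Cfsg.hermForm n F q b₁ b₂) := by
    intro b₁ hb₁ b₂ hb₂
    apply sub_eq_zero.mp
    apply eq_zero_of_frob_lin hF
    intro s
    obtain ⟨t, rfl⟩ := σ.surjective s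
    have h1 := key b₁ hb₁ b₂ hb₂ t
    have hk : (t * Cfsg.hermForm n F q b₁ b₂ - (t * Cfsg.hermForm n F q b₁ b₂) ^ q) +
        (t * Cfsg.hermForm n F q b₁ b₂ - (t * Cfsg.hermForm n F q b₁ b₂) ^ q) ^ q = 0 := by
      rw [frob_sub hF, frob_frob hF]; ring
    rw [hψ _ hk, map_sub, map_pow, map_mul] at h1
    rw [frob_sub hF]
    linear_combination h1 + σ t ^ q * σ (Cfsg.hermForm n F q b₁ b₂) ^ q * hc₀q
  have hc₀0 : c₀ ≠ 0 := by
    intro h0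
    obtain ⟨κ, hκ0, hκ⟩ := exists_trace_zero hF
    have := hψ κ hκ
    rw [h0, zero_mul] at this
    exact hκ0 (P.psi_inj hn2 hκ this)
  exact ⟨c₀, hc₀0, hc₀q, hψ, hform⟩

/-- the semilinear extension of the induced map -/
noncomputable def Psi (D : HP n F q) (φ : (Fin n → F) → (Fin n → F)) (σ : F ≃+* F) (a : F)
    (x : Fin n → F) : Fin n → F :=
  (a * σ (Cfsg.hermForm n F q x D.f)) • D.e + ((a ^ q)⁻¹ * σ (Cfsg.hermForm n F q x D.e)) • D.f +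
    (a ^ q)⁻¹ • φ (D.pw x)

section psi

variable {hF : Fintype.card F = q ^ 2} {D : HP n F q} {α : MulAut (Cfsg.PSU n F q)}
  {φ : (Fin n → F) → (Fin n → F)} {ψ : F → F}

theorem Psi_add (P : IsPhi hF D α φ ψ) (hn : 2 ≤ n) (σ : F ≃+* F) (a : F) (x y : Fin n → F) :
    Psi D φ σ a (x + y) = Psi D φ σ a x + Psi D φ σ a y := by
  unfold Psi
  rw [herm_add_left, herm_add_left, map_add, map_add, D.pw_add,
    P.add hn (D.pw_mem hF x) (D.pw_mem hF y)]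
  module

theorem Psi_smul (P : IsPhi hF D α φ ψ) (σ : F ≃+* F)
    (hσ : ∀ b ∈ D.W, ∀ t : F, φ (t • b) = σ t • φ b) (a t : F) (x : Fin n → F) :
    Psi D φ σ a (t • x) = σ t • Psi D φ σ a x := by
  unfold Psi
  rw [herm_smul_left, herm_smul_left, map_mul, map_mul, D.pw_smul, hσ _ (D.pw_mem hF x)]
  module

theorem Psi_e (P : IsPhi hF D α φ ψ) (hn : 2 ≤ n) (σ : F ≃+* F) (a : F) :
    Psi D φ σ a D.e = a • D.e := by
  unfold Psi
  rw [D.ef, D.ee, D.pw_e, P.zero hn, map_one, map_zero]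
  module

theorem Psi_f (P : IsPhi hF D α φ ψ) (hn : 2 ≤ n) (σ : F ≃+* F) (a : F) :
    Psi D φ σ a D.f = (a ^ q)⁻¹ • D.f := by
  unfold Psi
  rw [D.ff, D.fe hF, D.pw_f hF, P.zero hn, map_one, map_zero]
  module

theorem Psi_W (σ : F ≃+* F) (a : F) {b : Fin n → F} (hb : b ∈ D.W) :
    Psi D φ σ a b = (a ^ q)⁻¹ • φ b := by
  unfold Psi
  rw [hb.1, hb.2, D.pw_of_mem hb, map_zero]
  module

theorem Psi_herm (P : IsPhi hF D α φ ψ) (hn : 2 ≤ n) (σ : F ≃+* F) (a c₀ : F)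
    (ha : a ^ (q + 1) = c₀) (hc₀ : c₀ ≠ 0)
    (hform : ∀ b₁ ∈ D.W, ∀ b₂ ∈ D.W,
        Cfsg.hermForm n F q (φ b₁) (φ b₂) = c₀ * σ (Cfsg.hermForm n F q b₁ b₂))
    (x y : Fin n → F) :
    Cfsg.hermForm n F q (Psi D φ σ a x) (Psi D φ σ a y) = σ (Cfsg.hermForm n F q x y) := by
  have ha0 : a ≠ 0 := by
    rintro rfl
    rw [zero_pow (by omega)] at ha
    exact hc₀ ha.symm
  have haq0 : a ^ q ≠ 0 := pow_ne_zero _ ha0
  have h1 : ∀ x, Cfsg.hermForm n F q (Psi D φ σ a x) D.f = a * σ (Cfsg.hermForm n F q x D.f) := by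
    intro x
    unfold Psi
    rw [herm_add_left, herm_add_left, herm_smul_left, herm_smul_left, herm_smul_left, D.ef, D.ff,
      (P.mem _ (D.pw_mem hF x)).2]
    ring
  have h2 : ∀ x, Cfsg.hermForm n F q (Psi D φ σ a x) D.e =
      (a ^ q)⁻¹ * σ (Cfsg.hermForm n F q x D.e) := by
    intro x
    unfold Psi
    rw [herm_add_left, herm_add_left, herm_smul_left, herm_smul_left, herm_smul_left, D.ee,
      D.fe hF, (P.mem _ (D.pw_mem hF x)).1]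
    ring
  have h3 : ∀ x, D.pw (Psi D φ σ a x) = (a ^ q)⁻¹ • φ (D.pw x) := by
    intro x
    unfold Psi
    rw [D.pw_add, D.pw_add, D.pw_smul, D.pw_smul, D.pw_smul, D.pw_e, D.pw_f hF,
      D.pw_of_mem (P.mem _ (D.pw_mem hF x))]
    module
  rw [D.herm_decomp hF (Psi D φ σ a x) (Psi D φ σ a y), h1, h2, h1, h2, h3, h3, herm_smul_left,
    herm_smul_right, hform _ (D.pw_mem hF x) _ (D.pw_mem hF y), D.herm_decomp hF x y, map_add,
    map_add, map_mul, map_mul, map_pow, map_pow]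
  have e1 : ((a ^ q)⁻¹) ^ q = a⁻¹ := by rw [inv_pow, frob_frob hF]
  rw [mul_pow, mul_pow, e1, ← ha, unorm_eq]
  field_simp

end psi

theorem exists_gamma (hF : Fintype.card F = q ^ 2) (hn : 3 ≤ n) (D : HP n F q)
    {α : MulAut (Cfsg.PSU n F q)} {φ : (Fin n → F) → (Fin n → F)} {ψ : F → F}
    (P : IsPhi hF D α φ ψ) (σ : F ≃+* F)
    (hσ : ∀ b ∈ D.W, ∀ t : F, φ (t • b) = σ t • φ b) :
    ∃ (g : ↥(Cfsg.GU n F q)) (c₀ a : F), c₀ ≠ 0 ∧ c₀ ^ q = c₀ ∧ a ^ (q + 1) = c₀ ∧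
      (∀ c : F, c + c ^ q = 0 → ψ c = c₀ * σ c) ∧
      ∀ u : Fin n → F, ((g : GL (Fin n) F) : Mn n F) *ᵥ (fun i => σ (u i)) = Psi D φ σ a u := by
  have hn2 : 2 ≤ n := by omega
  obtain ⟨c₀, hc₀0, hc₀q, hψ, hform⟩ := phi_form hF hn D P σ hσ
  obtain ⟨a, ha⟩ := unorm_surj hF c₀ hc₀q
  obtain ⟨L, hL⟩ : ∃ L : (Fin n → F) →ₗ[F] (Fin n → F),
      ∀ y, L y = Psi D φ σ a (fun i => σ.symm (y i)) := by
    refine ⟨{ toFun := fun y => Psi D φ σ a (fun i => σ.symm (y i))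
              map_add' := ?_
              map_smul' := ?_ }, fun y => rfl⟩
    · intro x y
      have e : (fun i => σ.symm ((x + y) i)) =
          (fun i => σ.symm (x i)) + (fun i => σ.symm (y i)) := by
        funext i; simp only [Pi.add_apply, map_add]
      show Psi D φ σ a (fun i => σ.symm ((x + y) i)) = _
      rw [e, Psi_add P hn2]
    · intro t x
      have e : (fun i => σ.symm ((t • x) i)) = σ.symm t • (fun i => σ.symm (x i)) := by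
        funext i; simp only [Pi.smul_apply, smul_eq_mul, map_mul]
      show Psi D φ σ a (fun i => σ.symm ((t • x) i)) = _
      rw [e, Psi_smul P σ hσ, RingEquiv.apply_symm_apply]
      rfl
  have e : ∀ u, LinearMap.toMatrix' L *ᵥ u = L u := fun u => by
    rw [← Matrix.toLin'_apply, Matrix.toLin'_toMatrix']
  obtain ⟨g, hg, hgM⟩ := gu_mk hF (LinearMap.toMatrix' L) (fun u v => by
    rw [e, e, hL, hL, Psi_herm P hn2 σ a c₀ ha hc₀0 hform, herm_map σ.symm u v,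
      RingEquiv.apply_symm_apply])
  refine ⟨⟨g, hg⟩, c₀, a, hc₀0, hc₀q, ha, hψ, fun u => ?_⟩
  show (g : Mn n F) *ᵥ _ = _
  rw [hgM, e, hL]
  simp only [RingEquiv.symm_apply_apply]

/-! ### the action of semilinear maps on transvections and Siegel elements -/

theorem conjAut_tvb (hF : Fintype.card F = q ^ 2) (g : ↥(Cfsg.GU n F q)) (v : Fin n → F) (c : F) :
    conjAut g (tvb hF v c) = tvb hF (((g : GL (Fin n) F) : Mn n F) *ᵥ v) c := by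
  unfold tvb
  rw [conjAut_mk, conjSU_utv]

theorem fieldAut_tvb (hF : Fintype.card F = q ^ 2) (σ : F ≃+* F) (v : Fin n → F) (c : F) :
    fieldAut σ (tvb hF v c) = tvb hF (fun i => σ (v i)) (σ c) := by
  unfold tvb
  rw [fieldAut_mk, fieldSU_utv]

theorem TG_conjAut (hF : Fintype.card F = q ^ 2) (g : ↥(Cfsg.GU n F q)) {v : Fin n → F}
    (hv0 : v ≠ 0) (hv : Cfsg.hermForm n F q v v = 0) :
    TG hF (conjAut g) v (((g : GL (Fin n) F) : Mn n F) *ᵥ v) := by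
  refine ⟨⟨hv0, hv⟩, ⟨?_, ?_⟩, ?_⟩
  · intro h0
    apply hv0
    have := gu_inv_mulVec' (g : GL (Fin n) F) v
    rw [h0, Matrix.mulVec_zero] at this
    exact this.symm
  · rw [gu_pres _ g.2, hv]
  · ext x
    constructor
    · rintro ⟨_, ⟨c, rfl⟩, rfl⟩
      exact ⟨c, (conjAut_tvb hF g v c).symm⟩
    · rintro ⟨c, rfl⟩
      exact ⟨tvb hF v c, ⟨_, rfl⟩, conjAut_tvb hF g v c⟩

theorem TG_fieldAut (hF : Fintype.card F = q ^ 2) (σ : F ≃+* F) {v : Fin n → F}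
    (hv0 : v ≠ 0) (hv : Cfsg.hermForm n F q v v = 0) :
    TG hF (fieldAut σ) v (fun i => σ (v i)) := by
  refine ⟨⟨hv0, hv⟩, ⟨?_, ?_⟩, ?_⟩
  · intro h0
    apply hv0
    funext i
    have := congrFun h0 i
    simpa using this
  · rw [herm_map, hv, map_zero]
  · ext x
    constructor
    · rintro ⟨_, ⟨c, rfl⟩, rfl⟩
      exact ⟨σ c, (fieldAut_tvb hF σ v c).symm⟩
    · rintro ⟨c, rfl⟩
      refine ⟨tvb hF v (σ.symm c), ⟨_, rfl⟩, ?_⟩
      rw [fieldAut_tvb, RingEquiv.apply_symm_apply]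

theorem TG_gamma (hF : Fintype.card F = q ^ 2) (g : ↥(Cfsg.GU n F q)) (σ : F ≃+* F)
    {v : Fin n → F} (hv0 : v ≠ 0) (hv : Cfsg.hermForm n F q v v = 0) :
    TG hF (conjAut g * fieldAut σ) v (((g : GL (Fin n) F) : Mn n F) *ᵥ (fun i => σ (v i))) := by
  have t1 := TG_fieldAut hF σ hv0 hv
  exact TG.mul t1 (TG_conjAut hF g t1.2.1.1 t1.2.1.2)

theorem gamma_tvb (hF : Fintype.card F = q ^ 2) (g : ↥(Cfsg.GU n F q)) (σ : F ≃+* F)
    (v : Fin n → F) (c : F) :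
    (conjAut g * fieldAut σ : MulAut (Cfsg.PSU n F q)) (tvb hF v c) =
      tvb hF (((g : GL (Fin n) F) : Mn n F) *ᵥ (fun i => σ (v i))) (σ c) := by
  rw [MulAut.mul_apply, fieldAut_tvb, conjAut_tvb]

theorem gamma_sgb (hF : Fintype.card F = q ^ 2) (g : ↥(Cfsg.GU n F q)) (σ : F ≃+* F)
    (e b : Fin n → F) (d : F) (he : Cfsg.hermForm n F q e e = 0)
    (hbe : Cfsg.hermForm n F q b e = 0) (hd : d + d ^ q + Cfsg.hermForm n F q b b = 0) :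
    (conjAut g * fieldAut σ : MulAut (Cfsg.PSU n F q)) (sgb hF e b d) =
      sgb hF (((g : GL (Fin n) F) : Mn n F) *ᵥ (fun i => σ (e i)))
        (((g : GL (Fin n) F) : Mn n F) *ᵥ (fun i => σ (b i))) (σ d) := by
  obtain ⟨⟨h1, h2, h3⟩, h4⟩ := fieldSU_sg hF σ e b d he hbe hd
  unfold sgb
  rw [MulAut.mul_apply, fieldAut_mk, h4, conjAut_mk, conjSU_sg hF g _ _ _ h1 h2 h3]

theorem gamma_sgb_P {hF : Fintype.card F = q ^ 2} {D : HP n F q} {α : MulAut (Cfsg.PSU n F q)}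
    {φ : (Fin n → F) → (Fin n → F)} {ψ : F → F} (P : IsPhi hF D α φ ψ) (hn : 2 ≤ n)
    (g : ↥(Cfsg.GU n F q)) (σ : F ≃+* F) (a c₀ : F) (ha : a ^ (q + 1) = c₀) (hc₀ : c₀ ≠ 0)
    (hgΨ : ∀ u : Fin n → F,
      ((g : GL (Fin n) F) : Mn n F) *ᵥ (fun i => σ (u i)) = Psi D φ σ a u)
    {b : Fin n → F} (hb : b ∈ D.W) {d : F} (hd : d + d ^ q + Cfsg.hermForm n F q b b = 0) :
    (c₀ * σ d + (c₀ * σ d) ^ q + Cfsg.hermForm n F q (φ b) (φ b) = 0) ∧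
      (conjAut g * fieldAut σ : MulAut (Cfsg.PSU n F q)) (sgb hF D.e b d) =
        sgb hF D.e (φ b) (c₀ * σ d) := by
  have ha0 : a ≠ 0 := by
    rintro rfl
    rw [zero_pow (by omega)] at ha
    exact hc₀ ha.symm
  obtain ⟨⟨h1, h2, h3⟩, h4⟩ := fieldSU_sg hF σ D.e b d D.ee hb.1 hd
  have e1 := gamma_sgb hF g σ D.e b d D.ee hb.1 hd
  rw [hgΨ, hgΨ, Psi_e P hn, Psi_W σ a hb] at e1
  have h5 : Cfsg.hermForm n F q ((a ^ q)⁻¹ • φ b) D.e = 0 := by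
    rw [herm_smul_left, (P.mem b hb).1, mul_zero]
  have h6 : σ d + σ d ^ q + Cfsg.hermForm n F q ((a ^ q)⁻¹ • φ b) ((a ^ q)⁻¹ • φ b) = 0 := by
    rw [← Psi_W σ a hb, ← hgΨ, gu_pres _ g.2]
    exact h3
  obtain ⟨⟨h7, h8⟩, h9⟩ := sg_smul hF D.e ((a ^ q)⁻¹ • φ b) (σ d) a D.ee h5 h6
  have e2 : a ^ q • (a ^ q)⁻¹ • φ b = φ b := by
    rw [smul_smul, mul_inv_cancel₀ (pow_ne_zero _ ha0), one_smul]
  rw [e2, ha] at h8 h9
  refine ⟨h8, ?_⟩
  rw [e1]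
  unfold sgb
  rw [h9]

/-- an automorphism stabilising the transvection groups of `e` and `f`, inducing the identity on
`Q/Z(Q)` and on `Z(Q)` -/
structure IsNorm (hF : Fintype.card F = q ^ 2) (D : HP n F q) (α : MulAut (Cfsg.PSU n F q)) :
    Prop where
  he : TG hF α D.e D.e
  hf : TG hF α D.f D.f
  sg : ∀ b ∈ D.W, ∀ d : F, d + d ^ q + Cfsg.hermForm n F q b b = 0 →
    ∃ d' : F, d' + d' ^ q + Cfsg.hermForm n F q b b = 0 ∧ α (sgb hF D.e b d) = sgb hF D.e b d'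
  tv : ∀ c : F, c + c ^ q = 0 → α (tvb hF D.e c) = tvb hF D.e c

theorem exists_norm (hF : Fintype.card F = q ^ 2) (hn : 3 ≤ n) (hs : ¬ (n = 3 ∧ q = 2))
    (D : HP n F q) (p : ℕ) [Fact p.Prime] [CharP F p] {α : MulAut (Cfsg.PSU n F q)}
    (he : TG hF α D.e D.e) (hf : TG hF α D.f D.f) :
    ∃ (g : ↥(Cfsg.GU n F q)) (σ : F ≃+* F), IsNorm hF D ((conjAut g * fieldAut σ)⁻¹ * α) := by
  have hn2 : 2 ≤ n := by omega
  obtain ⟨φ, ψ, P⟩ := exists_phi hF hn hs D he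
  obtain ⟨σ₀, hσ₀⟩ := phi_semilinear hF hn hs D p P
  obtain ⟨σ, hσ⟩ : ∃ σ : F ≃+* F, ∀ t, σ t = σ₀ t :=
    ⟨RingEquiv.ofBijective σ₀ ⟨σ₀.injective, ringHom_surj σ₀⟩, fun t => rfl⟩
  have hσ' : ∀ b ∈ D.W, ∀ t : F, φ (t • b) = σ t • φ b := by
    intro b hb t
    rw [hσ]
    exact hσ₀ b hb t
  obtain ⟨g, c₀, a, hc₀0, hc₀q, ha, hψ, hgΨ⟩ := exists_gamma hF hn D P σ hσ'
  have ha0 : a ≠ 0 := by
    rintro rfl
    rw [zero_pow (by omega)] at ha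
    exact hc₀0 ha.symm
  obtain ⟨γ, hγ⟩ : ∃ γ : MulAut (Cfsg.PSU n F q), γ = conjAut g * fieldAut σ := ⟨_, rfl⟩
  have hγtv : ∀ c : F, c + c ^ q = 0 → γ (tvb hF D.e c) = tvb hF D.e (c₀ * σ c) := by
    intro c hc
    rw [hγ, gamma_tvb, hgΨ, Psi_e P hn2,
      tvb_smul hF D.e a (σ c) D.ee (by rw [← map_pow, ← map_add, hc, map_zero]), ha, mul_comm]
  have hγe : TG hF γ D.e D.e := by
    have h1 := TG_gamma hF g σ D.e_ne D.ee
    rw [hgΨ, Psi_e P hn2, ← hγ] at h1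
    have h2 := h1.of_smul (inv_ne_zero ha0)
    rwa [smul_smul, inv_mul_cancel₀ ha0, one_smul] at h2
  have hγf : TG hF γ D.f D.f := by
    have h1 := TG_gamma hF g σ (D.f_ne hF) D.ff
    rw [hgΨ, Psi_f P hn2, ← hγ] at h1
    have h2 := h1.of_smul (pow_ne_zero q ha0)
    rwa [smul_smul, mul_inv_cancel₀ (pow_ne_zero q ha0), one_smul] at h2
  refine ⟨g, σ, ?_⟩
  rw [← hγ]
  refine ⟨TG.mul he hγe.inv, TG.mul hf hγf.inv, ?_, ?_⟩
  · intro b hb d hd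
    obtain ⟨d', hd', e1⟩ := P.sg b hb d hd
    obtain ⟨h1, h2⟩ := gamma_sgb_P P hn2 g σ a c₀ ha hc₀0 hgΨ hb hd
    rw [← hγ] at h2
    obtain ⟨K, hK⟩ : ∃ K : F, K = d' - c₀ * σ d := ⟨_, rfl⟩
    have hK0 : K + K ^ q = 0 := by
      rw [hK, frob_sub hF]; linear_combination hd' - h1
    obtain ⟨c', hc'⟩ : ∃ c' : F, c' = σ.symm (K / c₀) := ⟨_, rfl⟩
    have hc'0 : c' + c' ^ q = 0 := by
      rw [hc', ← map_pow, ← map_add, div_pow, hc₀q, ← add_div, hK0, zero_div, map_zero]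
    obtain ⟨h3, h4⟩ := D.sgb_mul_tvb hF hb hd hc'0
    obtain ⟨h5, h6⟩ := D.sgb_mul_tvb hF (P.mem b hb) h1 hK0
    refine ⟨d + c', h3, ?_⟩
    have e3 : c₀ * (K / c₀) = K := by field_simp
    have e2 : γ (sgb hF D.e b (d + c')) = sgb hF D.e (φ b) d' := by
      rw [← h4, map_mul, h2, hγtv c' hc'0, hc', RingEquiv.apply_symm_apply, e3, h6, hK]
      congr 1
      ring
    rw [MulAut.mul_apply, e1, ← e2]
    exact MulAut.inv_apply_self _ γ _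
  · intro c hc
    rw [MulAut.mul_apply, (P.tv c).2, hψ c hc, ← hγtv c hc]
    exact MulAut.inv_apply_self _ γ _

end Cfsg.Agent.Lib.helper13.PU
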