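import Mathlib
import Cfsg.Agent.Lib.helper13.PSUAut1

set_option autoImplicit false
set_option linter.unusedSectionVars false
set_option linter.unusedVariables false
set_option linter.style.longLine false

/-!
A normalised automorphism of `PSU_n(q)` fixes the unipotent radical `Q` elementwise.
-/

namespace Cfsg.Agent.Lib.helper13.PU

open Matrix
open Cfsg.Agent.Lib.helper4

variable {F : Type*} [Field F] [Fintype F] {q n : ℕ}

/-- the torus element of a hyperbolic pair and an anisotropic vector orthogonal to it -/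
theorem torus_aniso' (hF : Fintype.card F = q ^ 2) (D : HP n F q) {w : Fin n → F} (hw : w ∈ D.W)
    (hww : Cfsg.hermForm n F q w w ≠ 0) {μ : F} (hμ0 : μ ≠ 0) :
    ∃ l : Cfsg.SU n F q, suM l *ᵥ D.e = μ • D.e ∧ suM l *ᵥ D.f = (μ ^ q)⁻¹ • D.f ∧
      suM l *ᵥ w = (μ ^ q / μ) • w := by
  have hμq0 : μ ^ q ≠ 0 := pow_ne_zero _ hμ0
  obtain ⟨g₁, hg₁, hg₁x, hg₁det⟩ := exists_gu_torus hF D.e D.f D.ee D.ff D.ef μ ((μ ^ q)⁻¹)
    (inv_mul_cancel₀ hμq0)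
  have hδ : (μ ^ q / μ) ^ (q + 1) = 1 := by
    rw [div_pow, ← pow_mul, mul_comm q (q + 1), pow_mul, unorm_fixed hF]
    exact div_self (pow_ne_zero _ hμ0)
  obtain ⟨g₂, hg₂, hg₂x, hg₂det⟩ := exists_gu_refl hF w hww (μ ^ q / μ) hδ
  obtain ⟨l, hl⟩ := su_mk (q := q) ((g₁ : Mn n F) * (g₂ : Mn n F))
    (fun u v => by
      rw [← Matrix.mulVec_mulVec, ← Matrix.mulVec_mulVec, gu_pres g₁ hg₁, gu_pres g₂ hg₂])
    (by rw [Matrix.det_mul, hg₁det, hg₂det]; field_simp)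
  refine ⟨l, ?_, ?_, ?_⟩
  · show suM l *ᵥ D.e = _
    rw [show suM l = _ from hl, ← Matrix.mulVec_mulVec, hg₂x, D.W_e hF hw, mul_zero, zero_smul,
      add_zero, hg₁x, D.ee, D.ef]
    module
  · show suM l *ᵥ D.f = _
    rw [show suM l = _ from hl, ← Matrix.mulVec_mulVec, hg₂x, D.W_f hF hw, mul_zero, zero_smul,
      add_zero, hg₁x, D.ff, D.fe hF]
    module
  · show suM l *ᵥ w = _
    rw [show suM l = _ from hl, ← Matrix.mulVec_mulVec, hg₂x, Matrix.mulVec_add,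
      Matrix.mulVec_smul, hg₁x, hw.1, hw.2]
    have h1 : (μ ^ q / μ - 1) / Cfsg.hermForm n F q w w * Cfsg.hermForm n F q w w =
        μ ^ q / μ - 1 := div_mul_cancel₀ _ hww
    rw [h1]
    module

/-- an element stabilising the lines of `e` and `f` stabilises `W` -/
theorem stab_W (hF : Fintype.card F = q ^ 2) (D : HP n F q) (g : Cfsg.SU n F q) {μ ν : F}
    (hμ : suM g *ᵥ D.e = μ • D.e) (hν : suM g *ᵥ D.f = ν • D.f) {b : Fin n → F} (hb : b ∈ D.W) :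
    suM g *ᵥ b ∈ D.W := by
  have hμ0 := stab_ne D g hμ
  have hν0 : ν ≠ 0 := stab_ne (D.swap hF) g hν
  constructor
  · have h1 : Cfsg.hermForm n F q (suM g *ᵥ b) (suM g *ᵥ D.e) = Cfsg.hermForm n F q b D.e :=
      su_pres g b D.e
    rw [hμ, herm_smul_right, hb.1] at h1
    exact (mul_eq_zero.mp h1).resolve_left (pow_ne_zero _ hμ0)
  · have h1 : Cfsg.hermForm n F q (suM g *ᵥ b) (suM g *ᵥ D.f) = Cfsg.hermForm n F q b D.f :=
      su_pres g b D.f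
    rw [hν, herm_smul_right, hb.2] at h1
    exact (mul_eq_zero.mp h1).resolve_left (pow_ne_zero _ hν0)

/-- conjugation of the elements of `Q` by an element stabilising the lines of `e` and `f` -/
theorem conj_sgb_T (hF : Fintype.card F = q ^ 2) (D : HP n F q) (l : Cfsg.SU n F q) {m k : F}
    (hm : suM l *ᵥ D.e = m • D.e) (hk : suM l *ᵥ D.f = k • D.f) {b : Fin n → F} (hb : b ∈ D.W)
    {d : F} (hd : d + d ^ q + Cfsg.hermForm n F q b b = 0) :
    (m ^ (q + 1) * d + (m ^ (q + 1) * d) ^ q +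
        Cfsg.hermForm n F q (m ^ q • (suM l *ᵥ b)) (m ^ q • (suM l *ᵥ b)) = 0) ∧
      (QuotientGroup.mk l : Cfsg.PSU n F q) * sgb hF D.e b d * (QuotientGroup.mk l)⁻¹ =
        sgb hF D.e (m ^ q • (suM l *ᵥ b)) (m ^ (q + 1) * d) := by
  have hlb := stab_W hF D l hm hk hb
  have h1 := sg_conj' hF l D.e b d D.ee hb.1 hd
  rw [hm] at h1
  have hd2 : d + d ^ q + Cfsg.hermForm n F q (suM l *ᵥ b) (suM l *ᵥ b) = 0 := by
    have : Cfsg.hermForm n F q (suM l *ᵥ b) (suM l *ᵥ b) = Cfsg.hermForm n F q b b :=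
      su_pres l b b
    rw [this]
    exact hd
  obtain ⟨⟨h2, h3⟩, h4⟩ := sg_smul hF D.e (suM l *ᵥ b) d m D.ee hlb.1 hd2
  refine ⟨h3, ?_⟩
  unfold sgb
  rw [← h4, ← h1]
  rfl

namespace IsNorm

variable {hF : Fintype.card F = q ^ 2} {D : HP n F q} {α : MulAut (Cfsg.PSU n F q)}

theorem shift (N : IsNorm hF D α) {b : Fin n → F} (hb : b ∈ D.W) {d d' d₂ : F}
    (hd : d + d ^ q + Cfsg.hermForm n F q b b = 0)
    (hd' : d' + d' ^ q + Cfsg.hermForm n F q b b = 0)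
    (e : α (sgb hF D.e b d) = sgb hF D.e b d')
    (hd₂ : d₂ + d₂ ^ q + Cfsg.hermForm n F q b b = 0) :
    α (sgb hF D.e b d₂) = sgb hF D.e b (d₂ + (d' - d)) := by
  have hc : (d₂ - d) + (d₂ - d) ^ q = 0 := by
    rw [frob_sub hF]; linear_combination hd₂ - hd
  obtain ⟨h1, h2⟩ := D.sgb_mul_tvb hF hb hd hc
  obtain ⟨h3, h4⟩ := D.sgb_mul_tvb hF hb hd' hc
  have e1 : d + (d₂ - d) = d₂ := by ring
  have e2 : d' + (d₂ - d) = d₂ + (d' - d) := by ring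
  rw [e1] at h2
  rw [e2] at h4
  rw [← h2, map_mul, e, N.tv _ hc, h4]

/-- the defect of the action on `Q` -/
theorem exists_zeta (N : IsNorm hF D α) : ∃ ζ : (Fin n → F) → F, ∀ b ∈ D.W,
    (ζ b + ζ b ^ q = 0) ∧ ∀ d : F, d + d ^ q + Cfsg.hermForm n F q b b = 0 →
      α (sgb hF D.e b d) = sgb hF D.e b (d + ζ b) := by
  have h1 : ∀ b : Fin n → F, ∃ z : F, b ∈ D.W → ((z + z ^ q = 0) ∧
      ∀ d : F, d + d ^ q + Cfsg.hermForm n F q b b = 0 →
        α (sgb hF D.e b d) = sgb hF D.e b (d + z)) := by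
    intro b
    by_cases hb : b ∈ D.W
    · obtain ⟨d₀, hd₀⟩ := exists_valid hF b
      obtain ⟨d', hd', e⟩ := N.sg b hb d₀ hd₀
      refine ⟨d' - d₀, fun _ => ⟨?_, fun d hd => N.shift hb hd₀ hd' e hd⟩⟩
      rw [frob_sub hF]; linear_combination hd' - hd₀
    · exact ⟨0, fun h => absurd h hb⟩
  choose ζ hζ using h1
  exact ⟨ζ, hζ⟩

theorem zeta_add (N : IsNorm hF D α) (hn : 2 ≤ n) {ζ : (Fin n → F) → F}
    (hζ : ∀ b ∈ D.W, (ζ b + ζ b ^ q = 0) ∧ ∀ d : F, d + d ^ q + Cfsg.hermForm n F q b b = 0 →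
      α (sgb hF D.e b d) = sgb hF D.e b (d + ζ b)) {b b' : Fin n → F} (hb : b ∈ D.W)
    (hb' : b' ∈ D.W) : ζ (b + b') = ζ b + ζ b' := by
  obtain ⟨d, hd⟩ := exists_valid hF b
  obtain ⟨d', hd'⟩ := exists_valid hF b'
  obtain ⟨h1, h2⟩ := D.sgb_mul hF hb hd hb' hd'
  have v1 : (d + ζ b) + (d + ζ b) ^ q + Cfsg.hermForm n F q b b = 0 := by
    rw [frob_add hF]; linear_combination hd + (hζ b hb).1
  have v2 : (d' + ζ b') + (d' + ζ b') ^ q + Cfsg.hermForm n F q b' b' = 0 := by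
    rw [frob_add hF]; linear_combination hd' + (hζ b' hb').1
  obtain ⟨h3, h4⟩ := D.sgb_mul hF hb v1 hb' v2
  have hbb := D.W.add_mem hb hb'
  have v3 : (d + d' - Cfsg.hermForm n F q b' b + ζ (b + b')) +
      (d + d' - Cfsg.hermForm n F q b' b + ζ (b + b')) ^ q +
        Cfsg.hermForm n F q (b + b') (b + b') = 0 := by
    rw [frob_add hF]; linear_combination h1 + (hζ _ hbb).1
  have h5 := congrArg α h2
  rw [map_mul, (hζ b hb).2 d hd, (hζ b' hb').2 d' hd', h4, (hζ _ hbb).2 _ h1] at h5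
  have h6 := (sgb_inj hF hn D hbb hbb h3 v3 h5).2
  linear_combination -h6

theorem zeta_zero (N : IsNorm hF D α) (hn : 2 ≤ n) {ζ : (Fin n → F) → F}
    (hζ : ∀ b ∈ D.W, (ζ b + ζ b ^ q = 0) ∧ ∀ d : F, d + d ^ q + Cfsg.hermForm n F q b b = 0 →
      α (sgb hF D.e b d) = sgb hF D.e b (d + ζ b)) : ζ 0 = 0 := by
  have := N.zeta_add hn hζ D.W.zero_mem D.W.zero_mem
  rw [add_zero] at this
  exact left_eq_add.mp this

theorem zeta_sub (N : IsNorm hF D α) (hn : 2 ≤ n) {ζ : (Fin n → F) → F}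
    (hζ : ∀ b ∈ D.W, (ζ b + ζ b ^ q = 0) ∧ ∀ d : F, d + d ^ q + Cfsg.hermForm n F q b b = 0 →
      α (sgb hF D.e b d) = sgb hF D.e b (d + ζ b)) {b b' : Fin n → F} (hb : b ∈ D.W)
    (hb' : b' ∈ D.W) : ζ (b - b') = ζ b - ζ b' := by
  have := N.zeta_add hn hζ (D.W.sub_mem hb hb') hb'
  rw [sub_add_cancel] at this
  linear_combination -this

theorem zeta_equiv (N : IsNorm hF D α) (hn : 2 ≤ n) {ζ : (Fin n → F) → F}
    (hζ : ∀ b ∈ D.W, (ζ b + ζ b ^ q = 0) ∧ ∀ d : F, d + d ^ q + Cfsg.hermForm n F q b b = 0 →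
      α (sgb hF D.e b d) = sgb hF D.e b (d + ζ b)) (g g' : Cfsg.SU n F q)
    (hg : α (QuotientGroup.mk g) = QuotientGroup.mk g') {μ ν : F}
    (hμ : suM g *ᵥ D.e = μ • D.e) (hν : suM g *ᵥ D.f = ν • D.f) {b : Fin n → F}
    (hb : b ∈ D.W) : ζ (μ ^ q • (suM g *ᵥ b)) = μ ^ (q + 1) * ζ b := by
  obtain ⟨μ', hμ'⟩ := aut_P hF hn D N.he g g' hg hμ
  obtain ⟨ν', hν'⟩ := aut_P hF hn (D.swap hF) N.hf g g' hg hν
  have hν'' : suM g' *ᵥ D.f = ν' • D.f := hν'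
  obtain ⟨d, hd⟩ := exists_valid hF b
  obtain ⟨κ, hκ0, hκ⟩ := exists_trace_zero hF
  have hW := D.W.smul_mem (μ ^ q) (stab_W hF D g hμ hν hb)
  have hW' := D.W.smul_mem (μ' ^ q) (stab_W hF D g' hμ' hν'' hb)
  have main : ∀ d : F, d + d ^ q + Cfsg.hermForm n F q b b = 0 →
      μ' ^ (q + 1) * (d + ζ b) = μ ^ (q + 1) * d + ζ (μ ^ q • (suM g *ᵥ b)) := by
    intro d hd
    obtain ⟨h1, h2⟩ := conj_sgb_T hF D g hμ hν hb hd
    have v1 : (d + ζ b) + (d + ζ b) ^ q + Cfsg.hermForm n F q b b = 0 := by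
      rw [frob_add hF]; linear_combination hd + (hζ b hb).1
    obtain ⟨h3, h4⟩ := conj_sgb_T hF D g' hμ' hν'' hb v1
    have h5 := congrArg α h2
    rw [map_mul, map_mul, map_inv, hg, (hζ b hb).2 d hd, h4, (hζ _ hW).2 _ h1] at h5
    have v2 : (μ ^ (q + 1) * d + ζ (μ ^ q • (suM g *ᵥ b))) +
        (μ ^ (q + 1) * d + ζ (μ ^ q • (suM g *ᵥ b))) ^ q +
        Cfsg.hermForm n F q (μ ^ q • (suM g *ᵥ b)) (μ ^ q • (suM g *ᵥ b)) = 0 := by
      rw [frob_add hF]; linear_combination h1 + (hζ _ hW).1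
    exact (sgb_inj hF hn D hW' hW h3 v2 h5).2
  have m1 := main d hd
  have hd2 : (d + κ) + (d + κ) ^ q + Cfsg.hermForm n F q b b = 0 := by
    rw [frob_add hF]; linear_combination hd + hκ
  have m2 := main (d + κ) hd2
  have hN : μ' ^ (q + 1) = μ ^ (q + 1) := by
    have : (μ' ^ (q + 1) - μ ^ (q + 1)) * κ = 0 := by linear_combination m2 - m1
    rcases mul_eq_zero.mp this with h | h
    · exact sub_eq_zero.mp h
    · exact absurd h hκ0
  rw [hN] at m1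
  linear_combination -m1

theorem zeta_zero_all (N : IsNorm hF D α) (hn : 3 ≤ n) (hs : ¬ (n = 3 ∧ q = 2))
    {ζ : (Fin n → F) → F}
    (hζ : ∀ b ∈ D.W, (ζ b + ζ b ^ q = 0) ∧ ∀ d : F, d + d ^ q + Cfsg.hermForm n F q b b = 0 →
      α (sgb hF D.e b d) = sgb hF D.e b (d + ζ b)) : ∀ b ∈ D.W, ζ b = 0 := by
  have hn2 : 2 ≤ n := by omega
  have hz0 := N.zeta_zero hn2 hζ
  by_cases hn3 : n = 3
  · have hq : q ≠ 2 := fun h => hs ⟨hn3, h⟩
    obtain ⟨w, hw, hw0⟩ := D.exists_W_ne hF hn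
    have hani : Cfsg.hermForm n F q w w ≠ 0 := by
      intro h0
      apply hw0
      apply D.eq_zero_of_W hF hw
      intro x hx
      obtain ⟨t, rfl⟩ := D.W_line hF hn3 hw hw0 hx
      rw [herm_smul_right, h0, mul_zero]
    obtain ⟨μ₀, hμ₀0, hμ₀⟩ := exists_dl_ne hF hq
    obtain ⟨μ, hμ⟩ : ∃ μ : F, μ = μ₀ ^ q / μ₀ := ⟨_, rfl⟩
    have hμ0 : μ ≠ 0 := by rw [hμ]; exact div_ne_zero (pow_ne_zero _ hμ₀0) hμ₀0
    have hN : μ ^ (q + 1) = 1 := by
      rw [hμ, div_pow, ← pow_mul, mul_comm q (q + 1), pow_mul, unorm_fixed hF]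
      exact div_self (pow_ne_zero _ hμ₀0)
    have hμq : μ ^ q = μ⁻¹ := by
      rw [unorm_eq] at hN
      exact eq_inv_of_mul_eq_one_right hN
    obtain ⟨l, hl1, hl2, hl3⟩ := torus_aniso' hF D hw hani hμ0
    obtain ⟨l', hl'⟩ := exists_rep (α (QuotientGroup.mk l))
    obtain ⟨ρ, hρdef⟩ : ∃ ρ : F, ρ = μ⁻¹ * (μ⁻¹ / μ) := ⟨_, rfl⟩
    have hρ : ∀ b ∈ D.W, ζ (ρ • b) = ζ b := by
      intro b hb
      obtain ⟨s, rfl⟩ := D.W_line hF hn3 hw hw0 hb
      have := N.zeta_equiv hn2 hζ l l' hl' hl1 hl2 hb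
      rw [Matrix.mulVec_smul, hl3, hN, one_mul, hμq] at this
      rw [← this, hρdef]
      congr 1
      module
    have hρ1 : ρ ≠ 1 := by
      intro h1
      apply hμ₀
      have h2 : μ ^ 3 = 1 := by
        have : ρ * μ ^ 3 = 1 := by rw [hρdef]; field_simp
        rw [h1, one_mul] at this
        exact this
      rw [hμ, div_pow] at h2
      exact (div_eq_one_iff_eq (pow_ne_zero _ hμ₀0)).mp h2
    have h3 : ∀ b ∈ D.W, ζ ((ρ - 1) • b) = 0 := by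
      intro b hb
      have : (ρ - 1) • b = ρ • b - b := by module
      rw [this, N.zeta_sub hn2 hζ (D.W.smul_mem _ hb) hb, hρ b hb, sub_self]
    intro b hb
    have h4 := h3 ((ρ - 1)⁻¹ • b) (D.W.smul_mem _ hb)
    rwa [smul_smul, mul_inv_cancel₀ (sub_ne_zero.mpr hρ1), one_smul] at h4
  · have hn4 : 4 ≤ n := by omega
    obtain ⟨D₁, hy, hz⟩ := exists_hp_in_W hF hn4 D
    obtain ⟨κ, hκ0, hκ⟩ := exists_trace_zero hF
    have hiso : ∀ y ∈ D.W, Cfsg.hermForm n F q y y = 0 → ∀ t : F, ζ (t • y) = 0 := by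
      intro y hyW hyy t
      by_cases hy0 : y = 0
      · rw [hy0, smul_zero]; exact hz0
      obtain ⟨x, hx, hyx⟩ := D.W_nondeg hF hyW hy0
      have hxy : Cfsg.hermForm n F q x y ≠ 0 := fun h0 => hyx (herm_zero_of_symm hF h0)
      obtain ⟨b, hbdef⟩ : ∃ b : Fin n → F, b = (t / (κ * Cfsg.hermForm n F q x y)) • x :=
        ⟨_, rfl⟩
      have hb : b ∈ D.W := by rw [hbdef]; exact D.W.smul_mem _ hx
      obtain ⟨l', hl'⟩ := exists_rep (α (QuotientGroup.mk (utvSU hF y κ)))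
      have hle : suM (utvSU hF y κ) *ᵥ D.e = (1 : F) • D.e := by
        rw [utvSU_mulVec hF y κ hyy hκ, D.W_e hF hyW, mul_zero, zero_smul, add_zero, one_smul]
      have hlf : suM (utvSU hF y κ) *ᵥ D.f = (1 : F) • D.f := by
        rw [utvSU_mulVec hF y κ hyy hκ, D.W_f hF hyW, mul_zero, zero_smul, add_zero, one_smul]
      have := N.zeta_equiv hn2 hζ (utvSU hF y κ) l' hl' hle hlf hb
      rw [one_pow, one_pow, one_smul, one_mul, utvSU_mulVec hF y κ hyy hκ,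
        N.zeta_add hn2 hζ hb (D.W.smul_mem _ hyW)] at this
      have e : κ * Cfsg.hermForm n F q b y = t := by
        rw [hbdef, herm_smul_left]; field_simp
      rw [e] at this
      exact left_eq_add.mp this.symm
    obtain ⟨S, hS⟩ : ∃ S : AddSubgroup (Fin n → F), ∀ b, b ∈ S ↔ (b ∈ D.W ∧ ζ b = 0) := by
      refine ⟨{ carrier := {b | b ∈ D.W ∧ ζ b = 0}
                add_mem' := ?_
                zero_mem' := ?_
                neg_mem' := ?_ }, fun b => Iff.rfl⟩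
      · rintro b b' ⟨hb, h1⟩ ⟨hb', h1'⟩
        exact ⟨D.W.add_mem hb hb', by rw [N.zeta_add hn2 hζ hb hb', h1, h1', add_zero]⟩
      · exact ⟨D.W.zero_mem, hz0⟩
      · rintro b ⟨hb, h1⟩
        refine ⟨D.W.neg_mem hb, ?_⟩
        have := N.zeta_sub hn2 hζ D.W.zero_mem hb
        rw [zero_sub, hz0, h1, sub_zero] at this
        exact this
    intro b hb
    exact ((hS b).mp (span_iso hF D D₁ hy hz S
      (fun t => (hS _).mpr ⟨D.W.smul_mem t hy, hiso _ hy D₁.ee t⟩)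
      (fun y' hy' hy'y' _ t => (hS _).mpr ⟨D.W.smul_mem t hy', hiso y' hy' hy'y' t⟩) b hb)).2

/-- a normalised automorphism fixes `Q` elementwise -/
theorem fix_Q (N : IsNorm hF D α) (hn : 3 ≤ n) (hs : ¬ (n = 3 ∧ q = 2)) :
    ∀ b ∈ D.W, ∀ d : F, d + d ^ q + Cfsg.hermForm n F q b b = 0 →
      α (sgb hF D.e b d) = sgb hF D.e b d := by
  obtain ⟨ζ, hζ⟩ := N.exists_zeta
  intro b hb d hd
  rw [(hζ b hb).2 d hd, N.zeta_zero_all hn hs hζ b hb, add_zero]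

end IsNorm

end Cfsg.Agent.Lib.helper13.PU
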