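import Mathlib
import Cfsg.Agent.Lib.helper13.PSUAut2

set_option autoImplicit false
set_option linter.unusedSectionVars false
set_option linter.unusedVariables false
set_option linter.style.longLine false

/-!
Every automorphism of `PSU_n(q)` is induced by a semilinear unitary map.
-/

namespace Cfsg.Agent.Lib.helper13.PU

open Matrix
open Cfsg.Agent.Lib.helper4

variable {F : Type*} [Field F] [Fintype F] {q n : ℕ}

/-- the automorphism fixes the transvections along `v` -/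
def Fx (hF : Fintype.card F = q ^ 2) (α : MulAut (Cfsg.PSU n F q)) (v : Fin n → F) : Prop :=
  ∀ c : F, c + c ^ q = 0 → α (tvb hF v c) = tvb hF v c

namespace Fx

variable {hF : Fintype.card F = q ^ 2} {α : MulAut (Cfsg.PSU n F q)} {v : Fin n → F}

theorem smul (h : Fx hF α v) (hv : Cfsg.hermForm n F q v v = 0) (l : F) : Fx hF α (l • v) := by
  intro c hc
  rw [tvb_smul hF v l c hv hc]
  exact h _ (k0_mul_norm hF hc l)

theorem conj (h : Fx hF α v) (g : Cfsg.SU n F q)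
    (hg : α (QuotientGroup.mk g) = QuotientGroup.mk g) : Fx hF α (suM g *ᵥ v) := by
  intro c hc
  rw [← conj_tvb hF g v c, map_mul, map_mul, map_inv, hg, h c hc]

theorem conj_inv {g : Cfsg.SU n F q} (h : Fx hF α (suM g *ᵥ v))
    (hg : α (QuotientGroup.mk g) = QuotientGroup.mk g) : Fx hF α v := by
  have := h.conj g⁻¹ (by rw [QuotientGroup.mk_inv, map_inv, hg])
  rwa [suM_inv_mulVec] at this

end Fx

namespace IsNorm

variable {hF : Fintype.card F = q ^ 2} {D : HP n F q} {α : MulAut (Cfsg.PSU n F q)}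

theorem fix_torus (N : IsNorm hF D α) (hn : 3 ≤ n)
    (hQ : ∀ b ∈ D.W, ∀ d : F, d + d ^ q + Cfsg.hermForm n F q b b = 0 →
      α (sgb hF D.e b d) = sgb hF D.e b d)
    (g : Cfsg.SU n F q) {μ ν : F} (hμ : suM g *ᵥ D.e = μ • D.e) (hν : suM g *ᵥ D.f = ν • D.f) :
    α (QuotientGroup.mk g) = QuotientGroup.mk g := by
  have hn2 : 2 ≤ n := by omega
  obtain ⟨g', hg'⟩ := exists_rep (α (QuotientGroup.mk g))
  obtain ⟨μ', hμ'⟩ := aut_P hF hn2 D N.he g g' hg' hμ
  obtain ⟨ν', hν'⟩ := aut_P hF hn2 (D.swap hF) N.hf g g' hg' hν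
  have hν'' : suM g' *ᵥ D.f = ν' • D.f := hν'
  have hμ0 := stab_ne D g hμ
  have hcomm : ∀ b d, b ∈ D.W → d + d ^ q + Cfsg.hermForm n F q b b = 0 →
      (QuotientGroup.mk (g⁻¹ * g') : Cfsg.PSU n F q) * sgb hF D.e b d =
        sgb hF D.e b d * QuotientGroup.mk (g⁻¹ * g') := by
    intro b d hb hd
    obtain ⟨d₁, hd₁, e₁⟩ := conj_sgb_P hF D g hμ hb hd
    have h1 := congrArg α e₁
    rw [map_mul, map_mul, map_inv, hg', hQ b hb d hd,
      hQ _ (D.W.smul_mem _ (D.pw_mem hF _)) d₁ hd₁, ← e₁] at h1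
    rw [QuotientGroup.mk_mul, QuotientGroup.mk_inv]
    calc (QuotientGroup.mk g : Cfsg.PSU n F q)⁻¹ * QuotientGroup.mk g' * sgb hF D.e b d
        = (QuotientGroup.mk g : Cfsg.PSU n F q)⁻¹ * (QuotientGroup.mk g' * sgb hF D.e b d *
            (QuotientGroup.mk g')⁻¹) * QuotientGroup.mk g' := by group
      _ = (QuotientGroup.mk g : Cfsg.PSU n F q)⁻¹ * (QuotientGroup.mk g * sgb hF D.e b d *
            (QuotientGroup.mk g)⁻¹) * QuotientGroup.mk g' := by rw [h1]
      _ = _ := by group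
  obtain ⟨c, hc, hz⟩ := cent_Q hF hn D (g⁻¹ * g') hcomm
  have h3 : (QuotientGroup.mk (g * utvSU hF D.e c) : Cfsg.PSU n F q) = QuotientGroup.mk g' := by
    rw [QuotientGroup.mk_mul]
    show QuotientGroup.mk g * tvb hF D.e c = _
    rw [← hz, QuotientGroup.mk_mul, QuotientGroup.mk_inv]
    group
  obtain ⟨s, hs⟩ := (mk_eq_iff hF hn2 _ _).mp h3
  have h4 := hs D.f
  rw [hν'', suM_mul, ← Matrix.mulVec_mulVec, utvSU_mulVec hF D.e c D.ee hc, D.fe hF, mul_one,
    Matrix.mulVec_add, Matrix.mulVec_smul, hν, hμ] at h4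
  have h5 := congrArg (fun v => Cfsg.hermForm n F q v D.f) h4
  simp only [herm_smul_left, herm_add_left, D.ff, D.ef] at h5
  have hs0 : s ≠ 0 := by
    rintro rfl
    have := hs D.f
    rw [zero_smul] at this
    exact su_mulVec_ne g' (D.f_ne hF) this
  have hc0 : c = 0 := by
    have : s * c * μ = 0 := by linear_combination -h5
    simpa [hs0, hμ0] using this
  rw [hg', ← h3, hc0, utvSU_zero hF, mul_one]

theorem fix_tvf (N : IsNorm hF D α) (hn : 2 ≤ n) : Fx hF α D.f := by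
  intro c hc
  by_cases hc0 : c = 0
  · rw [hc0, tvb_zero, map_one]
  obtain ⟨a, ha⟩ : ∃ a : F, a = -c⁻¹ := ⟨_, rfl⟩
  have hac : a * c = -1 := by rw [ha]; field_simp
  have ha0 : a ≠ 0 := by rw [ha]; exact neg_ne_zero.mpr (inv_ne_zero hc0)
  have haK : a + a ^ q = 0 := by
    have h1 : c ^ q = -c := by linear_combination hc
    rw [ha, frob_neg hF, inv_pow, h1]
    field_simp
    ring
  obtain ⟨c', hc', e1⟩ := N.hf.elt c
  have key : ∀ c₂ : F, c₂ + c₂ ^ q = 0 →
      suM (utvSU hF D.e a * utvSU hF D.f c₂ * utvSU hF D.e a) *ᵥ D.e =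
        (1 + a * c₂) • D.e + c₂ • D.f := by
    intro c₂ hc₂
    have i1 : suM (utvSU hF D.e a) *ᵥ D.e = D.e := by
      rw [utvSU_mulVec hF D.e a D.ee haK, D.ee, mul_zero, zero_smul, add_zero]
    have i2 : suM (utvSU hF D.f c₂) *ᵥ D.e = D.e + c₂ • D.f := by
      rw [utvSU_mulVec hF D.f c₂ D.ff hc₂, D.ef, mul_one]
    rw [suM_mul, suM_mul, ← Matrix.mulVec_mulVec, ← Matrix.mulVec_mulVec, i1, i2,
      utvSU_mulVec hF D.e a D.ee haK, herm_add_left, herm_smul_left, D.ee, D.fe hF]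
    module
  have hα : α (QuotientGroup.mk (utvSU hF D.e a * utvSU hF D.f c * utvSU hF D.e a)) =
      QuotientGroup.mk (utvSU hF D.e a * utvSU hF D.f c' * utvSU hF D.e a) := by
    rw [QuotientGroup.mk_mul, QuotientGroup.mk_mul, map_mul, map_mul]
    show α (tvb hF D.e a) * α (tvb hF D.f c) * α (tvb hF D.e a) = _
    rw [N.tv a haK, e1]
    rfl
  have t1 := N.he.conj _ _ hα
  rw [key c hc, key c' hc'] at t1
  have e2 : (1 + a * c) • D.e + c • D.f = c • D.f := by rw [hac]; module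
  rw [e2] at t1
  have t2 := N.hf.smul_left hc0
  obtain ⟨dd, hdd⟩ := TG.par hn t2 t1
  have h5 := congrArg (fun v => Cfsg.hermForm n F q v D.f) hdd
  simp only [herm_smul_left, herm_add_left, D.ff, D.ef] at h5
  have h6 : c' = c := by
    have h7 : 1 + a * c' = 0 := by linear_combination h5
    apply mul_left_cancel₀ ha0
    linear_combination h7 - hac
  rw [e1, h6]

theorem fix_all (N : IsNorm hF D α) (hn : 3 ≤ n)
    (hQ : ∀ b ∈ D.W, ∀ d : F, d + d ^ q + Cfsg.hermForm n F q b b = 0 →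
      α (sgb hF D.e b d) = sgb hF D.e b d) :
    ∀ x : Fin n → F, x ≠ 0 → Cfsg.hermForm n F q x x = 0 → Fx hF α x := by
  have hn2 : 2 ≤ n := by omega
  have hFf : Fx hF α D.f := N.fix_tvf hn2
  have hsg : ∀ b ∈ D.W, ∀ d : F, d + d ^ q + Cfsg.hermForm n F q b b = 0 →
      α (QuotientGroup.mk (PU.sg hF D.e b d)) = QuotientGroup.mk (PU.sg hF D.e b d) := hQ
  have c1 : ∀ x : Fin n → F, Cfsg.hermForm n F q x x = 0 → Cfsg.hermForm n F q x D.e ≠ 0 →
      Fx hF α x := by
    intro x hxx hxe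
    obtain ⟨x', hx'⟩ : ∃ x' : Fin n → F, x' = (Cfsg.hermForm n F q x D.e)⁻¹ • x := ⟨_, rfl⟩
    have hx'e : Cfsg.hermForm n F q x' D.e = 1 := by
      rw [hx', herm_smul_left, inv_mul_cancel₀ hxe]
    have hx'x' : Cfsg.hermForm n F q x' x' = 0 := by rw [hx']; exact iso_smul hF hxx _
    obtain ⟨b, hb⟩ : ∃ b : Fin n → F, b = D.pw x' := ⟨_, rfl⟩
    obtain ⟨d, hd⟩ : ∃ d : F, d = Cfsg.hermForm n F q x' D.f := ⟨_, rfl⟩
    have hbW : b ∈ D.W := by rw [hb]; exact D.pw_mem hF x'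
    have hval : d + d ^ q + Cfsg.hermForm n F q b b = 0 := by
      have := D.herm_decomp hF x' x'
      rw [hx'x', hx'e, ← hd, ← hb, one_pow, mul_one, one_mul] at this
      exact this.symm
    have e1 : suM (PU.sg hF D.e b d) *ᵥ D.f = x' := by
      rw [D.sg_f hF hbW hval]
      have := D.decomp x'
      rw [hx'e, ← hd, ← hb] at this
      conv_rhs => rw [this]
      module
    have h1 := hFf.conj (PU.sg hF D.e b d) (hsg b hbW d hval)
    rw [e1] at h1
    have h2 := h1.smul hx'x' (Cfsg.hermForm n F q x D.e)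
    rwa [hx', smul_smul, mul_inv_cancel₀ hxe, one_smul] at h2
  have c2 : ∀ x : Fin n → F, Cfsg.hermForm n F q x x = 0 → Cfsg.hermForm n F q x D.e = 0 →
      Cfsg.hermForm n F q x D.f ≠ 0 → Fx hF α x := by
    intro x hxx hxe hxf
    obtain ⟨κ, hκ0, hκ⟩ := exists_trace_zero hF
    have h1 : Cfsg.hermForm n F q (suM (utvSU hF D.f κ) *ᵥ x) (suM (utvSU hF D.f κ) *ᵥ x) = 0 := by
      have : Cfsg.hermForm n F q (suM (utvSU hF D.f κ) *ᵥ x) (suM (utvSU hF D.f κ) *ᵥ x) =
          Cfsg.hermForm n F q x x := su_pres _ x x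
      rw [this]
      exact hxx
    have h2 : Cfsg.hermForm n F q (suM (utvSU hF D.f κ) *ᵥ x) D.e ≠ 0 := by
      rw [utvSU_mulVec hF D.f κ D.ff hκ, herm_add_left, herm_smul_left, hxe, D.fe hF, zero_add,
        mul_one]
      exact mul_ne_zero hκ0 hxf
    exact (c1 _ h1 h2).conj_inv (hFf κ hκ)
  intro x hx0 hxx
  by_cases hxe : Cfsg.hermForm n F q x D.e = 0
  · by_cases hxf : Cfsg.hermForm n F q x D.f = 0
    · have hxW : x ∈ D.W := ⟨hxe, hxf⟩
      obtain ⟨b, hbW, hxb⟩ := D.W_nondeg hF hxW hx0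
      obtain ⟨d, hd⟩ := exists_valid hF b
      have h1 : Cfsg.hermForm n F q (suM (PU.sg hF D.e b d) *ᵥ x) (suM (PU.sg hF D.e b d) *ᵥ x) = 0 := by
        have : Cfsg.hermForm n F q (suM (PU.sg hF D.e b d) *ᵥ x) (suM (PU.sg hF D.e b d) *ᵥ x) =
            Cfsg.hermForm n F q x x := su_pres _ x x
        rw [this]
        exact hxx
      have h2 : Cfsg.hermForm n F q (suM (PU.sg hF D.e b d) *ᵥ x) D.e = 0 := by
        rw [D.sg_W hF hbW hd hxW, herm_sub_left, herm_smul_left, hxe, D.ee]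
        ring
      have h3 : Cfsg.hermForm n F q (suM (PU.sg hF D.e b d) *ᵥ x) D.f ≠ 0 := by
        rw [D.sg_W hF hbW hd hxW, herm_sub_left, herm_smul_left, hxf, D.ef, zero_sub, mul_one]
        exact neg_ne_zero.mpr hxb
      exact (c2 _ h1 h2 h3).conj_inv (hsg b hbW d hd)
    · exact c2 x hxx hxe hxf
  · exact c1 x hxx hxe

/-- a normalised automorphism is trivial -/
theorem eq_one (N : IsNorm hF D α) (hn : 3 ≤ n) (hs : ¬ (n = 3 ∧ q = 2)) : α = 1 := by
  have hn2 : 2 ≤ n := by omega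
  have hQ := N.fix_Q hn hs
  have hall := N.fix_all hn hQ
  have hq := uq_ge_two hF
  have htop := su_eq_uT hF n (by omega) (fun h3 => by
    by_contra hq3
    exact hs ⟨h3, by omega⟩)
  ext x
  obtain ⟨A, rfl⟩ := exists_rep x
  show α (QuotientGroup.mk A) = QuotientGroup.mk A
  have hA : A ∈ uT n F q := by rw [htop]; exact Subgroup.mem_top A
  unfold uT at hA
  induction hA using Subgroup.closure_induction with
  | mem A hA =>
    obtain ⟨v, c, hv, hAv⟩ := hA
    by_cases hv0 : v = 0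
    · have : A = 1 := by
        apply su_ext
        intro x
        rw [show suM A = _ from hAv, utv_mulVec, hv0, smul_zero, add_zero, suM_one,
          Matrix.one_mulVec]
      rw [this]
      exact map_one α
    · obtain ⟨hc, rfl⟩ := eq_utvSU hF A v c hv0 hv hAv
      exact hall v hv0 hv c hc
  | one => exact map_one α
  | mul A B _ _ hA hB => rw [QuotientGroup.mk_mul, map_mul, hA, hB]
  | inv A _ hA => rw [QuotientGroup.mk_inv, map_inv, hA]

end IsNorm

/-- there is a hyperbolic pair -/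
theorem exists_HP (hF : Fintype.card F = q ^ 2) (hn : 2 ≤ n) : Nonempty (HP n F q) := by
  obtain ⟨v, hv0, hv⟩ := exists_iso_ne_zero (n := n) hF hn
  obtain ⟨f, hff, hvf⟩ := exists_partner hF hn v hv0 hv
  exact ⟨⟨v, f, hv, hff, hvf⟩⟩

/-- **Every automorphism of `PSU_n(q)` is induced by a semilinear unitary map.** -/
theorem aut_decomp (hF : Fintype.card F = q ^ 2) (hn : 3 ≤ n) (hs : ¬ (n = 3 ∧ q = 2)) (p : ℕ)
    [Fact p.Prime] [CharP F p] (α : MulAut (Cfsg.PSU n F q)) :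
    ∃ (g : ↥(Cfsg.GU n F q)) (σ : F ≃+* F), α = conjAut g * fieldAut σ := by
  obtain ⟨D⟩ := exists_HP (n := n) hF (by omega)
  obtain ⟨A, h1, h2⟩ := tg_norm hF hn D p α
  obtain ⟨g, σ, N⟩ := exists_norm hF hn hs D p h1 h2
  have h3 := N.eq_one hn hs
  refine ⟨suToGU A * g, σ, ?_⟩
  rw [map_mul]
  calc α = conjAut (suToGU A) * ((conjAut g * fieldAut σ) *
        ((conjAut g * fieldAut σ)⁻¹ * ((conjAut (suToGU A))⁻¹ * α))) := by group
    _ = conjAut (suToGU A) * conjAut g * fieldAut σ := by rw [h3, mul_one, mul_assoc]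

end Cfsg.Agent.Lib.helper13.PU
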