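import Mathlib
import Cfsg.Prelude.Def_LieTypeDatum
import Cfsg.Agent.Lib.helper13.PSpFour
import Cfsg.Agent.Lib.helper4.SpSimple

set_option autoImplicit false
set_option linter.unusedSectionVars false
set_option linter.unusedVariables false
set_option linter.style.longLine false
set_option linter.unusedSimpArgs false

/-! # The exceptional endomorphism of `Sp_4` in characteristic two

The second compound matrix of a symplectic `4 × 4` matrix, restricted to the four coordinates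
`e₁∧e₂, e₁∧f₂, f₁∧f₂, e₂∧f₁`. -/

namespace Cfsg.Agent.Lib.helper13.PS

open Matrix
open Cfsg.Agent.S0766 Cfsg.Agent.S0765 Cfsg.Agent.Lib.helper4
open Cfsg.Agent.Lib.helper25

variable {F : Type*} [Field F]

/-- the `2 × 2` minor on rows `r1, r2` and columns `c1, c2` -/
def mn (g : Mm 2 F) (r1 r2 c1 c2 : Fin 2 ⊕ Fin 2) : F := g r1 c1 * g r2 c2 - g r1 c2 * g r2 c1

/-- first index of the pair attached to a coordinate -/
def pr1 : Fin 2 ⊕ Fin 2 → Fin 2 ⊕ Fin 2 :=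
  Sum.elim ![Sum.inl 0, Sum.inl 0] ![Sum.inr 0, Sum.inl 1]

/-- second index of the pair attached to a coordinate -/
def pr2 : Fin 2 ⊕ Fin 2 → Fin 2 ⊕ Fin 2 :=
  Sum.elim ![Sum.inl 1, Sum.inr 1] ![Sum.inr 1, Sum.inr 0]

theorem pr1_a : pr1 (Sum.inl 0) = Sum.inl 0 := rfl
theorem pr1_b : pr1 (Sum.inl 1) = Sum.inl 0 := rfl
theorem pr1_c : pr1 (Sum.inr 0) = Sum.inr 0 := rfl
theorem pr1_d : pr1 (Sum.inr 1) = Sum.inl 1 := rfl
theorem pr2_a : pr2 (Sum.inl 0) = Sum.inl 1 := rfl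
theorem pr2_b : pr2 (Sum.inl 1) = Sum.inr 1 := rfl
theorem pr2_c : pr2 (Sum.inr 0) = Sum.inr 1 := rfl
theorem pr2_d : pr2 (Sum.inr 1) = Sum.inr 0 := rfl

/-- the restricted second compound matrix -/
def gr (g : Mm 2 F) : Mm 2 F := Matrix.of fun i j => mn g (pr1 i) (pr2 i) (pr1 j) (pr2 j)

theorem gr_apply (g : Mm 2 F) (i j : Fin 2 ⊕ Fin 2) :
    gr g i j = mn g (pr1 i) (pr2 i) (pr1 j) (pr2 j) := rfl

/-- Cauchy–Binet for `2 × 2` minors -/
theorem mn_mul (g h : Mm 2 F) (r1 r2 c1 c2 : Fin 2 ⊕ Fin 2) :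
    mn (g * h) r1 r2 c1 c2 =
      mn g r1 r2 (Sum.inl 0) (Sum.inl 1) * mn h (Sum.inl 0) (Sum.inl 1) c1 c2 +
      mn g r1 r2 (Sum.inl 0) (Sum.inr 0) * mn h (Sum.inl 0) (Sum.inr 0) c1 c2 +
      mn g r1 r2 (Sum.inl 0) (Sum.inr 1) * mn h (Sum.inl 0) (Sum.inr 1) c1 c2 +
      mn g r1 r2 (Sum.inl 1) (Sum.inr 0) * mn h (Sum.inl 1) (Sum.inr 0) c1 c2 +
      mn g r1 r2 (Sum.inl 1) (Sum.inr 1) * mn h (Sum.inl 1) (Sum.inr 1) c1 c2 +
      mn g r1 r2 (Sum.inr 0) (Sum.inr 1) * mn h (Sum.inr 0) (Sum.inr 1) c1 c2 := by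
  unfold mn
  simp only [Matrix.mul_apply, Fintype.sum_sum_type, Fin.sum_univ_two]
  ring

theorem J_ll (i j : Fin 2) : Matrix.J (Fin 2) F (Sum.inl i) (Sum.inl j) = 0 := by
  simp [Matrix.J]

theorem J_rr (i j : Fin 2) : Matrix.J (Fin 2) F (Sum.inr i) (Sum.inr j) = 0 := by
  simp [Matrix.J]

theorem J_lr (i j : Fin 2) : Matrix.J (Fin 2) F (Sum.inl i) (Sum.inr j) = if i = j then -1 else 0 := by
  by_cases h : i = j <;> simp [Matrix.J, h]

theorem J_rl (i j : Fin 2) : Matrix.J (Fin 2) F (Sum.inr i) (Sum.inl j) = if i = j then 1 else 0 := by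
  simp [Matrix.J, Matrix.one_apply]

/-- the symplectic relations on pairs of rows -/
theorem symp_rows (g : Spm 2 F) (r1 r2 : Fin 2 ⊕ Fin 2) :
    mn g.1 r1 r2 (Sum.inl 0) (Sum.inr 0) + mn g.1 r1 r2 (Sum.inl 1) (Sum.inr 1) =
      - Matrix.J (Fin 2) F r1 r2 := by
  have h : (g.1 * Matrix.J (Fin 2) F * g.1ᵀ) r1 r2 = Matrix.J (Fin 2) F r1 r2 := by
    rw [_root_.SymplecticGroup.mem_iff.1 g.2]
  rw [← h]
  unfold mn
  simp only [Matrix.mul_apply, Matrix.transpose_apply, Fintype.sum_sum_type, Fin.sum_univ_two,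
    J_ll, J_rr, J_lr, J_rl]
  simp
  ring

/-- the symplectic relations on pairs of columns -/
theorem symp_cols (g : Spm 2 F) (c1 c2 : Fin 2 ⊕ Fin 2) :
    mn g.1 (Sum.inl 0) (Sum.inr 0) c1 c2 + mn g.1 (Sum.inl 1) (Sum.inr 1) c1 c2 =
      - Matrix.J (Fin 2) F c1 c2 := by
  have h : (g.1ᵀ * Matrix.J (Fin 2) F * g.1) c1 c2 = Matrix.J (Fin 2) F c1 c2 := by
    rw [_root_.SymplecticGroup.mem_iff'.1 g.2]
  rw [← h]
  unfold mn
  simp only [Matrix.mul_apply, Matrix.transpose_apply, Fintype.sum_sum_type, Fin.sum_univ_two,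
    J_ll, J_rr, J_lr, J_rl]
  simp
  ring

theorem J_pr (i : Fin 2 ⊕ Fin 2) : Matrix.J (Fin 2) F (pr1 i) (pr2 i) = 0 := by
  rcases i with i | i <;> fin_cases i <;> simp [pr1, pr2, J_ll, J_rr, J_lr]

/-- `gr` is multiplicative on symplectic matrices in characteristic two -/
theorem gr_mul (h2 : (2 : F) = 0) (g h : Spm 2 F) : gr (g.1 * h.1) = gr g.1 * gr h.1 := by
  ext i j
  have hx := symp_rows g (pr1 i) (pr2 i)
  have hy := symp_cols h (pr1 j) (pr2 j)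
  rw [J_pr, neg_zero] at hx hy
  rw [Matrix.mul_apply]
  simp only [gr_apply, Fintype.sum_sum_type, Fin.sum_univ_two]
  rw [mn_mul]
  simp only [pr1_a, pr1_b, pr1_c, pr1_d, pr2_a, pr2_b, pr2_c, pr2_d]
  linear_combination (mn h.1 (Sum.inl 0) (Sum.inr 0) (pr1 j) (pr2 j)) * hx
    - (mn g.1 (pr1 i) (pr2 i) (Sum.inl 1) (Sum.inr 1)) * hy
    + (mn g.1 (pr1 i) (pr2 i) (Sum.inl 1) (Sum.inr 1)) *
      (mn h.1 (Sum.inl 1) (Sum.inr 1) (pr1 j) (pr2 j)) * h2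

/-- the `4 × 4` determinant on four rows, by Laplace expansion along the first two -/
def D4 (g : Mm 2 F) (r1 r2 r3 r4 : Fin 2 ⊕ Fin 2) : F :=
  mn g r1 r2 (Sum.inl 0) (Sum.inl 1) * mn g r3 r4 (Sum.inr 0) (Sum.inr 1)
  - mn g r1 r2 (Sum.inl 0) (Sum.inr 0) * mn g r3 r4 (Sum.inl 1) (Sum.inr 1)
  + mn g r1 r2 (Sum.inl 0) (Sum.inr 1) * mn g r3 r4 (Sum.inl 1) (Sum.inr 0)
  + mn g r1 r2 (Sum.inl 1) (Sum.inr 0) * mn g r3 r4 (Sum.inl 0) (Sum.inr 1)
  - mn g r1 r2 (Sum.inl 1) (Sum.inr 1) * mn g r3 r4 (Sum.inl 0) (Sum.inr 0)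
  + mn g r1 r2 (Sum.inr 0) (Sum.inr 1) * mn g r3 r4 (Sum.inl 0) (Sum.inl 1)

/-- the determinant of a symplectic matrix, through the Pfaffian identity -/
theorem D4_symp (g : Spm 2 F) :
    D4 g.1 (Sum.inl 0) (Sum.inl 1) (Sum.inr 0) (Sum.inr 1) = 1 := by
  have hac := symp_rows g (Sum.inl 0) (Sum.inr 0)
  have hbd := symp_rows g (Sum.inl 1) (Sum.inr 1)
  have hab := symp_rows g (Sum.inl 0) (Sum.inl 1)
  have hcd := symp_rows g (Sum.inr 0) (Sum.inr 1)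
  have had := symp_rows g (Sum.inl 0) (Sum.inr 1)
  have hbc := symp_rows g (Sum.inl 1) (Sum.inr 0)
  rw [J_lr, if_pos rfl, neg_neg] at hac hbd
  rw [J_ll, neg_zero] at hab
  rw [J_rr, neg_zero] at hcd
  rw [J_lr, if_neg (by decide), neg_zero] at had hbc
  have key : D4 g.1 (Sum.inl 0) (Sum.inl 1) (Sum.inr 0) (Sum.inr 1) =
      (mn g.1 (Sum.inl 0) (Sum.inr 0) (Sum.inl 0) (Sum.inr 0) + mn g.1 (Sum.inl 0) (Sum.inr 0) (Sum.inl 1) (Sum.inr 1)) *
      (mn g.1 (Sum.inl 1) (Sum.inr 1) (Sum.inl 0) (Sum.inr 0) + mn g.1 (Sum.inl 1) (Sum.inr 1) (Sum.inl 1) (Sum.inr 1))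
      - (mn g.1 (Sum.inl 0) (Sum.inl 1) (Sum.inl 0) (Sum.inr 0) + mn g.1 (Sum.inl 0) (Sum.inl 1) (Sum.inl 1) (Sum.inr 1)) *
      (mn g.1 (Sum.inr 0) (Sum.inr 1) (Sum.inl 0) (Sum.inr 0) + mn g.1 (Sum.inr 0) (Sum.inr 1) (Sum.inl 1) (Sum.inr 1))
      - (mn g.1 (Sum.inl 0) (Sum.inr 1) (Sum.inl 0) (Sum.inr 0) + mn g.1 (Sum.inl 0) (Sum.inr 1) (Sum.inl 1) (Sum.inr 1)) *
      (mn g.1 (Sum.inl 1) (Sum.inr 0) (Sum.inl 0) (Sum.inr 0) + mn g.1 (Sum.inl 1) (Sum.inr 0) (Sum.inl 1) (Sum.inr 1)) := by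
    unfold D4 mn
    ring
  rw [key, hac, hbd, hab, had]
  ring

/-- the dual coordinate -/
def dl : Fin 2 ⊕ Fin 2 → Fin 2 ⊕ Fin 2 := Sum.elim Sum.inr Sum.inl

theorem D4_pr (g : Mm 2 F) (i j : Fin 2 ⊕ Fin 2) :
    D4 g (pr1 i) (pr2 i) (pr1 j) (pr2 j) =
      if j = dl i then D4 g (Sum.inl 0) (Sum.inl 1) (Sum.inr 0) (Sum.inr 1) else 0 := by
  rcases i with i | i <;> rcases j with j | j <;> fin_cases i <;> fin_cases j <;>
    simp [pr1, pr2, dl] <;> unfold D4 mn <;> ring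

theorem J_dl (h2 : (2 : F) = 0) (i j : Fin 2 ⊕ Fin 2) :
    Matrix.J (Fin 2) F i j = if j = dl i then 1 else 0 := by
  have hneg : (-1 : F) = 1 := by linear_combination -h2
  rcases i with i | i <;> rcases j with j | j <;> fin_cases i <;> fin_cases j <;>
    simp [dl, J_ll, J_rr, J_lr, J_rl, hneg]

/-- `gr g` is symplectic for symplectic `g`, in characteristic two -/
theorem gr_symp (h2 : (2 : F) = 0) (g : Spm 2 F) : gr g.1 ∈ Matrix.symplecticGroup (Fin 2) F := by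
  rw [_root_.SymplecticGroup.mem_iff]
  ext i j
  have hx := symp_rows g (pr1 i) (pr2 i)
  have hy := symp_rows g (pr1 j) (pr2 j)
  rw [J_pr, neg_zero] at hx hy
  have hD := D4_pr g.1 i j
  rw [D4_symp g] at hD
  rw [J_dl h2 i j, ← hD]
  simp only [Matrix.mul_apply, Matrix.transpose_apply, Fintype.sum_sum_type, Fin.sum_univ_two,
    J_ll, J_rr, J_lr, J_rl, gr_apply, pr1_a, pr1_b, pr1_c, pr1_d, pr2_a, pr2_b, pr2_c, pr2_d]
  simp only [if_pos, if_neg, Fin.zero_eta, Fin.isValue, one_ne_zero, zero_ne_one, ↓reduceIte,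
    mul_zero, zero_mul, add_zero, zero_add, mul_one, mul_neg, neg_mul]
  unfold D4
  linear_combination (mn g.1 (pr1 j) (pr2 j) (Sum.inl 1) (Sum.inr 1)) * hx
    + (mn g.1 (pr1 i) (pr2 i) (Sum.inl 1) (Sum.inr 1)) * hy
    - (mn g.1 (pr1 i) (pr2 i) (Sum.inl 0) (Sum.inl 1) * mn g.1 (pr1 j) (pr2 j) (Sum.inr 0) (Sum.inr 1)
      + mn g.1 (pr1 i) (pr2 i) (Sum.inl 0) (Sum.inr 1) * mn g.1 (pr1 j) (pr2 j) (Sum.inl 1) (Sum.inr 0)
      + mn g.1 (pr1 i) (pr2 i) (Sum.inl 1) (Sum.inr 1) * mn g.1 (pr1 j) (pr2 j) (Sum.inl 1) (Sum.inr 1)) * h2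

/-! ### the endomorphism -/

/-- the exceptional endomorphism of `Sp_4(F)`, characteristic two -/
def grHom (h2 : (2 : F) = 0) : Spm 2 F →* Spm 2 F :=
  MonoidHom.mk' (fun g => ⟨gr g.1, gr_symp h2 g⟩) (fun g h => Subtype.ext (gr_mul h2 g h))

theorem grHom_coe (h2 : (2 : F) = 0) (g : Spm 2 F) : (grHom h2 g).1 = gr g.1 := rfl

theorem neg_eq_self_of_two (h2 : (2 : F) = 0) (x : F) : -x = x := by
  linear_combination -x * h2

/-- the image of a long root element is a short root element -/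
theorem grHom_long (h2 : (2 : F) = 0) (t : F) :
    grHom h2 (tv (bv (Sum.inl 0)) t) =
      SpUni.uu (Matrix.single (0 : Fin 2) 1 t + Matrix.single 1 0 t) (SpUni.sym_pair 0 1 t) := by
  rw [← uu_single_eq_tv' (0 : Fin 2) t (SpUni.sym_single 0 t)]
  apply Subtype.ext
  rw [grHom_coe, SpUni.uu_val, SpUni.uu_val]
  have hn := neg_eq_self_of_two h2
  ext i j
  rcases i with i | i <;> rcases j with j | j <;> fin_cases i <;> fin_cases j <;>
    simp [gr_apply, mn, pr1, pr2, Matrix.single_apply, Matrix.one_apply, hn]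

/-- the image of a short root element is a long root element, with a Frobenius twist -/
theorem grHom_short (h2 : (2 : F) = 0) (s : F) :
    grHom h2 (SpUni.uu (Matrix.single (0 : Fin 2) 1 s + Matrix.single 1 0 s) (SpUni.sym_pair 0 1 s)) =
      tv (bv (Sum.inl 0)) (s * s) := by
  rw [← uu_single_eq_tv' (0 : Fin 2) (s * s) (SpUni.sym_single 0 _)]
  apply Subtype.ext
  rw [grHom_coe, SpUni.uu_val, SpUni.uu_val]
  have hn := neg_eq_self_of_two h2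
  ext i j
  rcases i with i | i <;> rcases j with j | j <;> fin_cases i <;> fin_cases j <;>
    simp [gr_apply, mn, pr1, pr2, Matrix.single_apply, Matrix.one_apply, hn]

/-- an entry of the image of the second long root group -/
theorem grHom_long1 (h2 : (2 : F) = 0) (t : F) :
    (grHom h2 (tv (bv (Sum.inl 1)) t)).1 (Sum.inl 0) (Sum.inr 1) = 0 := by
  rw [← uu_single_eq_tv' (1 : Fin 2) t (SpUni.sym_single 1 t)]
  rw [grHom_coe, SpUni.uu_val]
  simp [gr_apply, mn, pr1, pr2, Matrix.single_apply, Matrix.one_apply]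

/-! ### injectivity -/

theorem grHom_injective (h2 : (2 : F) = 0) : Function.Injective (grHom h2) := by
  classical
  rw [injective_iff_map_eq_one]
  intro n hn
  by_contra hne
  have hm1 : 1 ≤ 2 := by norm_num
  have hnZ : n ∉ Subgroup.center (Spm 2 F) := by
    intro hc
    rcases (mem_center_sp_iff hm1 n).1 hc with h | h
    · exact hne (Subtype.ext h)
    · apply hne
      apply Subtype.ext
      rw [h]
      ext i j
      rw [Matrix.neg_apply, neg_eq_self_of_two h2]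
      rfl
  obtain ⟨u, hu⟩ : ∃ u : Vm 2 F, ∀ c : F, n.1 *ᵥ u ≠ c • u := by
    by_contra hcon
    push Not at hcon
    exact hnZ ((mem_center_sp_iff hm1 n).mpr (scalar_of_eigen hm1 n hcon))
  have hnker : n ∈ (grHom h2).ker := hn
  have htrans := normal_transitive hm1 (grHom h2).ker n hnker u hu
  obtain ⟨n₀, hn₀, c₀, hc₀, e₀⟩ := htrans (bv (Sum.inl 0)) (bv_ne _)
  obtain ⟨n₁, hn₁, c₁, hc₁, e₁⟩ := htrans (bv (Sum.inl 1)) (bv_ne _)
  have hk : (n₁ * n₀⁻¹).1 *ᵥ (bv (Sum.inl 0) : Vm 2 F) = (c₀⁻¹ * c₁) • bv (Sum.inl 1) := by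
    have h1 : (bv (Sum.inl 0) : Vm 2 F) = c₀⁻¹ • (n₀.1 *ᵥ u) := by
      rw [e₀, smul_smul, inv_mul_cancel₀ hc₀, one_smul]
    have h3 : (n₁ * n₀⁻¹).1 *ᵥ (n₀.1 *ᵥ u) = n₁.1 *ᵥ u := by
      rw [Matrix.mulVec_mulVec]
      congr 1
      show ((n₁ * n₀⁻¹) * n₀).1 = _
      rw [inv_mul_cancel_right]
    rw [h1, Matrix.mulVec_smul, h3, e₁, smul_smul]
  have hkk : grHom h2 (n₁ * n₀⁻¹) = 1 := (mul_mem hn₁ (inv_mem hn₀) : n₁ * n₀⁻¹ ∈ (grHom h2).ker)
  have h3 : grHom h2 (tv ((n₁ * n₀⁻¹).1 *ᵥ (bv (Sum.inl 0) : Vm 2 F)) 1) =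
      grHom h2 (tv (bv (Sum.inl 0)) 1) := by
    have h4 : tv ((n₁ * n₀⁻¹).1 *ᵥ (bv (Sum.inl 0) : Vm 2 F)) 1 =
        (n₁ * n₀⁻¹) * tv (bv (Sum.inl 0)) 1 * (n₁ * n₀⁻¹)⁻¹ := by
      rw [tv_conj, mul_inv_cancel_right]
    rw [h4, map_mul, map_mul, map_inv, hkk, one_mul, inv_one, mul_one]
  rw [hk, tv_smul, grHom_long] at h3
  have h4 : (grHom h2 (tv (bv (Sum.inl 1)) (c₀⁻¹ * c₁ * (c₀⁻¹ * c₁) * 1))).1 (Sum.inl 0) (Sum.inr 1) =
      (SpUni.uu (Matrix.single (0 : Fin 2) 1 (1 : F) + Matrix.single 1 0 1) (SpUni.sym_pair 0 1 1)).1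
        (Sum.inl 0) (Sum.inr 1) := by rw [h3]
  rw [grHom_long1, SpUni.uu_val] at h4
  simp at h4

/-- the exceptional automorphism of `Sp_4(F)` -/
noncomputable def grEquiv [Finite F] (h2 : (2 : F) = 0) : Spm 2 F ≃* Spm 2 F :=
  MulEquiv.ofBijective (grHom h2)
    ⟨grHom_injective h2, Finite.injective_iff_surjective.1 (grHom_injective h2)⟩

theorem grEquiv_apply [Finite F] (h2 : (2 : F) = 0) (g : Spm 2 F) : grEquiv h2 g = grHom h2 g := rfl

/-- the exceptional automorphism of `PSp_4(F)` -/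
noncomputable def graphAut [Finite F] (h2 : (2 : F) = 0) : MulAut (Cfsg.PSp 2 F) :=
  liftAut (grEquiv h2)

theorem graphAut_mk [Finite F] (h2 : (2 : F) = 0) (g : Spm 2 F) :
    graphAut h2 (QuotientGroup.mk g) = QuotientGroup.mk (grHom h2 g) := rfl

theorem graphAut_tvb [Finite F] (h2 : (2 : F) = 0) (t : F) :
    graphAut h2 (tvb (bv (Sum.inl 0)) t) = (shb (n := 0) t : Cfsg.PSp 2 F) := by
  show graphAut h2 (QuotientGroup.mk (tv (bv (Sum.inl 0)) t)) = _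
  rw [graphAut_mk, grHom_long]
  rfl

theorem graphAut_shb [Finite F] (h2 : (2 : F) = 0) (s : F) :
    graphAut h2 (shb (n := 0) s : Cfsg.PSp 2 F) = tvb (bv (Sum.inl 0)) (s * s) := by
  show graphAut h2 (QuotientGroup.mk
    (SpUni.uu (Matrix.single (0 : Fin 2) 1 s + Matrix.single 1 0 s) (SpUni.sym_pair 0 1 s))) = _
  rw [graphAut_mk, grHom_short]
  rfl

/-! ### the root group dichotomy -/

/-- in characteristic two, an automorphism maps the long root group onto a transvection group or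
into a conjugate of the short root group -/
theorem root_dichotomy [Fintype F] (p : ℕ) [Fact p.Prime] [CharP F p] (h2 : (2 : F) = 0) {n : ℕ}
    (β : MulAut (Cfsg.PSp (n + 2) F)) :
    (∃ w, TG β (bv (Sum.inl 0)) w) ∨
    (∃ g₀ : Spm (n + 2) F, ∀ t : F, ∃ s : F,
      β (tvb (bv (Sum.inl 0)) t) =
        (QuotientGroup.mk g₀ : Cfsg.PSp (n + 2) F) * shb s *
          (QuotientGroup.mk g₀ : Cfsg.PSp (n + 2) F)⁻¹) := by
  have hm1 : 1 ≤ n + 2 := by omega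
  obtain ⟨hP, hidx⟩ := Ub_sylow (m := n + 2) (F := F) p (by omega)
  obtain ⟨g, hg⟩ := aut_sylow_conj p (Ub (n + 2) F) hP hidx β
  obtain ⟨g₀, rfl⟩ := QuotientGroup.mk_surjective g
  have hZ : β '' PN.Zc (Ub (n + 2) F) =
      (MulAut.conj (QuotientGroup.mk g₀ : Cfsg.PSp (n + 2) F)) '' PN.Zc (Ub (n + 2) F) := by
    rw [← PN.Zc_map, ← PN.Zc_map, hg]
  obtain ⟨γ, hγdef⟩ : ∃ γ : MulAut (Cfsg.PSp (n + 2) F),
      γ = (MulAut.conj (QuotientGroup.mk g₀ : Cfsg.PSp (n + 2) F))⁻¹ * β := ⟨_, rfl⟩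
  have hβγ : ∀ y, β y = QuotientGroup.mk g₀ * γ y * (QuotientGroup.mk g₀ : Cfsg.PSp (n + 2) F)⁻¹ := by
    intro y
    rw [hγdef, MulAut.mul_apply, MulAut.conj_inv_apply]
    group
  have hγZ : ∀ z ∈ PN.Zc (Ub (n + 2) F), γ z ∈ PN.Zc (Ub (n + 2) F) := by
    intro z hz
    have h1 : β z ∈ β '' PN.Zc (Ub (n + 2) F) := ⟨z, hz, rfl⟩
    rw [hZ] at h1
    obtain ⟨z', hz', e⟩ := h1
    have e2 : γ z = z' := by
      rw [hγdef, MulAut.mul_apply, ← e, MulAut.conj_inv_apply, MulAut.conj_apply]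
      group
    rw [e2]
    exact hz'
  rcases zc_dichotomy h2 γ hγZ with hT | ⟨hTS, hST⟩
  · left
    refine ⟨g₀.1 *ᵥ bv (Sum.inl 0), bv_ne _, sp_mulVec_ne g₀ (bv_ne _), ?_⟩
    rw [range_conj]
    choose f hf using hT
    have hfinj : Function.Injective f := by
      intro a b hab
      have : γ (tvb (bv (Sum.inl 0)) a) = γ (tvb (bv (Sum.inl 0)) b) := by rw [hf, hf, hab]
      exact tvb_inj hm1 (bv_ne _) (γ.injective this)
    have hfsurj : Function.Surjective f := Finite.injective_iff_surjective.1 hfinj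
    ext y
    constructor
    · rintro ⟨_, ⟨t, rfl⟩, rfl⟩
      exact ⟨tvb (bv (Sum.inl 0)) (f t), ⟨_, rfl⟩, by rw [hβγ, hf]⟩
    · rintro ⟨_, ⟨s, rfl⟩, rfl⟩
      obtain ⟨t, rfl⟩ := hfsurj s
      exact ⟨tvb (bv (Sum.inl 0)) t, ⟨_, rfl⟩, by rw [hβγ, hf]⟩
  · right
    refine ⟨g₀, fun t => ?_⟩
    obtain ⟨s, hs⟩ := hTS t
    exact ⟨s, by rw [hβγ, hs]⟩

/-- every automorphism of `PSp_4(2^f)` lies in `PΓSp` or is moved into it by the exceptional
automorphism -/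
theorem graph_dichotomy [Fintype F] (h2 : (2 : F) = 0) (β : MulAut (Cfsg.PSp 2 F)) :
    (∃ (g : ↥(Cfsg.GSp 2 F)) (σ : F ≃+* F), β = conjAut g * fieldAut σ) ∨
    (∃ (g : ↥(Cfsg.GSp 2 F)) (σ : F ≃+* F), graphAut h2 * β = conjAut g * fieldAut σ) := by
  have : CharP F 2 := CharTwo.of_one_ne_zero_of_two_eq_zero one_ne_zero h2
  have hm1 : 1 ≤ 2 := by norm_num
  rcases root_dichotomy (n := 0) 2 h2 β with h | ⟨g₀, hg₀⟩
  · left
    exact aut_decomp_good hm1 β (good_of_base (n := 0) β h)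
  · right
    apply aut_decomp_good hm1
    apply good_of_base (n := 0)
    obtain ⟨k₀, hk₀⟩ := exists_rep (graphAut h2 (QuotientGroup.mk g₀))
    have hval : ∀ t : F, ∃ s : F, (graphAut h2 * β) (tvb (bv (Sum.inl 0)) t) =
        tvb (k₀.1 *ᵥ bv (Sum.inl 0)) (s * s) := by
      intro t
      obtain ⟨s, hs⟩ := hg₀ t
      refine ⟨s, ?_⟩
      rw [MulAut.mul_apply, hs, map_mul, map_mul, map_inv, graphAut_shb, hk₀, conj_tvb]
    choose f hf using hval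
    have hfinj : Function.Injective (fun t => f t * f t) := by
      intro a b hab
      have hab' : f a * f a = f b * f b := hab
      have : (graphAut h2 * β) (tvb (bv (Sum.inl 0)) a) =
          (graphAut h2 * β) (tvb (bv (Sum.inl 0)) b) := by
        rw [hf, hf, hab']
      exact tvb_inj hm1 (bv_ne _) ((graphAut h2 * β).injective this)
    have hfsurj : Function.Surjective (fun t => f t * f t) :=
      Finite.injective_iff_surjective.1 hfinj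
    refine ⟨k₀.1 *ᵥ bv (Sum.inl 0), bv_ne _, sp_mulVec_ne k₀ (bv_ne _), ?_⟩
    ext y
    constructor
    · rintro ⟨_, ⟨t, rfl⟩, rfl⟩
      exact ⟨f t * f t, (hf t).symm⟩
    · rintro ⟨r, rfl⟩
      obtain ⟨t, ht⟩ := hfsurj r
      have ht' : f t * f t = r := ht
      exact ⟨tvb (bv (Sum.inl 0)) t, ⟨t, rfl⟩, by rw [hf, ht']⟩

/-- the exceptional automorphism is not in `PΓSp` -/
theorem graphAut_ne [Fintype F] (h2 : (2 : F) = 0) (g : ↥(Cfsg.GSp 2 F)) (σ : F ≃+* F) :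
    graphAut h2 ≠ conjAut g * fieldAut σ := by
  intro h
  have hgood : Good (conjAut g * fieldAut σ : MulAut (Cfsg.PSp 2 F)) :=
    Good.mul (good_fieldAut σ) (good_conjAut g)
  rw [← h] at hgood
  obtain ⟨w, hw⟩ := hgood (bv (Sum.inl 0)) (bv_ne _)
  obtain ⟨b, hb⟩ := hw.elt 1
  rw [graphAut_tvb] at hb
  apply shb_conj_ne_tvb (n := 0) h2 (1 : F) one_ne_zero (1 : Cfsg.PSp (0 + 2) F) w b
  rw [one_mul, inv_one, mul_one]
  exact hb

end Cfsg.Agent.Lib.helper13.PS
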