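import Mathlib
import Cfsg.Prelude.Def_LieTypeDatum
import Cfsg.Prelude.Def_KGroupFacts
import Cfsg.Agent.Lib.helper13.PSpGraph
import Cfsg.Agent.Lib.helper13.PSpBal

set_option autoImplicit false
set_option linter.unusedSectionVars false
set_option linter.unusedVariables false
set_option linter.style.longLine false
set_option linter.unusedSimpArgs false

/-! # The order of the automorphism group of `PSp_{2m}(q)` -/

namespace Cfsg.Agent.Lib.helper13.PS

open Matrix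
open Cfsg.Agent.S0766 Cfsg.Agent.S0765 Cfsg.Agent.Lib.helper4
open Cfsg.Agent.Lib.helper25

variable {F : Type*} [Field F] {m : ℕ}

/-- `PΓSp` as a subgroup of the automorphism group -/
def PGam (m : ℕ) (F : Type*) [Field F] : Subgroup (MulAut (Cfsg.PSp m F)) where
  carrier := {α | ∃ (g : ↥(Cfsg.GSp m F)) (σ : F ≃+* F), α = conjAut g * fieldAut σ}
  mul_mem' := by
    rintro _ _ ⟨g, σ, rfl⟩ ⟨h, τ, rfl⟩
    refine ⟨g * mapG σ h, σ * τ, ?_⟩
    rw [map_mul, map_mul, mul_assoc, ← mul_assoc (fieldAut σ), field_conj]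
    simp only [mul_assoc]
  one_mem' := ⟨1, 1, by rw [map_one, map_one, one_mul]⟩
  inv_mem' := by
    rintro _ ⟨g, σ, rfl⟩
    refine ⟨mapG σ⁻¹ g⁻¹, σ⁻¹, ?_⟩
    rw [_root_.mul_inv_rev, ← map_inv, ← map_inv, field_conj]

theorem mem_PGam (α : MulAut (Cfsg.PSp m F)) :
    α ∈ PGam m F ↔ ∃ (g : ↥(Cfsg.GSp m F)) (σ : F ≃+* F), α = conjAut g * fieldAut σ := Iff.rfl

theorem conj_field_inj' (hm : 1 ≤ m) (g h : ↥(Cfsg.GSp m F)) (σ : F ≃+* F) (τ : F ≃+* F)
    (e : (conjAut g : MulAut (Cfsg.PSp m F)) * fieldAut σ = conjAut h * fieldAut τ) :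
    σ = τ ∧ (conjAut g : MulAut (Cfsg.PSp m F)) = conjAut h := by
  have h2 : conjAut (g⁻¹ * h) * fieldAut (τ * σ⁻¹) = (1 : MulAut (Cfsg.PSp m F)) := by
    rw [map_mul, map_mul, map_inv, map_inv, mul_assoc, ← mul_assoc (conjAut h), ← e]
    group
  have h3 := (conj_field_eq_one hm _ _ h2).1
  have h4 : σ = τ := (mul_inv_eq_one.mp h3).symm
  refine ⟨h4, ?_⟩
  rw [h4] at e
  exact mul_right_cancel e

/-- the scalar similitudes have square multiplier -/
theorem multQ_of_conj_eq_one (hm : 1 ≤ m) (g : ↥(Cfsg.GSp m F))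
    (h : (conjAut g : MulAut (Cfsg.PSp m F)) = 1) : multQ hm g = 1 := by
  obtain ⟨a, ha⟩ := (conjAut_eq_one_iff hm g).1 h
  have h1 : mult g = a * a := by
    apply mult_eq hm
    intro u v
    rw [ha, Matrix.smul_mulVec, Matrix.smul_mulVec, Matrix.one_mulVec, Matrix.one_mulVec]
    unfold Cfsg.sympForm
    rw [Matrix.mulVec_smul, dotProduct_smul, smul_dotProduct, smul_eq_mul, smul_eq_mul]
    ring
  have ha0 : a ≠ 0 := by
    rintro rfl
    rw [zero_mul] at h1
    exact mult_ne g h1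
  rw [multQ_apply, QuotientGroup.eq_one_iff]
  refine ⟨Units.mk0 a ha0, ?_⟩
  apply Units.ext
  rw [powMonoidHom_apply, multU_coe, h1]
  push_cast
  rw [Units.val_mk0]
  ring

/-- a similitude with square multiplier induces an inner automorphism -/
theorem conj_inner_of_multQ (hm : 1 ≤ m) (κ : ↥(Cfsg.GSp m F)) (hκ : multQ hm κ = 1) :
    ∃ s : Spm m F, (conjAut κ : MulAut (Cfsg.PSp m F)) = MulAut.conj (QuotientGroup.mk s) := by
  rw [multQ_apply, QuotientGroup.eq_one_iff] at hκ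
  obtain ⟨a, ha⟩ := hκ
  rw [powMonoidHom_apply] at ha
  have h1 : mult (scG a⁻¹ * κ) = 1 := by
    rw [mult_mul hm, mult_scG hm]
    have h2 : (((a ^ 2 : Fˣ)) : F) = mult κ := by rw [ha]; rfl
    rw [← h2]
    push_cast
    have := a.ne_zero
    field_simp
  obtain ⟨s, hs⟩ := exists_sp_of_mult_one _ h1
  refine ⟨s, ?_⟩
  rw [← conjAut_spToGSp, ← hs, map_mul, conjAut_scG, one_mul]

theorem multQ_surjective (hm : 1 ≤ m) : Function.Surjective (multQ (F := F) (m := m) hm) := by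
  intro q
  obtain ⟨u, rfl⟩ := QuotientGroup.mk_surjective q
  refine ⟨dc (u : F) u.ne_zero, ?_⟩
  rw [multQ_apply]
  congr 1
  exact Units.ext (mult_dc hm _ _)

/-- the order of the inner-diagonal group -/
theorem card_conj_range [Fintype F] (hm : 1 ≤ m) :
    Nat.card (conjAut : ↥(Cfsg.GSp m F) →* MulAut (Cfsg.PSp m F)).range =
      Nat.gcd 2 (Fintype.card F - 1) * Nat.card (Cfsg.PSp m F) := by
  classical
  obtain ⟨R, hR⟩ : ∃ R : Subgroup (MulAut (Cfsg.PSp m F)),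
      R = (conjAut : ↥(Cfsg.GSp m F) →* MulAut (Cfsg.PSp m F)).range := ⟨_, rfl⟩
  rw [← hR]
  have hInnR : Cfsg.Inn (Cfsg.PSp m F) ≤ R := by
    rintro _ ⟨y, rfl⟩
    obtain ⟨s, rfl⟩ := exists_rep y
    rw [hR]
    exact ⟨spToGSp s, conjAut_spToGSp s⟩
  obtain ⟨rr, hrr⟩ : ∃ rr : ↥(Cfsg.GSp m F) →* ↥R, ∀ g, (rr g : MulAut (Cfsg.PSp m F)) = conjAut g := by
    subst hR
    exact ⟨(conjAut : ↥(Cfsg.GSp m F) →* MulAut (Cfsg.PSp m F)).rangeRestrict, fun g => rfl⟩
  have hrrs : Function.Surjective rr := by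
    rintro ⟨x, hx⟩
    rw [hR] at hx
    obtain ⟨g, rfl⟩ := hx
    exact ⟨g, Subtype.ext (hrr g)⟩
  have hmap : (multQ (F := F) (m := m) hm).ker.map rr = (Cfsg.Inn (Cfsg.PSp m F)).subgroupOf R := by
    ext x
    rw [Subgroup.mem_subgroupOf]
    constructor
    · rintro ⟨g, hg, rfl⟩
      obtain ⟨s, hs⟩ := conj_inner_of_multQ hm g hg
      rw [hrr, hs]
      exact ⟨_, rfl⟩
    · rintro ⟨y, hy⟩
      obtain ⟨s, rfl⟩ := exists_rep y
      refine ⟨spToGSp s, ?_, Subtype.ext ?_⟩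
      · show multQ hm (spToGSp s) = 1
        rw [multQ_apply]
        have : multU hm (spToGSp s) = 1 := Units.ext (mult_spToGSp hm s)
        rw [this]
        rfl
      · rw [hrr, conjAut_spToGSp]
        exact hy
  have hker : rr.ker ≤ (multQ (F := F) (m := m) hm).ker := by
    intro g hg
    apply multQ_of_conj_eq_one hm
    have h1 : rr g = 1 := hg
    rw [← hrr, h1]
    rfl
  have hidx : ((Cfsg.Inn (Cfsg.PSp m F)).subgroupOf R).index = Nat.gcd 2 (Fintype.card F - 1) := by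
    rw [← hmap, Subgroup.index_map_eq _ hrrs hker, Subgroup.index_ker,
      MonoidHom.range_eq_top.2 (multQ_surjective hm), Subgroup.card_top]
    show (powMonoidHom 2 : Fˣ →* Fˣ).range.index = _
    rw [IsCyclic.index_powMonoidHom_range, Nat.card_units, Nat.card_eq_fintype_card, Nat.gcd_comm]
  have hcI : Nat.card ((Cfsg.Inn (Cfsg.PSp m F)).subgroupOf R) = Nat.card (Cfsg.PSp m F) := by
    rw [Nat.card_congr (Subgroup.subgroupOfEquivOfLe hInnR).toEquiv]
    have hinj : Function.Injective (MulAut.conj : Cfsg.PSp m F →* MulAut (Cfsg.PSp m F)) :=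
      fun a b hab => conj_inj hm a b hab
    exact (Nat.card_congr (MonoidHom.ofInjective hinj).toEquiv).symm
  rw [← Subgroup.index_mul_card ((Cfsg.Inn (Cfsg.PSp m F)).subgroupOf R), hidx, hcI]

/-- the order of `PΓSp` -/
theorem card_PGam [Fintype F] {p f : ℕ} [Fact p.Prime] (hF : Fintype.card F = p ^ f) (hf : 1 ≤ f)
    (hm : 1 ≤ m) :
    Nat.card (PGam m F) = Nat.gcd 2 (p ^ f - 1) * f * Nat.card (Cfsg.PSp m F) := by
  classical
  obtain ⟨e⟩ := PSL2Aut.ringAut_equiv hF hf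
  have hcf : Nat.card (F ≃+* F) = f := by
    rw [Nat.card_congr e.toEquiv]
    show Nat.card (ZMod f) = f
    exact Nat.card_zmod f
  let Θ : (conjAut : ↥(Cfsg.GSp m F) →* MulAut (Cfsg.PSp m F)).range × (F ≃+* F) → PGam m F :=
    fun x => ⟨x.1.1 * fieldAut x.2, by
      obtain ⟨g, hg⟩ := x.1.2
      exact ⟨g, x.2, by rw [hg]⟩⟩
  have hΘ : Function.Bijective Θ := by
    constructor
    · rintro ⟨⟨x, g, rfl⟩, σ⟩ ⟨⟨y, h, rfl⟩, τ⟩ hxy
      have h1 : (conjAut g : MulAut (Cfsg.PSp m F)) * fieldAut σ = conjAut h * fieldAut τ :=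
        congrArg Subtype.val hxy
      obtain ⟨h2, h3⟩ := conj_field_inj' hm g h σ τ h1
      rw [Prod.mk.injEq]
      exact ⟨Subtype.ext h3, h2⟩
    · rintro ⟨α, g, σ, rfl⟩
      exact ⟨(⟨conjAut g, g, rfl⟩, σ), rfl⟩
  rw [← Nat.card_congr (Equiv.ofBijective Θ hΘ), Nat.card_prod, hcf, card_conj_range hm, hF]
  ring

/-! ### the exceptional case -/

/-- in characteristic two, `PΓSp_4` has index two in the automorphism group -/
theorem index_PGam_four [Fintype F] (h2 : (2 : F) = 0) : (PGam 2 F).index = 2 := by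
  rw [Subgroup.index_eq_two_iff]
  refine ⟨(graphAut h2)⁻¹, fun b => ?_⟩
  have hG : graphAut h2 ∉ PGam 2 F := by
    rintro ⟨g, σ, h⟩
    exact graphAut_ne h2 g σ h
  by_cases hb : b ∈ PGam 2 F
  · refine Or.inr ⟨hb, fun h => ?_⟩
    exact hG ((Subgroup.inv_mem_iff _).1 ((Subgroup.mul_mem_cancel_left _ hb).1 h))
  · refine Or.inl ⟨?_, hb⟩
    rcases graph_dichotomy h2 b⁻¹ with ⟨g, σ, h⟩ | ⟨g, σ, h⟩
    · exact absurd ((Subgroup.inv_mem_iff _).1 (⟨g, σ, h⟩ : b⁻¹ ∈ PGam 2 F)) hb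
    · have h1 : graphAut h2 * b⁻¹ ∈ PGam 2 F := ⟨g, σ, h⟩
      have h3 := (PGam 2 F).inv_mem h1
      rw [_root_.mul_inv_rev, inv_inv] at h3
      exact h3

theorem charP_of_card [Fintype F] {p f : ℕ} [Fact p.Prime] (hF : Fintype.card F = p ^ f)
    (hf : 1 ≤ f) : CharP F p := by
  have hp := (Fact.out : p.Prime)
  obtain ⟨p', hp'⟩ := CharP.exists F
  obtain ⟨n, hp'prime, hcard⟩ := FiniteField.card F p'
  have hpp : p = p' := by
    have h1 : p ∣ p' ^ (n : ℕ) := by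
      rw [← hcard, hF]
      exact dvd_pow_self p (by omega)
    exact (Nat.prime_dvd_prime_iff_eq hp hp'prime).mp (hp.dvd_of_dvd_pow h1)
  subst hpp
  exact hp'

/-- **the order of `Aut(PSp_{2m}(q))`** -/
theorem card_aut_psp [Fintype F] {p f : ℕ} [Fact p.Prime] (hF : Fintype.card F = p ^ f)
    (hf : 1 ≤ f) (hm : 2 ≤ m) :
    Nat.card (MulAut (Cfsg.PSp m F)) =
      (if m = 2 ∧ p = 2 then 2 else 1) * Nat.gcd 2 (p ^ f - 1) * f * Nat.card (Cfsg.PSp m F) := by
  have hc : CharP F p := charP_of_card hF hf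
  by_cases h : m = 2 ∧ p = 2
  · obtain ⟨rfl, rfl⟩ := h
    have h2 : (2 : F) = 0 := by
      have := CharP.cast_eq_zero F 2
      exact_mod_cast this
    rw [if_pos ⟨rfl, rfl⟩, ← Subgroup.index_mul_card (PGam 2 F), index_PGam_four h2,
      card_PGam hF hf (by norm_num)]
    ring
  · rw [if_neg h, one_mul, ← card_PGam hF hf (by omega)]
    have htop : PGam m F = ⊤ := by
      rw [eq_top_iff]
      intro α _
      exact aut_decomp p hm (fun h4 hp => h ⟨h4, hp⟩) α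
    rw [htop, Subgroup.card_top]

/-! ### the outer automorphism group of `PSp_4(2^f)` -/

/-- the square of the exceptional automorphism is a Frobenius-type element of `PΓSp` -/
theorem graphAut_sq [Fintype F] (h2 : (2 : F) = 0) :
    ∃ (g : ↥(Cfsg.GSp 2 F)) (σ : F ≃+* F),
      graphAut h2 * graphAut h2 = conjAut g * fieldAut σ ∧ ∀ t : F, σ t = t * t := by
  have hm1 : 1 ≤ 2 := by norm_num
  rcases graph_dichotomy h2 (graphAut h2) with ⟨g, σ, h⟩ | ⟨g, σ, h⟩
  · exact absurd h (graphAut_ne h2 g σ)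
  · refine ⟨g, σ, h, ?_⟩
    obtain ⟨w, hw⟩ : ∃ w : Vm 2 F, w = ((g : GLm 2 F) : Mm 2 F) *ᵥ (bv (Sum.inl 0) : Vm 2 F) := ⟨_, rfl⟩
    have key : ∀ t : F, (tvb (bv (Sum.inl 0)) (t * t) : Cfsg.PSp 2 F) = tvb w (σ t / mult g) := by
      intro t
      have h1 : (graphAut h2 * graphAut h2) (tvb (bv (Sum.inl 0)) t) = tvb (bv (Sum.inl 0)) (t * t) := by
        rw [MulAut.mul_apply, graphAut_tvb, graphAut_shb]
      rw [← h1, h, MulAut.mul_apply, fieldAut_tvb, map_bv, conjAut_tvb, hw]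
    have k1 := key 1
    rw [map_one, mul_one, tvb_eq_iff hm1 (bv_ne _)] at k1
    obtain ⟨d, hd, hwd⟩ := tv_par (bv_ne _) one_ne_zero k1
    have key2 : ∀ t : F, t * t = d * d * (σ t / mult g) := by
      intro t
      have h3 := key t
      have h4 : (tvb w (σ t / mult g) : Cfsg.PSp 2 F) = tvb (bv (Sum.inl 0)) (d * d * (σ t / mult g)) := by
        show (QuotientGroup.mk (tv w (σ t / mult g)) : Cfsg.PSp 2 F) = QuotientGroup.mk (tv _ _)
        rw [hwd, tv_smul]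
      rw [h4] at h3
      exact tvb_inj hm1 (bv_ne _) h3
    have k2 := key2 1
    rw [map_one, mul_one] at k2
    intro t
    have hμ := mult_ne g
    have k3 := key2 t
    have hdd : d * d ≠ 0 := mul_ne_zero hd hd
    have k4 : mult g = d * d := by
      field_simp at k2
      rw [k2, pow_two]
    rw [k4] at k3
    rw [k3]
    field_simp

/-- a field automorphism acting as squaring has order `f` -/
theorem orderOf_sq_aut [Fintype F] {f : ℕ} (hF : Fintype.card F = 2 ^ f) (hf : 1 ≤ f)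
    (σ : F ≃+* F) (hσ : ∀ t : F, σ t = t * t) : orderOf σ = f := by
  classical
  obtain ⟨e⟩ := PSL2Aut.ringAut_equiv (p := 2) hF hf
  have hcf : Nat.card (F ≃+* F) = f := by
    rw [Nat.card_congr e.toEquiv]
    show Nat.card (ZMod f) = f
    exact Nat.card_zmod f
  have hfin : Finite (F ≃+* F) := Nat.finite_of_card_ne_zero (by rw [hcf]; omega)
  have hdvd : orderOf σ ∣ f := by
    rw [← hcf]
    exact orderOf_dvd_natCard σ
  have hpos : 0 < orderOf σ := orderOf_pos σ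
  have hpow : ∀ (j : ℕ) (t : F), (σ ^ j) t = t ^ (2 ^ j) := by
    intro j
    induction j with
    | zero => intro t; simp
    | succ j ih =>
      intro t
      rw [pow_succ', RingAut.mul_apply, ih, hσ, pow_succ, pow_mul, pow_two]
  obtain ⟨ζ, hζ⟩ := IsCyclic.exists_generator (α := Fˣ)
  have hordζ : orderOf ζ = 2 ^ f - 1 := by
    rw [orderOf_eq_card_of_forall_mem_zpowers hζ, Nat.card_units, Nat.card_eq_fintype_card, hF]
  have h1 : (ζ : F) ^ (2 ^ orderOf σ) = ζ := by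
    rw [← hpow, pow_orderOf_eq_one]
    rfl
  have h2 : ζ ^ (2 ^ orderOf σ - 1) = 1 := by
    have h3 : ζ ^ (2 ^ orderOf σ) = ζ := Units.ext (by push_cast; exact h1)
    have h4 : ζ ^ (2 ^ orderOf σ - 1) * ζ = 1 * ζ := by
      rw [← pow_succ, Nat.sub_add_cancel Nat.one_le_two_pow, h3, one_mul]
    exact mul_right_cancel h4
  have h5 : 2 ^ f - 1 ∣ 2 ^ orderOf σ - 1 := by
    rw [← hordζ]
    exact orderOf_dvd_of_pow_eq_one h2
  have h6 : 2 ^ f - 1 ≤ 2 ^ orderOf σ - 1 := by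
    apply Nat.le_of_dvd _ h5
    have : 2 ^ 1 ≤ 2 ^ orderOf σ := Nat.pow_le_pow_right (by norm_num) hpos
    omega
  have h7 : 2 ^ f ≤ 2 ^ orderOf σ := by
    have := Nat.one_le_two_pow (n := f)
    have := Nat.one_le_two_pow (n := orderOf σ)
    omega
  have h8 : f ≤ orderOf σ := (Nat.pow_le_pow_iff_right (by norm_num)).1 h7
  exact le_antisymm (Nat.le_of_dvd (by omega) hdvd) h8

theorem inn_le_PGam : Cfsg.Inn (Cfsg.PSp m F) ≤ PGam m F := by
  rintro _ ⟨y, rfl⟩
  obtain ⟨s, rfl⟩ := exists_rep y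
  exact ⟨spToGSp s, 1, by rw [map_one, mul_one, conjAut_spToGSp]⟩

/-- a power of the exceptional automorphism is inner only for exponents divisible by `2f` -/
theorem graphAut_pow_inn [Fintype F] {f : ℕ} (hF : Fintype.card F = 2 ^ f) (hf : 1 ≤ f)
    (h2 : (2 : F) = 0) (k : ℕ) (hk : graphAut h2 ^ k ∈ Cfsg.Inn (Cfsg.PSp 2 F)) : 2 * f ∣ k := by
  have hm1 : 1 ≤ 2 := by norm_num
  obtain ⟨g, σ, hsq, hσ⟩ := graphAut_sq h2
  have hord := orderOf_sq_aut hF hf σ hσ
  have hG : graphAut h2 ∉ PGam 2 F := by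
    rintro ⟨g, σ, h⟩
    exact graphAut_ne h2 g σ h
  have heven : ∀ j : ℕ, graphAut h2 ^ (2 * j) = conjAut (NmS σ g j) * fieldAut (σ ^ j) := by
    intro j
    rw [pow_mul, pow_two, hsq, conj_field_pow]
  rcases Nat.even_or_odd' k with ⟨j, rfl | rfl⟩
  · obtain ⟨y, hy⟩ := hk
    obtain ⟨s, rfl⟩ := exists_rep y
    have h3 : (conjAut (NmS σ g j) : MulAut (Cfsg.PSp 2 F)) * fieldAut (σ ^ j) =
        conjAut (spToGSp s) * fieldAut 1 := by
      rw [← heven, map_one, mul_one, conjAut_spToGSp]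
      exact hy.symm
    have h4 := (conj_field_inj' hm1 _ _ _ _ h3).1
    have h5 : f ∣ j := by
      rw [← hord]
      exact orderOf_dvd_of_pow_eq_one h4
    exact Nat.mul_dvd_mul_left 2 h5
  · exfalso
    apply hG
    have h3 : graphAut h2 ^ (2 * j) ∈ PGam 2 F := ⟨_, _, heven j⟩
    have h4 : graphAut h2 ^ (2 * j + 1) ∈ PGam 2 F := inn_le_PGam hk
    rw [pow_succ] at h4
    exact (Subgroup.mul_mem_cancel_left _ h3).1 h4

/-- **`Out(PSp_4(2^f))` is cyclic of order `2f`** -/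
theorem out_psp_four [Fintype F] {f : ℕ} (hF : Fintype.card F = 2 ^ f) (hf : 1 ≤ f) :
    IsCyclic (Cfsg.Out (Cfsg.PSp 2 F)) ∧ Nat.card (Cfsg.Out (Cfsg.PSp 2 F)) = 2 * f := by
  classical
  have hm1 : 1 ≤ 2 := by norm_num
  have hc : CharP F 2 := charP_of_card (p := 2) hF hf
  have h2 : (2 : F) = 0 := by
    have := CharP.cast_eq_zero F 2
    exact_mod_cast this
  have hcard : Nat.card (Cfsg.Out (Cfsg.PSp 2 F)) = 2 * f := by
    have h1 := Subgroup.index_mul_card (Cfsg.Inn (Cfsg.PSp 2 F))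
    have hinj : Function.Injective (MulAut.conj : Cfsg.PSp 2 F →* MulAut (Cfsg.PSp 2 F)) :=
      fun a b hab => conj_inj hm1 a b hab
    have hcI : Nat.card (Cfsg.Inn (Cfsg.PSp 2 F)) = Nat.card (Cfsg.PSp 2 F) :=
      (Nat.card_congr (MonoidHom.ofInjective hinj).toEquiv).symm
    have hgcd : Nat.gcd 2 (2 ^ f - 1) = 1 := by
      have hodd : (2 ^ f - 1) % 2 = 1 := by
        obtain ⟨f', rfl⟩ : ∃ f', f = f' + 1 := ⟨f - 1, by omega⟩
        have := Nat.one_le_two_pow (n := f')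
        rw [pow_succ]
        omega
      rw [Nat.gcd_rec, hodd]
      rfl
    rw [card_aut_psp (p := 2) hF hf (le_refl 2), if_pos ⟨rfl, rfl⟩, hcI, hgcd] at h1
    have hpos : 0 < Nat.card (Cfsg.PSp 2 F) := Nat.card_pos
    have h3 : (Cfsg.Inn (Cfsg.PSp 2 F)).index * Nat.card (Cfsg.PSp 2 F) =
        (2 * f) * Nat.card (Cfsg.PSp 2 F) := by
      rw [h1]
    exact Nat.eq_of_mul_eq_mul_right hpos h3
  refine ⟨?_, hcard⟩
  have hfinO : Finite (Cfsg.Out (Cfsg.PSp 2 F)) := Nat.finite_of_card_ne_zero (by rw [hcard]; omega)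
  apply isCyclic_of_orderOf_eq_card (QuotientGroup.mk (graphAut h2) : Cfsg.Out (Cfsg.PSp 2 F))
  rw [hcard]
  apply Nat.dvd_antisymm
  · rw [← hcard]
    exact orderOf_dvd_natCard _
  · apply graphAut_pow_inn hF hf h2
    have h5 := pow_orderOf_eq_one (QuotientGroup.mk (graphAut h2) : Cfsg.Out (Cfsg.PSp 2 F))
    rw [← QuotientGroup.mk_pow] at h5
    exact (QuotientGroup.eq_one_iff _).1 h5

end Cfsg.Agent.Lib.helper13.PS
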