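import Mathlib
import Cfsg.Agent.Lib.helper13.PSUAut3
import Cfsg.Agent.Lib.helper13.PSpCount

set_option autoImplicit false
set_option linter.unusedSectionVars false
set_option linter.unusedVariables false
set_option linter.style.longLine false

/-!
The automorphism group of `PSU_n(q)`: consequences of the decomposition theorem.
-/

namespace Cfsg.Agent.Lib.helper13.PU

open Matrix
open Cfsg.Agent.Lib.helper4

variable {F : Type*} [Field F] [Fintype F] {q n : ℕ}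

theorem psu_charP {p f : ℕ} [Fact p.Prime] (hq : q = p ^ f) (hf : 1 ≤ f)
    (hF : Fintype.card F = q ^ 2) : CharP F p :=
  PS.charP_of_card (f := f * 2) (by rw [hF, hq, pow_mul]) (by omega)

theorem gammaPSU_top {p f : ℕ} [Fact p.Prime] (hq : q = p ^ f) (hf : 1 ≤ f)
    (hF : Fintype.card F = q ^ 2) (hn : 3 ≤ n) (hs : ¬ (n = 3 ∧ q = 2)) :
    Cfsg.gammaPSU n F q = ⊤ := by
  haveI := psu_charP hq hf hF
  rw [eq_top_iff]
  intro α _
  obtain ⟨g, σ, rfl⟩ := aut_decomp hF hn hs p α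
  unfold Cfsg.gammaPSU Cfsg.autSubgroupOf
  exact Subgroup.subset_closure ⟨g, σ, g.2, induced_conj_field g σ⟩

theorem aut_delta_phi {p f : ℕ} [Fact p.Prime] (hq : q = p ^ f) (hf : 1 ≤ f)
    (hF : Fintype.card F = q ^ 2) (hn : 3 ≤ n) (hs : ¬ (n = 3 ∧ q = 2))
    (β : MulAut (Cfsg.PSU n F q)) :
    ∃ (δ φ : MulAut (Cfsg.PSU n F q)) (σ : F ≃+* F),
      Cfsg.IsInnerDiagonalAutPSU δ ∧ Cfsg.IsFieldAutPSUOf σ φ ∧ β = δ * φ := by
  haveI := psu_charP hq hf hF
  obtain ⟨g, σ, rfl⟩ := aut_decomp hF hn hs p β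
  exact ⟨conjAut g, fieldAut σ, σ, conjAut_innerDiag g, fieldAut_isField σ, rfl⟩

end Cfsg.Agent.Lib.helper13.PU
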