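import Mathlib
import Cfsg.Agent.Lib.helper13.PSUThm
import Cfsg.Agent.Lib.helper13.PSL2Aut

set_option autoImplicit false
set_option linter.unusedSectionVars false
set_option linter.unusedVariables false
set_option linter.style.longLine false

/-!
The outer automorphism group of `PSU_n(q)` and the order of the automorphism group.
-/

namespace Cfsg.Agent.Lib.helper13.PU

open Matrix
open Cfsg.Agent.Lib.helper4

variable {F : Type*} [Field F] [Fintype F] {q n : ℕ}

theorem semi_fix_iso (hF : Fintype.card F = q ^ 2) (hn : 2 ≤ n) (g : ↥(Cfsg.GU n F q))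
    (σ : F ≃+* F) (h : (conjAut g * fieldAut σ : MulAut (Cfsg.PSU n F q)) = 1) {v : Fin n → F}
    (hv0 : v ≠ 0) (hv : Cfsg.hermForm n F q v v = 0) :
    ∃ t : F, ((g : GL (Fin n) F) : Mn n F) *ᵥ (fun i => σ (v i)) = t • v := by
  obtain ⟨κ, hκ0, hκ⟩ := exists_trace_zero hF
  have h1 := gamma_tvb hF g σ v κ
  rw [h, MulAut.one_apply] at h1
  have t1 := TG_gamma hF g σ hv0 hv
  exact tvb_eq_imp hF hn hv0 hv t1.2.1.2 hκ0 hκ (by rw [← map_pow, ← map_add, hκ, map_zero]) h1

/-- a semilinear unitary map inducing the identity on `PSU_n(q)` is a scalar -/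
theorem conj_field_eq_one (hF : Fintype.card F = q ^ 2) (hn : 3 ≤ n) (g : ↥(Cfsg.GU n F q))
    (σ : F ≃+* F) (h : (conjAut g * fieldAut σ : MulAut (Cfsg.PSU n F q)) = 1) :
    σ = 1 ∧ ∃ a : F, ∀ x : Fin n → F, ((g : GL (Fin n) F) : Mn n F) *ᵥ x = a • x := by
  have hn2 : 2 ≤ n := by omega
  obtain ⟨D⟩ := exists_HP (n := n) hF hn2
  obtain ⟨S, hS⟩ : ∃ S : (Fin n → F) → (Fin n → F),
      ∀ v, S v = ((g : GL (Fin n) F) : Mn n F) *ᵥ (fun i => σ (v i)) := ⟨_, fun _ => rfl⟩
  have hfix : ∀ v : Fin n → F, v ≠ 0 → Cfsg.hermForm n F q v v = 0 → ∃ t : F, S v = t • v :=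
    fun v hv0 hv => by rw [hS]; exact semi_fix_iso hF hn2 g σ h hv0 hv
  have hadd : ∀ u v, S (u + v) = S u + S v := by
    intro u v
    rw [hS, hS, hS, ← Matrix.mulVec_add]
    congr 1
    funext i
    simp only [Pi.add_apply, map_add]
  have hsmul : ∀ (l : F) v, S (l • v) = σ l • S v := by
    intro l v
    rw [hS, hS, ← Matrix.mulVec_smul]
    congr 1
    funext i
    simp only [Pi.smul_apply, smul_eq_mul, map_mul]
  have hherm : ∀ u v, Cfsg.hermForm n F q (S u) (S v) = σ (Cfsg.hermForm n F q u v) := by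
    intro u v
    rw [hS, hS, gu_pres _ g.2, herm_map]
  obtain ⟨a, ha⟩ := hfix D.e D.e_ne D.ee
  obtain ⟨b, hb⟩ := hfix D.f (D.f_ne hF) D.ff
  have hb0 : b ≠ 0 := by
    rintro rfl
    have := hherm D.f D.e
    rw [hb, zero_smul, herm_zero_left, D.fe hF, map_one] at this
    exact zero_ne_one this
  have ha0 : a ≠ 0 := by
    rintro rfl
    have := hherm D.e D.f
    rw [ha, zero_smul, herm_zero_left, D.ef, map_one] at this
    exact zero_ne_one this
  have hSW : ∀ w ∈ D.W, S w ∈ D.W := by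
    intro w hw
    constructor
    · have := hherm w D.e
      rw [ha, Cfsg.Agent.Lib.helper4.herm_smul_right, hw.1, map_zero] at this
      exact (mul_eq_zero.mp this).resolve_left (pow_ne_zero _ ha0)
    · have := hherm w D.f
      rw [hb, Cfsg.Agent.Lib.helper4.herm_smul_right, hw.2, map_zero] at this
      exact (mul_eq_zero.mp this).resolve_left (pow_ne_zero _ hb0)
  have key : ∀ w ∈ D.W, ∀ d : F, d + d ^ q + Cfsg.hermForm n F q w w = 0 →
      S w = b • w ∧ σ d * a = b * d := by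
    intro w hw d hd
    obtain ⟨x, hx⟩ : ∃ x : Fin n → F, x = D.f + w + d • D.e := ⟨_, rfl⟩
    have hxe : Cfsg.hermForm n F q x D.e = 1 := by
      rw [hx, herm_add_left, herm_add_left, herm_smul_left, D.fe hF, hw.1, D.ee]; ring
    have hx0 : x ≠ 0 := by
      rintro rfl
      rw [herm_zero_left] at hxe
      exact zero_ne_one hxe
    have hxx : Cfsg.hermForm n F q x x = 0 := by
      rw [hx, ← D.sg_f hF hw hd]
      have : Cfsg.hermForm n F q (suM (sg hF D.e w d) *ᵥ D.f) (suM (sg hF D.e w d) *ᵥ D.f) =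
          Cfsg.hermForm n F q D.f D.f := su_pres _ _ _
      rw [this, D.ff]
    obtain ⟨t, ht⟩ := hfix x hx0 hxx
    have hSx : S x = b • D.f + S w + (σ d * a) • D.e := by
      rw [hx, hadd, hadd, hsmul, hb, ha, smul_smul]
    rw [hSx] at ht
    have h1 := congrArg (fun v => Cfsg.hermForm n F q v D.e) ht
    simp only [herm_add_left, herm_smul_left, D.fe hF, (hSW w hw).1, D.ee, hxe] at h1
    have htb : t = b := by linear_combination -h1
    have h2 := congrArg (fun v => Cfsg.hermForm n F q v D.f) ht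
    rw [hx] at h2
    simp only [herm_add_left, herm_smul_left, D.ff, (hSW w hw).2, D.ef, hw.2] at h2
    have h3 := congrArg D.pw ht
    rw [hx] at h3
    simp only [D.pw_add, D.pw_smul, D.pw_f hF, D.pw_e, D.pw_of_mem (hSW w hw),
      D.pw_of_mem hw] at h3
    refine ⟨?_, ?_⟩
    · rw [← htb]
      simpa using h3
    · rw [← htb]
      linear_combination h2
  have hκ : ∀ κ : F, κ + κ ^ q = 0 → σ κ * a = b * κ := by
    intro κ hκ
    exact (key 0 D.W.zero_mem κ (by rw [herm_zero_left, add_zero]; exact hκ)).2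
  obtain ⟨w, hw, hw0⟩ := D.exists_W_ne hF hn
  have hσl : ∀ l : F, σ l = l := by
    intro l
    obtain ⟨d, hd⟩ := exists_valid hF (l • w)
    obtain ⟨d', hd'⟩ := exists_valid hF w
    have h1 := (key (l • w) (D.W.smul_mem l hw) d hd).1
    have h2 := (key w hw d' hd').1
    rw [hsmul, h2, smul_smul, smul_smul] at h1
    have h3 : (σ l * b - b * l) • w = 0 := by rw [sub_smul, h1, sub_self]
    have h4 := smul_eq_zero_vec hw0 h3
    have : (σ l - l) * b = 0 := by linear_combination h4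
    rcases mul_eq_zero.mp this with h5 | h5
    · exact sub_eq_zero.mp h5
    · exact absurd h5 hb0
  obtain ⟨κ, hκ0, hκK⟩ := exists_trace_zero hF
  have hab : a = b := by
    have h1 := hκ κ hκK
    rw [hσl] at h1
    exact mul_left_cancel₀ hκ0 (by linear_combination h1)
  refine ⟨RingEquiv.ext hσl, a, fun x => ?_⟩
  have hSx : S x = ((g : GL (Fin n) F) : Mn n F) *ᵥ x := by
    rw [hS]
    congr 1
    funext i
    exact hσl _
  rw [← hSx]
  obtain ⟨d, hd⟩ := exists_valid hF (D.pw x)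
  conv_lhs => rw [D.decomp x]
  rw [hadd, hadd, hsmul, hsmul, ha, hb, (key _ (D.pw_mem hF x) d hd).1, hσl, hσl, ← hab]
  conv_rhs => rw [D.decomp x]
  module

theorem conjAut_scalar (g : ↥(Cfsg.GU n F q)) (a : F)
    (h : ∀ x : Fin n → F, ((g : GL (Fin n) F) : Mn n F) *ᵥ x = a • x) :
    (conjAut g : MulAut (Cfsg.PSU n F q)) = 1 := by
  apply MulEquiv.ext
  intro x
  obtain ⟨M, rfl⟩ := exists_rep x
  rw [conjAut_mk, MulAut.one_apply]
  congr 1
  apply su_ext
  intro y
  rw [conjSU_mulVec_inv]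
  have hz := gu_mulVec_inv' (g : GL (Fin n) F) y
  rw [h] at hz
  rw [h, ← Matrix.mulVec_smul, hz]

/-- the inner automorphisms are exactly the conjugations by elements of `SU` -/
theorem conj_eq_conjAut (M : Cfsg.SU n F q) :
    MulAut.conj (QuotientGroup.mk M : Cfsg.PSU n F q) = conjAut (suToGU M) := by
  apply MulEquiv.ext
  intro x
  rw [conjAut_suToGU]
  rfl

theorem conj_injective (hF : Fintype.card F = q ^ 2) (hn : 3 ≤ n) :
    Function.Injective (MulAut.conj : Cfsg.PSU n F q →* MulAut (Cfsg.PSU n F q)) := by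
  rw [injective_iff_map_eq_one]
  intro x hx
  obtain ⟨M, rfl⟩ := exists_rep x
  rw [conj_eq_conjAut] at hx
  have h1 : (conjAut (suToGU M) * fieldAut (1 : F ≃+* F) : MulAut (Cfsg.PSU n F q)) = 1 := by
    rw [map_one, mul_one, hx]
  obtain ⟨-, a, ha⟩ := conj_field_eq_one hF hn _ _ h1
  exact (QuotientGroup.eq_one_iff M).mpr (central_of_scalar M a ha)

theorem card_inn (hF : Fintype.card F = q ^ 2) (hn : 3 ≤ n) :
    Nat.card (Cfsg.Inn (Cfsg.PSU n F q)) = Nat.card (Cfsg.PSU n F q) :=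
  (Nat.card_congr (MonoidHom.ofInjective (conj_injective hF hn)).toEquiv).symm

/-! ### commutation of field and diagonal automorphisms -/

theorem gu_map_mem (σ : F ≃+* F) (g : ↥(Cfsg.GU n F q)) :
    Matrix.GeneralLinearGroup.map (σ : F →+* F) (g : GL (Fin n) F) ∈ Cfsg.GU n F q := by
  rw [mem_GU_iff]
  intro u v
  show Cfsg.hermForm n F q ((((g : GL (Fin n) F) : Mn n F).map σ) *ᵥ u)
    ((((g : GL (Fin n) F) : Mn n F).map σ) *ᵥ v) = _
  rw [map_mulVec, map_mulVec, herm_map, gu_pres _ g.2, herm_map σ.symm u v,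
    RingEquiv.apply_symm_apply]

theorem field_conj (σ : F ≃+* F) (B : ↥(Cfsg.GU n F q)) :
    (fieldAut σ : MulAut (Cfsg.PSU n F q)) * conjAut B =
      conjAut ⟨Matrix.GeneralLinearGroup.map (σ : F →+* F) (B : GL (Fin n) F), gu_map_mem σ B⟩ *
        fieldAut σ := by
  apply MulEquiv.ext
  intro x
  obtain ⟨M, rfl⟩ := exists_rep x
  rw [MulAut.mul_apply, MulAut.mul_apply, conjAut_mk, fieldAut_mk, fieldAut_mk, conjAut_mk]
  congr 1
  apply suM_injective
  rw [fieldSU_coe, conjSU_coe, conjSU_coe, fieldSU_coe]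
  show (((B : GL (Fin n) F) : Mn n F) * suM M * (((B : GL (Fin n) F)⁻¹ : GL (Fin n) F) : Mn n F)).map σ =
    ((Matrix.GeneralLinearGroup.map (σ : F →+* F) (B : GL (Fin n) F) : GL (Fin n) F) : Mn n F) *
      (suM M).map σ *
      (((Matrix.GeneralLinearGroup.map (σ : F →+* F) (B : GL (Fin n) F))⁻¹ : GL (Fin n) F) : Mn n F)
  rw [← map_inv]
  show (σ : F →+* F).mapMatrix (_ * _ * _) = _
  rw [map_mul, map_mul]
  rfl

theorem decomp_unique (hF : Fintype.card F = q ^ 2) (hn : 3 ≤ n) (A B : ↥(Cfsg.GU n F q))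
    (σ τ : F ≃+* F)
    (h : (conjAut A * fieldAut σ : MulAut (Cfsg.PSU n F q)) = conjAut B * fieldAut τ) :
    σ = τ := by
  have h2 : (conjAut (B⁻¹ * A) * fieldAut (σ * τ⁻¹) : MulAut (Cfsg.PSU n F q)) = 1 := by
    rw [map_mul, map_mul, map_inv, map_inv, mul_assoc, ← mul_assoc (conjAut A), h]
    group
  exact mul_inv_eq_one.mp (conj_field_eq_one hF hn _ _ h2).1

/-- **the structure homomorphism** `Aut(PSU_n(q)) → Aut(F)` -/
theorem exists_Phi (hF : Fintype.card F = q ^ 2) (hn : 3 ≤ n) (hs : ¬ (n = 3 ∧ q = 2)) (p : ℕ)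
    [Fact p.Prime] [CharP F p] :
    ∃ Φ : MulAut (Cfsg.PSU n F q) →* (F ≃+* F),
      (∀ (A : ↥(Cfsg.GU n F q)) (τ : F ≃+* F), Φ (conjAut A * fieldAut τ) = τ) ∧
      (∀ α, Φ α = 1 → ∃ A : ↥(Cfsg.GU n F q), α = conjAut A) := by
  have hdec : ∀ α : MulAut (Cfsg.PSU n F q), ∃ σ : F ≃+* F, ∃ A : ↥(Cfsg.GU n F q),
      α = conjAut A * fieldAut σ := by
    intro α
    obtain ⟨g, σ, h⟩ := aut_decomp hF hn hs p α
    exact ⟨σ, g, h⟩
  choose Φf hΦf using hdec
  have hΦ_eq : ∀ (α : MulAut (Cfsg.PSU n F q)) (A : ↥(Cfsg.GU n F q)) (τ : F ≃+* F),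
      α = conjAut A * fieldAut τ → Φf α = τ := by
    intro α A τ h
    obtain ⟨A', hA'⟩ := hΦf α
    exact decomp_unique hF hn A' A _ τ (hA'.symm.trans h)
  refine ⟨MonoidHom.mk' Φf ?_, ?_, ?_⟩
  · intro α β
    obtain ⟨A, hA⟩ := hΦf α
    obtain ⟨B, hB⟩ := hΦf β
    apply hΦ_eq (α * β) (A * ⟨Matrix.GeneralLinearGroup.map ((Φf α : F ≃+* F) : F →+* F)
      (B : GL (Fin n) F), gu_map_mem _ B⟩) (Φf α * Φf β)
    calc α * β = (conjAut A * fieldAut (Φf α)) * (conjAut B * fieldAut (Φf β)) := by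
          rw [← hA, ← hB]
      _ = conjAut A * (fieldAut (Φf α) * conjAut B) * fieldAut (Φf β) := by
          simp only [mul_assoc]
      _ = _ := by rw [field_conj, map_mul, map_mul]; simp only [mul_assoc]
  · intro A τ
    exact hΦ_eq _ A τ rfl
  · intro α h
    obtain ⟨A, hA⟩ := hΦf α
    refine ⟨A, ?_⟩
    have h' : Φf α = 1 := h
    rw [h', map_one, mul_one] at hA
    exact hA

end Cfsg.Agent.Lib.helper13.PU
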