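import Mathlib
import Cfsg.Agent.Lib.helper13.PSUOut

set_option autoImplicit false
set_option linter.unusedSectionVars false
set_option linter.unusedVariables false
set_option linter.style.longLine false

/-!
The outer automorphism group of `PSU_n(q)` and the order of the automorphism group.
-/

namespace Cfsg.Agent.Lib.helper13.PU

open Matrix
open Cfsg.Agent.Lib.helper4

variable {F : Type*} [Field F] [Fintype F] {q n : ℕ}

/-- the determinant of a general unitary matrix has norm one -/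
theorem gu_det_norm (hF : Fintype.card F = q ^ 2) (A : ↥(Cfsg.GU n F q)) :
    (((A : GL (Fin n) F) : Mn n F).det) ^ (q + 1) = 1 := by
  have h1 := Cfsg.Agent.S0783.det_pow_of_mem hF n A.1 A.2
  have h2 := congrArg (fun u : Fˣ => (u : F)) h1
  simpa using h2

/-- `conjAut A` is inner iff `det A` is an `n`-th power of a norm-one scalar -/
theorem conjAut_inn_iff (hF : Fintype.card F = q ^ 2) (hn : 3 ≤ n) (A : ↥(Cfsg.GU n F q)) :
    (conjAut A : MulAut (Cfsg.PSU n F q)) ∈ Cfsg.Inn (Cfsg.PSU n F q) ↔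
      ∃ a : F, a ^ (q + 1) = 1 ∧ a ^ n = ((A : GL (Fin n) F) : Mn n F).det := by
  have hn2 : 2 ≤ n := by omega
  constructor
  · rintro ⟨x, hx⟩
    obtain ⟨M, rfl⟩ := exists_rep x
    rw [conj_eq_conjAut] at hx
    have h1 : (conjAut ((suToGU M)⁻¹ * A) * fieldAut (1 : F ≃+* F) :
        MulAut (Cfsg.PSU n F q)) = 1 := by
      rw [map_mul, map_inv, hx, inv_mul_cancel, map_one, mul_one]
    obtain ⟨-, a, ha⟩ := conj_field_eq_one hF hn _ _ h1
    have h2 : ∀ x : Fin n → F, ((A : GL (Fin n) F) : Mn n F) *ᵥ x = a • (suM M *ᵥ x) := by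
      intro x
      have h3 := ha x
      have h4 : ((((suToGU M)⁻¹ * A : ↥(Cfsg.GU n F q)) : GL (Fin n) F) : Mn n F) =
          (((suToGU M : ↥(Cfsg.GU n F q)) : GL (Fin n) F)⁻¹ : GL (Fin n) F) *
            ((A : GL (Fin n) F) : Mn n F) := rfl
      rw [h4, ← Matrix.mulVec_mulVec] at h3
      have h5 := congrArg (fun y => (((suToGU M : ↥(Cfsg.GU n F q)) : GL (Fin n) F) : Mn n F) *ᵥ y) h3
      simp only [gu_mulVec_inv', Matrix.mulVec_smul] at h5
      rw [h5]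
      rfl
    have h6 : ((A : GL (Fin n) F) : Mn n F) = a • suM M := by
      apply Matrix.mulVec_injective
      funext x
      rw [h2, Matrix.smul_mulVec]
    refine ⟨a, ?_, ?_⟩
    · obtain ⟨D⟩ := exists_HP (n := n) hF hn2
      have h7 := gu_pres _ A.2 D.e D.f
      rw [h2, h2, Cfsg.Agent.Lib.helper4.herm_smul_left, Cfsg.Agent.Lib.helper4.herm_smul_right] at h7
      have h8 : Cfsg.hermForm n F q (suM M *ᵥ D.e) (suM M *ᵥ D.f) = Cfsg.hermForm n F q D.e D.f :=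
        su_pres M _ _
      rw [h8, D.ef, mul_one] at h7
      rw [unorm_eq]
      exact h7
    · rw [h6, Matrix.det_smul, Fintype.card_fin]
      have : (suM M).det = 1 := M.1.2
      rw [this, mul_one]
  · rintro ⟨a, ha, han⟩
    have ha0 : a ≠ 0 := by
      rintro rfl
      rw [zero_pow (by omega)] at ha
      exact zero_ne_one ha
    have hainv : (a⁻¹) ^ (q + 1) = 1 := by rw [inv_pow, ha, inv_one]
    obtain ⟨M, hM⟩ := su_mk (q := q) (a⁻¹ • ((A : GL (Fin n) F) : Mn n F))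
      (fun u v => by
        rw [Matrix.smul_mulVec, Matrix.smul_mulVec, Cfsg.Agent.Lib.helper4.herm_smul_left,
          Cfsg.Agent.Lib.helper4.herm_smul_right, gu_pres _ A.2, ← mul_assoc, ← unorm_eq, hainv,
          one_mul])
      (by rw [Matrix.det_smul, Fintype.card_fin, ← han, ← mul_pow, inv_mul_cancel₀ ha0, one_pow])
    have h1 : (conjAut ((suToGU M)⁻¹ * A) : MulAut (Cfsg.PSU n F q)) = 1 := by
      apply conjAut_scalar _ a
      intro x
      have h4 : ((((suToGU M)⁻¹ * A : ↥(Cfsg.GU n F q)) : GL (Fin n) F) : Mn n F) =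
          (((suToGU M : ↥(Cfsg.GU n F q)) : GL (Fin n) F)⁻¹ : GL (Fin n) F) *
            ((A : GL (Fin n) F) : Mn n F) := rfl
      have h5 : ((A : GL (Fin n) F) : Mn n F) *ᵥ x =
          (((suToGU M : ↥(Cfsg.GU n F q)) : GL (Fin n) F) : Mn n F) *ᵥ (a • x) := by
        rw [suToGU_coe, show suM M = _ from hM, Matrix.smul_mulVec, Matrix.mulVec_smul, smul_smul,
          inv_mul_cancel₀ ha0, one_smul]
      rw [h4, ← Matrix.mulVec_mulVec, h5, gu_inv_mulVec']
    rw [map_mul, map_inv, inv_mul_eq_one] at h1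
    refine ⟨QuotientGroup.mk M, ?_⟩
    rw [conj_eq_conjAut, h1]

/-- **Structure of `Out(PSU_n(q))`.** -/
theorem out_psu {p f : ℕ} [Fact p.Prime] (hf : 1 ≤ f) (hq : q = p ^ f)
    (hF : Fintype.card F = q ^ 2) (hn : 3 ≤ n) (hs : ¬ (n = 3 ∧ q = 2)) :
    ∃ φ : Cfsg.Out (Cfsg.PSU n F q) →* Multiplicative (ZMod (2 * f)),
      Function.Surjective φ ∧ IsCyclic φ.ker ∧ Nat.card φ.ker = Nat.gcd n (q + 1) := by
  classical
  have hc := psu_charP hq hf hF
  obtain ⟨Φ, hΦ_cf, hΦ_ker⟩ := exists_Phi (n := n) hF hn hs p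
  have hF' : Fintype.card F = p ^ (2 * f) := by rw [hF, hq, ← pow_mul, mul_comm]
  obtain ⟨e⟩ := PSL2Aut.ringAut_equiv hF' (by omega)
  have hΦ_conj : ∀ A : ↥(Cfsg.GU n F q), Φ (conjAut A) = 1 := by
    intro A
    have := hΦ_cf A 1
    rwa [map_one, mul_one] at this
  have hInn : Cfsg.Inn (Cfsg.PSU n F q) ≤ (e.toMonoidHom.comp Φ).ker := by
    rintro _ ⟨g, rfl⟩
    obtain ⟨M, rfl⟩ := exists_rep g
    rw [MonoidHom.mem_ker, MonoidHom.comp_apply, conj_eq_conjAut, hΦ_conj]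
    exact map_one _
  let φ : Cfsg.Out (Cfsg.PSU n F q) →* Multiplicative (ZMod (2 * f)) :=
    QuotientGroup.lift (Cfsg.Inn (Cfsg.PSU n F q)) (e.toMonoidHom.comp Φ) hInn
  have hφ_mk : ∀ α : MulAut (Cfsg.PSU n F q), φ (QuotientGroup.mk α) = e (Φ α) := fun α => rfl
  let ψ : ↥(Cfsg.GU n F q) →* Cfsg.Out (Cfsg.PSU n F q) :=
    (QuotientGroup.mk' (Cfsg.Inn (Cfsg.PSU n F q))).comp conjAut
  have hψ : ∀ A : ↥(Cfsg.GU n F q), ψ A = QuotientGroup.mk (conjAut A) := fun A => rfl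
  have hker : φ.ker = ψ.range := by
    ext x
    constructor
    · intro hx
      obtain ⟨α, rfl⟩ := QuotientGroup.mk_surjective x
      rw [MonoidHom.mem_ker, hφ_mk] at hx
      have h1 : Φ α = 1 := e.injective (hx.trans (map_one e).symm)
      obtain ⟨A, rfl⟩ := hΦ_ker α h1
      exact ⟨A, rfl⟩
    · rintro ⟨A, rfl⟩
      rw [MonoidHom.mem_ker, hψ, hφ_mk, hΦ_conj, map_one]
  obtain ⟨Dt, hDt⟩ := exists_detHom hF n
  have hDsurj : Function.Surjective Dt := by
    intro y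
    have hy : ((y : Fˣ) : F) ^ (q + 1) = 1 := by
      have h1 := y.2
      rw [MonoidHom.mem_ker, powMonoidHom_apply] at h1
      rw [← Units.val_pow_eq_pow_val, h1, Units.val_one]
    obtain ⟨g, hg, -, hgdet⟩ := gu_diag_one (q := q) (⟨0, by omega⟩ : Fin n) ((y : Fˣ) : F) hy
    refine ⟨⟨g, hg⟩, ?_⟩
    apply Subtype.ext
    apply Units.ext
    rw [hDt, Matrix.GeneralLinearGroup.val_det_apply]
    exact hgdet
  have hDdet : ∀ A : ↥(Cfsg.GU n F q),
      (((Dt A : (powMonoidHom (q + 1) : Fˣ →* Fˣ).ker) : Fˣ) : F) =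
        ((A : GL (Fin n) F) : Mn n F).det := by
    intro A
    rw [hDt, Matrix.GeneralLinearGroup.val_det_apply]
  have hψker : ∀ A : ↥(Cfsg.GU n F q), ψ A = 1 ↔
      ∃ a : (powMonoidHom (q + 1) : Fˣ →* Fˣ).ker, a ^ n = Dt A := by
    intro A
    rw [hψ, QuotientGroup.eq_one_iff, conjAut_inn_iff hF hn]
    constructor
    · rintro ⟨a, ha, han⟩
      have ha0 : a ≠ 0 := by
        rintro rfl
        rw [zero_pow (by omega)] at ha
        exact zero_ne_one ha
      refine ⟨⟨Units.mk0 a ha0, ?_⟩, ?_⟩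
      · rw [MonoidHom.mem_ker, powMonoidHom_apply]
        apply Units.ext
        rw [Units.val_pow_eq_pow_val, Units.val_mk0, ha, Units.val_one]
      · apply Subtype.ext
        apply Units.ext
        rw [hDdet, ← han]
        simp
    · rintro ⟨a, ha⟩
      refine ⟨((a : Fˣ) : F), ?_, ?_⟩
      · have h1 := a.2
        rw [MonoidHom.mem_ker, powMonoidHom_apply] at h1
        rw [← Units.val_pow_eq_pow_val, h1, Units.val_one]
      · rw [← hDdet, ← ha]
        simp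
  have hDψ : Dt.ker ≤ ψ.ker := by
    intro A hA
    rw [MonoidHom.mem_ker] at hA ⊢
    rw [hψker, hA]
    exact ⟨1, one_pow n⟩
  obtain ⟨ψ', hψ'⟩ : ∃ ψ' : (powMonoidHom (q + 1) : Fˣ →* Fˣ).ker →* Cfsg.Out (Cfsg.PSU n F q),
      ∀ A, ψ' (Dt A) = ψ A :=
    ⟨Dt.liftOfSurjective hDsurj ⟨ψ, hDψ⟩, fun A =>
      MonoidHom.liftOfRightInverse_comp_apply Dt _ (Function.rightInverse_surjInv hDsurj) ⟨ψ, hDψ⟩ A⟩
  have hrange : ψ.range = ψ'.range := by
    ext x
    constructor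
    · rintro ⟨A, rfl⟩
      exact ⟨Dt A, hψ' A⟩
    · rintro ⟨c, rfl⟩
      obtain ⟨A, rfl⟩ := hDsurj c
      exact ⟨A, (hψ' A).symm⟩
  refine ⟨φ, ?_, ?_, ?_⟩
  · intro z
    obtain ⟨τ, rfl⟩ := e.surjective z
    refine ⟨QuotientGroup.mk (conjAut 1 * fieldAut τ), ?_⟩
    rw [hφ_mk, hΦ_cf]
  · rw [hker, hrange]
    exact isCyclic_of_surjective ψ'.rangeRestrict ψ'.rangeRestrict_surjective
  · rw [hker, hrange, ← Subgroup.index_ker]
    have hk : ψ'.ker = (powMonoidHom n :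
        (powMonoidHom (q + 1) : Fˣ →* Fˣ).ker →* (powMonoidHom (q + 1) : Fˣ →* Fˣ).ker).range := by
      ext c
      obtain ⟨A, rfl⟩ := hDsurj c
      rw [MonoidHom.mem_ker, hψ', hψker]
      constructor
      · rintro ⟨a, ha⟩
        exact ⟨a, ha⟩
      · rintro ⟨a, ha⟩
        exact ⟨a, ha⟩
    rw [hk, IsCyclic.index_powMonoidHom_range, Cfsg.Agent.S0783.card_K hF, Nat.gcd_comm]

/-- **`|Aut(PSU_n(q))|`** -/
theorem card_aut_psu {p f : ℕ} [Fact p.Prime] (hf : 1 ≤ f) (hq : q = p ^ f)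
    (hF : Fintype.card F = q ^ 2) (hn : 3 ≤ n) (hs : ¬ (n = 3 ∧ q = 2)) :
    Nat.card (MulAut (Cfsg.PSU n F q)) =
      Nat.gcd n (q + 1) * (2 * f) * Nat.card (Cfsg.PSU n F q) := by
  obtain ⟨φ, hφ, -, hcard⟩ := out_psu hf hq hF hn hs
  have h1 : Nat.card (Cfsg.Out (Cfsg.PSU n F q)) = Nat.gcd n (q + 1) * (2 * f) := by
    rw [← Subgroup.card_mul_index φ.ker, hcard, Subgroup.index_ker,
      MonoidHom.range_eq_top.mpr hφ, Subgroup.card_top]
    congr 1
    show Nat.card (ZMod (2 * f)) = 2 * f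
    exact Nat.card_zmod (2 * f)
  rw [Subgroup.card_eq_card_quotient_mul_card_subgroup (Cfsg.Inn (Cfsg.PSU n F q)), card_inn hF hn]
  show Nat.card (Cfsg.Out (Cfsg.PSU n F q)) * _ = _
  rw [h1]

end Cfsg.Agent.Lib.helper13.PU
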