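import Mathlib
import Cfsg.Agent.Lib.helper13.PSUOut2
import Cfsg.Agent.Lib.helper13.PSLnCent
import Cfsg.Agent.Lib.helper13.PSLnGF

set_option autoImplicit false
set_option linter.unusedSectionVars false
set_option linter.unusedVariables false
set_option linter.style.longLine false

/-!
Field automorphisms of `PSU_n(q)`: twisted norms, Hilbert 90 for the general unitary group and
conjugacy in the coset of a field automorphism.
-/

namespace Cfsg.Agent.Lib.helper13.PU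

open Matrix
open Cfsg.Agent.Lib.helper4

variable {F : Type*} [Field F] [Fintype F] {q n : ℕ}

/-- the Frobenius as a ring automorphism -/
theorem exists_tau (hF : Fintype.card F = q ^ 2) :
    ∃ τ : F ≃+* F, (∀ a, τ a = a ^ q) ∧ τ ≠ 1 ∧ τ * τ = 1 := by
  obtain ⟨τ, hτ⟩ : ∃ τ : F ≃+* F, ∀ a, τ a = ufrob hF a :=
    ⟨RingEquiv.ofBijective (ufrob hF) ⟨(ufrob hF).injective, ringHom_surj _⟩, fun a => rfl⟩
  refine ⟨τ, fun a => by rw [hτ, ufrob_apply], ?_, ?_⟩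
  · intro h
    obtain ⟨x, hx⟩ := exists_frob_ne hF
    apply hx
    have := congrArg (fun t : F ≃+* F => t x) h
    simp only [hτ, ufrob_apply] at this
    exact this
  · ext a
    show τ (τ a) = a
    rw [hτ, hτ, ufrob_invol]

/-- the entrywise action of a field automorphism on `GU` -/
def mapU (σ : F ≃+* F) : ↥(Cfsg.GU n F q) →* ↥(Cfsg.GU n F q) where
  toFun g := ⟨Matrix.GeneralLinearGroup.map (σ : F →+* F) (g : GL (Fin n) F), gu_map_mem σ g⟩
  map_one' := Subtype.ext (map_one _)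
  map_mul' g h := Subtype.ext (map_mul _ _ _)

theorem mapU_coe (σ : F ≃+* F) (g : ↥(Cfsg.GU n F q)) :
    ((mapU σ g : ↥(Cfsg.GU n F q)) : GL (Fin n) F) =
      Matrix.GeneralLinearGroup.map (σ : F →+* F) (g : GL (Fin n) F) := rfl

theorem field_conj' (σ : F ≃+* F) (B : ↥(Cfsg.GU n F q)) :
    (fieldAut σ : MulAut (Cfsg.PSU n F q)) * conjAut B = conjAut (mapU σ B) * fieldAut σ :=
  field_conj σ B

/-- twisted norm on `GU` -/
def NmU (σ : F ≃+* F) (g : ↥(Cfsg.GU n F q)) : ℕ → ↥(Cfsg.GU n F q)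
  | 0 => 1
  | k + 1 => g * mapU σ (NmU σ g k)

theorem NmU_zero (σ : F ≃+* F) (g : ↥(Cfsg.GU n F q)) : NmU σ g 0 = 1 := rfl

theorem NmU_succ (σ : F ≃+* F) (g : ↥(Cfsg.GU n F q)) (k : ℕ) :
    NmU σ g (k + 1) = g * mapU σ (NmU σ g k) := rfl

theorem NmU_coe (σ : F ≃+* F) (g : ↥(Cfsg.GU n F q)) (k : ℕ) :
    ((NmU σ g k : ↥(Cfsg.GU n F q)) : GL (Fin n) F) = H90.Nm σ (g : GL (Fin n) F) k := by
  induction k with
  | zero => rfl
  | succ k ih =>
    rw [NmU_succ, H90.Nm_succ, ← ih]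
    rfl

theorem conj_field_pow (σ : F ≃+* F) (g : ↥(Cfsg.GU n F q)) (k : ℕ) :
    ((conjAut g : MulAut (Cfsg.PSU n F q)) * fieldAut σ) ^ k =
      conjAut (NmU σ g k) * fieldAut (σ ^ k) := by
  induction k with
  | zero => rw [pow_zero, pow_zero, NmU_zero, map_one, map_one, mul_one]
  | succ k ih =>
    rw [pow_succ', ih, NmU_succ, pow_succ' σ k, map_mul, map_mul]
    calc conjAut g * fieldAut σ * (conjAut (NmU σ g k) * fieldAut (σ ^ k))
        = conjAut g * (fieldAut σ * conjAut (NmU σ g k)) * fieldAut (σ ^ k) := by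
          simp only [mul_assoc]
      _ = _ := by rw [field_conj']; simp only [mul_assoc]

theorem conjAut_eq_one_iff (hF : Fintype.card F = q ^ 2) (hn : 3 ≤ n) (g : ↥(Cfsg.GU n F q)) :
    (conjAut g : MulAut (Cfsg.PSU n F q)) = 1 ↔
      ∃ a : F, ∀ x : Fin n → F, ((g : GL (Fin n) F) : Mn n F) *ᵥ x = a • x := by
  constructor
  · intro h
    have h1 : (conjAut g * fieldAut (1 : F ≃+* F) : MulAut (Cfsg.PSU n F q)) = 1 := by
      rw [map_one, mul_one, h]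
    exact (conj_field_eq_one hF hn g 1 h1).2
  · rintro ⟨a, ha⟩
    exact conjAut_scalar g a ha

theorem fieldAut_injective (hF : Fintype.card F = q ^ 2) (hn : 3 ≤ n) :
    Function.Injective (fieldAut : (F ≃+* F) →* MulAut (Cfsg.PSU n F q)) := by
  rw [injective_iff_map_eq_one]
  intro σ h
  have h1 : (conjAut (1 : ↥(Cfsg.GU n F q)) * fieldAut σ : MulAut (Cfsg.PSU n F q)) = 1 := by
    rw [map_one, one_mul, h]
  exact (conj_field_eq_one hF hn 1 σ h1).1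

/-! ### scalars -/

theorem scalar_mulVec (μ : Fˣ) (u : Fin n → F) :
    ((Matrix.GeneralLinearGroup.scalar (Fin n) μ : GL (Fin n) F) : Mn n F) *ᵥ u = (μ : F) • u := by
  rw [Matrix.GeneralLinearGroup.coe_scalar, Matrix.scalar_apply]
  funext k
  rw [Matrix.mulVec_diagonal, Pi.smul_apply, smul_eq_mul]

theorem scalar_mem_gu (μ : Fˣ) (hμ : (μ : F) ^ (q + 1) = 1) :
    Matrix.GeneralLinearGroup.scalar (Fin n) μ ∈ Cfsg.GU n F q := by
  rw [mem_GU_iff]
  intro u v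
  rw [scalar_mulVec, scalar_mulVec, Cfsg.Agent.Lib.helper4.herm_smul_left,
    Cfsg.Agent.Lib.helper4.herm_smul_right, ← mul_assoc, ← unorm_eq, hμ, one_mul]

/-- a scalar of `GU` has norm one -/
theorem scalar_norm_one (hF : Fintype.card F = q ^ 2) (hn : 2 ≤ n) (g : ↥(Cfsg.GU n F q)) (a : F)
    (h : ∀ x : Fin n → F, ((g : GL (Fin n) F) : Mn n F) *ᵥ x = a • x) : a ^ (q + 1) = 1 := by
  obtain ⟨D⟩ := exists_HP (n := n) hF hn
  have h7 := gu_pres _ g.2 D.e D.f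
  rw [h, h, Cfsg.Agent.Lib.helper4.herm_smul_left, Cfsg.Agent.Lib.helper4.herm_smul_right, D.ef,
    mul_one] at h7
  rw [unorm_eq]
  exact h7

theorem pow_fix (σ : F ≃+* F) {a : F} (h : σ a = a) (i : ℕ) : (σ ^ i) a = a := by
  induction i with
  | zero => rw [pow_zero]; rfl
  | succ i ih =>
    rw [pow_succ, RingAut.mul_apply, h, ih]

/-- the twisted norm is onto the fixed norm-one scalars, for odd order -/
theorem norm_one_surj (hF : Fintype.card F = q ^ 2) (σ : F ≃+* F) (r : ℕ) (hr : 0 < r)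
    (hro : Odd r) (hσ : orderOf σ = r) (lam : F) (hlam : lam ^ (q + 1) = 1) (hfix : σ lam = lam) :
    ∃ c : F, c ^ (q + 1) = 1 ∧ ∏ i ∈ Finset.range r, (σ ^ i) c = lam := by
  have hlam0 : lam ≠ 0 := by
    rintro rfl
    rw [zero_pow (by omega)] at hlam
    exact zero_ne_one hlam
  obtain ⟨c₁, hc₁0, hc₁⟩ := H90.norm_surj σ r hr hσ lam hfix hlam0
  obtain ⟨c₂, hc₂⟩ : ∃ c₂ : F, c₂ = c₁ / c₁ ^ q := ⟨_, rfl⟩
  have hc₂n : c₂ ^ (q + 1) = 1 := by
    rw [hc₂, div_pow, ← pow_mul, mul_comm q (q + 1), pow_mul, unorm_fixed hF]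
    exact div_self (pow_ne_zero _ hc₁0)
  have hlamq : lam ^ q = lam⁻¹ := by
    rw [unorm_eq] at hlam
    exact eq_inv_of_mul_eq_one_right hlam
  have hc₂N : ∏ i ∈ Finset.range r, (σ ^ i) c₂ = lam ^ 2 := by
    have e : ∀ i, (σ ^ i) c₂ = (σ ^ i) c₁ / ((σ ^ i) c₁) ^ q := by
      intro i
      rw [hc₂, map_div₀, map_pow]
    simp only [e]
    rw [Finset.prod_div_distrib, Finset.prod_pow, hc₁, hlamq]
    field_simp
  obtain ⟨k, hk⟩ := hro
  refine ⟨lam * (c₂⁻¹) ^ k, ?_, ?_⟩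
  · rw [mul_pow, hlam, one_mul, ← pow_mul, mul_comm k (q + 1), pow_mul, inv_pow, hc₂n, inv_one,
      one_pow]
  · have e : ∀ i, (σ ^ i) (lam * (c₂⁻¹) ^ k) = lam * (((σ ^ i) c₂)⁻¹) ^ k := by
      intro i
      rw [map_mul, map_pow, map_inv₀, pow_fix σ hfix]
    simp only [e]
    rw [Finset.prod_mul_distrib, Finset.prod_const, Finset.card_range, Finset.prod_pow,
      Finset.prod_inv_distrib, hc₂N, hk]
    rw [pow_succ, pow_mul, inv_pow, mul_assoc, mul_comm lam, ← mul_assoc,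
      mul_inv_cancel₀ (pow_ne_zero _ (pow_ne_zero _ hlam0)), one_mul]

/-! ### Hilbert 90 for `GU` -/

theorem itGL_mapι {F₀ : Type*} [Field F₀] (ι : F₀ →+* F) (h : GL (Fin n) F₀) :
    PN.itGL (Matrix.GeneralLinearGroup.map ι h) = Matrix.GeneralLinearGroup.map ι (PN.itGL h) := by
  apply Units.ext
  rw [PN.itGL_coe, ← map_inv]
  ext i j
  rfl

/-- Hermitian decomposition on the level of `GL` -/
theorem herm_decomp_GL {K : Type*} [Field K] [Finite K] (τ : K ≃+* K) (hτ : τ ≠ 1)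
    (hτ2 : τ * τ = 1) (L : GL (Fin n) K)
    (hL : Matrix.GeneralLinearGroup.map (τ : K →+* K) (PN.itGL L) = L⁻¹) :
    ∃ k : GL (Fin n) K,
      L = Matrix.GeneralLinearGroup.map (τ : K →+* K) (PN.itGL k) * k⁻¹ := by
  have hττ : ∀ a : K, τ (τ a) = a := fun a => congrArg (fun t : K ≃+* K => t a) hτ2
  have h1 : (((L⁻¹ : GL (Fin n) K) : Matrix (Fin n) (Fin n) K).map τ).transpose =
      ((L⁻¹ : GL (Fin n) K) : Matrix (Fin n) (Fin n) K) := by
    have h2 := congrArg (fun u : GL (Fin n) K => (u : Matrix (Fin n) (Fin n) K)) hL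
    have h3 : ((L⁻¹ : GL (Fin n) K) : Matrix (Fin n) (Fin n) K).transpose.map τ =
        ((L⁻¹ : GL (Fin n) K) : Matrix (Fin n) (Fin n) K) := h2
    rw [← Matrix.transpose_map]
    exact h3
  obtain ⟨k, hk⟩ := H90.hermitian_decomp τ hτ hττ L⁻¹ h1
  refine ⟨k, ?_⟩
  have h4 : L⁻¹ = k * (Matrix.GeneralLinearGroup.map (τ : K →+* K) (PN.itGL k))⁻¹ := by
    apply Units.ext
    rw [hk, Units.val_mul, ← map_inv, ← map_inv]
    congr 1
  have h5 := congrArg (fun u : GL (Fin n) K => u⁻¹) h4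
  simp only [inv_inv, _root_.mul_inv_rev] at h5
  exact h5

/-- **Hilbert 90 for `GU`** -/
theorem hilbert90_gu (hF : Fintype.card F = q ^ 2) (σ : F ≃+* F) (r : ℕ) (hr : 0 < r)
    (hσ : orderOf σ = r) {F₀ : Type*} [Field F₀] [Fintype F₀] {q₀ : ℕ}
    (hF₀ : Fintype.card F₀ = q₀ ^ 2) (ι : F₀ →+* F) (hι : ∀ b : F, σ b = b ↔ ∃ a, ι a = b)
    (hιq : ∀ a : F₀, ι a ^ q = ι (a ^ q₀)) (g : ↥(Cfsg.GU n F q))
    (hN : H90.Nm σ (g : GL (Fin n) F) r = 1) :
    ∃ h : ↥(Cfsg.GU n F q), (g : GL (Fin n) F) =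
      (h : GL (Fin n) F) * (Matrix.GeneralLinearGroup.map (σ : F →+* F) (h : GL (Fin n) F))⁻¹ := by
  classical
  obtain ⟨τ, hτq, hτ1, hτ2⟩ := exists_tau hF
  obtain ⟨τ₀, hτ₀q, hτ₀1, hτ₀2⟩ := exists_tau hF₀
  have hθg : Matrix.GeneralLinearGroup.map (τ : F →+* F) (PN.itGL (g : GL (Fin n) F)) =
      (g : GL (Fin n) F) := (PN.mem_GU_iff τ hτ2 q hτq _).mp g.2
  obtain ⟨h₁, hh₁⟩ := H90.hilbert90 σ r hr hσ (g : GL (Fin n) F) hN
  have e0 : Matrix.GeneralLinearGroup.map (σ : F →+* F) h₁ = (g : GL (Fin n) F)⁻¹ * h₁ := by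
    rw [hh₁]
    group
  have hστ : ∀ M : GL (Fin n) F, Matrix.GeneralLinearGroup.map (σ : F →+* F)
      (Matrix.GeneralLinearGroup.map (τ : F →+* F) M) =
      Matrix.GeneralLinearGroup.map (τ : F →+* F)
        (Matrix.GeneralLinearGroup.map (σ : F →+* F) M) := by
    intro M
    apply Units.ext
    ext i j
    show σ (τ (M i j)) = τ (σ (M i j))
    rw [hτq, hτq, map_pow]
  have hιτ : ∀ M : GL (Fin n) F₀, Matrix.GeneralLinearGroup.map ι
      (Matrix.GeneralLinearGroup.map (τ₀ : F₀ →+* F₀) M) =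
      Matrix.GeneralLinearGroup.map (τ : F →+* F) (Matrix.GeneralLinearGroup.map ι M) := by
    intro M
    apply Units.ext
    ext i j
    show ι (τ₀ (M i j)) = τ (ι (M i j))
    rw [hτq, hτ₀q, hιq]
  obtain ⟨K', hK'⟩ : ∃ K' : GL (Fin n) F,
      K' = h₁⁻¹ * Matrix.GeneralLinearGroup.map (τ : F →+* F) (PN.itGL h₁) := ⟨_, rfl⟩
  have hK'σ : Matrix.GeneralLinearGroup.map (σ : F →+* F) K' = K' := by
    rw [hK', map_mul, map_inv, hστ, ← PN.itGL_map, e0, map_mul, map_mul, map_inv, map_inv, hθg]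
    group
  have hK'θ : Matrix.GeneralLinearGroup.map (τ : F →+* F) (PN.itGL K') = K'⁻¹ := by
    rw [hK', map_mul, map_mul, map_inv, map_inv, PN.theta_theta τ hτ2]
    group
  obtain ⟨K₀, hK₀⟩ := PN.exists_map_of_fixed ι σ hι K' hK'σ
  have hinj : Function.Injective (Matrix.GeneralLinearGroup.map ι :
      GL (Fin n) F₀ → GL (Fin n) F) := by
    intro A B hAB
    apply Units.ext
    ext i j
    have := congrFun (congrFun (congrArg
      (fun u : GL (Fin n) F => (u : Matrix (Fin n) (Fin n) F)) hAB) i) j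
    exact ι.injective this
  have hK₀θ : Matrix.GeneralLinearGroup.map (τ₀ : F₀ →+* F₀) (PN.itGL K₀) = K₀⁻¹ := by
    apply hinj
    rw [hιτ, ← itGL_mapι, hK₀, hK'θ, map_inv, hK₀]
  obtain ⟨k, hk⟩ := herm_decomp_GL τ₀ hτ₀1 hτ₀2 K₀ hK₀θ
  obtain ⟨Y, hY⟩ : ∃ Y : GL (Fin n) F, Y = Matrix.GeneralLinearGroup.map ι k := ⟨_, rfl⟩
  obtain ⟨X, hX⟩ : ∃ X : GL (Fin n) F,
      X = Matrix.GeneralLinearGroup.map (τ : F →+* F) (PN.itGL Y) := ⟨_, rfl⟩
  have hK'XY : K' = X * Y⁻¹ := by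
    rw [← hK₀, hk, map_mul, map_inv, hιτ, ← itGL_mapι, ← hY, ← hX]
  have hθX : Matrix.GeneralLinearGroup.map (τ : F →+* F) (PN.itGL X) = Y := by
    rw [hX, PN.theta_theta τ hτ2]
  have hσY : Matrix.GeneralLinearGroup.map (σ : F →+* F) Y = Y := by
    rw [hY]
    exact PN.map_map_fixed ι σ hι k
  have hσX : Matrix.GeneralLinearGroup.map (σ : F →+* F) X = X := by
    rw [hX, hστ, ← PN.itGL_map, hσY]
  have hθh₁ : Matrix.GeneralLinearGroup.map (τ : F →+* F) (PN.itGL h₁) = h₁ * K' := by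
    rw [hK']
    group
  have hmem : h₁ * X ∈ Cfsg.GU n F q := by
    rw [PN.mem_GU_iff τ hτ2 q hτq, map_mul, map_mul, hθX, hθh₁, hK'XY]
    group
  refine ⟨⟨h₁ * X, hmem⟩, ?_⟩
  show (g : GL (Fin n) F) = (h₁ * X) * (Matrix.GeneralLinearGroup.map (σ : F →+* F) (h₁ * X))⁻¹
  rw [map_mul, hσX, _root_.mul_inv_rev, mul_assoc, mul_inv_cancel_left]
  exact hh₁

end Cfsg.Agent.Lib.helper13.PU
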