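import Mathlib
import Cfsg.Agent.Lib.helper13.PSUField
import Cfsg.Agent.Lib.helper13.PSpField

set_option autoImplicit false
set_option linter.unusedSectionVars false
set_option linter.unusedVariables false
set_option linter.style.longLine false

/-!
Conjugacy in the coset of a field automorphism of `PSU_n(q)`.
-/

namespace Cfsg.Agent.Lib.helper13.PU

open Matrix
open Cfsg.Agent.Lib.helper4

variable {F : Type*} [Field F] [Fintype F] {q n : ℕ}

/-- **field coset conjugacy for `PSU`** -/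
theorem field_coset_conj (hF : Fintype.card F = q ^ 2) (hn : 3 ≤ n) (σ : F ≃+* F) (r : ℕ)
    (hr : 0 < r) (hro : Odd r) (hσ : orderOf σ = r) {F₀ : Type*} [Field F₀] [Fintype F₀] {q₀ : ℕ}
    (hF₀ : Fintype.card F₀ = q₀ ^ 2) (ι : F₀ →+* F) (hι : ∀ b : F, σ b = b ↔ ∃ a, ι a = b)
    (hιq : ∀ a : F₀, ι a ^ q = ι (a ^ q₀)) (g : ↥(Cfsg.GU n F q))
    (hy : ((conjAut g : MulAut (Cfsg.PSU n F q)) * fieldAut σ) ^ r = 1) :
    ∃ h : ↥(Cfsg.GU n F q), (conjAut g : MulAut (Cfsg.PSU n F q)) * fieldAut σ =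
      conjAut h * fieldAut σ * (conjAut h)⁻¹ := by
  have hσr : σ ^ r = 1 := by rw [← hσ, pow_orderOf_eq_one]
  rw [conj_field_pow, hσr, map_one, mul_one, conjAut_eq_one_iff hF hn] at hy
  obtain ⟨lam0, hlam0⟩ := hy
  have hlam0n : lam0 ^ (q + 1) = 1 := scalar_norm_one hF (by omega) _ lam0 hlam0
  have hlam_ne : lam0 ≠ 0 := by
    rintro rfl
    rw [zero_pow (by omega)] at hlam0n
    exact zero_ne_one hlam0n
  obtain ⟨lam, hlamdef⟩ : ∃ lam : Fˣ, (lam : F) = lam0 := ⟨Units.mk0 lam0 hlam_ne, rfl⟩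
  have hlam : Matrix.GeneralLinearGroup.scalar (Fin n) lam = H90.Nm σ (g : GL (Fin n) F) r := by
    apply Units.ext
    apply Matrix.mulVec_injective
    funext x
    rw [scalar_mulVec, hlamdef, ← NmU_coe, hlam0]
  have hfix : σ (lam : F) = lam := by
    have h1 := PN.Nm_succ_right σ (g : GL (Fin n) F) r
    rw [H90.Nm_succ, hσr] at h1
    have h2 : Matrix.GeneralLinearGroup.map ((1 : F ≃+* F) : F →+* F) (g : GL (Fin n) F) = g := by
      apply Units.ext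
      ext i j
      rfl
    rw [h2, ← hlam, Matrix.GeneralLinearGroup.map_scalar,
      Matrix.GeneralLinearGroup.scalar_commute lam (g : GL (Fin n) F)] at h1
    have h3 := mul_left_cancel h1
    have h4 := PN.scalar_inj (by omega) _ _ h3
    exact congrArg (fun u : Fˣ => (u : F)) h4
  obtain ⟨c, hcn, hc⟩ := norm_one_surj hF σ r hr hro hσ ((lam : F)⁻¹)
    (by rw [inv_pow, hlamdef, hlam0n, inv_one]) (by rw [map_inv₀, hfix])
  have hc0 : c ≠ 0 := by
    rintro rfl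
    rw [zero_pow (by omega)] at hcn
    exact zero_ne_one hcn
  obtain ⟨μ, hμ⟩ : ∃ μ : Fˣ, (μ : F) = c := ⟨Units.mk0 c hc0, rfl⟩
  have hnm : PN.nm σ μ r = lam⁻¹ := by
    apply Units.ext
    rw [PN.nm_val, hμ, hc, Units.val_inv_eq_inv_val]
  obtain ⟨sμ, hsμ⟩ : ∃ sμ : ↥(Cfsg.GU n F q),
      (sμ : GL (Fin n) F) = Matrix.GeneralLinearGroup.scalar (Fin n) μ :=
    ⟨⟨_, scalar_mem_gu μ (by rw [hμ]; exact hcn)⟩, rfl⟩
  have hN1 : H90.Nm σ ((sμ * g : ↥(Cfsg.GU n F q)) : GL (Fin n) F) r = 1 := by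
    show H90.Nm σ ((sμ : GL (Fin n) F) * (g : GL (Fin n) F)) r = 1
    rw [hsμ, PN.Nm_scalar_mul, hnm, ← hlam, ← map_mul, inv_mul_cancel, map_one]
  obtain ⟨h, hh⟩ := hilbert90_gu hF σ r hr hσ hF₀ ι hι hιq (sμ * g) hN1
  refine ⟨h, ?_⟩
  have hh' : sμ * g = h * (mapU σ h)⁻¹ := Subtype.ext hh
  have hsμ1 : (conjAut sμ : MulAut (Cfsg.PSU n F q)) = 1 :=
    conjAut_scalar sμ (μ : F) (fun x => by rw [hsμ, scalar_mulVec])
  have e1 : (fieldAut σ : MulAut (Cfsg.PSU n F q)) * (conjAut h)⁻¹ =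
      (conjAut (mapU σ h))⁻¹ * fieldAut σ := by
    rw [← map_inv, field_conj', map_inv, map_inv]
  have e2 : (conjAut g : MulAut (Cfsg.PSU n F q)) = conjAut h * (conjAut (mapU σ h))⁻¹ := by
    rw [← map_inv, ← map_mul, ← hh', map_mul, hsμ1, one_mul]
  rw [mul_assoc, e1, ← mul_assoc, ← e2]

/-! ### the predicates -/

theorem inndiag_eq :
    Cfsg.inndiagPSU n F q = (conjAut : ↥(Cfsg.GU n F q) →* MulAut (Cfsg.PSU n F q)).range := by
  unfold Cfsg.inndiagPSU Cfsg.autSubgroupOf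
  have : {β : MulAut (Cfsg.PSU n F q) | Cfsg.IsInnerDiagonalAutPSU β} =
      ((conjAut : ↥(Cfsg.GU n F q) →* MulAut (Cfsg.PSU n F q)).range :
        Set (MulAut (Cfsg.PSU n F q))) := by
    ext β
    constructor
    · intro h
      obtain ⟨g, rfl⟩ := eq_conjAut_of_innerDiag β h
      exact ⟨g, rfl⟩
    · rintro ⟨g, rfl⟩
      exact conjAut_innerDiag g
  rw [this, Subgroup.closure_eq]

theorem mem_inndiag (δ : MulAut (Cfsg.PSU n F q)) :
    δ ∈ Cfsg.inndiagPSU n F q ↔ ∃ g : ↥(Cfsg.GU n F q), δ = conjAut g := by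
  rw [inndiag_eq]
  constructor
  · rintro ⟨g, rfl⟩; exact ⟨g, rfl⟩
  · rintro ⟨g, rfl⟩; exact ⟨g, rfl⟩

theorem conj_range_normal (hF : Fintype.card F = q ^ 2) (hn : 3 ≤ n) (hs : ¬ (n = 3 ∧ q = 2))
    (p : ℕ) [Fact p.Prime] [CharP F p] (α : MulAut (Cfsg.PSU n F q)) (g : ↥(Cfsg.GU n F q)) :
    ∃ g' : ↥(Cfsg.GU n F q), α * conjAut g * α⁻¹ = conjAut g' := by
  obtain ⟨a, τ, rfl⟩ := aut_decomp hF hn hs p α
  refine ⟨a * mapU τ g * a⁻¹, ?_⟩
  have e2 : fieldAut τ * conjAut g * (fieldAut τ)⁻¹ =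
      (conjAut (mapU τ g) : MulAut (Cfsg.PSU n F q)) := by
    rw [field_conj', mul_inv_cancel_right]
  calc conjAut a * fieldAut τ * conjAut g * (conjAut a * fieldAut τ)⁻¹
      = conjAut a * (fieldAut τ * conjAut g * (fieldAut τ)⁻¹) * (conjAut a)⁻¹ := by
        simp only [_root_.mul_inv_rev, mul_assoc]
    _ = conjAut (a * mapU τ g * a⁻¹) := by
        rw [e2, map_mul, map_mul, map_inv]

/-! ### the fixed field of a field automorphism of odd order -/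

theorem r_dvd_f {p f : ℕ} [Fact p.Prime] (hq : q = p ^ f) (hf : 1 ≤ f)
    (hF : Fintype.card F = q ^ 2) (σ : F ≃+* F) (r : ℕ) (hro : Odd r) (hσ : orderOf σ = r) :
    r ∣ f := by
  have hF' : Fintype.card F = p ^ (2 * f) := by rw [hF, hq, ← pow_mul, mul_comm]
  have hrf2 : r ∣ 2 * f := by
    obtain ⟨e⟩ := PSL2Aut.ringAut_equiv hF' (by omega)
    have hcard : Nat.card (F ≃+* F) = 2 * f := by
      rw [Nat.card_congr e.toEquiv]
      show Nat.card (ZMod (2 * f)) = 2 * f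
      exact Nat.card_zmod (2 * f)
    rw [← hσ, ← hcard]
    exact orderOf_dvd_natCard σ
  have hcop : Nat.Coprime r 2 := (Nat.coprime_two_left.mpr hro).symm
  exact hcop.dvd_of_dvd_mul_left hrf2

theorem exists_iota {p f : ℕ} [Fact p.Prime] (hq : q = p ^ f) (hf : 1 ≤ f)
    (hF : Fintype.card F = q ^ 2) (σ : F ≃+* F) (r : ℕ) (hr : 0 < r) (hro : Odd r)
    (hσ : orderOf σ = r) (F₀ : Type*) [Field F₀] [Fintype F₀]
    (hF₀ : Fintype.card F₀ = p ^ (2 * (f / r))) :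
    Fintype.card F₀ = (p ^ (f / r)) ^ 2 ∧ ∃ ι : F₀ →+* F, (∀ b : F, σ b = b ↔ ∃ a, ι a = b) ∧
      ∀ a : F₀, ι a ^ q = ι (a ^ (p ^ (f / r))) := by
  have hF' : Fintype.card F = p ^ (2 * f) := by rw [hF, hq, ← pow_mul, mul_comm]
  obtain ⟨k, hk⟩ := r_dvd_f hq hf hF σ r hro hσ
  have hdiv : 2 * f / r = 2 * (f / r) := by
    rw [hk, Nat.mul_div_cancel_left _ hr, ← mul_assoc, mul_comm 2 r, mul_assoc,
      Nat.mul_div_cancel_left _ hr]
  have hF₀' : Fintype.card F₀ = p ^ (2 * f / r) := by rw [hdiv]; exact hF₀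
  obtain ⟨ι, hι⟩ := PN.exists_fixed_embedding hF' σ r hr hσ F₀ hF₀'
  have hF₀sq : Fintype.card F₀ = (p ^ (f / r)) ^ 2 := by rw [hF₀, ← pow_mul, mul_comm]
  refine ⟨hF₀sq, ι, hι, ?_⟩
  intro a
  obtain ⟨q₀, hq₀⟩ : ∃ q₀, q₀ = p ^ (f / r) := ⟨_, rfl⟩
  rw [← hq₀] at hF₀sq ⊢
  have hqq : q = q₀ ^ r := by rw [hq, hq₀, ← pow_mul, Nat.div_mul_cancel ⟨k, hk⟩]
  have ha : a ^ (q₀ ^ 2) = a := by rw [← hF₀sq]; exact FiniteField.pow_card a
  have hodd : ∀ j : ℕ, a ^ (q₀ ^ (2 * j + 1)) = a ^ q₀ := by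
    intro j
    induction j with
    | zero => simp
    | succ j ih =>
      have : q₀ ^ (2 * (j + 1) + 1) = q₀ ^ 2 * q₀ ^ (2 * j + 1) := by ring
      rw [this, pow_mul, ha, ih]
  obtain ⟨j, hj⟩ := hro
  rw [← map_pow, hqq, hj, hodd]

/-- **coset conjugacy for field automorphisms of prime order of `PSU`** -/
theorem field_type_coset_conj {p f : ℕ} [Fact p.Prime] (hq : q = p ^ f) (hf : 1 ≤ f)
    (hF : Fintype.card F = q ^ 2) (hn : 3 ≤ n) (hs : ¬ (n = 3 ∧ q = 2))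
    (x δ : MulAut (Cfsg.PSU n F q)) (hx : Cfsg.IsFieldAutClassPSU x) {r : ℕ} (hr : r.Prime)
    (hxr : orderOf x = r) (hδ : δ ∈ Cfsg.inndiagPSU n F q) :
    orderOf (δ * x) = r ↔ Cfsg.IsConjUnder (Cfsg.inndiagPSU n F q) x (δ * x) := by
  have hc := psu_charP hq hf hF
  obtain ⟨α, φ, σ, hσ1, hσodd, hstd, hαx⟩ := hx
  have hφ : φ = fieldAut σ := eq_fieldAut_of σ φ hstd
  rw [hφ] at hαx
  have hxeq : x = α⁻¹ * fieldAut σ * α := by
    rw [← hαx]
    group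
  constructor
  · intro hord
    obtain ⟨e, rfl⟩ := (mem_inndiag δ).1 hδ
    have hσr : orderOf σ = r := by
      rw [← hxr, ← PS.orderOf_conj' α x, hαx]
      exact (orderOf_injective fieldAut (fieldAut_injective hF hn) σ).symm
    have hro : Odd r := by rw [← hσr]; exact hσodd
    have hrf := r_dvd_f hq hf hF σ r hro hσr
    have hfr : 2 * (f / r) ≠ 0 := by
      have : 0 < f / r := Nat.div_pos (Nat.le_of_dvd (by omega) hrf) hr.pos
      omega
    haveI : Fintype (GaloisField p (2 * (f / r))) := Fintype.ofFinite _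
    have hF₀ : Fintype.card (GaloisField p (2 * (f / r))) = p ^ (2 * (f / r)) := by
      rw [← Nat.card_eq_fintype_card]
      exact GaloisField.card p _ hfr
    obtain ⟨hF₀sq, ι, hι, hιq⟩ := exists_iota hq hf hF σ r hr.pos hro hσr _ hF₀
    obtain ⟨e', he'⟩ := conj_range_normal hF hn hs p α e
    have h1 : α * (conjAut e * x) * α⁻¹ = conjAut e' * fieldAut σ := by
      rw [← he', ← hαx]
      group
    have hord' : orderOf (conjAut e' * fieldAut σ) = r := by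
      rw [← h1, PS.orderOf_conj']
      exact hord
    obtain ⟨h, hh⟩ := field_coset_conj hF hn σ r hr.pos hro hσr hF₀sq ι hι hιq e' (by
      rw [← hord']; exact pow_orderOf_eq_one _)
    obtain ⟨k, hk⟩ := conj_range_normal hF hn hs p α⁻¹ h
    rw [inv_inv] at hk
    refine ⟨conjAut k, (mem_inndiag _).2 ⟨k, rfl⟩, ?_⟩
    have h2 : conjAut e * x = α⁻¹ * (conjAut e' * fieldAut σ) * α := by
      rw [← h1]
      group
    rw [h2, hh, ← hk, hxeq]
    group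
  · rintro ⟨h, -, heq⟩
    rw [heq, PS.orderOf_conj', hxr]

end Cfsg.Agent.Lib.helper13.PU
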