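import Mathlib
import Cfsg.Agent.Lib.helper13.PSUField2
import Cfsg.Agent.Lib.helper13.PSpCent

set_option autoImplicit false
set_option linter.unusedSectionVars false
set_option linter.unusedVariables false
set_option linter.style.longLine false

/-!
Centralizers of field automorphisms of odd order of `PSU_n(q)` and class splitting.
-/

namespace Cfsg.Agent.Lib.helper13.PU

open Matrix
open Cfsg.Agent.Lib.helper4

variable {F : Type*} [Field F] [Fintype F] {q n : ℕ}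

theorem cent_conj_iff {G : Type*} [Group G] (α β x₀ : G) :
    β ∈ Subgroup.centralizer {α⁻¹ * x₀ * α} ↔ (α * β * α⁻¹) * x₀ = x₀ * (α * β * α⁻¹) := by
  rw [Subgroup.mem_centralizer_iff]
  constructor
  · intro h
    have h1 := h _ rfl
    calc α * β * α⁻¹ * x₀ = α * (β * (α⁻¹ * x₀ * α)) * α⁻¹ := by group
      _ = α * ((α⁻¹ * x₀ * α) * β) * α⁻¹ := by rw [h1]
      _ = x₀ * (α * β * α⁻¹) := by group
  · intro h y hy
    rw [Set.mem_singleton_iff] at hy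
    rw [hy]
    calc α⁻¹ * x₀ * α * β = α⁻¹ * (x₀ * (α * β * α⁻¹)) * α := by group
      _ = α⁻¹ * ((α * β * α⁻¹) * x₀) * α := by rw [h]
      _ = β * (α⁻¹ * x₀ * α) := by group

theorem mulVec_scalar_iff (M : Mn n F) (a : F) :
    (∀ x : Fin n → F, M *ᵥ x = a • x) ↔ M = a • (1 : Mn n F) := by
  constructor
  · intro h
    apply Matrix.mulVec_injective
    funext x
    rw [h, Matrix.smul_mulVec, Matrix.one_mulVec]
  · intro h x
    rw [h, Matrix.smul_mulVec, Matrix.one_mulVec]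

/-! ### extension of scalars from the fixed field -/

section descent

variable {F₀ : Type*} [Field F₀] [Fintype F₀] {q₀ : ℕ}

theorem mapι_injective (ι : F₀ →+* F) :
    Function.Injective (Matrix.GeneralLinearGroup.map ι : GL (Fin n) F₀ → GL (Fin n) F) := by
  intro A B hAB
  apply Units.ext
  ext i j
  have := congrFun (congrFun (congrArg
    (fun u : GL (Fin n) F => (u : Matrix (Fin n) (Fin n) F)) hAB) i) j
  exact ι.injective this

theorem map_mem_gu_iff (hF : Fintype.card F = q ^ 2) (hF₀ : Fintype.card F₀ = q₀ ^ 2)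
    (ι : F₀ →+* F) (hιq : ∀ a : F₀, ι a ^ q = ι (a ^ q₀)) (g₀ : GL (Fin n) F₀) :
    Matrix.GeneralLinearGroup.map ι g₀ ∈ Cfsg.GU n F q ↔ g₀ ∈ Cfsg.GU n F₀ q₀ := by
  obtain ⟨τ, hτq, hτ1, hτ2⟩ := exists_tau hF
  obtain ⟨τ₀, hτ₀q, hτ₀1, hτ₀2⟩ := exists_tau hF₀
  have hιτ : ∀ M : GL (Fin n) F₀, Matrix.GeneralLinearGroup.map ι
      (Matrix.GeneralLinearGroup.map (τ₀ : F₀ →+* F₀) M) =
      Matrix.GeneralLinearGroup.map (τ : F →+* F) (Matrix.GeneralLinearGroup.map ι M) := by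
    intro M
    apply Units.ext
    ext i j
    show ι (τ₀ (M i j)) = τ (ι (M i j))
    rw [hτq, hτ₀q, hιq]
  rw [PN.mem_GU_iff τ hτ2 q hτq, PN.mem_GU_iff τ₀ hτ₀2 q₀ hτ₀q, itGL_mapι, ← hιτ]
  constructor
  · intro h
    exact mapι_injective ι h
  · intro h
    rw [h]

/-- extension of scalars on general unitary groups -/
def mapι (hF : Fintype.card F = q ^ 2) (hF₀ : Fintype.card F₀ = q₀ ^ 2)
    (ι : F₀ →+* F) (hιq : ∀ a : F₀, ι a ^ q = ι (a ^ q₀)) :
    ↥(Cfsg.GU n F₀ q₀) →* ↥(Cfsg.GU n F q) where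
  toFun g₀ := ⟨Matrix.GeneralLinearGroup.map ι (g₀ : GL (Fin n) F₀),
    (map_mem_gu_iff hF hF₀ ι hιq _).2 g₀.2⟩
  map_one' := Subtype.ext (map_one _)
  map_mul' a b := Subtype.ext (map_mul _ _ _)

theorem mapι_coe (hF : Fintype.card F = q ^ 2) (hF₀ : Fintype.card F₀ = q₀ ^ 2)
    (ι : F₀ →+* F) (hιq : ∀ a : F₀, ι a ^ q = ι (a ^ q₀)) (g₀ : ↥(Cfsg.GU n F₀ q₀)) :
    ((mapι hF hF₀ ι hιq g₀ : ↥(Cfsg.GU n F q)) : GL (Fin n) F) =
      Matrix.GeneralLinearGroup.map ι (g₀ : GL (Fin n) F₀) := rfl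

theorem mapι_fixed (hF : Fintype.card F = q ^ 2) (hF₀ : Fintype.card F₀ = q₀ ^ 2)
    (ι : F₀ →+* F) (hιq : ∀ a : F₀, ι a ^ q = ι (a ^ q₀)) (σ : F ≃+* F)
    (hι : ∀ b : F, σ b = b ↔ ∃ a, ι a = b) (g₀ : ↥(Cfsg.GU n F₀ q₀)) :
    mapU σ (mapι hF hF₀ ι hιq g₀) = mapι hF hF₀ ι hιq g₀ := by
  apply Subtype.ext
  apply Units.ext
  ext i j
  exact (hι _).2 ⟨_, rfl⟩

/-- a general unitary matrix fixed by `σ` comes from the fixed field -/
theorem exists_gu_of_fixed (hF : Fintype.card F = q ^ 2) (hF₀ : Fintype.card F₀ = q₀ ^ 2)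
    (ι : F₀ →+* F) (hιq : ∀ a : F₀, ι a ^ q = ι (a ^ q₀)) (σ : F ≃+* F)
    (hι : ∀ b : F, σ b = b ↔ ∃ a, ι a = b) (g : ↥(Cfsg.GU n F q)) (hg : mapU σ g = g) :
    ∃ g₀ : ↥(Cfsg.GU n F₀ q₀), mapι hF hF₀ ι hιq g₀ = g := by
  have hgG : Matrix.GeneralLinearGroup.map (σ : F →+* F) (g : GL (Fin n) F) = g :=
    congrArg (fun x : ↥(Cfsg.GU n F q) => (x : GL (Fin n) F)) hg
  obtain ⟨g₀, hg₀⟩ := PN.exists_map_of_fixed ι σ hι (g : GL (Fin n) F) hgG
  have hmem : g₀ ∈ Cfsg.GU n F₀ q₀ := by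
    rw [← map_mem_gu_iff hF hF₀ ι hιq, hg₀]
    exact g.2
  exact ⟨⟨g₀, hmem⟩, Subtype.ext hg₀⟩

theorem mapι_scalar_iff (hF : Fintype.card F = q ^ 2) (hF₀ : Fintype.card F₀ = q₀ ^ 2)
    (ι : F₀ →+* F) (hιq : ∀ a : F₀, ι a ^ q = ι (a ^ q₀)) (hn : 1 ≤ n)
    (g₀ : ↥(Cfsg.GU n F₀ q₀)) :
    (∃ a : F, ∀ x : Fin n → F,
      (((mapι hF hF₀ ι hιq g₀ : ↥(Cfsg.GU n F q)) : GL (Fin n) F) : Mn n F) *ᵥ x = a • x) ↔
      (g₀ : GL (Fin n) F₀) ∈ Cfsg.Geo.scalars (Fin n) F₀ := by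
  rw [Cfsg.Geo.mem_scalars_iff]
  have hval : ∀ i j, (((mapι hF hF₀ ι hιq g₀ : ↥(Cfsg.GU n F q)) : GL (Fin n) F) : Mn n F) i j =
      ι (((g₀ : GL (Fin n) F₀) : Mn n F₀) i j) := fun i j => rfl
  constructor
  · rintro ⟨a, ha⟩
    rw [mulVec_scalar_iff] at ha
    have h0 := congrFun (congrFun ha ⟨0, hn⟩) ⟨0, hn⟩
    rw [hval, Matrix.smul_apply, Matrix.one_apply_eq, smul_eq_mul, mul_one] at h0
    have hform : ((g₀ : GL (Fin n) F₀) : Mn n F₀) =
        (((g₀ : GL (Fin n) F₀) : Mn n F₀) ⟨0, hn⟩ ⟨0, hn⟩) • (1 : Mn n F₀) := by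
      ext i j
      have h1 := congrFun (congrFun ha i) j
      rw [hval, Matrix.smul_apply, smul_eq_mul] at h1
      rw [Matrix.smul_apply, smul_eq_mul]
      apply ι.injective
      rw [h1, map_mul, h0, Matrix.one_apply, Matrix.one_apply]
      split_ifs <;> simp
    have hne : ((g₀ : GL (Fin n) F₀) : Mn n F₀) ⟨0, hn⟩ ⟨0, hn⟩ ≠ 0 := by
      intro h0'
      rw [h0', zero_smul] at hform
      have h1 : ((g₀ : GL (Fin n) F₀) : Mn n F₀) *
          (((g₀ : GL (Fin n) F₀)⁻¹ : GL (Fin n) F₀) : Mn n F₀) = 1 := Units.mul_inv _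
      rw [hform, zero_mul] at h1
      have h2 := congrFun (congrFun h1 ⟨0, hn⟩) ⟨0, hn⟩
      rw [Matrix.zero_apply, Matrix.one_apply_eq] at h2
      exact zero_ne_one h2
    exact ⟨Units.mk0 _ hne, hform⟩
  · rintro ⟨c, hc⟩
    refine ⟨ι (c : F₀), ?_⟩
    rw [mulVec_scalar_iff]
    ext i j
    rw [hval, hc, Matrix.smul_apply, Matrix.smul_apply, smul_eq_mul, smul_eq_mul, map_mul,
      Matrix.one_apply, Matrix.one_apply]
    split_ifs <;> simp

/-- an element of `GU` whose conjugation commutes with a field automorphism is, up to a scalar of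
norm one, fixed by it -/
theorem comm_field_fixed (hF : Fintype.card F = q ^ 2) (hn : 3 ≤ n)
    (hF₀ : Fintype.card F₀ = q₀ ^ 2) (ι : F₀ →+* F) (hιq : ∀ a : F₀, ι a ^ q = ι (a ^ q₀))
    (σ : F ≃+* F) (hι : ∀ b : F, σ b = b ↔ ∃ a, ι a = b) (r : ℕ) (hr : 0 < r)
    (hσ : orderOf σ = r) (g : ↥(Cfsg.GU n F q))
    (h : (conjAut g : MulAut (Cfsg.PSU n F q)) * fieldAut σ = fieldAut σ * conjAut g) :
    ∃ s : ↥(Cfsg.GU n F q), ∃ μ : Fˣ, (μ : F) ^ (q + 1) = 1 ∧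
      (s : GL (Fin n) F) = Matrix.GeneralLinearGroup.scalar (Fin n) μ ∧
      mapU σ (s * g) = s * g := by
  rw [field_conj'] at h
  have h1 : (conjAut (g⁻¹ * mapU σ g) : MulAut (Cfsg.PSU n F q)) = 1 := by
    rw [map_mul, map_inv, ← mul_right_cancel h, inv_mul_cancel]
  rw [conjAut_eq_one_iff hF hn] at h1
  obtain ⟨lam0, hlam0⟩ := h1
  have hlam0n : lam0 ^ (q + 1) = 1 := scalar_norm_one hF (by omega) _ lam0 hlam0
  have hlam_ne : lam0 ≠ 0 := by
    rintro rfl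
    rw [zero_pow (by omega)] at hlam0n
    exact zero_ne_one hlam0n
  obtain ⟨lam, hlamdef⟩ : ∃ lam : Fˣ, (lam : F) = lam0 := ⟨Units.mk0 lam0 hlam_ne, rfl⟩
  have hlam : (g : GL (Fin n) F)⁻¹ * Matrix.GeneralLinearGroup.map (σ : F →+* F) (g : GL (Fin n) F) =
      Matrix.GeneralLinearGroup.scalar (Fin n) lam := by
    apply Units.ext
    apply Matrix.mulVec_injective
    funext x
    rw [scalar_mulVec, hlamdef, ← hlam0]
    rfl
  have hσg : Matrix.GeneralLinearGroup.map (σ : F →+* F) (g : GL (Fin n) F) =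
      Matrix.GeneralLinearGroup.scalar (Fin n) lam * (g : GL (Fin n) F) := by
    rw [Matrix.GeneralLinearGroup.scalar_commute, ← hlam, mul_inv_cancel_left]
  have hk : ∀ k : ℕ, Matrix.GeneralLinearGroup.map ((σ ^ k : F ≃+* F) : F →+* F)
      (g : GL (Fin n) F) =
      Matrix.GeneralLinearGroup.scalar (Fin n) (PN.nm σ lam k) * (g : GL (Fin n) F) := by
    intro k
    induction k with
    | zero =>
      show _ = Matrix.GeneralLinearGroup.scalar (Fin n) 1 * (g : GL (Fin n) F)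
      rw [map_one, one_mul]
      apply Units.ext
      ext i j
      rfl
    | succ k ih =>
      have e1 : Matrix.GeneralLinearGroup.map ((σ ^ (k + 1) : F ≃+* F) : F →+* F)
          (g : GL (Fin n) F) =
          Matrix.GeneralLinearGroup.map (σ : F →+* F)
            (Matrix.GeneralLinearGroup.map ((σ ^ k : F ≃+* F) : F →+* F) (g : GL (Fin n) F)) := by
        apply Units.ext
        ext i j
        show (σ ^ (k + 1)) ((g : GL (Fin n) F) i j) = σ ((σ ^ k) ((g : GL (Fin n) F) i j))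
        rw [pow_succ' σ k]
        rfl
      rw [e1, ih, map_mul, Matrix.GeneralLinearGroup.map_scalar, hσg, ← mul_assoc, ← map_mul]
      congr 2
      show _ = lam * Units.map ((σ : F →+* F) : F →* F) (PN.nm σ lam k)
      rw [mul_comm]
  have hr1 : PN.nm σ lam r = 1 := by
    have h2 := hk r
    rw [← hσ, pow_orderOf_eq_one] at h2
    have h3 : Matrix.GeneralLinearGroup.map ((1 : F ≃+* F) : F →+* F) (g : GL (Fin n) F) = g := by
      apply Units.ext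
      ext i j
      rfl
    rw [h3, hσ] at h2
    have h4 : Matrix.GeneralLinearGroup.scalar (Fin n) (PN.nm σ lam r) =
        Matrix.GeneralLinearGroup.scalar (Fin n) 1 := by
      rw [map_one]
      exact (mul_eq_right.1 h2.symm)
    exact PN.scalar_inj (by omega) _ _ h4
  have hprod : ∏ i ∈ Finset.range r, (σ ^ i) (lam : F) = 1 := by
    rw [← PN.nm_val, hr1]; rfl
  obtain ⟨d, hd0, hd⟩ := H90.hilbert90_scalar σ r hr hσ (lam : F) hprod
  -- adjust `d` to norm one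
  have hσd : σ d = d / lam0 := by
    rw [eq_div_iff hlam_ne, mul_comm, ← hlamdef]
    exact hd
  have hνσ : σ (d ^ (q + 1)) = d ^ (q + 1) := by
    rw [map_pow, hσd, div_pow, hlam0n, div_one]
  obtain ⟨ν₀, hν₀⟩ := (hι _).1 hνσ
  have hν₀q : ν₀ ^ q₀ = ν₀ := by
    apply ι.injective
    rw [← hιq, hν₀, unorm_fixed hF]
  obtain ⟨c, hc⟩ := unorm_surj hF₀ ν₀ hν₀q
  have hec : (ι c) ^ (q + 1) = d ^ (q + 1) := by
    rw [unorm_eq, hιq, ← map_mul, ← unorm_eq, hc, hν₀]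
  have he0 : ι c ≠ 0 := by
    intro h0
    rw [h0, zero_pow (by omega)] at hec
    exact pow_ne_zero _ hd0 hec.symm
  have hσe : σ (ι c) = ι c := (hι _).2 ⟨c, rfl⟩
  obtain ⟨d', hd'⟩ : ∃ d' : F, d' = d / ι c := ⟨_, rfl⟩
  have hd'0 : d' ≠ 0 := by
    rw [hd']
    exact div_ne_zero hd0 he0
  have hd'n : d' ^ (q + 1) = 1 := by
    rw [hd', div_pow, hec]
    exact div_self (pow_ne_zero _ hd0)
  have hd'σ : (lam : F) * σ d' = d' := by
    rw [hd', map_div₀, hσe, ← mul_div_assoc, hd]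
  obtain ⟨μ, hμ⟩ : ∃ μ : Fˣ, (μ : F) = d' := ⟨Units.mk0 d' hd'0, rfl⟩
  refine ⟨⟨Matrix.GeneralLinearGroup.scalar (Fin n) μ, scalar_mem_gu μ (by rw [hμ]; exact hd'n)⟩,
    μ, by rw [hμ]; exact hd'n, rfl, ?_⟩
  apply Subtype.ext
  show Matrix.GeneralLinearGroup.map (σ : F →+* F)
    (Matrix.GeneralLinearGroup.scalar (Fin n) μ * (g : GL (Fin n) F)) =
      Matrix.GeneralLinearGroup.scalar (Fin n) μ * (g : GL (Fin n) F)
  rw [map_mul, Matrix.GeneralLinearGroup.map_scalar, hσg, ← mul_assoc, ← map_mul]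
  congr 2
  apply Units.ext
  show σ (μ : F) * (lam : F) = μ
  rw [mul_comm, hμ]
  exact hd'σ

theorem comm_of_fixed (σ : F ≃+* F) (g : ↥(Cfsg.GU n F q)) (hg : mapU σ g = g) :
    (conjAut g : MulAut (Cfsg.PSU n F q)) * fieldAut σ = fieldAut σ * conjAut g := by
  rw [field_conj', hg]

end descent

/-! ### the centralizer -/

/-- **the centralizer of a field automorphism in `Inndiag(PSU)`** -/
theorem field_centralizer_iso (hF : Fintype.card F = q ^ 2) (hn : 3 ≤ n) (hs : ¬ (n = 3 ∧ q = 2))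
    (p : ℕ) [Fact p.Prime] [CharP F p] (α : MulAut (Cfsg.PSU n F q)) (σ : F ≃+* F)
    (r : ℕ) (hr : 0 < r) (hσ : orderOf σ = r) {F₀ : Type*} [Field F₀] [Fintype F₀] {q₀ : ℕ}
    (hF₀ : Fintype.card F₀ = q₀ ^ 2) (ι : F₀ →+* F)
    (hι : ∀ b : F, σ b = b ↔ ∃ a, ι a = b) (hιq : ∀ a : F₀, ι a ^ q = ι (a ^ q₀)) :
    Nonempty (↥(Cfsg.inndiagPSU n F q ⊓ Subgroup.centralizer {α⁻¹ * fieldAut σ * α}) ≃*
      Cfsg.PGU n F₀ q₀) := by
  obtain ⟨C, hC⟩ : ∃ C : Subgroup (MulAut (Cfsg.PSU n F q)), C = Cfsg.inndiagPSU n F q ⊓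
      Subgroup.centralizer {α⁻¹ * fieldAut σ * α} := ⟨_, rfl⟩
  rw [← hC]
  let Ψ₀ : ↥(Cfsg.GU n F₀ q₀) →* MulAut (Cfsg.PSU n F q) :=
    (MulAut.conj α⁻¹).toMonoidHom.comp (conjAut.comp (mapι hF hF₀ ι hιq))
  have hΨ₀ : ∀ g₀, Ψ₀ g₀ = α⁻¹ * conjAut (mapι hF hF₀ ι hιq g₀) * α := by
    intro g₀
    show α⁻¹ * conjAut (mapι hF hF₀ ι hιq g₀) * α⁻¹⁻¹ = _
    rw [inv_inv]
  have hmemC : ∀ g₀, Ψ₀ g₀ ∈ C := by
    intro g₀
    rw [hC, hΨ₀]
    constructor
    · obtain ⟨k, hk⟩ := conj_range_normal hF hn hs p α⁻¹ (mapι hF hF₀ ι hιq g₀)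
      rw [inv_inv] at hk
      rw [hk]
      exact (mem_inndiag _).2 ⟨k, rfl⟩
    · show _ ∈ Subgroup.centralizer _
      rw [cent_conj_iff]
      have e : α * (α⁻¹ * conjAut (mapι hF hF₀ ι hιq g₀) * α) * α⁻¹ =
          conjAut (mapι hF hF₀ ι hιq g₀) := by group
      rw [e]
      exact comm_of_fixed σ _ (mapι_fixed hF hF₀ ι hιq σ hι g₀)
  let Ψ : ↥(Cfsg.GU n F₀ q₀) →* ↥C := Ψ₀.codRestrict C hmemC
  have hΨ : ∀ g₀, (Ψ g₀ : MulAut (Cfsg.PSU n F q)) = Ψ₀ g₀ := fun g₀ => rfl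
  have hsurj : Function.Surjective Ψ := by
    rintro ⟨β, hβ⟩
    rw [hC] at hβ
    obtain ⟨hβ1, hβ2⟩ := hβ
    obtain ⟨b, rfl⟩ := (mem_inndiag β).1 hβ1
    obtain ⟨b', hb'⟩ := conj_range_normal hF hn hs p α b
    have hc := (cent_conj_iff α (conjAut b) (fieldAut σ)).1 hβ2
    rw [hb'] at hc
    obtain ⟨s, μ, hμ, hsμ, hfix⟩ := comm_field_fixed hF hn hF₀ ι hιq σ hι r hr hσ b' hc
    obtain ⟨g₀, hg₀⟩ := exists_gu_of_fixed hF hF₀ ι hιq σ hι _ hfix
    have hs1 : (conjAut s : MulAut (Cfsg.PSU n F q)) = 1 :=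
      conjAut_scalar s (μ : F) (fun x => by rw [hsμ, scalar_mulVec])
    refine ⟨g₀, Subtype.ext ?_⟩
    rw [hΨ, hΨ₀, hg₀, map_mul, hs1, one_mul, ← hb']
    group
  have hker : Ψ.ker = (Cfsg.Geo.scalars (Fin n) F₀).subgroupOf (Cfsg.GU n F₀ q₀) := by
    ext g₀
    rw [MonoidHom.mem_ker, Subgroup.mem_subgroupOf, ← mapι_scalar_iff hF hF₀ ι hιq (by omega) g₀,
      ← conjAut_eq_one_iff hF hn]
    have h1 : Ψ g₀ = 1 ↔ Ψ₀ g₀ = 1 := by
      constructor
      · intro h; rw [← hΨ, h]; rfl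
      · intro h; exact Subtype.ext (by rw [hΨ, h]; rfl)
    rw [h1, hΨ₀]
    constructor
    · intro h
      have e : conjAut (mapι hF hF₀ ι hιq g₀) =
          α * (α⁻¹ * conjAut (mapι hF hF₀ ι hιq g₀) * α) * α⁻¹ := by group
      rw [e, h]
      group
    · intro h
      rw [h]
      group
  exact ⟨(QuotientGroup.quotientKerEquivOfSurjective Ψ hsurj).symm.trans
    (QuotientGroup.quotientMulEquivOfEq hker)⟩

/-! ### class splitting -/

/-- class splitting of an automorphism of `PSU_n` between `Inndiag` and `Inn` -/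
theorem split_psu (hF : Fintype.card F = q ^ 2) (hn : 3 ≤ n) (hs : ¬ (n = 3 ∧ q = 2))
    (p : ℕ) [Fact p.Prime] [CharP F p] (α x₀ : MulAut (Cfsg.PSU n F q))
    (Dt : ↥(Cfsg.GU n F q) →* (powMonoidHom (q + 1) : Fˣ →* Fˣ).ker)
    (hDt : ∀ g, ((Dt g : (powMonoidHom (q + 1) : Fˣ →* Fˣ).ker) : Fˣ) =
      Matrix.GeneralLinearGroup.det (g : GL (Fin n) F)) :
    Cfsg.splitClassCount (Cfsg.inndiagPSU n F q) (Cfsg.Inn (Cfsg.PSU n F q)) (α⁻¹ * x₀ * α) =
      Nat.card (((powMonoidHom (q + 1) : Fˣ →* Fˣ).ker ⧸ (powMonoidHom n :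
        (powMonoidHom (q + 1) : Fˣ →* Fˣ).ker →* (powMonoidHom (q + 1) : Fˣ →* Fˣ).ker).range) ⧸
        Subgroup.map ((QuotientGroup.mk' _).comp Dt)
          ((Subgroup.centralizer {x₀}).comap conjAut)) := by
  classical
  obtain ⟨ρ, hρ⟩ : ∃ ρ : ↥(Cfsg.GU n F q) →* MulAut (Cfsg.PSU n F q),
      ∀ γ, ρ γ = α⁻¹ * conjAut γ * α := by
    refine ⟨(MulAut.conj α⁻¹).toMonoidHom.comp conjAut, fun γ => ?_⟩
    show α⁻¹ * conjAut γ * α⁻¹⁻¹ = _
    rw [inv_inv]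
  have hcomap : (Subgroup.centralizer {α⁻¹ * x₀ * α}).comap ρ =
      (Subgroup.centralizer {x₀}).comap conjAut := by
    ext γ
    rw [Subgroup.mem_comap, Subgroup.mem_comap, hρ, cent_conj_iff, Subgroup.mem_centralizer_iff]
    have e : α * (α⁻¹ * conjAut γ * α) * α⁻¹ = conjAut γ := by group
    rw [e]
    constructor
    · intro h y hy
      rw [Set.mem_singleton_iff] at hy
      rw [hy, h]
    · intro h
      exact (h _ rfl).symm
  have hDsurj : Function.Surjective Dt := by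
    intro y
    have hy : ((y : Fˣ) : F) ^ (q + 1) = 1 := by
      have h1 := y.2
      rw [MonoidHom.mem_ker, powMonoidHom_apply] at h1
      rw [← Units.val_pow_eq_pow_val, h1, Units.val_one]
    obtain ⟨g, hg, -, hgdet⟩ := gu_diag_one (q := q) (⟨0, by omega⟩ : Fin n) ((y : Fˣ) : F) hy
    refine ⟨⟨g, hg⟩, ?_⟩
    apply Subtype.ext
    apply Units.ext
    rw [hDt, Matrix.GeneralLinearGroup.val_det_apply]
    exact hgdet
  have hDdet : ∀ A : ↥(Cfsg.GU n F q),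
      (((Dt A : (powMonoidHom (q + 1) : Fˣ →* Fˣ).ker) : Fˣ) : F) =
        ((A : GL (Fin n) F) : Mn n F).det := by
    intro A
    rw [hDt, Matrix.GeneralLinearGroup.val_det_apply]
  rw [← hcomap]
  apply PN.splitClassCount_eq (Cfsg.inndiagPSU n F q) (Cfsg.Inn (Cfsg.PSU n F q)) _ ρ
    ((QuotientGroup.mk' _).comp Dt)
  · intro h
    rw [mem_inndiag]
    constructor
    · rintro ⟨b, rfl⟩
      obtain ⟨b', hb'⟩ := conj_range_normal hF hn hs p α b
      refine ⟨b', ?_⟩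
      rw [hρ, ← hb']
      group
    · rintro ⟨γ, rfl⟩
      obtain ⟨k, hk⟩ := conj_range_normal hF hn hs p α⁻¹ γ
      rw [inv_inv] at hk
      exact ⟨k, by rw [hρ, hk]⟩
  · intro z
    obtain ⟨u, rfl⟩ := QuotientGroup.mk_surjective z
    obtain ⟨g, rfl⟩ := hDsurj u
    exact ⟨g, rfl⟩
  · rintro _ ⟨y, rfl⟩
    obtain ⟨M, hM⟩ := exists_rep (α y)
    refine ⟨suToGU M, ?_, ?_⟩
    · rw [hρ, ← conj_eq_conjAut, ← hM, ← PS.conj_conj_aut]
      group
    · have h1 : Dt (suToGU M) = 1 := by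
        apply Subtype.ext
        apply Units.ext
        rw [hDdet]
        exact M.1.2
      show (QuotientGroup.mk (Dt (suToGU M)) : _ ⧸ _) = 1
      rw [h1]
      rfl
  · intro κ hκ
    have hκ' : (QuotientGroup.mk (Dt κ) : (powMonoidHom (q + 1) : Fˣ →* Fˣ).ker ⧸ (powMonoidHom n :
        (powMonoidHom (q + 1) : Fˣ →* Fˣ).ker →* (powMonoidHom (q + 1) : Fˣ →* Fˣ).ker).range) = 1 :=
      hκ
    rw [QuotientGroup.eq_one_iff] at hκ'
    obtain ⟨a, ha⟩ := hκ'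
    rw [powMonoidHom_apply] at ha
    have hinn : (conjAut κ : MulAut (Cfsg.PSU n F q)) ∈ Cfsg.Inn (Cfsg.PSU n F q) := by
      rw [conjAut_inn_iff hF hn]
      refine ⟨((a : Fˣ) : F), ?_, ?_⟩
      · have h1 := a.2
        rw [MonoidHom.mem_ker, powMonoidHom_apply] at h1
        rw [← Units.val_pow_eq_pow_val, h1, Units.val_one]
      · rw [← hDdet, ← ha]
        simp
    obtain ⟨y, hy⟩ := hinn
    rw [hρ, ← hy]
    refine ⟨α⁻¹ y, ?_⟩
    have := PS.conj_conj_aut α⁻¹ (y : Cfsg.PSU n F q)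
    rw [inv_inv] at this
    exact this.symm

/-- **class splitting of a field automorphism of `PSU`** -/
theorem field_split_count (hF : Fintype.card F = q ^ 2) (hn : 3 ≤ n) (hs : ¬ (n = 3 ∧ q = 2))
    (p : ℕ) [Fact p.Prime] [CharP F p] (α : MulAut (Cfsg.PSU n F q)) (σ : F ≃+* F)
    (r : ℕ) (hr : 0 < r) (hσ : orderOf σ = r) {F₀ : Type*} [Field F₀] [Fintype F₀] {q₀ : ℕ}
    (hF₀ : Fintype.card F₀ = q₀ ^ 2) (ι : F₀ →+* F)
    (hι : ∀ b : F, σ b = b ↔ ∃ a, ι a = b) (hιq : ∀ a : F₀, ι a ^ q = ι (a ^ q₀)) :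
    Cfsg.splitClassCount (Cfsg.inndiagPSU n F q) (Cfsg.Inn (Cfsg.PSU n F q))
      (α⁻¹ * fieldAut σ * α) = Nat.gcd n ((q + 1) / (q₀ + 1)) := by
  classical
  obtain ⟨Dt, hDt⟩ := exists_detHom hF n
  rw [split_psu hF hn hs p α (fieldAut σ) Dt hDt]
  have hDdet : ∀ A : ↥(Cfsg.GU n F q),
      (((Dt A : (powMonoidHom (q + 1) : Fˣ →* Fˣ).ker) : Fˣ) : F) =
        ((A : GL (Fin n) F) : Mn n F).det := by
    intro A
    rw [hDt, Matrix.GeneralLinearGroup.val_det_apply]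
  have hZn : ∀ z : (powMonoidHom (q + 1) : Fˣ →* Fˣ).ker, ((z : Fˣ) : F) ^ (q + 1) = 1 := by
    intro z
    have h1 := z.2
    rw [MonoidHom.mem_ker, powMonoidHom_apply] at h1
    rw [← Units.val_pow_eq_pow_val, h1, Units.val_one]
  obtain ⟨U₀, hU₀⟩ : ∃ U₀ : Subgroup (powMonoidHom (q + 1) : Fˣ →* Fˣ).ker,
      ∀ z, z ∈ U₀ ↔ σ ((z : Fˣ) : F) = ((z : Fˣ) : F) := by
    refine ⟨{ carrier := {z | σ ((z : Fˣ) : F) = ((z : Fˣ) : F)}
              mul_mem' := ?_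
              one_mem' := ?_
              inv_mem' := ?_ }, fun z => Iff.rfl⟩
    · intro a b ha hb
      have ha' : σ ((a : Fˣ) : F) = ((a : Fˣ) : F) := ha
      have hb' : σ ((b : Fˣ) : F) = ((b : Fˣ) : F) := hb
      show σ (((a : Fˣ) : F) * ((b : Fˣ) : F)) = ((a : Fˣ) : F) * ((b : Fˣ) : F)
      rw [map_mul, ha', hb']
    · show σ (1 : F) = 1
      exact map_one σ
    · intro a ha
      have ha' : σ ((a : Fˣ) : F) = ((a : Fˣ) : F) := ha
      show σ ((((a : Fˣ)⁻¹ : Fˣ) : F)) = (((a : Fˣ)⁻¹ : Fˣ) : F)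
      rw [Units.val_inv_eq_inv_val, map_inv₀, ha']
  have hmap : Subgroup.map ((QuotientGroup.mk' (powMonoidHom n :
        (powMonoidHom (q + 1) : Fˣ →* Fˣ).ker →* (powMonoidHom (q + 1) : Fˣ →* Fˣ).ker).range).comp Dt)
      ((Subgroup.centralizer {fieldAut σ}).comap conjAut) =
      U₀.map (QuotientGroup.mk' (powMonoidHom n :
        (powMonoidHom (q + 1) : Fˣ →* Fˣ).ker →* (powMonoidHom (q + 1) : Fˣ →* Fˣ).ker).range) := by
    ext z
    constructor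
    · rintro ⟨γ, hγ, rfl⟩
      have hγ' : (conjAut γ : MulAut (Cfsg.PSU n F q)) ∈ Subgroup.centralizer {fieldAut σ} := hγ
      rw [Subgroup.mem_centralizer_iff] at hγ'
      have hc : (conjAut γ : MulAut (Cfsg.PSU n F q)) * fieldAut σ = fieldAut σ * conjAut γ :=
        (hγ' _ rfl).symm
      obtain ⟨s, μ, hμ, hsμ, hfix⟩ := comm_field_fixed hF hn hF₀ ι hιq σ hι r hr hσ γ hc
      refine ⟨Dt (s * γ), ?_, ?_⟩
      · show Dt (s * γ) ∈ U₀
        rw [hU₀, hDdet]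
        have h2 : (σ : F →+* F) (((s * γ : ↥(Cfsg.GU n F q)) : GL (Fin n) F) : Mn n F).det =
            ((σ : F →+* F).mapMatrix
              (((s * γ : ↥(Cfsg.GU n F q)) : GL (Fin n) F) : Mn n F)).det := RingHom.map_det _ _
        have h3 : (σ : F →+* F).mapMatrix
            (((s * γ : ↥(Cfsg.GU n F q)) : GL (Fin n) F) : Mn n F) =
            (((s * γ : ↥(Cfsg.GU n F q)) : GL (Fin n) F) : Mn n F) :=
          congrArg (fun x : ↥(Cfsg.GU n F q) => ((x : GL (Fin n) F) : Mn n F)) hfix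
        rw [h3] at h2
        exact h2
      · show (QuotientGroup.mk (Dt (s * γ)) : _ ⧸ _) = QuotientGroup.mk (Dt γ)
        rw [QuotientGroup.eq, map_mul, _root_.mul_inv_rev, mul_comm (Dt γ)⁻¹, inv_mul_cancel_right]
        have hμZ : μ ∈ (powMonoidHom (q + 1) : Fˣ →* Fˣ).ker := by
          rw [MonoidHom.mem_ker, powMonoidHom_apply]
          apply Units.ext
          rw [Units.val_pow_eq_pow_val, hμ, Units.val_one]
        refine ⟨(⟨μ, hμZ⟩ : (powMonoidHom (q + 1) : Fˣ →* Fˣ).ker)⁻¹, ?_⟩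
        rw [powMonoidHom_apply, inv_pow, _root_.inv_inj]
        apply Subtype.ext
        rw [hDt, hsμ, Matrix.GeneralLinearGroup.det_scalar, Fintype.card_fin]
        rfl
    · rintro ⟨z, hz, rfl⟩
      rw [SetLike.mem_coe, hU₀] at hz
      obtain ⟨g, hg, hgv, hgdet⟩ := gu_diag_one (q := q) (⟨0, by omega⟩ : Fin n) ((z : Fˣ) : F)
        (hZn z)
      refine ⟨⟨g, hg⟩, ?_, ?_⟩
      · show conjAut _ ∈ Subgroup.centralizer _
        rw [Subgroup.mem_centralizer_iff]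
        intro y hy
        rw [Set.mem_singleton_iff] at hy
        rw [hy]
        refine (comm_of_fixed σ _ ?_).symm
        apply Subtype.ext
        apply Units.ext
        show (g : Mn n F).map σ = (g : Mn n F)
        rw [hgv]
        ext i j
        rw [Matrix.map_apply, Matrix.diagonal_apply]
        by_cases hij : i = j
        · rw [if_pos hij]
          by_cases hi0 : i = ⟨0, by omega⟩
          · rw [if_pos hi0]
            exact hz
          · rw [if_neg hi0]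
            exact map_one σ
        · rw [if_neg hij]
          exact map_zero σ
      · show (QuotientGroup.mk (Dt ⟨g, hg⟩) : _ ⧸ _) = QuotientGroup.mk z
        congr 1
        apply Subtype.ext
        apply Units.ext
        rw [hDdet]
        exact hgdet
  rw [hmap]
  have hidx : Nat.card (((powMonoidHom (q + 1) : Fˣ →* Fˣ).ker ⧸ (powMonoidHom n :
        (powMonoidHom (q + 1) : Fˣ →* Fˣ).ker →* (powMonoidHom (q + 1) : Fˣ →* Fˣ).ker).range) ⧸
      U₀.map (QuotientGroup.mk' (powMonoidHom n :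
        (powMonoidHom (q + 1) : Fˣ →* Fˣ).ker →* (powMonoidHom (q + 1) : Fˣ →* Fˣ).ker).range)) =
      (U₀ ⊔ (powMonoidHom n :
        (powMonoidHom (q + 1) : Fˣ →* Fˣ).ker →* (powMonoidHom (q + 1) : Fˣ →* Fˣ).ker).range).index := by
    show (U₀.map (QuotientGroup.mk' (powMonoidHom n :
        (powMonoidHom (q + 1) : Fˣ →* Fˣ).ker →* (powMonoidHom (q + 1) : Fˣ →* Fˣ).ker).range)).index = _
    rw [Subgroup.index_map, QuotientGroup.ker_mk',
      MonoidHom.range_eq_top.2 (QuotientGroup.mk'_surjective _), Subgroup.index_top, mul_one]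
  rw [hidx, PN.cyclic_index_sup]
  have hcU : Nat.card U₀ = q₀ + 1 := by
    rw [← Cfsg.Agent.S0783.card_K hF₀]
    symm
    have hmem1 : ∀ u₀ : (powMonoidHom (q₀ + 1) : F₀ˣ →* F₀ˣ).ker,
        Units.map (ι : F₀ →* F) (u₀ : F₀ˣ) ∈ (powMonoidHom (q + 1) : Fˣ →* Fˣ).ker := by
      intro u₀
      rw [MonoidHom.mem_ker, powMonoidHom_apply]
      apply Units.ext
      rw [Units.val_pow_eq_pow_val, Units.val_one, Units.coe_map]
      show ι ((u₀ : F₀ˣ) : F₀) ^ (q + 1) = 1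
      rw [unorm_eq, hιq, ← map_mul, ← unorm_eq]
      have h1 := u₀.2
      rw [MonoidHom.mem_ker, powMonoidHom_apply] at h1
      rw [← Units.val_pow_eq_pow_val, h1, Units.val_one, map_one]
    have hmem2 : ∀ u₀ : (powMonoidHom (q₀ + 1) : F₀ˣ →* F₀ˣ).ker,
        (⟨_, hmem1 u₀⟩ : (powMonoidHom (q + 1) : Fˣ →* Fˣ).ker) ∈ U₀ := by
      intro u₀
      rw [hU₀]
      exact (hι _).2 ⟨_, rfl⟩
    apply Nat.card_eq_of_bijective (fun u₀ => (⟨⟨_, hmem1 u₀⟩, hmem2 u₀⟩ : U₀))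
    constructor
    · intro a b hab
      have h1 : ι ((a : F₀ˣ) : F₀) = ι ((b : F₀ˣ) : F₀) :=
        congrArg (fun z : U₀ =>
          (((z : (powMonoidHom (q + 1) : Fˣ →* Fˣ).ker) : Fˣ) : F)) hab
      exact Subtype.ext (Units.ext (ι.injective h1))
    · rintro ⟨z, hz⟩
      have hz' := (hU₀ z).1 hz
      obtain ⟨a, ha⟩ := (hι _).1 hz'
      have ha0 : a ≠ 0 := by
        rintro rfl
        rw [map_zero] at ha
        exact (z : Fˣ).ne_zero ha.symm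
      have han : a ^ (q₀ + 1) = 1 := by
        apply ι.injective
        rw [map_one, unorm_eq, map_mul, ← hιq, ← unorm_eq, ha]
        exact hZn z
      refine ⟨⟨Units.mk0 a ha0, ?_⟩, ?_⟩
      · rw [MonoidHom.mem_ker, powMonoidHom_apply]
        apply Units.ext
        rw [Units.val_pow_eq_pow_val, Units.val_mk0, han, Units.val_one]
      · apply Subtype.ext
        apply Subtype.ext
        apply Units.ext
        exact ha
  rw [hcU, Cfsg.Agent.S0783.card_K hF]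

/-- **field automorphisms of odd prime order of `PSU`: centralizer and class splitting** -/
theorem field_aut_centralizer {p f : ℕ} [Fact p.Prime] (hq : q = p ^ f) (hf : 1 ≤ f)
    (hF : Fintype.card F = q ^ 2) (hn : 3 ≤ n) (hs : ¬ (n = 3 ∧ q = 2))
    (x : MulAut (Cfsg.PSU n F q)) (hx : Cfsg.IsFieldAutClassPSU x) {r : ℕ} (hr : r.Prime)
    (hro : Odd r) (hxr : orderOf x = r) (F₀ : Type*) [Field F₀] [Fintype F₀]
    (hF₀ : Fintype.card F₀ = p ^ (2 * (f / r))) :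
    r ∣ f ∧
      Nonempty (↥(Cfsg.inndiagPSU n F q ⊓ Subgroup.centralizer {x}) ≃*
        Cfsg.PGU n F₀ (p ^ (f / r))) ∧
      Cfsg.splitClassCount (Cfsg.inndiagPSU n F q) (Cfsg.Inn (Cfsg.PSU n F q)) x =
        Nat.gcd n ((q + 1) / (p ^ (f / r) + 1)) := by
  have hc := psu_charP hq hf hF
  obtain ⟨α, φ, σ, hσ1, hσodd, hstd, hαx⟩ := hx
  have hφ : φ = fieldAut σ := eq_fieldAut_of σ φ hstd
  rw [hφ] at hαx
  have hxeq : x = α⁻¹ * fieldAut σ * α := by
    rw [← hαx]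
    group
  have hσr : orderOf σ = r := by
    rw [← hxr, ← PS.orderOf_conj' α x, hαx]
    exact (orderOf_injective fieldAut (fieldAut_injective hF hn) σ).symm
  have hrf := r_dvd_f hq hf hF σ r hro hσr
  obtain ⟨hF₀sq, ι, hι, hιq⟩ := exists_iota hq hf hF σ r hr.pos hro hσr F₀ hF₀
  refine ⟨hrf, ?_, ?_⟩
  · rw [hxeq]
    exact field_centralizer_iso hF hn hs p α σ r hr.pos hσr hF₀sq ι hι hιq
  · rw [hxeq]
    exact field_split_count hF hn hs p α σ r hr.pos hσr hF₀sq ι hι hιq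

end Cfsg.Agent.Lib.helper13.PU
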