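import Mathlib
import Cfsg.Agent.Lib.helper13.PSUCent

set_option autoImplicit false
set_option linter.unusedSectionVars false
set_option linter.unusedVariables false
set_option linter.style.longLine false

/-!
The number of elements of `GU_n(q)` fixed up to a scalar by a field automorphism of odd prime
order.
-/

namespace Cfsg.Agent.Lib.helper13.PU

open Matrix
open Cfsg.Agent.Lib.helper4

variable {F : Type*} [Field F] [Fintype F] {q n : ℕ}

section descent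

variable {F₀ : Type*} [Field F₀] [Fintype F₀] {q₀ : ℕ}

/-- an element of `GL_n` mapped by `σ` to a norm-one scalar multiple of itself is, up to a scalar
of norm one, fixed by `σ` -/
theorem fixed_of_scalar (hF : Fintype.card F = q ^ 2) (hn : 1 ≤ n)
    (hF₀ : Fintype.card F₀ = q₀ ^ 2) (ι : F₀ →+* F) (hιq : ∀ a : F₀, ι a ^ q = ι (a ^ q₀))
    (σ : F ≃+* F) (hι : ∀ b : F, σ b = b ↔ ∃ a, ι a = b) (r : ℕ) (hr : 0 < r)
    (hσ : orderOf σ = r) (g : GL (Fin n) F) (lam : Fˣ) (hlam0n : (lam : F) ^ (q + 1) = 1)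
    (hσg : Matrix.GeneralLinearGroup.map (σ : F →+* F) g =
      Matrix.GeneralLinearGroup.scalar (Fin n) lam * g) :
    ∃ μ : Fˣ, (μ : F) ^ (q + 1) = 1 ∧
      Matrix.GeneralLinearGroup.map (σ : F →+* F) (Matrix.GeneralLinearGroup.scalar (Fin n) μ * g) =
        Matrix.GeneralLinearGroup.scalar (Fin n) μ * g := by
  have hq0 : 0 < q := by
    rcases Nat.eq_zero_or_pos q with h | h
    · rw [h] at hF
      have : 0 < Fintype.card F := Fintype.card_pos
      omega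
    · exact h
  have hlam_ne : (lam : F) ≠ 0 := lam.ne_zero
  have hk : ∀ k : ℕ, Matrix.GeneralLinearGroup.map ((σ ^ k : F ≃+* F) : F →+* F) g =
      Matrix.GeneralLinearGroup.scalar (Fin n) (PN.nm σ lam k) * g := by
    intro k
    induction k with
    | zero =>
      show _ = Matrix.GeneralLinearGroup.scalar (Fin n) 1 * g
      rw [map_one, one_mul]
      apply Units.ext
      ext i j
      rfl
    | succ k ih =>
      have e1 : Matrix.GeneralLinearGroup.map ((σ ^ (k + 1) : F ≃+* F) : F →+* F) g =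
          Matrix.GeneralLinearGroup.map (σ : F →+* F)
            (Matrix.GeneralLinearGroup.map ((σ ^ k : F ≃+* F) : F →+* F) g) := by
        apply Units.ext
        ext i j
        show (σ ^ (k + 1)) (g i j) = σ ((σ ^ k) (g i j))
        rw [pow_succ' σ k]
        rfl
      rw [e1, ih, map_mul, Matrix.GeneralLinearGroup.map_scalar, hσg, ← mul_assoc, ← map_mul]
      congr 2
      show _ = lam * Units.map ((σ : F →+* F) : F →* F) (PN.nm σ lam k)
      rw [mul_comm]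
  have hr1 : PN.nm σ lam r = 1 := by
    have h2 := hk r
    rw [← hσ, pow_orderOf_eq_one] at h2
    have h3 : Matrix.GeneralLinearGroup.map ((1 : F ≃+* F) : F →+* F) g = g := by
      apply Units.ext
      ext i j
      rfl
    rw [h3, hσ] at h2
    have h4 : Matrix.GeneralLinearGroup.scalar (Fin n) (PN.nm σ lam r) =
        Matrix.GeneralLinearGroup.scalar (Fin n) 1 := by
      rw [map_one]
      exact (mul_eq_right.1 h2.symm)
    exact PN.scalar_inj hn _ _ h4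
  have hprod : ∏ i ∈ Finset.range r, (σ ^ i) (lam : F) = 1 := by
    rw [← PN.nm_val, hr1]; rfl
  obtain ⟨d, hd0, hd⟩ := H90.hilbert90_scalar σ r hr hσ (lam : F) hprod
  have hσd : σ d = d / (lam : F) := by
    rw [eq_div_iff hlam_ne, mul_comm]
    exact hd
  have hνσ : σ (d ^ (q + 1)) = d ^ (q + 1) := by
    rw [map_pow, hσd, div_pow, hlam0n, div_one]
  obtain ⟨ν₀, hν₀⟩ := (hι _).1 hνσ
  have hν₀q : ν₀ ^ q₀ = ν₀ := by
    apply ι.injective
    rw [← hιq, hν₀, unorm_fixed hF]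
  obtain ⟨c, hc⟩ := unorm_surj hF₀ ν₀ hν₀q
  have hec : (ι c) ^ (q + 1) = d ^ (q + 1) := by
    rw [unorm_eq, hιq, ← map_mul, ← unorm_eq, hc, hν₀]
  have he0 : ι c ≠ 0 := by
    intro h0
    rw [h0, zero_pow (by omega)] at hec
    exact pow_ne_zero _ hd0 hec.symm
  have hσe : σ (ι c) = ι c := (hι _).2 ⟨c, rfl⟩
  obtain ⟨d', hd'⟩ : ∃ d' : F, d' = d / ι c := ⟨_, rfl⟩
  have hd'0 : d' ≠ 0 := by
    rw [hd']
    exact div_ne_zero hd0 he0
  have hd'n : d' ^ (q + 1) = 1 := by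
    rw [hd', div_pow, hec]
    exact div_self (pow_ne_zero _ hd0)
  have hd'σ : (lam : F) * σ d' = d' := by
    rw [hd', map_div₀, hσe, ← mul_div_assoc, hd]
  obtain ⟨μ, hμ⟩ : ∃ μ : Fˣ, (μ : F) = d' := ⟨Units.mk0 d' hd'0, rfl⟩
  refine ⟨μ, by rw [hμ]; exact hd'n, ?_⟩
  rw [map_mul, Matrix.GeneralLinearGroup.map_scalar, hσg, ← mul_assoc, ← map_mul]
  congr 2
  apply Units.ext
  show σ (μ : F) * (lam : F) = μ
  rw [mul_comm, hμ]
  exact hd'σ

end descent

theorem ker_pow_val (μ : (powMonoidHom (q + 1) : Fˣ →* Fˣ).ker) :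
    ((μ : Fˣ) : F) ^ (q + 1) = 1 := by
  have h1 := μ.2
  rw [MonoidHom.mem_ker, powMonoidHom_apply] at h1
  rw [← Units.val_pow_eq_pow_val, h1, Units.val_one]

/-- the scalar matrices of norm one -/
def scU : (powMonoidHom (q + 1) : Fˣ →* Fˣ).ker →* ↥(Cfsg.GU n F q) where
  toFun μ := ⟨Matrix.GeneralLinearGroup.scalar (Fin n) (μ : Fˣ),
    scalar_mem_gu (μ : Fˣ) (ker_pow_val μ)⟩
  map_one' := Subtype.ext (map_one _)
  map_mul' a b := Subtype.ext (map_mul _ _ _)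

theorem scU_coe (μ : (powMonoidHom (q + 1) : Fˣ →* Fˣ).ker) :
    ((scU μ : ↥(Cfsg.GU n F q)) : GL (Fin n) F) =
      Matrix.GeneralLinearGroup.scalar (Fin n) (μ : Fˣ) := rfl

theorem scalar_gu_norm (hn : 1 ≤ n) (lam : Fˣ)
    (h : Matrix.GeneralLinearGroup.scalar (Fin n) lam ∈ Cfsg.GU n F q) :
    (lam : F) ^ (q + 1) = 1 := by
  rw [mem_GU_iff] at h
  have h1 := h (Pi.single ⟨0, hn⟩ 1) (Pi.single ⟨0, hn⟩ 1)
  rw [scalar_mulVec, Cfsg.Agent.Lib.helper4.herm_smul_left,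
    Cfsg.Agent.Lib.helper4.herm_smul_right, ← mul_assoc, ← unorm_eq] at h1
  have h2 : Cfsg.hermForm n F q (Pi.single ⟨0, hn⟩ 1) (Pi.single ⟨0, hn⟩ 1) = 1 := by
    unfold Cfsg.hermForm
    rw [Finset.sum_eq_single (⟨0, hn⟩ : Fin n)]
    · simp
    · intro b _ hb
      simp [Pi.single_apply, hb]
    · intro hb
      exact absurd (Finset.mem_univ _) hb
  rw [h2, mul_one] at h1
  exact h1

section descent2

variable {F₀ : Type*} [Field F₀] [Fintype F₀] {q₀ : ℕ}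

/-- norm-one scalars times the general unitary group of the fixed field -/
def Phi (hF : Fintype.card F = q ^ 2) (hF₀ : Fintype.card F₀ = q₀ ^ 2)
    (ι : F₀ →+* F) (hιq : ∀ a : F₀, ι a ^ q = ι (a ^ q₀)) :
    (powMonoidHom (q + 1) : Fˣ →* Fˣ).ker × ↥(Cfsg.GU n F₀ q₀) →* ↥(Cfsg.GU n F q) where
  toFun x := scU x.1 * mapι hF hF₀ ι hιq x.2
  map_one' := by
    rw [Prod.fst_one, Prod.snd_one, map_one, map_one, one_mul]
  map_mul' a b := by
    rw [Prod.fst_mul, Prod.snd_mul, map_mul, map_mul]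
    have hc : mapι hF hF₀ ι hιq a.2 * scU b.1 = scU b.1 * mapι hF hF₀ ι hιq a.2 :=
      Subtype.ext (Matrix.GeneralLinearGroup.scalar_commute _ _).symm
    calc scU a.1 * scU b.1 * (mapι hF hF₀ ι hιq a.2 * mapι hF hF₀ ι hιq b.2)
        = scU a.1 * (scU b.1 * mapι hF hF₀ ι hιq a.2) * mapι hF hF₀ ι hιq b.2 := by
          simp only [mul_assoc]
      _ = scU a.1 * mapι hF hF₀ ι hιq a.2 * (scU b.1 * mapι hF hF₀ ι hιq b.2) := by
          rw [← hc]; simp only [mul_assoc]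

theorem Phi_apply (hF : Fintype.card F = q ^ 2) (hF₀ : Fintype.card F₀ = q₀ ^ 2)
    (ι : F₀ →+* F) (hιq : ∀ a : F₀, ι a ^ q = ι (a ^ q₀))
    (x : (powMonoidHom (q + 1) : Fˣ →* Fˣ).ker × ↥(Cfsg.GU n F₀ q₀)) :
    (Phi hF hF₀ ι hιq x : ↥(Cfsg.GU n F q)) = scU x.1 * mapι hF hF₀ ι hιq x.2 := rfl

/-- the elements fixed up to a scalar are the norm-one scalar multiples of the general unitary
group over the fixed field -/
theorem fixed_iff_range (hF : Fintype.card F = q ^ 2) (hn : 1 ≤ n)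
    (hF₀ : Fintype.card F₀ = q₀ ^ 2) (ι : F₀ →+* F) (hιq : ∀ a : F₀, ι a ^ q = ι (a ^ q₀))
    (σ : F ≃+* F) (hι : ∀ b : F, σ b = b ↔ ∃ a, ι a = b) (r : ℕ) (hr : 0 < r)
    (hσ : orderOf σ = r) (g : ↥(Cfsg.GU n F q)) :
    (∃ c : F, c ≠ 0 ∧ ((g : GL (Fin n) F) : Mn n F).map σ = c • ((g : GL (Fin n) F) : Mn n F)) ↔
      g ∈ (Phi (n := n) hF hF₀ ι hιq).range := by
  constructor
  · rintro ⟨c, hc0, hc⟩
    obtain ⟨lam, hlam⟩ : ∃ lam : Fˣ, (lam : F) = c := ⟨Units.mk0 c hc0, rfl⟩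
    have hσg : Matrix.GeneralLinearGroup.map (σ : F →+* F) (g : GL (Fin n) F) =
        Matrix.GeneralLinearGroup.scalar (Fin n) lam * (g : GL (Fin n) F) := by
      apply Units.ext
      show ((g : GL (Fin n) F) : Mn n F).map σ =
        ((Matrix.GeneralLinearGroup.scalar (Fin n) lam : GL (Fin n) F) : Mn n F) *
          ((g : GL (Fin n) F) : Mn n F)
      rw [Matrix.GeneralLinearGroup.coe_scalar, Matrix.scalar_apply, ← Matrix.smul_eq_diagonal_mul,
        hlam]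
      exact hc
    have hmem : Matrix.GeneralLinearGroup.scalar (Fin n) lam ∈ Cfsg.GU n F q := by
      have h1 : Matrix.GeneralLinearGroup.scalar (Fin n) lam =
          Matrix.GeneralLinearGroup.map (σ : F →+* F) (g : GL (Fin n) F) *
            (g : GL (Fin n) F)⁻¹ := by
        rw [hσg, mul_inv_cancel_right]
      rw [h1]
      exact (Cfsg.GU n F q).mul_mem (gu_map_mem σ g) ((Cfsg.GU n F q).inv_mem g.2)
    have hlamn := scalar_gu_norm hn lam hmem
    obtain ⟨μ, hμ, hfix⟩ := fixed_of_scalar hF hn hF₀ ι hιq σ hι r hr hσ _ lam hlamn hσg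
    have hμZ : μ ∈ (powMonoidHom (q + 1) : Fˣ →* Fˣ).ker := by
      rw [MonoidHom.mem_ker, powMonoidHom_apply]
      apply Units.ext
      rw [Units.val_pow_eq_pow_val, hμ, Units.val_one]
    have hfix' : mapU σ (scU (⟨μ, hμZ⟩ : (powMonoidHom (q + 1) : Fˣ →* Fˣ).ker) * g) =
        scU (⟨μ, hμZ⟩ : (powMonoidHom (q + 1) : Fˣ →* Fˣ).ker) * g := by
      apply Subtype.ext
      exact hfix
    obtain ⟨g₀, hg₀⟩ := exists_gu_of_fixed hF hF₀ ι hιq σ hι
      (scU (⟨μ, hμZ⟩ : (powMonoidHom (q + 1) : Fˣ →* Fˣ).ker) * g) hfix'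
    refine ⟨((⟨μ, hμZ⟩ : (powMonoidHom (q + 1) : Fˣ →* Fˣ).ker)⁻¹, g₀), ?_⟩
    rw [Phi_apply, hg₀, map_inv, inv_mul_cancel_left]
  · rintro ⟨⟨μ, g₀⟩, rfl⟩
    refine ⟨σ ((μ : Fˣ) : F) / ((μ : Fˣ) : F), div_ne_zero ?_ (μ : Fˣ).ne_zero, ?_⟩
    · rw [Ne, map_eq_zero]
      exact (μ : Fˣ).ne_zero
    · have h1 : Matrix.GeneralLinearGroup.map (σ : F →+* F)
          (Matrix.GeneralLinearGroup.scalar (Fin n) (μ : Fˣ) *
            Matrix.GeneralLinearGroup.map ι (g₀ : GL (Fin n) F₀)) =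
          Matrix.GeneralLinearGroup.scalar (Fin n) (Units.map ((σ : F →+* F) : F →* F) (μ : Fˣ)) *
            Matrix.GeneralLinearGroup.map ι (g₀ : GL (Fin n) F₀) := by
        rw [map_mul, Matrix.GeneralLinearGroup.map_scalar, PN.map_map_fixed ι σ hι]
      have h2 := congrArg (fun u : GL (Fin n) F => (u : Mn n F)) h1
      have h3 : ((Phi hF hF₀ ι hιq (μ, g₀) : ↥(Cfsg.GU n F q)) : GL (Fin n) F) =
          Matrix.GeneralLinearGroup.scalar (Fin n) (μ : Fˣ) *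
            Matrix.GeneralLinearGroup.map ι (g₀ : GL (Fin n) F₀) := rfl
      rw [h3]
      have h4 : ((Matrix.GeneralLinearGroup.scalar (Fin n) (μ : Fˣ) *
            Matrix.GeneralLinearGroup.map ι (g₀ : GL (Fin n) F₀) : GL (Fin n) F) : Mn n F).map σ =
          ((Matrix.GeneralLinearGroup.scalar (Fin n)
            (Units.map ((σ : F →+* F) : F →* F) (μ : Fˣ)) *
            Matrix.GeneralLinearGroup.map ι (g₀ : GL (Fin n) F₀) : GL (Fin n) F) : Mn n F) := h2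
      rw [h4, Units.val_mul, Units.val_mul, Matrix.GeneralLinearGroup.coe_scalar,
        Matrix.GeneralLinearGroup.coe_scalar, Matrix.scalar_apply, Matrix.scalar_apply,
        ← Matrix.smul_eq_diagonal_mul, ← Matrix.smul_eq_diagonal_mul, smul_smul,
        div_mul_cancel₀ _ (μ : Fˣ).ne_zero]
      rfl

theorem card_ker_Phi (hF : Fintype.card F = q ^ 2) (hn : 1 ≤ n)
    (hF₀ : Fintype.card F₀ = q₀ ^ 2) (ι : F₀ →+* F) (hιq : ∀ a : F₀, ι a ^ q = ι (a ^ q₀)) :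
    Nat.card (Phi (n := n) hF hF₀ ι hιq).ker = q₀ + 1 := by
  classical
  rw [← Cfsg.Agent.S0783.card_K hF₀]
  symm
  have hmem1 : ∀ u₀ : (powMonoidHom (q₀ + 1) : F₀ˣ →* F₀ˣ).ker,
      (Units.map (ι : F₀ →* F) (u₀ : F₀ˣ))⁻¹ ∈ (powMonoidHom (q + 1) : Fˣ →* Fˣ).ker := by
    intro u₀
    rw [MonoidHom.mem_ker, powMonoidHom_apply, inv_pow, inv_eq_one]
    apply Units.ext
    rw [Units.val_pow_eq_pow_val, Units.val_one, Units.coe_map]
    show ι ((u₀ : F₀ˣ) : F₀) ^ (q + 1) = 1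
    rw [unorm_eq, hιq, ← map_mul, ← unorm_eq, ker_pow_val u₀, map_one]
  have hmem2 : ∀ u₀ : (powMonoidHom (q₀ + 1) : F₀ˣ →* F₀ˣ).ker,
      ((⟨_, hmem1 u₀⟩ : (powMonoidHom (q + 1) : Fˣ →* Fˣ).ker), (scU u₀ : ↥(Cfsg.GU n F₀ q₀))) ∈
        (Phi (n := n) hF hF₀ ι hιq).ker := by
    intro u₀
    rw [MonoidHom.mem_ker, Phi_apply]
    apply Subtype.ext
    show Matrix.GeneralLinearGroup.scalar (Fin n) (Units.map (ι : F₀ →* F) (u₀ : F₀ˣ))⁻¹ *
      Matrix.GeneralLinearGroup.map ι (Matrix.GeneralLinearGroup.scalar (Fin n) (u₀ : F₀ˣ)) = 1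
    rw [Matrix.GeneralLinearGroup.map_scalar, ← map_mul]
    have : (Units.map (ι : F₀ →* F) (u₀ : F₀ˣ))⁻¹ * Units.map (ι : F₀ →+* F) (u₀ : F₀ˣ) = 1 :=
      inv_mul_cancel _
    rw [this, map_one]
  apply Nat.card_eq_of_bijective
    (fun u₀ => (⟨_, hmem2 u₀⟩ : (Phi (n := n) hF hF₀ ι hιq).ker))
  constructor
  · intro a b hab
    have h1 : (scU a : ↥(Cfsg.GU n F₀ q₀)) = scU b :=
      congrArg (fun z : (Phi (n := n) hF hF₀ ι hιq).ker =>
        (z : (powMonoidHom (q + 1) : Fˣ →* Fˣ).ker × ↥(Cfsg.GU n F₀ q₀)).2) hab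
    have h2 : Matrix.GeneralLinearGroup.scalar (Fin n) (a : F₀ˣ) =
        Matrix.GeneralLinearGroup.scalar (Fin n) (b : F₀ˣ) :=
      congrArg (fun z : ↥(Cfsg.GU n F₀ q₀) => (z : GL (Fin n) F₀)) h1
    exact Subtype.ext (PN.scalar_inj hn _ _ h2)
  · rintro ⟨⟨μ, g₀⟩, hker⟩
    rw [MonoidHom.mem_ker, Phi_apply] at hker
    have h1 : Matrix.GeneralLinearGroup.scalar (Fin n) (μ : Fˣ) *
        Matrix.GeneralLinearGroup.map ι (g₀ : GL (Fin n) F₀) = 1 :=
      congrArg (fun z : ↥(Cfsg.GU n F q) => (z : GL (Fin n) F)) hker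
    have h2 : Matrix.GeneralLinearGroup.map ι (g₀ : GL (Fin n) F₀) =
        Matrix.GeneralLinearGroup.scalar (Fin n) (μ : Fˣ)⁻¹ := by
      rw [map_inv]
      exact eq_inv_of_mul_eq_one_right h1
    have hent : ∀ i j, ι (((g₀ : GL (Fin n) F₀) : Mn n F₀) i j) =
        if i = j then (((μ : Fˣ)⁻¹ : Fˣ) : F) else 0 := by
      intro i j
      have h3 := congrFun (congrFun (congrArg (fun u : GL (Fin n) F => (u : Mn n F)) h2) i) j
      have h4 : ((Matrix.GeneralLinearGroup.scalar (Fin n) (μ : Fˣ)⁻¹ : GL (Fin n) F) : Mn n F) i j =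
          if i = j then (((μ : Fˣ)⁻¹ : Fˣ) : F) else 0 := by
        rw [Matrix.GeneralLinearGroup.coe_scalar, Matrix.scalar_apply, Matrix.diagonal_apply]
      rw [← h4]
      exact h3
    obtain ⟨a, ha⟩ : ∃ a : F₀, a = ((g₀ : GL (Fin n) F₀) : Mn n F₀) ⟨0, hn⟩ ⟨0, hn⟩ := ⟨_, rfl⟩
    have hιa : ι a = (((μ : Fˣ)⁻¹ : Fˣ) : F) := by
      rw [ha, hent, if_pos rfl]
    have ha0 : a ≠ 0 := by
      rintro rfl
      rw [map_zero] at hιa
      exact ((μ : Fˣ)⁻¹).ne_zero hιa.symm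
    have han : a ^ (q₀ + 1) = 1 := by
      apply ι.injective
      rw [map_one, unorm_eq, map_mul, ← hιq, ← unorm_eq, hιa, Units.val_inv_eq_inv_val, inv_pow,
        ker_pow_val μ, inv_one]
    have haZ : Units.mk0 a ha0 ∈ (powMonoidHom (q₀ + 1) : F₀ˣ →* F₀ˣ).ker := by
      rw [MonoidHom.mem_ker, powMonoidHom_apply]
      apply Units.ext
      rw [Units.val_pow_eq_pow_val, Units.val_mk0, han, Units.val_one]
    refine ⟨⟨Units.mk0 a ha0, haZ⟩, ?_⟩
    apply Subtype.ext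
    apply Prod.ext
    · apply Subtype.ext
      apply Units.ext
      show (((Units.map (ι : F₀ →* F) (Units.mk0 a ha0))⁻¹ : Fˣ) : F) = ((μ : Fˣ) : F)
      rw [Units.val_inv_eq_inv_val, Units.coe_map]
      show (ι a)⁻¹ = _
      rw [hιa, Units.val_inv_eq_inv_val, inv_inv]
    · apply Subtype.ext
      apply Units.ext
      show ((Matrix.GeneralLinearGroup.scalar (Fin n) (Units.mk0 a ha0) : GL (Fin n) F₀) : Mn n F₀) =
        ((g₀ : GL (Fin n) F₀) : Mn n F₀)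
      ext i j
      apply ι.injective
      rw [hent, Matrix.GeneralLinearGroup.coe_scalar, Matrix.scalar_apply, Matrix.diagonal_apply]
      by_cases hij : i = j
      · rw [if_pos hij, if_pos hij]
        exact hιa
      · rw [if_neg hij, if_neg hij, map_zero]

/-- **the number of elements of `GU_n(q)` fixed up to a scalar by `σ`** -/
theorem card_fixed_cosets (hF : Fintype.card F = q ^ 2) (hn : 1 ≤ n)
    (hF₀ : Fintype.card F₀ = q₀ ^ 2) (ι : F₀ →+* F) (hιq : ∀ a : F₀, ι a ^ q = ι (a ^ q₀))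
    (σ : F ≃+* F) (hι : ∀ b : F, σ b = b ↔ ∃ a, ι a = b) (r : ℕ) (hr : 0 < r)
    (hσ : orderOf σ = r) :
    (q₀ + 1) * Nat.card {g : ↥(Cfsg.GU n F q) // ∃ c : F, c ≠ 0 ∧
      ((g : GL (Fin n) F) : Mn n F).map σ = c • ((g : GL (Fin n) F) : Mn n F)} =
      (q + 1) * Nat.card ↥(Cfsg.GU n F₀ q₀) := by
  have h1 : Nat.card {g : ↥(Cfsg.GU n F q) // ∃ c : F, c ≠ 0 ∧
      ((g : GL (Fin n) F) : Mn n F).map σ = c • ((g : GL (Fin n) F) : Mn n F)} =
      Nat.card (Phi (n := n) hF hF₀ ι hιq).range :=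
    Nat.card_congr (Equiv.subtypeEquivRight
      (fun g => fixed_iff_range hF hn hF₀ ι hιq σ hι r hr hσ g))
  rw [h1, ← card_ker_Phi (n := n) hF hn hF₀ ι hιq, ← Subgroup.index_ker, Subgroup.card_mul_index,
    Nat.card_prod, Cfsg.Agent.S0783.card_K hF]

end descent2

/-- **fixed cosets of a field automorphism of odd prime order in `GU_n(q)`** -/
theorem fixed_cosets_card {q₀ r : ℕ} (hr : r.Prime) (hr2 : r ≠ 2) (hn : 1 ≤ n) (hq : q = q₀ ^ r)
    (hK : Fintype.card F = q ^ 2) (σ : F ≃+* F) (hσ : orderOf σ = r) :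
    (Nat.card {g : ↥(Cfsg.GU n F q) // ∃ c : F, c ≠ 0 ∧
      ((g : GL (Fin n) F) : Matrix (Fin n) (Fin n) F).map σ =
        c • ((g : GL (Fin n) F) : Matrix (Fin n) (Fin n) F)} : ℤ) =
      ((q + 1) / (q₀ + 1) : ℕ) * ((q₀ : ℤ) ^ (n * (n - 1) / 2) *
        ∏ i : Fin n, ((q₀ : ℤ) ^ ((i : ℕ) + 1) - (-1) ^ ((i : ℕ) + 1))) := by
  classical
  obtain ⟨p, hpc⟩ := CharP.exists F
  have : CharP F p := hpc
  obtain ⟨e, hp, hcard⟩ := FiniteField.card F p
  have : Fact p.Prime := ⟨hp⟩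
  have hro : Odd r := hr.odd_of_ne_two hr2
  obtain ⟨f, -, hqf⟩ := (Nat.dvd_prime_pow hp).1 (by
    rw [← hcard, hK]; exact dvd_pow_self q two_ne_zero : q ∣ p ^ (e : ℕ))
  obtain ⟨j, -, hq₀j⟩ := (Nat.dvd_prime_pow hp).1 (by
    rw [← hqf, hq]; exact dvd_pow_self q₀ hr.ne_zero : q₀ ∣ p ^ f)
  have hfj : f = j * r := by
    apply Nat.pow_right_injective hp.two_le
    show p ^ f = p ^ (j * r)
    rw [← hqf, hq, hq₀j, pow_mul]
  have hf : 1 ≤ f := by
    rcases Nat.eq_zero_or_pos f with h | h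
    · exfalso
      rw [h, pow_zero] at hqf
      rw [hqf, one_pow] at hK
      have := Fintype.one_lt_card (α := F)
      omega
    · exact h
  have hj : 1 ≤ j := by
    rcases Nat.eq_zero_or_pos j with h | h
    · rw [h, zero_mul] at hfj
      omega
    · exact h
  have hfr : f / r = j := by rw [hfj, Nat.mul_div_cancel _ hr.pos]
  have hfr0 : 2 * (f / r) ≠ 0 := by rw [hfr]; omega
  have : Fintype (GaloisField p (2 * (f / r))) := Fintype.ofFinite _
  have hF₀ : Fintype.card (GaloisField p (2 * (f / r))) = p ^ (2 * (f / r)) := by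
    rw [← Nat.card_eq_fintype_card]
    exact GaloisField.card p _ hfr0
  obtain ⟨hF₀sq, ι, hι, hιq⟩ := exists_iota hqf hf hK σ r hr.pos hro hσ _ hF₀
  have hq₀' : p ^ (f / r) = q₀ := by rw [hfr, hq₀j]
  rw [hq₀'] at hF₀sq hιq
  have hcnt := card_fixed_cosets (n := n) hK hn hF₀sq ι hιq σ hι r hr.pos hσ
  have hgu := card_gu hF₀sq n
  have hdvd : q₀ + 1 ∣ q + 1 := by
    have := Odd.nat_add_dvd_pow_add_pow q₀ 1 hro
    rw [one_pow, ← hq] at this
    exact this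
  obtain ⟨c, hc⟩ := hdvd
  have hc' : (q + 1) / (q₀ + 1) = c := by rw [hc, Nat.mul_div_cancel_left _ (by omega)]
  rw [hc']
  rw [hc, mul_assoc] at hcnt
  have hS := Nat.eq_of_mul_eq_mul_left (by omega : 0 < q₀ + 1) hcnt
  rw [hS, hgu, Nat.cast_mul, Nat.cast_mul, Nat.cast_pow, Nat.cast_prod]
  congr 2
  rw [Finset.prod_range]
  apply Finset.prod_congr rfl
  intro i _
  have hq₀1 : 1 ≤ q₀ := by
    rcases Nat.eq_zero_or_pos q₀ with h | h
    · exfalso
      rw [h, zero_pow hr.ne_zero] at hq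
      rw [hq] at hK
      have := Fintype.card_pos (α := F)
      simp at hK
    · exact h
  have hpow : 1 ≤ q₀ ^ ((i : ℕ) + 1) := Nat.one_le_pow _ _ hq₀1
  by_cases hev : Even (i : ℕ)
  · rw [if_pos hev, pow_succ (-1 : ℤ), hev.neg_one_pow]
    push_cast
    ring
  · rw [if_neg hev]
    have hodd : Odd (i : ℕ) := Nat.not_even_iff_odd.1 hev
    have hev' : Even ((i : ℕ) + 1) := hodd.add_one
    rw [hev'.neg_one_pow, Nat.cast_sub hpow]
    push_cast
    ring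

end Cfsg.Agent.Lib.helper13.PU
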