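import Mathlib
import Cfsg.Prelude.Def_LieTypeDatum
import Cfsg.Agent.Lib.helper13.PSUCent
import Cfsg.Agent.Lib.helper13.PSLnGraph

set_option autoImplicit false
set_option linter.unusedSectionVars false
set_option linter.unusedVariables false
set_option linter.style.longLine false

/-!
Graph automorphisms `conjAut h * fieldAut τ` of `PSU_n(q)` (`τ` the `q`-power map) and their
centralizers in `Inndiag`.
-/

namespace Cfsg.Agent.Lib.helper13.PU

open Matrix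

section glalg

variable {K : Type*} [Field K] {n : ℕ}

theorem scalar_mul_coe (c : Kˣ) (g : GL (Fin n) K) :
    ((Matrix.GeneralLinearGroup.scalar (Fin n) c * g : GL (Fin n) K) :
      Matrix (Fin n) (Fin n) K) = (c : K) • (g : Matrix (Fin n) (Fin n) K) := by
  rw [Units.val_mul, Matrix.GeneralLinearGroup.coe_scalar, Matrix.scalar_apply,
    ← Matrix.smul_one_eq_diagonal, Matrix.smul_mul, Matrix.one_mul]

theorem sim_GL_iff (S₀ x : GL (Fin n) K) (c : Kˣ) :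
    Matrix.GeneralLinearGroup.scalar (Fin n) c * PN.itGL x = S₀ * x * S₀⁻¹ ↔
      (x : Matrix (Fin n) (Fin n) K)ᵀ * (S₀ : Matrix (Fin n) (Fin n) K) *
        (x : Matrix (Fin n) (Fin n) K) = (c : K) • (S₀ : Matrix (Fin n) (Fin n) K) := by
  constructor
  · intro h
    have h1 : ((Matrix.GeneralLinearGroup.scalar (Fin n) c * PN.itGL x : GL (Fin n) K) :
        Matrix (Fin n) (Fin n) K) = ((S₀ * x * S₀⁻¹ : GL (Fin n) K) :
          Matrix (Fin n) (Fin n) K) := by rw [h]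
    rw [scalar_mul_coe, PN.itGL_coe, Units.val_mul, Units.val_mul] at h1
    calc (x : Matrix (Fin n) (Fin n) K)ᵀ * (S₀ : Matrix (Fin n) (Fin n) K) *
          (x : Matrix (Fin n) (Fin n) K)
        = (x : Matrix (Fin n) (Fin n) K)ᵀ * ((S₀ : Matrix (Fin n) (Fin n) K) *
          (x : Matrix (Fin n) (Fin n) K) * ((S₀⁻¹ : GL (Fin n) K) : Matrix (Fin n) (Fin n) K)) *
            (S₀ : Matrix (Fin n) (Fin n) K) := by
          simp only [Matrix.mul_assoc]
          rw [Units.inv_mul, Matrix.mul_one]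
      _ = (c : K) • (((x : Matrix (Fin n) (Fin n) K)ᵀ *
          ((x⁻¹ : GL (Fin n) K) : Matrix (Fin n) (Fin n) K)ᵀ) *
            (S₀ : Matrix (Fin n) (Fin n) K)) := by
          rw [← h1, Matrix.mul_smul, Matrix.smul_mul]
      _ = (c : K) • (S₀ : Matrix (Fin n) (Fin n) K) := by
          rw [← Matrix.transpose_mul, Units.inv_mul, Matrix.transpose_one, Matrix.one_mul]
  · intro h
    apply Units.ext
    rw [scalar_mul_coe, PN.itGL_coe, Units.val_mul, Units.val_mul]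
    calc (c : K) • ((x⁻¹ : GL (Fin n) K) : Matrix (Fin n) (Fin n) K)ᵀ
        = ((x⁻¹ : GL (Fin n) K) : Matrix (Fin n) (Fin n) K)ᵀ *
          ((c : K) • (S₀ : Matrix (Fin n) (Fin n) K)) *
            ((S₀⁻¹ : GL (Fin n) K) : Matrix (Fin n) (Fin n) K) := by
          rw [Matrix.mul_smul, Matrix.smul_mul, Matrix.mul_assoc, Units.mul_inv, Matrix.mul_one]
      _ = (((x⁻¹ : GL (Fin n) K) : Matrix (Fin n) (Fin n) K)ᵀ *
          (x : Matrix (Fin n) (Fin n) K)ᵀ) * (S₀ : Matrix (Fin n) (Fin n) K) *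
            (x : Matrix (Fin n) (Fin n) K) *
              ((S₀⁻¹ : GL (Fin n) K) : Matrix (Fin n) (Fin n) K) := by
          rw [← h]
          simp only [Matrix.mul_assoc]
      _ = (S₀ : Matrix (Fin n) (Fin n) K) * (x : Matrix (Fin n) (Fin n) K) *
          ((S₀⁻¹ : GL (Fin n) K) : Matrix (Fin n) (Fin n) K) := by
          rw [← Matrix.transpose_mul, Units.mul_inv, Matrix.transpose_one, Matrix.one_mul]

/-- the map `(x, d) ↦ d⁻¹ • ι(x)` -/
def thetaHom {K₀ : Type*} [Field K₀] (ι : K₀ →+* K) : GL (Fin n) K₀ × Kˣ →* GL (Fin n) K where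
  toFun p := Matrix.GeneralLinearGroup.scalar (Fin n) p.2⁻¹ * Matrix.GeneralLinearGroup.map ι p.1
  map_one' := by
    show Matrix.GeneralLinearGroup.scalar (Fin n) (1 : Kˣ)⁻¹ *
      Matrix.GeneralLinearGroup.map ι (1 : GL (Fin n) K₀) = 1
    rw [inv_one, map_one, map_one, one_mul]
  map_mul' p p' := by
    show Matrix.GeneralLinearGroup.scalar (Fin n) (p.2 * p'.2)⁻¹ *
        Matrix.GeneralLinearGroup.map ι (p.1 * p'.1) =
      Matrix.GeneralLinearGroup.scalar (Fin n) p.2⁻¹ * Matrix.GeneralLinearGroup.map ι p.1 *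
        (Matrix.GeneralLinearGroup.scalar (Fin n) p'.2⁻¹ * Matrix.GeneralLinearGroup.map ι p'.1)
    rw [mul_inv, map_mul, map_mul,
      mul_assoc (Matrix.GeneralLinearGroup.scalar (Fin n) p.2⁻¹)
        (Matrix.GeneralLinearGroup.map ι p.1),
      ← mul_assoc (Matrix.GeneralLinearGroup.map ι p.1)
        (Matrix.GeneralLinearGroup.scalar (Fin n) p'.2⁻¹),
      ← Matrix.GeneralLinearGroup.scalar_commute p'.2⁻¹ (Matrix.GeneralLinearGroup.map ι p.1)]
    simp only [mul_assoc]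

theorem thetaHom_apply {K₀ : Type*} [Field K₀] (ι : K₀ →+* K) (x : GL (Fin n) K₀) (d : Kˣ) :
    thetaHom ι (x, d) =
      Matrix.GeneralLinearGroup.scalar (Fin n) d⁻¹ * Matrix.GeneralLinearGroup.map ι x := rfl

/-- criterion (D): a conjugate lies in the unitary group -/
theorem conj_mem_gu_iff (τ : K ≃+* K) (hτ2 : τ * τ = 1) (q : ℕ) (hτq : ∀ a, τ a = a ^ q)
    (a y : GL (Fin n) K) :
    a * y * a⁻¹ ∈ Cfsg.GU n K q ↔
      Matrix.GeneralLinearGroup.map (τ : K →+* K) (PN.itGL y) =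
        ((Matrix.GeneralLinearGroup.map (τ : K →+* K) (PN.itGL a))⁻¹ * a) * y *
          ((Matrix.GeneralLinearGroup.map (τ : K →+* K) (PN.itGL a))⁻¹ * a)⁻¹ := by
  rw [PN.mem_GU_iff τ hτ2 q hτq, map_mul, map_mul, map_inv, map_mul, map_mul, map_inv]
  obtain ⟨A, hA⟩ : ∃ A, A = Matrix.GeneralLinearGroup.map (τ : K →+* K) (PN.itGL a) := ⟨_, rfl⟩
  obtain ⟨Y, hY⟩ : ∃ Y, Y = Matrix.GeneralLinearGroup.map (τ : K →+* K) (PN.itGL y) := ⟨_, rfl⟩
  rw [← hA, ← hY]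
  constructor
  · intro h
    calc Y = A⁻¹ * (A * Y * A⁻¹) * A := by group
      _ = A⁻¹ * (a * y * a⁻¹) * A := by rw [h]
      _ = (A⁻¹ * a) * y * (A⁻¹ * a)⁻¹ := by group
  · intro h
    rw [h]
    group

/-- criterion (B): commutation with the graph automorphism -/
theorem comm_conj_iff (T : GL (Fin n) K →* GL (Fin n) K) (a b : GL (Fin n) K) (ν lam : Kˣ) :
    (Matrix.GeneralLinearGroup.scalar (Fin n) ν * a * (T a)⁻¹) * T b =
        Matrix.GeneralLinearGroup.scalar (Fin n) lam *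
          (b * (Matrix.GeneralLinearGroup.scalar (Fin n) ν * a * (T a)⁻¹)) ↔
      T (a⁻¹ * b * a) = Matrix.GeneralLinearGroup.scalar (Fin n) lam * (a⁻¹ * b * a) := by
  obtain ⟨sν, hsν⟩ : ∃ s, s = Matrix.GeneralLinearGroup.scalar (Fin n) ν := ⟨_, rfl⟩
  obtain ⟨sl, hsl⟩ : ∃ s, s = Matrix.GeneralLinearGroup.scalar (Fin n) lam := ⟨_, rfl⟩
  have cν : ∀ g : GL (Fin n) K, sν * g = g * sν := fun g => by
    rw [hsν]; exact Matrix.GeneralLinearGroup.scalar_commute ν g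
  have cl : ∀ g : GL (Fin n) K, sl * g = g * sl := fun g => by
    rw [hsl]; exact Matrix.GeneralLinearGroup.scalar_commute lam g
  rw [← hsν, ← hsl, map_mul, map_mul, map_inv]
  constructor
  · intro h
    have h' : a * (T a)⁻¹ * T b = sl * (b * (a * (T a)⁻¹)) := by
      have e1 : sν * a * (T a)⁻¹ * T b = sν * (a * (T a)⁻¹ * T b) := by group
      have e2 : sl * (b * (sν * a * (T a)⁻¹)) = sν * (sl * (b * (a * (T a)⁻¹))) := by
        calc sl * (b * (sν * a * (T a)⁻¹)) = sl * b * sν * (a * (T a)⁻¹) := by group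
          _ = sν * (sl * b) * (a * (T a)⁻¹) := by rw [cν (sl * b)]
          _ = sν * (sl * (b * (a * (T a)⁻¹))) := by group
      rw [e1, e2] at h
      exact mul_left_cancel h
    calc (T a)⁻¹ * T b * T a = a⁻¹ * (a * (T a)⁻¹ * T b) * T a := by group
      _ = a⁻¹ * (sl * (b * (a * (T a)⁻¹))) * T a := by rw [h']
      _ = a⁻¹ * sl * (b * a) := by group
      _ = sl * a⁻¹ * (b * a) := by rw [cl a⁻¹]
      _ = sl * (a⁻¹ * b * a) := by group
  · intro h
    calc sν * a * (T a)⁻¹ * T b = sν * a * ((T a)⁻¹ * T b * T a) * (T a)⁻¹ := by group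
      _ = sν * a * (sl * (a⁻¹ * b * a)) * (T a)⁻¹ := by rw [h]
      _ = sν * (a * sl) * (a⁻¹ * b * a) * (T a)⁻¹ := by group
      _ = sν * (sl * a) * (a⁻¹ * b * a) * (T a)⁻¹ := by rw [cl a]
      _ = (sν * sl) * (b * a * (T a)⁻¹) := by group
      _ = (sl * sν) * (b * a * (T a)⁻¹) := by rw [cν sl]
      _ = sl * (sν * b) * (a * (T a)⁻¹) := by group
      _ = sl * (b * sν) * (a * (T a)⁻¹) := by rw [cν b]
      _ = sl * (b * (sν * a * (T a)⁻¹)) := by group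

theorem itGL_mapι' {K₀ : Type*} [Field K₀] (ι : K₀ →+* K) (h : GL (Fin n) K₀) :
    PN.itGL (Matrix.GeneralLinearGroup.map ι h) = Matrix.GeneralLinearGroup.map ι (PN.itGL h) := by
  apply Units.ext
  rw [PN.itGL_coe, ← map_inv]
  ext i j
  rfl

/-- criterion (E): the unitary condition for `d⁻¹ • ι(x)` -/
theorem theta_cond_iff {K₀ : Type*} [Field K₀] (ι : K₀ →+* K) (τ : K ≃+* K)
    (hι : ∀ b : K, τ b = b ↔ ∃ a, ι a = b) (κ d : Kˣ) (S₀ x : GL (Fin n) K₀) :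
    Matrix.GeneralLinearGroup.map (τ : K →+* K) (PN.itGL (thetaHom ι (x, d))) =
        (Matrix.GeneralLinearGroup.scalar (Fin n) κ * Matrix.GeneralLinearGroup.map ι S₀) *
          thetaHom ι (x, d) *
          (Matrix.GeneralLinearGroup.scalar (Fin n) κ * Matrix.GeneralLinearGroup.map ι S₀)⁻¹ ↔
      Matrix.GeneralLinearGroup.scalar (Fin n) (d * Units.map ((τ : K →+* K) : K →* K) d) *
        Matrix.GeneralLinearGroup.map ι (PN.itGL x) =
          Matrix.GeneralLinearGroup.map ι (S₀ * x * S₀⁻¹) := by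
  have eL : Matrix.GeneralLinearGroup.map (τ : K →+* K) (PN.itGL (thetaHom ι (x, d))) =
      Matrix.GeneralLinearGroup.scalar (Fin n) (Units.map ((τ : K →+* K) : K →* K) d) *
        Matrix.GeneralLinearGroup.map ι (PN.itGL x) := by
    rw [thetaHom_apply, map_mul, PN.itGL_scalar, inv_inv, map_mul,
      Matrix.GeneralLinearGroup.map_scalar, itGL_mapι', PN.map_map_fixed ι τ hι]
  obtain ⟨sd, hsd⟩ : ∃ s, s = Matrix.GeneralLinearGroup.scalar (Fin n) d⁻¹ := ⟨_, rfl⟩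
  obtain ⟨sk, hsk⟩ : ∃ s, s = Matrix.GeneralLinearGroup.scalar (Fin n) κ := ⟨_, rfl⟩
  have cd : ∀ g : GL (Fin n) K, sd * g = g * sd := fun g => by
    rw [hsd]; exact Matrix.GeneralLinearGroup.scalar_commute d⁻¹ g
  have ck : ∀ g : GL (Fin n) K, sk * g = g * sk := fun g => by
    rw [hsk]; exact Matrix.GeneralLinearGroup.scalar_commute κ g
  obtain ⟨P, hP⟩ : ∃ P, P = Matrix.GeneralLinearGroup.map ι S₀ := ⟨_, rfl⟩
  obtain ⟨X, hX⟩ : ∃ X, X = Matrix.GeneralLinearGroup.map ι x := ⟨_, rfl⟩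
  have eR : (Matrix.GeneralLinearGroup.scalar (Fin n) κ * Matrix.GeneralLinearGroup.map ι S₀) *
      thetaHom ι (x, d) *
      (Matrix.GeneralLinearGroup.scalar (Fin n) κ * Matrix.GeneralLinearGroup.map ι S₀)⁻¹ =
      Matrix.GeneralLinearGroup.scalar (Fin n) d⁻¹ *
        Matrix.GeneralLinearGroup.map ι (S₀ * x * S₀⁻¹) := by
    rw [thetaHom_apply, ← hsd, ← hsk, map_mul, map_mul, map_inv, ← hP, ← hX]
    calc sk * P * (sd * X) * (sk * P)⁻¹ = (sk * P * sd) * X * (sk * P)⁻¹ := by group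
      _ = (sd * (sk * P)) * X * (sk * P)⁻¹ := by rw [cd (sk * P)]
      _ = sd * (sk * (P * X * P⁻¹) * sk⁻¹) := by group
      _ = sd * ((P * X * P⁻¹) * sk * sk⁻¹) := by rw [ck (P * X * P⁻¹)]
      _ = sd * (P * X * P⁻¹) := by group
  rw [eL, eR]
  have e3 : Matrix.GeneralLinearGroup.scalar (Fin n) (d * Units.map ((τ : K →+* K) : K →* K) d) *
      Matrix.GeneralLinearGroup.map ι (PN.itGL x) =
      Matrix.GeneralLinearGroup.scalar (Fin n) d *
        (Matrix.GeneralLinearGroup.scalar (Fin n) (Units.map ((τ : K →+* K) : K →* K) d) *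
          Matrix.GeneralLinearGroup.map ι (PN.itGL x)) := by
    rw [map_mul, mul_assoc]
  rw [e3]
  constructor
  · intro h
    rw [h, map_inv, mul_inv_cancel_left]
  · intro h
    rw [← h, map_inv, inv_mul_cancel_left]

/-- criterion (C): descent of a matrix fixed up to a scalar -/
theorem descend_of_twisted {K₀ : Type*} [Field K₀] (hn : 1 ≤ n) (ι : K₀ →+* K) (τ : K ≃+* K)
    (hτ1 : τ ≠ 1) (hτ2 : τ * τ = 1) (hι : ∀ b : K, τ b = b ↔ ∃ a, ι a = b)
    (y : GL (Fin n) K) (lam : Kˣ)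
    (h : Matrix.GeneralLinearGroup.map (τ : K →+* K) y =
      Matrix.GeneralLinearGroup.scalar (Fin n) lam * y) :
    ∃ (x : GL (Fin n) K₀) (d : Kˣ), y = thetaHom ι (x, d) := by
  have h1 : Matrix.GeneralLinearGroup.map (τ : K →+* K)
      (Matrix.GeneralLinearGroup.map (τ : K →+* K) y) = y := PN.map_map_invol τ hτ2 y
  rw [h, map_mul, Matrix.GeneralLinearGroup.map_scalar, h, ← mul_assoc, ← map_mul] at h1
  have h2 : Matrix.GeneralLinearGroup.scalar (Fin n)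
      (Units.map ((τ : K →+* K) : K →* K) lam * lam) =
      Matrix.GeneralLinearGroup.scalar (Fin n) 1 := by
    rw [map_one]
    exact mul_eq_right.1 h1
  have h3 := PN.scalar_inj hn _ _ h2
  have h4 : (lam : K) * τ (lam : K) = 1 := by
    have h5 := congrArg (fun u : Kˣ => (u : K)) h3
    rw [mul_comm]
    exact h5
  have hord : orderOf τ = 2 := orderOf_eq_prime (by rw [pow_two]; exact hτ2) hτ1
  have hprod : ∏ i ∈ Finset.range 2, (τ ^ i) (lam : K) = 1 := by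
    rw [Finset.prod_range_succ, Finset.prod_range_one, pow_zero, pow_one]
    exact h4
  obtain ⟨d, hd0, hd⟩ := H90.hilbert90_scalar τ 2 (by norm_num) hord (lam : K) hprod
  obtain ⟨du, hdu⟩ : ∃ du : Kˣ, (du : K) = d := ⟨Units.mk0 d hd0, rfl⟩
  have hfix : Matrix.GeneralLinearGroup.map (τ : K →+* K)
      (Matrix.GeneralLinearGroup.scalar (Fin n) du * y) =
      Matrix.GeneralLinearGroup.scalar (Fin n) du * y := by
    rw [map_mul, Matrix.GeneralLinearGroup.map_scalar, h, ← mul_assoc, ← map_mul]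
    congr 2
    apply Units.ext
    show τ (du : K) * (lam : K) = du
    rw [hdu, mul_comm]
    exact hd
  obtain ⟨x, hx⟩ := PN.exists_map_of_fixed ι τ hι _ hfix
  refine ⟨x, du, ?_⟩
  rw [thetaHom_apply, hx, map_inv, inv_mul_cancel_left]

theorem scalar_iff_center [Fintype K] (hn : 1 ≤ n) (g : GL (Fin n) K) :
    (∃ a : K, ∀ x : Fin n → K, (g : Matrix (Fin n) (Fin n) K) *ᵥ x = a • x) ↔
      g ∈ Subgroup.center (GL (Fin n) K) := by
  rw [← PN.scalars_eq_center, Cfsg.Geo.mem_scalars_iff]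
  constructor
  · rintro ⟨a, ha⟩
    have h1 := (mulVec_scalar_iff _ a).1 ha
    have ha0 : a ≠ 0 := by
      rintro rfl
      rw [zero_smul] at h1
      have h2 : (g : Matrix (Fin n) (Fin n) K) * ((g⁻¹ : GL (Fin n) K) :
          Matrix (Fin n) (Fin n) K) = 1 := Units.mul_inv g
      rw [h1, Matrix.zero_mul] at h2
      have h3 := congrFun (congrFun h2 ⟨0, hn⟩) ⟨0, hn⟩
      rw [Matrix.zero_apply, Matrix.one_apply_eq] at h3
      exact zero_ne_one h3
    exact ⟨Units.mk0 a ha0, h1⟩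
  · rintro ⟨c, hc⟩
    exact ⟨c, (mulVec_scalar_iff _ _).2 hc⟩

end glalg

section psu

variable {F : Type*} [Field F] [Fintype F] {q n : ℕ}

/-- the graph automorphism of `PSU` attached to a unitary matrix -/
def gamU (τ : F ≃+* F) (h : ↥(Cfsg.GU n F q)) : MulAut (Cfsg.PSU n F q) :=
  conjAut h * fieldAut τ

theorem gamU_comm_iff (hF : Fintype.card F = q ^ 2) (hn : 3 ≤ n) (τ : F ≃+* F)
    (h b : ↥(Cfsg.GU n F q)) :
    (conjAut b : MulAut (Cfsg.PSU n F q)) * gamU τ h = gamU τ h * conjAut b ↔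
      ∃ lam : Fˣ, (h : GL (Fin n) F) *
          Matrix.GeneralLinearGroup.map (τ : F →+* F) (b : GL (Fin n) F) =
        Matrix.GeneralLinearGroup.scalar (Fin n) lam *
          ((b : GL (Fin n) F) * (h : GL (Fin n) F)) := by
  unfold gamU
  have h1 : (conjAut h * fieldAut τ : MulAut (Cfsg.PSU n F q)) * conjAut b
      = conjAut (h * mapU τ b) * fieldAut τ := by
    rw [mul_assoc, field_conj', ← mul_assoc, ← map_mul]
  have h2 : (conjAut b : MulAut (Cfsg.PSU n F q)) * (conjAut h * fieldAut τ)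
      = conjAut (b * h) * fieldAut τ := by
    rw [← mul_assoc, ← map_mul]
  rw [h1, h2, mul_left_inj]
  have h3 : (conjAut (b * h) : MulAut (Cfsg.PSU n F q)) = conjAut (h * mapU τ b) ↔
      (conjAut ((b * h)⁻¹ * (h * mapU τ b)) : MulAut (Cfsg.PSU n F q)) = 1 := by
    rw [map_mul conjAut (b * h)⁻¹, map_inv, inv_mul_eq_one]
  rw [h3, conjAut_eq_one_iff hF hn, scalar_iff_center (by omega),
    Matrix.GeneralLinearGroup.center_eq_range_scalar, MonoidHom.mem_range]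
  have e : (((b * h)⁻¹ * (h * mapU τ b) : ↥(Cfsg.GU n F q)) : GL (Fin n) F) =
      ((b : GL (Fin n) F) * h)⁻¹ * ((h : GL (Fin n) F) *
        Matrix.GeneralLinearGroup.map (τ : F →+* F) (b : GL (Fin n) F)) := rfl
  rw [e]
  constructor
  · rintro ⟨lam, hlam⟩
    refine ⟨lam, ?_⟩
    rw [Matrix.GeneralLinearGroup.scalar_commute, hlam, mul_inv_cancel_left]
  · rintro ⟨lam, hlam⟩
    refine ⟨lam, ?_⟩
    rw [hlam, Matrix.GeneralLinearGroup.scalar_commute, inv_mul_cancel_left]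

/-- **the centralizer of a graph automorphism of `PSU_n(q)` in `Inndiag`** -/
theorem psu_graph_centralizer (hF : Fintype.card F = q ^ 2) (hn : 3 ≤ n) (τ : F ≃+* F)
    (hτq : ∀ a, τ a = a ^ q) (hτ1 : τ ≠ 1) (hτ2 : τ * τ = 1)
    {F₀ : Type*} [Field F₀] [Fintype F₀] (ι : F₀ →+* F) (hι : ∀ b : F, τ b = b ↔ ∃ a, ι a = b)
    (h : ↥(Cfsg.GU n F q)) (a : GL (Fin n) F) (ν κ : Fˣ) (S₀ : GL (Fin n) F₀)
    (ha : (h : GL (Fin n) F) = Matrix.GeneralLinearGroup.scalar (Fin n) ν * a *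
      (Matrix.GeneralLinearGroup.map (τ : F →+* F) a)⁻¹)
    (hS : (Matrix.GeneralLinearGroup.map (τ : F →+* F) (PN.itGL a))⁻¹ * a =
      Matrix.GeneralLinearGroup.scalar (Fin n) κ * Matrix.GeneralLinearGroup.map ι S₀)
    (H : Subgroup (GL (Fin n) F₀))
    (hH : ∀ x : GL (Fin n) F₀, x ∈ H ↔ ∃ c : F₀ˣ,
      (x : Matrix (Fin n) (Fin n) F₀)ᵀ * (S₀ : Matrix (Fin n) (Fin n) F₀) *
        (x : Matrix (Fin n) (Fin n) F₀) = (c : F₀) • (S₀ : Matrix (Fin n) (Fin n) F₀)) :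
    Nonempty (↥(Cfsg.inndiagPSU n F q ⊓ Subgroup.centralizer {gamU τ h}) ≃*
      Cfsg.projQuot H) := by
  classical
  obtain ⟨C, hC⟩ : ∃ C : Subgroup (MulAut (Cfsg.PSU n F q)), C = Cfsg.inndiagPSU n F q ⊓
      Subgroup.centralizer {gamU τ h} := ⟨_, rfl⟩
  rw [← hC]
  let Θ : GL (Fin n) F₀ × Fˣ →* GL (Fin n) F := (MulAut.conj a).toMonoidHom.comp (thetaHom ι)
  have hΘ : ∀ p, Θ p = a * thetaHom ι p * a⁻¹ := fun p => rfl
  have K1 : ∀ (x : GL (Fin n) F₀) (d : Fˣ), Θ (x, d) ∈ Cfsg.GU n F q ↔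
      Matrix.GeneralLinearGroup.scalar (Fin n) (d * Units.map ((τ : F →+* F) : F →* F) d) *
        Matrix.GeneralLinearGroup.map ι (PN.itGL x) =
          Matrix.GeneralLinearGroup.map ι (S₀ * x * S₀⁻¹) := by
    intro x d
    rw [hΘ, conj_mem_gu_iff τ hτ2 q hτq, hS, theta_cond_iff ι τ hι]
  have K2 : ∀ (x : GL (Fin n) F₀) (d : Fˣ) (c : F₀ˣ), (d : F) * τ (d : F) = ι (c : F₀) →
      (Θ (x, d) ∈ Cfsg.GU n F q ↔
        (x : Matrix (Fin n) (Fin n) F₀)ᵀ * (S₀ : Matrix (Fin n) (Fin n) F₀) *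
          (x : Matrix (Fin n) (Fin n) F₀) = (c : F₀) • (S₀ : Matrix (Fin n) (Fin n) F₀)) := by
    intro x d c hdc
    rw [K1, ← sim_GL_iff]
    have e : d * Units.map ((τ : F →+* F) : F →* F) d = Units.map (ι : F₀ →* F) c :=
      Units.ext hdc
    rw [e, ← Matrix.GeneralLinearGroup.map_scalar, ← map_mul]
    constructor
    · intro h'
      exact mapι_injective ι h'
    · intro h'
      rw [h']
  have K3 : ∀ d : Fˣ, ∃ c : F₀ˣ, (d : F) * τ (d : F) = ι (c : F₀) := by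
    intro d
    have hττ : τ (τ (d : F)) = d := congrArg (fun s : F ≃+* F => s (d : F)) hτ2
    have hfix : τ ((d : F) * τ (d : F)) = (d : F) * τ (d : F) := by
      rw [map_mul, hττ, mul_comm]
    obtain ⟨c₀, hc₀⟩ := (hι _).1 hfix
    have hc0 : c₀ ≠ 0 := by
      rintro rfl
      rw [map_zero] at hc₀
      exact mul_ne_zero d.ne_zero ((map_ne_zero τ).2 d.ne_zero) hc₀.symm
    exact ⟨Units.mk0 c₀ hc0, hc₀.symm⟩
  have K4 : ∀ c : F₀ˣ, ∃ d : Fˣ, (d : F) * τ (d : F) = ι (c : F₀) := by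
    intro c
    have hfix : (ι (c : F₀)) ^ q = ι (c : F₀) := by
      rw [← hτq]
      exact (hι _).2 ⟨_, rfl⟩
    obtain ⟨d, hd⟩ := Cfsg.Agent.Lib.helper4.unorm_surj hF (ι (c : F₀)) hfix
    have hd0 : d ≠ 0 := by
      rintro rfl
      rw [zero_pow (by omega)] at hd
      exact (map_ne_zero ι).2 c.ne_zero hd.symm
    refine ⟨Units.mk0 d hd0, ?_⟩
    show d * τ d = _
    rw [hτq, ← pow_succ', hd]
  let Gt : Subgroup (GL (Fin n) F₀ × Fˣ) := (Cfsg.GU n F q).comap Θ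
  have hGt : ∀ p, p ∈ Gt ↔ Θ p ∈ Cfsg.GU n F q := fun p => Iff.rfl
  let Ψ₁ : ↥Gt →* ↥(Cfsg.GU n F q) :=
    (Θ.comp Gt.subtype).codRestrict (Cfsg.GU n F q) (fun p => p.2)
  have hΨ₁ : ∀ p : ↥Gt, ((Ψ₁ p : ↥(Cfsg.GU n F q)) : GL (Fin n) F) =
      Θ (p : GL (Fin n) F₀ × Fˣ) := fun p => rfl
  let Ψ₀ : ↥Gt →* MulAut (Cfsg.PSU n F q) := conjAut.comp Ψ₁
  have hΨ₀ : ∀ p, Ψ₀ p = conjAut (Ψ₁ p) := fun p => rfl
  have K5 : ∀ (b : ↥(Cfsg.GU n F q)),
      (conjAut b : MulAut (Cfsg.PSU n F q)) * gamU τ h = gamU τ h * conjAut b ↔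
      ∃ lam : Fˣ, Matrix.GeneralLinearGroup.map (τ : F →+* F) (a⁻¹ * (b : GL (Fin n) F) * a) =
        Matrix.GeneralLinearGroup.scalar (Fin n) lam * (a⁻¹ * (b : GL (Fin n) F) * a) := by
    intro b
    rw [gamU_comm_iff hF hn, ha]
    constructor
    · rintro ⟨lam, hlam⟩
      exact ⟨lam, (comm_conj_iff _ a _ ν lam).1 hlam⟩
    · rintro ⟨lam, hlam⟩
      exact ⟨lam, (comm_conj_iff _ a _ ν lam).2 hlam⟩
  have hmemC : ∀ p, Ψ₀ p ∈ C := by
    intro p
    rw [hC, hΨ₀]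
    refine ⟨(mem_inndiag _).2 ⟨_, rfl⟩, ?_⟩
    show conjAut (Ψ₁ p) ∈ Subgroup.centralizer {gamU τ h}
    rw [Subgroup.mem_centralizer_iff]
    intro y hy
    rw [Set.mem_singleton_iff] at hy
    rw [hy]
    symm
    rw [K5, hΨ₁, hΘ]
    obtain ⟨⟨x, d⟩, hp⟩ := p
    have e1 : a⁻¹ * (a * thetaHom ι (x, d) * a⁻¹) * a = thetaHom ι (x, d) := by group
    show ∃ lam : Fˣ, Matrix.GeneralLinearGroup.map (τ : F →+* F)
      (a⁻¹ * (a * thetaHom ι (x, d) * a⁻¹) * a) = _ * (a⁻¹ * (a * thetaHom ι (x, d) * a⁻¹) * a)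
    rw [e1, thetaHom_apply]
    refine ⟨d * (Units.map ((τ : F →+* F) : F →* F) d)⁻¹, ?_⟩
    rw [map_mul, Matrix.GeneralLinearGroup.map_scalar, PN.map_map_fixed ι τ hι, ← mul_assoc,
      ← map_mul]
    congr 2
    rw [map_inv, mul_comm d, mul_assoc, mul_inv_cancel, mul_one]
  let Ψ : ↥Gt →* ↥C := Ψ₀.codRestrict C hmemC
  have hΨ : ∀ p, (Ψ p : MulAut (Cfsg.PSU n F q)) = Ψ₀ p := fun p => rfl
  have hsurj : Function.Surjective Ψ := by
    rintro ⟨β, hβ⟩
    rw [hC] at hβ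
    obtain ⟨hβ1, hβ2⟩ := hβ
    obtain ⟨b, rfl⟩ := (mem_inndiag β).1 hβ1
    have hc : (conjAut b : MulAut (Cfsg.PSU n F q)) * gamU τ h = gamU τ h * conjAut b :=
      ((Subgroup.mem_centralizer_iff.1 hβ2) _ rfl).symm
    obtain ⟨lam, hlam⟩ := (K5 b).1 hc
    obtain ⟨x, d, hxd⟩ := descend_of_twisted (by omega) ι τ hτ1 hτ2 hι _ lam hlam
    have hb : Θ (x, d) = (b : GL (Fin n) F) := by
      rw [hΘ, ← hxd]
      group
    have hmem : (x, d) ∈ Gt := by
      rw [hGt, hb]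
      exact b.2
    refine ⟨⟨(x, d), hmem⟩, Subtype.ext ?_⟩
    rw [hΨ, hΨ₀]
    congr 1
    exact Subtype.ext hb
  have hmemH : ∀ p : ↥Gt, (p : GL (Fin n) F₀ × Fˣ).1 ∈ H := by
    rintro ⟨⟨x, d⟩, hp⟩
    obtain ⟨c, hc⟩ := K3 d
    exact (hH x).2 ⟨c, (K2 x d c hc).1 hp⟩
  let Pr₀ : ↥Gt →* ↥H :=
    ((MonoidHom.fst (GL (Fin n) F₀) Fˣ).comp Gt.subtype).codRestrict H hmemH
  have hPr₀ : ∀ p : ↥Gt, ((Pr₀ p : ↥H) : GL (Fin n) F₀) = (p : GL (Fin n) F₀ × Fˣ).1 :=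
    fun p => rfl
  let Pr : ↥Gt →* Cfsg.projQuot H := (QuotientGroup.mk' _).comp Pr₀
  have hPr : ∀ p, Pr p = QuotientGroup.mk (Pr₀ p) := fun p => rfl
  have hPrsurj : Function.Surjective Pr := by
    intro z
    obtain ⟨⟨x, hx⟩, rfl⟩ := QuotientGroup.mk_surjective z
    obtain ⟨c, hc⟩ := (hH x).1 hx
    obtain ⟨d, hd⟩ := K4 c
    have hmem : (x, d) ∈ Gt := (K2 x d c hd).2 hc
    exact ⟨⟨(x, d), hmem⟩, rfl⟩
  have hkerΨ : ∀ p : ↥Gt, p ∈ Ψ.ker ↔
      (p : GL (Fin n) F₀ × Fˣ).1 ∈ Cfsg.Geo.scalars (Fin n) F₀ := by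
    intro p
    rw [MonoidHom.mem_ker]
    have h1 : Ψ p = 1 ↔ Ψ₀ p = 1 := by
      constructor
      · intro h'; rw [← hΨ, h']; rfl
      · intro h'; exact Subtype.ext (by rw [hΨ, h']; rfl)
    rw [h1, hΨ₀, conjAut_eq_one_iff hF hn, scalar_iff_center (by omega), hΨ₁, hΘ]
    obtain ⟨⟨x, d⟩, hp⟩ := p
    show a * thetaHom ι (x, d) * a⁻¹ ∈ Subgroup.center (GL (Fin n) F) ↔
      x ∈ Cfsg.Geo.scalars (Fin n) F₀
    rw [PN.scalars_eq_center, ← PN.map_mem_center_iff (by omega) ι x, thetaHom_apply]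
    have hs : Matrix.GeneralLinearGroup.scalar (Fin n) d⁻¹ ∈ Subgroup.center (GL (Fin n) F) := by
      rw [Matrix.GeneralLinearGroup.center_eq_range_scalar]
      exact ⟨_, rfl⟩
    constructor
    · intro h'
      have h2 := Subgroup.Normal.conj_mem
        (inferInstance : (Subgroup.center (GL (Fin n) F)).Normal) _ h' a⁻¹
      have e : a⁻¹ * (a * (Matrix.GeneralLinearGroup.scalar (Fin n) d⁻¹ *
          Matrix.GeneralLinearGroup.map ι x) * a⁻¹) * a⁻¹⁻¹ =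
          Matrix.GeneralLinearGroup.scalar (Fin n) d⁻¹ * Matrix.GeneralLinearGroup.map ι x := by
        group
      rw [e] at h2
      exact (Subgroup.mul_mem_cancel_left _ hs).1 h2
    · intro h'
      exact Subgroup.Normal.conj_mem
        (inferInstance : (Subgroup.center (GL (Fin n) F)).Normal) _
        ((Subgroup.mul_mem_cancel_left _ hs).2 h') a
  have hkerPr : ∀ p : ↥Gt, p ∈ Pr.ker ↔
      (p : GL (Fin n) F₀ × Fˣ).1 ∈ Cfsg.Geo.scalars (Fin n) F₀ := by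
    intro p
    rw [MonoidHom.mem_ker, hPr, QuotientGroup.eq_one_iff, Subgroup.mem_subgroupOf, hPr₀]
  have hker : Ψ.ker = Pr.ker := by
    ext p
    rw [hkerΨ, hkerPr]
  exact ⟨(QuotientGroup.quotientKerEquivOfSurjective Ψ hsurj).symm.trans
    ((QuotientGroup.quotientMulEquivOfEq hker).trans
      (QuotientGroup.quotientKerEquivOfSurjective Pr hPrsurj))⟩

end psu

end Cfsg.Agent.Lib.helper13.PU
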