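import Mathlib
import Cfsg.Prelude.Def_LieTypeDatum
import Cfsg.Agent.Lib.helper13.PSUGraph
import Cfsg.Agent.Lib.helper13.PSLnGraph2

set_option autoImplicit false
set_option linter.unusedSectionVars false
set_option linter.unusedVariables false
set_option linter.style.longLine false

/-!
Involutory graph automorphisms of `PSU_n(q)`: descent data over the fixed field.
-/

namespace Cfsg.Agent.Lib.helper13.PU

open Matrix

section glalg2

variable {K : Type*} [Field K] {n : ℕ}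

/-- the twisted Gram matrix `τ(a)ᵀ a` -/
def Wm (τ : K ≃+* K) (a : GL (Fin n) K) : GL (Fin n) K :=
  (Matrix.GeneralLinearGroup.map (τ : K →+* K) (PN.itGL a))⁻¹ * a

theorem TI_T (τ : K ≃+* K) (hτ2 : τ * τ = 1) (a : GL (Fin n) K) :
    Matrix.GeneralLinearGroup.map (τ : K →+* K)
      (PN.itGL (Matrix.GeneralLinearGroup.map (τ : K →+* K) a)) = PN.itGL a := by
  rw [PN.itGL_map, PN.map_map_invol τ hτ2]

theorem T_Wm (τ : K ≃+* K) (hτ2 : τ * τ = 1) (a : GL (Fin n) K) :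
    Matrix.GeneralLinearGroup.map (τ : K →+* K) (Wm τ a) =
      (PN.itGL a)⁻¹ * Matrix.GeneralLinearGroup.map (τ : K →+* K) a := by
  unfold Wm
  rw [map_mul, map_inv, PN.map_map_invol τ hτ2]

theorem itGL_Wm (τ : K ≃+* K) (hτ2 : τ * τ = 1) (a : GL (Fin n) K) :
    PN.itGL (Wm τ a) = (Matrix.GeneralLinearGroup.map (τ : K →+* K) (Wm τ a))⁻¹ := by
  rw [T_Wm τ hτ2]
  unfold Wm
  rw [map_mul, map_inv, PN.itGL_map, PN.itGL_itGL, _root_.mul_inv_rev, inv_inv]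

theorem Wm_gu_mul (τ : K ≃+* K) (hτ2 : τ * τ = 1) (q : ℕ) (hτq : ∀ a, τ a = a ^ q)
    (b a : GL (Fin n) K) (hb : b ∈ Cfsg.GU n K q) : Wm τ (b * a) = Wm τ a := by
  unfold Wm
  rw [map_mul, map_mul, (PN.mem_GU_iff τ hτ2 q hτq b).1 hb]
  group

theorem Wm_scalar_mul (τ : K ≃+* K) (d : Kˣ) (a : GL (Fin n) K) :
    Wm τ (Matrix.GeneralLinearGroup.scalar (Fin n) d * a) =
      Matrix.GeneralLinearGroup.scalar (Fin n) (d * Units.map ((τ : K →+* K) : K →* K) d) *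
        Wm τ a := by
  unfold Wm
  rw [map_mul, PN.itGL_scalar, map_mul, Matrix.GeneralLinearGroup.map_scalar, map_inv, map_inv,
    map_mul (Matrix.GeneralLinearGroup.scalar (Fin n)) d]
  obtain ⟨A, hA⟩ : ∃ A, A = Matrix.GeneralLinearGroup.map (τ : K →+* K) (PN.itGL a) := ⟨_, rfl⟩
  obtain ⟨s, hs⟩ : ∃ s, s = Matrix.GeneralLinearGroup.scalar (Fin n) d := ⟨_, rfl⟩
  obtain ⟨t, ht⟩ : ∃ t, t = Matrix.GeneralLinearGroup.scalar (Fin n)
      (Units.map ((τ : K →+* K) : K →* K) d) := ⟨_, rfl⟩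
  have ct : ∀ g : GL (Fin n) K, t * g = g * t := fun g => by
    rw [ht]; exact Matrix.GeneralLinearGroup.scalar_commute _ g
  have cs : ∀ g : GL (Fin n) K, s * g = g * s := fun g => by
    rw [hs]; exact Matrix.GeneralLinearGroup.scalar_commute _ g
  rw [← hA, ← hs, ← ht]
  calc (t⁻¹ * A)⁻¹ * (s * a) = A⁻¹ * t * s * a := by group
    _ = t * A⁻¹ * s * a := by rw [ct A⁻¹]
    _ = t * (A⁻¹ * s) * a := by group
    _ = t * (s * A⁻¹) * a := by rw [cs A⁻¹]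
    _ = (t * s) * (A⁻¹ * a) := by group
    _ = (s * t) * (A⁻¹ * a) := by rw [cs t]

theorem Wm_mul_iota {K₀ : Type*} [Field K₀] (ι : K₀ →+* K) (τ : K ≃+* K)
    (hι : ∀ b : K, τ b = b ↔ ∃ a, ι a = b) (a : GL (Fin n) K) (x : GL (Fin n) K₀) :
    Wm τ (a * Matrix.GeneralLinearGroup.map ι x) =
      (Matrix.GeneralLinearGroup.map ι (PN.itGL x))⁻¹ * Wm τ a *
        Matrix.GeneralLinearGroup.map ι x := by
  unfold Wm
  rw [map_mul, map_mul, itGL_mapι', PN.map_map_fixed ι τ hι]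
  group

/-- membership of `ν a τ(a)⁻¹` in the unitary group in terms of the twisted Gram matrix -/
theorem gu_iff_Wm (τ : K ≃+* K) (hτ2 : τ * τ = 1) (q : ℕ) (hτq : ∀ a, τ a = a ^ q)
    (a : GL (Fin n) K) (ν lam : Kˣ) (hν : ν * Units.map ((τ : K →+* K) : K →* K) ν = lam) :
    Matrix.GeneralLinearGroup.scalar (Fin n) ν * a *
        (Matrix.GeneralLinearGroup.map (τ : K →+* K) a)⁻¹ ∈ Cfsg.GU n K q ↔
      Matrix.GeneralLinearGroup.map (τ : K →+* K) (Wm τ a) =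
        Matrix.GeneralLinearGroup.scalar (Fin n) lam * Wm τ a := by
  rw [PN.mem_GU_iff τ hτ2 q hτq, T_Wm τ hτ2, map_mul, map_mul, map_mul, map_mul, map_inv, map_inv,
    TI_T τ hτ2, PN.itGL_scalar, Matrix.GeneralLinearGroup.map_scalar, map_inv, map_inv, ← hν,
    map_mul (Matrix.GeneralLinearGroup.scalar (Fin n)) ν]
  unfold Wm
  obtain ⟨A, hA⟩ : ∃ A, A = Matrix.GeneralLinearGroup.map (τ : K →+* K) (PN.itGL a) := ⟨_, rfl⟩
  obtain ⟨B, hB⟩ : ∃ B, B = Matrix.GeneralLinearGroup.map (τ : K →+* K) a := ⟨_, rfl⟩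
  obtain ⟨C, hC⟩ : ∃ C, C = PN.itGL a := ⟨_, rfl⟩
  obtain ⟨s, hs⟩ : ∃ s, s = Matrix.GeneralLinearGroup.scalar (Fin n) ν := ⟨_, rfl⟩
  obtain ⟨t, ht⟩ : ∃ t, t = Matrix.GeneralLinearGroup.scalar (Fin n)
      (Units.map ((τ : K →+* K) : K →* K) ν) := ⟨_, rfl⟩
  have ct : ∀ g : GL (Fin n) K, t * g = g * t := fun g => by
    rw [ht]; exact Matrix.GeneralLinearGroup.scalar_commute _ g
  have cs : ∀ g : GL (Fin n) K, s * g = g * s := fun g => by
    rw [hs]; exact Matrix.GeneralLinearGroup.scalar_commute _ g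
  rw [← hA, ← hB, ← hC, ← hs, ← ht]
  constructor
  · intro h
    calc C⁻¹ * B = A⁻¹ * t * (t⁻¹ * A * C⁻¹) * B := by group
      _ = A⁻¹ * t * (s * a * B⁻¹) * B := by rw [h]
      _ = (A⁻¹ * t) * s * a := by group
      _ = (t * A⁻¹) * s * a := by rw [ct A⁻¹]
      _ = t * (A⁻¹ * s) * a := by group
      _ = t * (s * A⁻¹) * a := by rw [cs A⁻¹]
      _ = (t * s) * (A⁻¹ * a) := by group
      _ = (s * t) * (A⁻¹ * a) := by rw [cs t]
  · intro h
    calc t⁻¹ * A * C⁻¹ = t⁻¹ * A * (C⁻¹ * B) * B⁻¹ := by group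
      _ = t⁻¹ * A * (s * t * (A⁻¹ * a)) * B⁻¹ := by rw [h]
      _ = t⁻¹ * (A * s) * t * (A⁻¹ * a) * B⁻¹ := by group
      _ = t⁻¹ * (s * A) * t * (A⁻¹ * a) * B⁻¹ := by rw [cs A]
      _ = t⁻¹ * s * (A * t) * (A⁻¹ * a) * B⁻¹ := by group
      _ = t⁻¹ * s * (t * A) * (A⁻¹ * a) * B⁻¹ := by rw [ct A]
      _ = (t⁻¹ * s) * t * a * B⁻¹ := by group
      _ = (s * t⁻¹) * t * a * B⁻¹ := by rw [cs t⁻¹]
      _ = s * a * B⁻¹ := by group

end glalg2

section psu2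

variable {F : Type*} [Field F] [Fintype F] {q n : ℕ}

theorem gamU_conj (τ : F ≃+* F) (b h : ↥(Cfsg.GU n F q)) :
    (conjAut b : MulAut (Cfsg.PSU n F q)) * gamU τ h * (conjAut b)⁻¹ =
      gamU τ (b * h * (mapU τ b)⁻¹) := by
  unfold gamU
  calc (conjAut b : MulAut (Cfsg.PSU n F q)) * (conjAut h * fieldAut τ) * (conjAut b)⁻¹
      = conjAut b * conjAut h * (fieldAut τ * conjAut b⁻¹) := by rw [map_inv]; group
    _ = conjAut b * conjAut h * (conjAut (mapU τ b⁻¹) * fieldAut τ) := by rw [field_conj']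
    _ = conjAut (b * h * (mapU τ b)⁻¹) * fieldAut τ := by
        rw [← mul_assoc, ← map_mul, ← map_mul, map_inv]

theorem gamU_eq_iff (hF : Fintype.card F = q ^ 2) (hn : 3 ≤ n) (τ : F ≃+* F)
    (h h' : ↥(Cfsg.GU n F q)) :
    gamU τ h = gamU τ h' ↔ ∃ μ : Fˣ, (h' : GL (Fin n) F) =
      Matrix.GeneralLinearGroup.scalar (Fin n) μ * (h : GL (Fin n) F) := by
  unfold gamU
  rw [mul_left_inj]
  have h1 : (conjAut h : MulAut (Cfsg.PSU n F q)) = conjAut h' ↔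
      (conjAut (h⁻¹ * h') : MulAut (Cfsg.PSU n F q)) = 1 := by
    rw [map_mul, map_inv, inv_mul_eq_one]
  rw [h1, conjAut_eq_one_iff hF hn, scalar_iff_center (by omega),
    Matrix.GeneralLinearGroup.center_eq_range_scalar, MonoidHom.mem_range]
  have e : ((h⁻¹ * h' : ↥(Cfsg.GU n F q)) : GL (Fin n) F) =
      (h : GL (Fin n) F)⁻¹ * (h' : GL (Fin n) F) := rfl
  rw [e]
  constructor
  · rintro ⟨μ, hμ⟩
    refine ⟨μ, ?_⟩
    rw [Matrix.GeneralLinearGroup.scalar_commute, hμ, mul_inv_cancel_left]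
  · rintro ⟨μ, hμ⟩
    refine ⟨μ, ?_⟩
    rw [hμ, Matrix.GeneralLinearGroup.scalar_commute, inv_mul_cancel_left]

theorem congrU_of_conj (hF : Fintype.card F = q ^ 2) (hn : 3 ≤ n) (τ : F ≃+* F)
    (h h' : ↥(Cfsg.GU n F q))
    (hc : Cfsg.IsConjUnder (Cfsg.inndiagPSU n F q) (gamU τ h) (gamU τ h')) :
    ∃ (b : ↥(Cfsg.GU n F q)) (μ : Fˣ), (h' : GL (Fin n) F) =
      Matrix.GeneralLinearGroup.scalar (Fin n) μ * ((b : GL (Fin n) F) * (h : GL (Fin n) F) *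
        (Matrix.GeneralLinearGroup.map (τ : F →+* F) (b : GL (Fin n) F))⁻¹) := by
  obtain ⟨x, hx, hxe⟩ := hc
  obtain ⟨b, rfl⟩ := (mem_inndiag x).1 hx
  rw [gamU_conj, gamU_eq_iff hF hn] at hxe
  obtain ⟨μ, hμ⟩ := hxe
  refine ⟨b, μ⁻¹, ?_⟩
  have e : ((b * h * (mapU τ b)⁻¹ : ↥(Cfsg.GU n F q)) : GL (Fin n) F) =
      (b : GL (Fin n) F) * (h : GL (Fin n) F) *
        (Matrix.GeneralLinearGroup.map (τ : F →+* F) (b : GL (Fin n) F))⁻¹ := rfl
  rw [← e, hμ, map_inv, inv_mul_cancel_left]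

theorem conjU_of_congr (hF : Fintype.card F = q ^ 2) (hn : 3 ≤ n) (τ : F ≃+* F)
    (h h' b : ↥(Cfsg.GU n F q)) (μ : Fˣ)
    (e : (h' : GL (Fin n) F) =
      Matrix.GeneralLinearGroup.scalar (Fin n) μ * ((b : GL (Fin n) F) * (h : GL (Fin n) F) *
        (Matrix.GeneralLinearGroup.map (τ : F →+* F) (b : GL (Fin n) F))⁻¹)) :
    Cfsg.IsConjUnder (Cfsg.inndiagPSU n F q) (gamU τ h) (gamU τ h') := by
  refine ⟨conjAut b, (mem_inndiag _).2 ⟨_, rfl⟩, ?_⟩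
  rw [gamU_conj, gamU_eq_iff hF hn]
  refine ⟨μ⁻¹, ?_⟩
  show (b : GL (Fin n) F) * (h : GL (Fin n) F) *
      (Matrix.GeneralLinearGroup.map (τ : F →+* F) (b : GL (Fin n) F))⁻¹ =
    Matrix.GeneralLinearGroup.scalar (Fin n) μ⁻¹ * (h' : GL (Fin n) F)
  rw [e, map_inv, inv_mul_cancel_left]

theorem gamU_isGraph (hn : 3 ≤ n) (τ : F ≃+* F) (hτ : orderOf τ = 2) (h : ↥(Cfsg.GU n F q)) :
    Cfsg.IsGraphAutClassPSU (gamU τ h) :=
  ⟨hn, conjAut h, fieldAut τ, τ, by rw [hτ]; exact even_two, conjAut_innerDiag h,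
    fieldAut_isField τ, rfl⟩

theorem gamU_sq (τ : F ≃+* F) (hτ2 : τ * τ = 1) (h : ↥(Cfsg.GU n F q)) :
    gamU τ h * gamU τ h = (conjAut (h * mapU τ h) : MulAut (Cfsg.PSU n F q)) := by
  unfold gamU
  calc (conjAut h : MulAut (Cfsg.PSU n F q)) * fieldAut τ * (conjAut h * fieldAut τ)
      = conjAut h * (fieldAut τ * conjAut h) * fieldAut τ := by group
    _ = conjAut h * (conjAut (mapU τ h) * fieldAut τ) * fieldAut τ := by rw [field_conj']
    _ = conjAut h * conjAut (mapU τ h) * (fieldAut τ * fieldAut τ) := by group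
    _ = conjAut (h * mapU τ h) := by rw [← map_mul fieldAut, hτ2, map_one, mul_one, map_mul]

theorem gamU_ne_one (hF : Fintype.card F = q ^ 2) (hn : 3 ≤ n) (τ : F ≃+* F) (hτ1 : τ ≠ 1)
    (h : ↥(Cfsg.GU n F q)) : gamU τ h ≠ 1 := fun e =>
  hτ1 (conj_field_eq_one hF hn h τ e).1

theorem gamU_order (hF : Fintype.card F = q ^ 2) (hn : 3 ≤ n) (τ : F ≃+* F) (hτ1 : τ ≠ 1)
    (hτ2 : τ * τ = 1) (h : ↥(Cfsg.GU n F q)) (lam : Fˣ)
    (hh : (h : GL (Fin n) F) * Matrix.GeneralLinearGroup.map (τ : F →+* F) (h : GL (Fin n) F) =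
      Matrix.GeneralLinearGroup.scalar (Fin n) lam) :
    orderOf (gamU τ h) = 2 := by
  apply orderOf_eq_prime _ (gamU_ne_one hF hn τ hτ1 h)
  rw [pow_two, gamU_sq τ hτ2]
  apply conjAut_scalar _ (lam : F)
  intro x
  show (((h : GL (Fin n) F) * Matrix.GeneralLinearGroup.map (τ : F →+* F) (h : GL (Fin n) F) :
    GL (Fin n) F) : Mn n F) *ᵥ x = _
  rw [hh, scalar_mulVec]

theorem graphU_eq_gam (hF : Fintype.card F = q ^ 2) (hn : 3 ≤ n) (τ : F ≃+* F)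
    (hτo : orderOf τ = 2) {p f : ℕ} [Fact p.Prime] (hF' : Fintype.card F = p ^ f) (hf : 1 ≤ f)
    (γ : MulAut (Cfsg.PSU n F q)) (hγ : Cfsg.IsGraphAutClassPSU γ) (hγ2 : orderOf γ = 2) :
    ∃ h : ↥(Cfsg.GU n F q), γ = gamU τ h := by
  obtain ⟨-, δ, φ, σ, hσ, hδ, hφ, rfl⟩ := hγ
  obtain ⟨h, rfl⟩ := eq_conjAut_of_innerDiag δ hδ
  rw [eq_fieldAut_of σ φ hφ] at hγ2 ⊢
  have h1 : ((conjAut h : MulAut (Cfsg.PSU n F q)) * fieldAut σ) ^ 2 = 1 := by
    rw [← hγ2]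
    exact pow_orderOf_eq_one _
  rw [conj_field_pow] at h1
  have h2 := (conj_field_eq_one hF hn _ _ h1).1
  have h3 : orderOf σ = 2 := by
    have hd : orderOf σ ∣ 2 := orderOf_dvd_of_pow_eq_one h2
    rcases (Nat.dvd_prime Nat.prime_two).1 hd with h4 | h4
    · rw [h4] at hσ
      exact absurd hσ (by decide)
    · exact h4
  have h5 : σ = τ := PN.ringAut_invol_unique hF' hf σ τ h3 hτo
  exact ⟨h, by rw [h5]; rfl⟩

theorem invol_lam (hF : Fintype.card F = q ^ 2) (hn : 3 ≤ n) (τ : F ≃+* F) (hτ2 : τ * τ = 1)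
    (hτq : ∀ a, τ a = a ^ q) (h : ↥(Cfsg.GU n F q)) (hsq : gamU τ h * gamU τ h = 1) :
    ∃ lam : Fˣ, (lam = 1 ∨ lam = -1) ∧
      (h : GL (Fin n) F) * Matrix.GeneralLinearGroup.map (τ : F →+* F) (h : GL (Fin n) F) =
        Matrix.GeneralLinearGroup.scalar (Fin n) lam := by
  rw [gamU_sq τ hτ2, conjAut_eq_one_iff hF hn, scalar_iff_center (by omega),
    Matrix.GeneralLinearGroup.center_eq_range_scalar, MonoidHom.mem_range] at hsq
  obtain ⟨lam, hlam⟩ := hsq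
  have e : ((h * mapU τ h : ↥(Cfsg.GU n F q)) : GL (Fin n) F) =
      (h : GL (Fin n) F) * Matrix.GeneralLinearGroup.map (τ : F →+* F) (h : GL (Fin n) F) := rfl
  rw [e] at hlam
  refine ⟨lam, ?_, hlam.symm⟩
  have hT : Matrix.GeneralLinearGroup.map (τ : F →+* F) (h : GL (Fin n) F) =
      PN.itGL (h : GL (Fin n) F) := by
    have h1 := (PN.mem_GU_iff τ hτ2 q hτq _).1 h.2
    have h2 := congrArg (Matrix.GeneralLinearGroup.map (τ : F →+* F)) h1
    rw [PN.map_map_invol τ hτ2] at h2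
    exact h2.symm
  rw [hT] at hlam
  have h3 : PN.itGL (h : GL (Fin n) F) * (h : GL (Fin n) F) =
      Matrix.GeneralLinearGroup.scalar (Fin n) lam := by
    have h4 : PN.itGL (h : GL (Fin n) F) =
        (h : GL (Fin n) F)⁻¹ * Matrix.GeneralLinearGroup.scalar (Fin n) lam := by
      rw [hlam, inv_mul_cancel_left]
    rw [h4, mul_assoc, Matrix.GeneralLinearGroup.scalar_commute, inv_mul_cancel_left]
  have h5 : PN.itGL (h : GL (Fin n) F) * (h : GL (Fin n) F) =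
      (Matrix.GeneralLinearGroup.scalar (Fin n) lam)⁻¹ := by
    have h6 := congrArg PN.itGL hlam
    rw [PN.itGL_scalar, map_mul, PN.itGL_itGL, map_inv] at h6
    exact h6.symm
  have h7 : Matrix.GeneralLinearGroup.scalar (Fin n) (lam * lam) =
      Matrix.GeneralLinearGroup.scalar (Fin n) 1 := by
    have h8 : Matrix.GeneralLinearGroup.scalar (Fin n) lam =
        (Matrix.GeneralLinearGroup.scalar (Fin n) lam)⁻¹ := h3.symm.trans h5
    rw [map_mul, map_one]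
    nth_rewrite 2 [h8]
    exact mul_inv_cancel _
  have h8 : lam * lam = 1 := PN.scalar_inj (by omega) _ _ h7
  have h9 : ((lam : F) - 1) * ((lam : F) + 1) = 0 := by
    have h10 : (lam : F) * (lam : F) = 1 := by
      rw [← Units.val_mul, h8, Units.val_one]
    linear_combination h10
  rcases mul_eq_zero.1 h9 with h | h
  · left
    exact Units.ext (sub_eq_zero.1 h)
  · right
    exact Units.ext (by rw [Units.val_neg, Units.val_one]; exact eq_neg_of_add_eq_zero_left h)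

end psu2

end Cfsg.Agent.Lib.helper13.PU
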