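import Mathlib
import Cfsg.Prelude.Def_LieTypeDatum
import Cfsg.Agent.Lib.helper13.PSUGraph2

set_option autoImplicit false
set_option linter.unusedSectionVars false
set_option linter.unusedVariables false
set_option linter.style.longLine false

/-!
Involutory graph automorphisms of `PSU_n(q)`: classification via descent data.
-/

namespace Cfsg.Agent.Lib.helper13.PU

open Matrix

section glalg3

variable {K : Type*} [Field K] {n : ℕ}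

theorem itGL_inv_coe (x : GL (Fin n) K) :
    (((PN.itGL x)⁻¹ : GL (Fin n) K) : Matrix (Fin n) (Fin n) K) =
      (x : Matrix (Fin n) (Fin n) K)ᵀ := by
  rw [← map_inv, PN.itGL_coe, inv_inv]

theorem rel_coe (S S' x : GL (Fin n) K) (c : Kˣ)
    (h : S = Matrix.GeneralLinearGroup.scalar (Fin n) c * (PN.itGL x)⁻¹ * S' * x) :
    (S : Matrix (Fin n) (Fin n) K) = (c : K) • ((x : Matrix (Fin n) (Fin n) K)ᵀ *
      (S' : Matrix (Fin n) (Fin n) K) * (x : Matrix (Fin n) (Fin n) K)) := by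
  rw [h, mul_assoc, mul_assoc, scalar_mul_coe, Units.val_mul, Units.val_mul, itGL_inv_coe,
    Matrix.mul_assoc]

theorem rel_of_congr (S S' A : GL (Fin n) K) (c : Kˣ)
    (h : (A : Matrix (Fin n) (Fin n) K) * (S' : Matrix (Fin n) (Fin n) K) *
      (A : Matrix (Fin n) (Fin n) K)ᵀ = (c : K) • (S : Matrix (Fin n) (Fin n) K)) :
    S = Matrix.GeneralLinearGroup.scalar (Fin n) c⁻¹ * (PN.itGL (PN.itGL A)⁻¹)⁻¹ * S' *
      (PN.itGL A)⁻¹ := by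
  have h1 : Matrix.GeneralLinearGroup.scalar (Fin n) c * S = A * S' * (PN.itGL A)⁻¹ := by
    apply Units.ext
    rw [scalar_mul_coe, Units.val_mul, Units.val_mul, itGL_inv_coe, h]
  have h2 : (PN.itGL (PN.itGL A)⁻¹)⁻¹ = A := by
    rw [map_inv, inv_inv, PN.itGL_itGL]
  have h3 : Matrix.GeneralLinearGroup.scalar (Fin n) c⁻¹ =
      (Matrix.GeneralLinearGroup.scalar (Fin n) c)⁻¹ := map_inv _ _
  rw [h2, h3, mul_assoc, mul_assoc, ← mul_assoc A, ← h1, inv_mul_cancel_left]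

theorem transpose_iff (S : GL (Fin n) K) (c : Kˣ) :
    PN.itGL S = Matrix.GeneralLinearGroup.scalar (Fin n) c⁻¹ * S⁻¹ ↔
      (S : Matrix (Fin n) (Fin n) K)ᵀ = (c : K) • (S : Matrix (Fin n) (Fin n) K) := by
  have h3 : Matrix.GeneralLinearGroup.scalar (Fin n) c⁻¹ =
      (Matrix.GeneralLinearGroup.scalar (Fin n) c)⁻¹ := map_inv _ _
  have h1 : PN.itGL S = Matrix.GeneralLinearGroup.scalar (Fin n) c⁻¹ * S⁻¹ ↔
      (PN.itGL S)⁻¹ = Matrix.GeneralLinearGroup.scalar (Fin n) c * S := by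
    constructor
    · intro h
      rw [h, h3, _root_.mul_inv_rev, inv_inv, inv_inv]
      exact (Matrix.GeneralLinearGroup.scalar_commute _ _).symm
    · intro h
      rw [← inv_inv (PN.itGL S), h, h3, _root_.mul_inv_rev, ← h3]
      exact (Matrix.GeneralLinearGroup.scalar_commute _ _).symm
  rw [h1, ← itGL_inv_coe, ← scalar_mul_coe]
  exact Units.ext_iff

theorem gu_of_Wm_eq (τ : K ≃+* K) (hτ2 : τ * τ = 1) (q : ℕ) (hτq : ∀ a, τ a = a ^ q)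
    (a a'' : GL (Fin n) K) (h : Wm τ a'' = Wm τ a) : a'' * a⁻¹ ∈ Cfsg.GU n K q := by
  rw [PN.mem_GU_iff τ hτ2 q hτq, map_mul, map_mul, map_inv, map_inv]
  unfold Wm at h
  obtain ⟨P, hP⟩ : ∃ P, P = Matrix.GeneralLinearGroup.map (τ : K →+* K) (PN.itGL a) := ⟨_, rfl⟩
  obtain ⟨P'', hP''⟩ : ∃ P'', P'' = Matrix.GeneralLinearGroup.map (τ : K →+* K) (PN.itGL a'') :=
    ⟨_, rfl⟩
  rw [← hP, ← hP''] at h ⊢
  calc P'' * P⁻¹ = P'' * (P⁻¹ * a) * a⁻¹ := by group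
    _ = P'' * (P''⁻¹ * a'') * a⁻¹ := by rw [h]
    _ = a'' * a⁻¹ := by group

theorem data_sq (τ : K ≃+* K) (hτ2 : τ * τ = 1) (ν lam : Kˣ)
    (hν : ν * Units.map ((τ : K →+* K) : K →* K) ν = lam) (h a : GL (Fin n) K)
    (ha : h = Matrix.GeneralLinearGroup.scalar (Fin n) ν * a *
      (Matrix.GeneralLinearGroup.map (τ : K →+* K) a)⁻¹) :
    h * Matrix.GeneralLinearGroup.map (τ : K →+* K) h =
      Matrix.GeneralLinearGroup.scalar (Fin n) lam := by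
  rw [ha, map_mul, map_mul, map_inv, PN.map_map_invol τ hτ2,
    Matrix.GeneralLinearGroup.map_scalar, ← hν,
    map_mul (Matrix.GeneralLinearGroup.scalar (Fin n)) ν]
  obtain ⟨B, hB⟩ : ∃ B, B = Matrix.GeneralLinearGroup.map (τ : K →+* K) a := ⟨_, rfl⟩
  obtain ⟨s, hs⟩ : ∃ s, s = Matrix.GeneralLinearGroup.scalar (Fin n) ν := ⟨_, rfl⟩
  obtain ⟨t, ht⟩ : ∃ t, t = Matrix.GeneralLinearGroup.scalar (Fin n)
      (Units.map ((τ : K →+* K) : K →* K) ν) := ⟨_, rfl⟩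
  have ct : ∀ g : GL (Fin n) K, t * g = g * t := fun g => by
    rw [ht]; exact Matrix.GeneralLinearGroup.scalar_commute _ g
  rw [← hB, ← hs, ← ht]
  calc s * a * B⁻¹ * (t * B * a⁻¹) = s * a * (B⁻¹ * t) * B * a⁻¹ := by group
    _ = s * a * (t * B⁻¹) * B * a⁻¹ := by rw [ct B⁻¹]
    _ = s * (a * t) * a⁻¹ := by group
    _ = s * (t * a) * a⁻¹ := by rw [ct a]
    _ = s * t := by group

end glalg3

section psu3

variable {F : Type*} [Field F] [Fintype F] {q n : ℕ} {F₀ : Type*} [Field F₀]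

theorem norm_of_fixed (hF : Fintype.card F = q ^ 2) (τ : F ≃+* F) (hτq : ∀ a, τ a = a ^ q)
    (ι : F₀ →+* F) (hι : ∀ b : F, τ b = b ↔ ∃ a, ι a = b) (c : F₀ˣ) :
    ∃ d : Fˣ, d * Units.map ((τ : F →+* F) : F →* F) d = Units.map (ι : F₀ →* F) c := by
  have hfix : (ι (c : F₀)) ^ q = ι (c : F₀) := by
    rw [← hτq]
    exact (hι _).2 ⟨_, rfl⟩
  obtain ⟨d, hd⟩ := Cfsg.Agent.Lib.helper4.unorm_surj hF (ι (c : F₀)) hfix
  have hd0 : d ≠ 0 := by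
    rintro rfl
    rw [zero_pow (by omega)] at hd
    exact (map_ne_zero ι).2 c.ne_zero hd.symm
  refine ⟨Units.mk0 d hd0, Units.ext ?_⟩
  show d * τ d = _
  rw [hτq, ← pow_succ', hd]
  rfl

theorem fixed_of_norm (τ : F ≃+* F) (hτ2 : τ * τ = 1)
    (ι : F₀ →+* F) (hι : ∀ b : F, τ b = b ↔ ∃ a, ι a = b) (d : Fˣ) :
    ∃ c : F₀ˣ, d * Units.map ((τ : F →+* F) : F →* F) d = Units.map (ι : F₀ →* F) c := by
  have hττ : τ (τ (d : F)) = d := congrArg (fun s : F ≃+* F => s (d : F)) hτ2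
  have hfix : τ ((d : F) * τ (d : F)) = (d : F) * τ (d : F) := by
    rw [map_mul, hττ, mul_comm]
  obtain ⟨c₀, hc₀⟩ := (hι _).1 hfix
  have hc0 : c₀ ≠ 0 := by
    rintro rfl
    rw [map_zero] at hc₀
    exact mul_ne_zero d.ne_zero ((map_ne_zero τ).2 d.ne_zero) hc₀.symm
  exact ⟨Units.mk0 c₀ hc0, Units.ext hc₀.symm⟩

/-- descent data for a graph automorphism -/
def IsData (τ : F ≃+* F) (ι : F₀ →+* F) (ν κ : Fˣ) (h : ↥(Cfsg.GU n F q)) (a : GL (Fin n) F)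
    (S₀ : GL (Fin n) F₀) : Prop :=
  (h : GL (Fin n) F) = Matrix.GeneralLinearGroup.scalar (Fin n) ν * a *
      (Matrix.GeneralLinearGroup.map (τ : F →+* F) a)⁻¹ ∧
    Wm τ a = Matrix.GeneralLinearGroup.scalar (Fin n) κ * Matrix.GeneralLinearGroup.map ι S₀

theorem data_exist (τ : F ≃+* F) (hτq : ∀ a, τ a = a ^ q) (hτ1 : τ ≠ 1) (hτ2 : τ * τ = 1)
    (ι : F₀ →+* F) (hι : ∀ b : F, τ b = b ↔ ∃ a, ι a = b) (ν κ lam : Fˣ)
    (hν : ν * Units.map ((τ : F →+* F) : F →* F) ν = lam)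
    (hκ : Units.map ((τ : F →+* F) : F →* F) κ = lam * κ) (h : ↥(Cfsg.GU n F q))
    (hh : (h : GL (Fin n) F) * Matrix.GeneralLinearGroup.map (τ : F →+* F) (h : GL (Fin n) F) =
      Matrix.GeneralLinearGroup.scalar (Fin n) lam) :
    ∃ (a : GL (Fin n) F) (S₀ : GL (Fin n) F₀), IsData τ ι ν κ h a S₀ := by
  have hord : orderOf τ = 2 := orderOf_eq_prime (by rw [pow_two]; exact hτ2) hτ1
  obtain ⟨g, hg⟩ : ∃ g, g = (Matrix.GeneralLinearGroup.scalar (Fin n) ν)⁻¹ *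
      (h : GL (Fin n) F) := ⟨_, rfl⟩
  have hN : H90.Nm τ g 2 = 1 := by
    show g * Matrix.GeneralLinearGroup.map (τ : F →+* F)
      (g * Matrix.GeneralLinearGroup.map (τ : F →+* F) 1) = 1
    rw [map_one, mul_one, hg, map_mul, map_inv, Matrix.GeneralLinearGroup.map_scalar]
    obtain ⟨H, hH⟩ : ∃ H, H = (h : GL (Fin n) F) := ⟨_, rfl⟩
    obtain ⟨TH, hTH⟩ : ∃ TH, TH = Matrix.GeneralLinearGroup.map (τ : F →+* F) H := ⟨_, rfl⟩
    obtain ⟨s, hs⟩ : ∃ s, s = Matrix.GeneralLinearGroup.scalar (Fin n) ν := ⟨_, rfl⟩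
    obtain ⟨t, ht⟩ : ∃ t, t = Matrix.GeneralLinearGroup.scalar (Fin n)
        (Units.map ((τ : F →+* F) : F →* F) ν) := ⟨_, rfl⟩
    have ct : ∀ g : GL (Fin n) F, t * g = g * t := fun g => by
      rw [ht]; exact Matrix.GeneralLinearGroup.scalar_commute _ g
    have ct' : ∀ g : GL (Fin n) F, t⁻¹ * g = g * t⁻¹ := fun g => by
      rw [eq_mul_inv_iff_mul_eq, mul_assoc, ← ct g, inv_mul_cancel_left]
    have hst : H * TH = s * t := by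
      rw [hTH, hH, hh, ← hν, map_mul, hs, ht]
    rw [← hH, ← hTH, ← hs, ← ht]
    calc s⁻¹ * H * (t⁻¹ * TH) = s⁻¹ * (H * t⁻¹) * TH := by group
      _ = s⁻¹ * (t⁻¹ * H) * TH := by rw [ct' H]
      _ = s⁻¹ * t⁻¹ * (H * TH) := by group
      _ = s⁻¹ * t⁻¹ * (s * t) := by rw [hst]
      _ = s⁻¹ * (t⁻¹ * s) * t := by group
      _ = s⁻¹ * (s * t⁻¹) * t := by rw [ct' s]
      _ = 1 := by group
  obtain ⟨a, ha⟩ := H90.hilbert90 τ 2 (by norm_num) hord g hN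
  have ha' : (h : GL (Fin n) F) = Matrix.GeneralLinearGroup.scalar (Fin n) ν * a *
      (Matrix.GeneralLinearGroup.map (τ : F →+* F) a)⁻¹ := by
    rw [mul_assoc, ← ha, hg, mul_inv_cancel_left]
  have hW : Matrix.GeneralLinearGroup.map (τ : F →+* F) (Wm τ a) =
      Matrix.GeneralLinearGroup.scalar (Fin n) lam * Wm τ a := by
    rw [← gu_iff_Wm τ hτ2 q hτq a ν lam hν, ← ha']
    exact h.2
  have hfix : Matrix.GeneralLinearGroup.map (τ : F →+* F)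
      ((Matrix.GeneralLinearGroup.scalar (Fin n) κ)⁻¹ * Wm τ a) =
      (Matrix.GeneralLinearGroup.scalar (Fin n) κ)⁻¹ * Wm τ a := by
    rw [map_mul, map_inv, Matrix.GeneralLinearGroup.map_scalar, hκ, hW,
      map_mul (Matrix.GeneralLinearGroup.scalar (Fin n)) lam, _root_.mul_inv_rev, mul_assoc,
      inv_mul_cancel_left]
  obtain ⟨S₀, hS₀⟩ := PN.exists_map_of_fixed ι τ hι _ hfix
  refine ⟨a, S₀, ha', ?_⟩
  rw [hS₀, mul_inv_cancel_left]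

theorem data_rep (τ : F ≃+* F) (hτq : ∀ a, τ a = a ^ q) (hτ1 : τ ≠ 1) (hτ2 : τ * τ = 1)
    (ι : F₀ →+* F) (hι : ∀ b : F, τ b = b ↔ ∃ a, ι a = b) (ν κ lam : Fˣ)
    (hν : ν * Units.map ((τ : F →+* F) : F →* F) ν = lam)
    (hκ : Units.map ((τ : F →+* F) : F →* F) κ = lam * κ) (S₀ : GL (Fin n) F₀)
    (hS : Matrix.GeneralLinearGroup.map ι (PN.itGL S₀) =
      Matrix.GeneralLinearGroup.scalar (Fin n) lam * (Matrix.GeneralLinearGroup.map ι S₀)⁻¹) :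
    ∃ (h : ↥(Cfsg.GU n F q)) (a : GL (Fin n) F), IsData τ ι ν κ h a S₀ := by
  obtain ⟨M, hM⟩ : ∃ M, M = Matrix.GeneralLinearGroup.scalar (Fin n) κ *
      Matrix.GeneralLinearGroup.map ι S₀ := ⟨_, rfl⟩
  have e1 : Units.map ((τ : F →+* F) : F →* F) κ⁻¹ * lam = κ⁻¹ := by
    rw [map_inv, hκ, _root_.mul_inv_rev, inv_mul_cancel_right]
  have hTM : Matrix.GeneralLinearGroup.map (τ : F →+* F) (PN.itGL M) = M⁻¹ := by
    rw [hM, map_mul, PN.itGL_scalar, itGL_mapι', map_mul, Matrix.GeneralLinearGroup.map_scalar,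
      PN.map_map_fixed ι τ hι, hS, ← mul_assoc, ← map_mul, e1, _root_.mul_inv_rev,
      ← map_inv (Matrix.GeneralLinearGroup.scalar (Fin n)) κ]
    exact Matrix.GeneralLinearGroup.scalar_commute _ _
  have hL : Matrix.GeneralLinearGroup.map (τ : F →+* F) (PN.itGL M⁻¹) = M⁻¹⁻¹ := by
    rw [map_inv, map_inv, hTM]
  obtain ⟨k, hk⟩ := herm_decomp_GL τ hτ1 hτ2 M⁻¹ hL
  obtain ⟨a, ha⟩ : ∃ a, a = (Matrix.GeneralLinearGroup.map (τ : F →+* F) (PN.itGL k))⁻¹ :=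
    ⟨_, rfl⟩
  have hW : Wm τ a = M := by
    unfold Wm
    rw [ha, map_inv, map_inv, PN.theta_theta τ hτ2, inv_inv, ← inv_inv M, hk,
      _root_.mul_inv_rev, inv_inv]
  have hmem : Matrix.GeneralLinearGroup.scalar (Fin n) ν * a *
      (Matrix.GeneralLinearGroup.map (τ : F →+* F) a)⁻¹ ∈ Cfsg.GU n F q := by
    rw [gu_iff_Wm τ hτ2 q hτq a ν lam hν, hW, hM, map_mul, Matrix.GeneralLinearGroup.map_scalar,
      PN.map_map_fixed ι τ hι, hκ, map_mul (Matrix.GeneralLinearGroup.scalar (Fin n)) lam,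
      mul_assoc]
  exact ⟨⟨_, hmem⟩, a, rfl, by rw [hW, hM]⟩

theorem data_sym (τ : F ≃+* F) (hτq : ∀ a, τ a = a ^ q) (hτ2 : τ * τ = 1)
    (ι : F₀ →+* F) (ν κ lam : Fˣ)
    (hν : ν * Units.map ((τ : F →+* F) : F →* F) ν = lam) (h : ↥(Cfsg.GU n F q))
    (a : GL (Fin n) F) (S₀ : GL (Fin n) F₀) (hd : IsData τ ι ν κ h a S₀) :
    Matrix.GeneralLinearGroup.map ι (PN.itGL S₀) =
      Matrix.GeneralLinearGroup.scalar (Fin n) lam⁻¹ * (Matrix.GeneralLinearGroup.map ι S₀)⁻¹ := by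
  obtain ⟨ha, hS⟩ := hd
  have hW : Matrix.GeneralLinearGroup.map (τ : F →+* F) (Wm τ a) =
      Matrix.GeneralLinearGroup.scalar (Fin n) lam * Wm τ a := by
    rw [← gu_iff_Wm τ hτ2 q hτq a ν lam hν, ← ha]
    exact h.2
  have h1 := itGL_Wm τ hτ2 a
  rw [hW, hS, map_mul, PN.itGL_scalar, itGL_mapι'] at h1
  have h2 : Matrix.GeneralLinearGroup.map ι (PN.itGL S₀) =
      (Matrix.GeneralLinearGroup.scalar (Fin n) κ⁻¹)⁻¹ *
        (Matrix.GeneralLinearGroup.scalar (Fin n) lam *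
          (Matrix.GeneralLinearGroup.scalar (Fin n) κ *
            Matrix.GeneralLinearGroup.map ι S₀))⁻¹ := by
    rw [← h1, inv_mul_cancel_left]
  rw [h2, map_inv (Matrix.GeneralLinearGroup.scalar (Fin n)) κ, inv_inv]
  have e1 : (Matrix.GeneralLinearGroup.scalar (Fin n) lam)⁻¹ =
      Matrix.GeneralLinearGroup.scalar (Fin n) lam⁻¹ := (map_inv _ _).symm
  obtain ⟨X, hX⟩ : ∃ X, X = Matrix.GeneralLinearGroup.map ι S₀ := ⟨_, rfl⟩
  obtain ⟨s, hs⟩ : ∃ s, s = Matrix.GeneralLinearGroup.scalar (Fin n) κ := ⟨_, rfl⟩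
  have cs : ∀ g : GL (Fin n) F, s * g = g * s := fun g => by
    rw [hs]; exact Matrix.GeneralLinearGroup.scalar_commute _ g
  rw [← hX, ← hs, ← e1]
  obtain ⟨t, ht⟩ : ∃ t, t = Matrix.GeneralLinearGroup.scalar (Fin n) lam := ⟨_, rfl⟩
  have ct : ∀ g : GL (Fin n) F, t * g = g * t := fun g => by
    rw [ht]; exact Matrix.GeneralLinearGroup.scalar_commute _ g
  have ct' : ∀ g : GL (Fin n) F, t⁻¹ * g = g * t⁻¹ := fun g => by
    rw [eq_mul_inv_iff_mul_eq, mul_assoc, ← ct g, inv_mul_cancel_left]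
  rw [← ht]
  calc s * (t * (s * X))⁻¹ = (s * X⁻¹) * s⁻¹ * t⁻¹ := by group
    _ = (X⁻¹ * s) * s⁻¹ * t⁻¹ := by rw [cs X⁻¹]
    _ = X⁻¹ * t⁻¹ := by group
    _ = t⁻¹ * X⁻¹ := (ct' _).symm

theorem data_conj (hF : Fintype.card F = q ^ 2) (hn : 3 ≤ n) (τ : F ≃+* F)
    (hτq : ∀ a, τ a = a ^ q) (hτ2 : τ * τ = 1)
    (ι : F₀ →+* F) (hι : ∀ b : F, τ b = b ↔ ∃ a, ι a = b) (ν κ : Fˣ)
    (h h' : ↥(Cfsg.GU n F q)) (a a' : GL (Fin n) F) (S₀ S₀' : GL (Fin n) F₀)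
    (hd : IsData τ ι ν κ h a S₀) (hd' : IsData τ ι ν κ h' a' S₀') (x : GL (Fin n) F₀)
    (c : F₀ˣ)
    (hc : S₀ = Matrix.GeneralLinearGroup.scalar (Fin n) c * (PN.itGL x)⁻¹ * S₀' * x) :
    Cfsg.IsConjUnder (Cfsg.inndiagPSU n F q) (gamU τ h) (gamU τ h') := by
  obtain ⟨ha, hS⟩ := hd
  obtain ⟨ha', hS'⟩ := hd'
  obtain ⟨d, hdc⟩ := norm_of_fixed hF τ hτq ι hι c
  obtain ⟨a'', ha''⟩ : ∃ a'', a'' = Matrix.GeneralLinearGroup.scalar (Fin n) d *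
      (a' * Matrix.GeneralLinearGroup.map ι x) := ⟨_, rfl⟩
  have hW : Wm τ a'' = Wm τ a := by
    rw [ha'', Wm_scalar_mul, Wm_mul_iota ι τ hι, hS, hS', hdc, hc, map_mul, map_mul, map_mul,
      Matrix.GeneralLinearGroup.map_scalar, map_inv]
    obtain ⟨u, hu⟩ : ∃ u, u = Matrix.GeneralLinearGroup.scalar (Fin n)
        (Units.map (ι : F₀ →* F) c) := ⟨_, rfl⟩
    obtain ⟨s, hs⟩ : ∃ s, s = Matrix.GeneralLinearGroup.scalar (Fin n) κ := ⟨_, rfl⟩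
    obtain ⟨P, hP⟩ : ∃ P, P = Matrix.GeneralLinearGroup.map ι (PN.itGL x) := ⟨_, rfl⟩
    obtain ⟨Y, hY⟩ : ∃ Y, Y = Matrix.GeneralLinearGroup.map ι S₀' := ⟨_, rfl⟩
    obtain ⟨X, hX⟩ : ∃ X, X = Matrix.GeneralLinearGroup.map ι x := ⟨_, rfl⟩
    have cs : ∀ g : GL (Fin n) F, s * g = g * s := fun g => by
      rw [hs]; exact Matrix.GeneralLinearGroup.scalar_commute _ g
    rw [← hu, ← hs, ← hP, ← hY, ← hX]
    calc u * (P⁻¹ * (s * Y) * X) = u * ((P⁻¹ * s) * Y * X) := by group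
      _ = u * ((s * P⁻¹) * Y * X) := by rw [cs P⁻¹]
      _ = (u * s) * (P⁻¹ * Y * X) := by group
      _ = (s * u) * (P⁻¹ * Y * X) := by rw [cs u]
      _ = s * (u * P⁻¹ * Y * X) := by group
  have hb : a'' * a⁻¹ ∈ Cfsg.GU n F q := gu_of_Wm_eq τ hτ2 q hτq a a'' hW
  apply conjU_of_congr hF hn τ h h' ⟨_, hb⟩ (Units.map ((τ : F →+* F) : F →* F) d * d⁻¹)
  show (h' : GL (Fin n) F) = Matrix.GeneralLinearGroup.scalar (Fin n)
      (Units.map ((τ : F →+* F) : F →* F) d * d⁻¹) * (a'' * a⁻¹ * (h : GL (Fin n) F) *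
        (Matrix.GeneralLinearGroup.map (τ : F →+* F) (a'' * a⁻¹))⁻¹)
  rw [ha, ha', ha'', map_mul, map_mul, map_mul, map_mul, map_inv,
    Matrix.GeneralLinearGroup.map_scalar, PN.map_map_fixed ι τ hι, map_inv]
  obtain ⟨sν, hsν⟩ : ∃ s, s = Matrix.GeneralLinearGroup.scalar (Fin n) ν := ⟨_, rfl⟩
  obtain ⟨sd, hsd⟩ : ∃ s, s = Matrix.GeneralLinearGroup.scalar (Fin n) d := ⟨_, rfl⟩
  obtain ⟨st, hst⟩ : ∃ s, s = Matrix.GeneralLinearGroup.scalar (Fin n)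
      (Units.map ((τ : F →+* F) : F →* F) d) := ⟨_, rfl⟩
  obtain ⟨B, hB⟩ : ∃ B, B = Matrix.GeneralLinearGroup.map (τ : F →+* F) a := ⟨_, rfl⟩
  obtain ⟨B', hB'⟩ : ∃ B', B' = Matrix.GeneralLinearGroup.map (τ : F →+* F) a' := ⟨_, rfl⟩
  obtain ⟨X, hX⟩ : ∃ X, X = Matrix.GeneralLinearGroup.map ι x := ⟨_, rfl⟩
  have cν : ∀ g : GL (Fin n) F, sν * g = g * sν := fun g => by
    rw [hsν]; exact Matrix.GeneralLinearGroup.scalar_commute _ g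
  have ct : ∀ g : GL (Fin n) F, st * g = g * st := fun g => by
    rw [hst]; exact Matrix.GeneralLinearGroup.scalar_commute _ g
  rw [← hsν, ← hsd, ← hst, ← hB, ← hB', ← hX]
  symm
  calc st * sd⁻¹ * (sd * (a' * X) * a⁻¹ * (sν * a * B⁻¹) * (st * (B' * X) * B⁻¹)⁻¹)
      = st * (a' * X) * (a⁻¹ * sν) * a * X⁻¹ * B'⁻¹ * st⁻¹ := by group
    _ = st * (a' * X) * (sν * a⁻¹) * a * X⁻¹ * B'⁻¹ * st⁻¹ := by rw [cν a⁻¹]
    _ = st * ((a' * X) * sν) * X⁻¹ * B'⁻¹ * st⁻¹ := by group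
    _ = st * (sν * (a' * X)) * X⁻¹ * B'⁻¹ * st⁻¹ := by rw [cν (a' * X)]
    _ = (st * (sν * a' * B'⁻¹)) * st⁻¹ := by group
    _ = ((sν * a' * B'⁻¹) * st) * st⁻¹ := by rw [ct (sν * a' * B'⁻¹)]
    _ = sν * a' * B'⁻¹ := by group

theorem lam_invariant (hF : Fintype.card F = q ^ 2) (hn : 3 ≤ n) (τ : F ≃+* F)
    (hτq : ∀ a, τ a = a ^ q) (hτ2 : τ * τ = 1) (h h' : ↥(Cfsg.GU n F q)) (lam lam' : Fˣ)
    (hh : (h : GL (Fin n) F) * Matrix.GeneralLinearGroup.map (τ : F →+* F) (h : GL (Fin n) F) =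
      Matrix.GeneralLinearGroup.scalar (Fin n) lam)
    (hh' : (h' : GL (Fin n) F) *
      Matrix.GeneralLinearGroup.map (τ : F →+* F) (h' : GL (Fin n) F) =
      Matrix.GeneralLinearGroup.scalar (Fin n) lam')
    (hc : Cfsg.IsConjUnder (Cfsg.inndiagPSU n F q) (gamU τ h) (gamU τ h')) : lam = lam' := by
  obtain ⟨b, μ, hbμ⟩ := congrU_of_conj hF hn τ h h' hc
  have hμ : Matrix.GeneralLinearGroup.scalar (Fin n) μ ∈ Cfsg.GU n F q := by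
    have e : Matrix.GeneralLinearGroup.scalar (Fin n) μ = (h' : GL (Fin n) F) *
        ((b : GL (Fin n) F) * (h : GL (Fin n) F) *
          (Matrix.GeneralLinearGroup.map (τ : F →+* F) (b : GL (Fin n) F))⁻¹)⁻¹ := by
      rw [hbμ]; group
    rw [e]
    exact mul_mem h'.2 (inv_mem (mul_mem (mul_mem b.2 h.2) (inv_mem (mapU τ b).2)))
  rw [PN.mem_GU_iff τ hτ2 q hτq, PN.itGL_scalar, Matrix.GeneralLinearGroup.map_scalar] at hμ
  have hμ1 : Units.map ((τ : F →+* F) : F →* F) μ⁻¹ = μ := PN.scalar_inj (by omega) _ _ hμ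
  have hμ2 : Units.map ((τ : F →+* F) : F →* F) μ = μ⁻¹ := by
    rw [map_inv] at hμ1
    exact inv_eq_iff_eq_inv.1 hμ1
  have e2 : Matrix.GeneralLinearGroup.scalar (Fin n) lam' =
      Matrix.GeneralLinearGroup.scalar (Fin n) lam := by
    rw [← hh', hbμ, map_mul, map_mul, map_mul, map_inv, Matrix.GeneralLinearGroup.map_scalar,
      PN.map_map_invol τ hτ2, hμ2, map_inv (Matrix.GeneralLinearGroup.scalar (Fin n)) μ]
    obtain ⟨sμ, hsμ⟩ : ∃ s, s = Matrix.GeneralLinearGroup.scalar (Fin n) μ := ⟨_, rfl⟩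
    obtain ⟨sl, hsl⟩ : ∃ s, s = Matrix.GeneralLinearGroup.scalar (Fin n) lam := ⟨_, rfl⟩
    obtain ⟨B, hB⟩ : ∃ B, B = (b : GL (Fin n) F) := ⟨_, rfl⟩
    obtain ⟨H, hH⟩ : ∃ H, H = (h : GL (Fin n) F) := ⟨_, rfl⟩
    obtain ⟨TB, hTB⟩ : ∃ TB, TB = Matrix.GeneralLinearGroup.map (τ : F →+* F) B := ⟨_, rfl⟩
    obtain ⟨TH, hTH⟩ : ∃ TH, TH = Matrix.GeneralLinearGroup.map (τ : F →+* F) H := ⟨_, rfl⟩
    have cμ : ∀ g : GL (Fin n) F, sμ * g = g * sμ := fun g => by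
      rw [hsμ]; exact Matrix.GeneralLinearGroup.scalar_commute _ g
    have cl : ∀ g : GL (Fin n) F, sl * g = g * sl := fun g => by
      rw [hsl]; exact Matrix.GeneralLinearGroup.scalar_commute _ g
    have hh2 : H * TH = sl := by rw [hTH, hH, hh, hsl]
    rw [← hsμ, ← hsl, ← hB, ← hH, ← hTB, ← hTH]
    calc sμ * (B * H * TB⁻¹) * (sμ⁻¹ * (TB * TH * B⁻¹))
        = sμ * ((B * H * TB⁻¹) * sμ⁻¹) * (TB * TH * B⁻¹) := by group
      _ = sμ * (sμ⁻¹ * (B * H * TB⁻¹)) * (TB * TH * B⁻¹) := by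
          congr 2
          rw [eq_inv_mul_iff_mul_eq, ← mul_assoc, cμ, mul_assoc, mul_inv_cancel, mul_one]
      _ = B * (H * TH) * B⁻¹ := by group
      _ = B * sl * B⁻¹ := by rw [hh2]
      _ = (sl * B) * B⁻¹ := by rw [cl B]
      _ = sl := by group
  exact (PN.scalar_inj (by omega) _ _ e2).symm

theorem data_nonconj [Fintype F₀] (hF : Fintype.card F = q ^ 2) (hn : 3 ≤ n) (τ : F ≃+* F)
    (hτq : ∀ a, τ a = a ^ q) (hτ1 : τ ≠ 1) (hτ2 : τ * τ = 1)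
    (ι : F₀ →+* F) (hι : ∀ b : F, τ b = b ↔ ∃ a, ι a = b) (ν κ : Fˣ)
    (h h' : ↥(Cfsg.GU n F q)) (a a' : GL (Fin n) F) (S₀ S₀' : GL (Fin n) F₀)
    (hd : IsData τ ι ν κ h a S₀) (hd' : IsData τ ι ν κ h' a' S₀')
    (hc : Cfsg.IsConjUnder (Cfsg.inndiagPSU n F q) (gamU τ h) (gamU τ h')) :
    ∃ (x : GL (Fin n) F₀) (c : F₀ˣ),
      S₀ = Matrix.GeneralLinearGroup.scalar (Fin n) c * (PN.itGL x)⁻¹ * S₀' * x := by
  obtain ⟨ha, hS⟩ := hd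
  obtain ⟨ha', hS'⟩ := hd'
  obtain ⟨b, μ, hbμ⟩ := congrU_of_conj hF hn τ h h' hc
  obtain ⟨y, hy⟩ : ∃ y, y = a'⁻¹ * (b : GL (Fin n) F) * a := ⟨_, rfl⟩
  have hTy : Matrix.GeneralLinearGroup.map (τ : F →+* F) y =
      Matrix.GeneralLinearGroup.scalar (Fin n) μ * y := by
    rw [ha, ha'] at hbμ
    rw [hy, map_mul, map_mul, map_inv]
    obtain ⟨sν, hsν⟩ : ∃ s, s = Matrix.GeneralLinearGroup.scalar (Fin n) ν := ⟨_, rfl⟩
    obtain ⟨sμ, hsμ⟩ : ∃ s, s = Matrix.GeneralLinearGroup.scalar (Fin n) μ := ⟨_, rfl⟩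
    obtain ⟨B, hB⟩ : ∃ B, B = Matrix.GeneralLinearGroup.map (τ : F →+* F) a := ⟨_, rfl⟩
    obtain ⟨B', hB'⟩ : ∃ B', B' = Matrix.GeneralLinearGroup.map (τ : F →+* F) a' := ⟨_, rfl⟩
    obtain ⟨b₀, hb₀⟩ : ∃ b₀, b₀ = (b : GL (Fin n) F) := ⟨_, rfl⟩
    obtain ⟨Tb, hTb⟩ : ∃ Tb, Tb = Matrix.GeneralLinearGroup.map (τ : F →+* F) b₀ := ⟨_, rfl⟩
    have cν : ∀ g : GL (Fin n) F, sν * g = g * sν := fun g => by
      rw [hsν]; exact Matrix.GeneralLinearGroup.scalar_commute _ g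
    have cμ : ∀ g : GL (Fin n) F, sμ * g = g * sμ := fun g => by
      rw [hsμ]; exact Matrix.GeneralLinearGroup.scalar_commute _ g
    rw [← hb₀, ← hsν, ← hsμ, ← hB, ← hB', ← hTb] at hbμ
    rw [← hb₀, ← hsμ, ← hB, ← hB', ← hTb]
    calc B'⁻¹ * Tb * B = a'⁻¹ * sν⁻¹ * (sν * a' * B'⁻¹) * Tb * B := by group
      _ = a'⁻¹ * sν⁻¹ * (sμ * (b₀ * (sν * a * B⁻¹) * Tb⁻¹)) * Tb * B := by rw [hbμ]
      _ = a'⁻¹ * sν⁻¹ * sμ * (b₀ * sν) * a := by group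
      _ = a'⁻¹ * sν⁻¹ * sμ * (sν * b₀) * a := by rw [cν b₀]
      _ = a'⁻¹ * sν⁻¹ * (sμ * sν) * b₀ * a := by group
      _ = a'⁻¹ * sν⁻¹ * (sν * sμ) * b₀ * a := by rw [cμ sν]
      _ = (a'⁻¹ * sμ) * b₀ * a := by group
      _ = (sμ * a'⁻¹) * b₀ * a := by rw [cμ a'⁻¹]
      _ = sμ * (a'⁻¹ * b₀ * a) := by group
  obtain ⟨x, d, hxd⟩ := descend_of_twisted (by omega) ι τ hτ1 hτ2 hι y μ hTy
  rw [thetaHom_apply] at hxd
  have hba : (b : GL (Fin n) F) * a = Matrix.GeneralLinearGroup.scalar (Fin n) d⁻¹ *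
      (a' * Matrix.GeneralLinearGroup.map ι x) := by
    have h1 : (b : GL (Fin n) F) * a = a' * y := by rw [hy]; group
    rw [h1, hxd, ← mul_assoc, ← Matrix.GeneralLinearGroup.scalar_commute, mul_assoc]
  have hW : Wm τ ((b : GL (Fin n) F) * a) = Wm τ a := Wm_gu_mul τ hτ2 q hτq (b : GL (Fin n) F) a b.2
  rw [hba, Wm_scalar_mul, Wm_mul_iota ι τ hι, hS, hS'] at hW
  obtain ⟨c, hc⟩ := fixed_of_norm τ hτ2 ι hι d⁻¹
  rw [hc] at hW
  refine ⟨x, c, ?_⟩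
  apply mapι_injective ι
  rw [map_mul, map_mul, map_mul, Matrix.GeneralLinearGroup.map_scalar, map_inv]
  obtain ⟨u, hu⟩ : ∃ u, u = Matrix.GeneralLinearGroup.scalar (Fin n)
      (Units.map (ι : F₀ →* F) c) := ⟨_, rfl⟩
  obtain ⟨s, hs⟩ : ∃ s, s = Matrix.GeneralLinearGroup.scalar (Fin n) κ := ⟨_, rfl⟩
  obtain ⟨P, hP⟩ : ∃ P, P = Matrix.GeneralLinearGroup.map ι (PN.itGL x) := ⟨_, rfl⟩
  obtain ⟨Y, hY⟩ : ∃ Y, Y = Matrix.GeneralLinearGroup.map ι S₀' := ⟨_, rfl⟩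
  obtain ⟨X, hX⟩ : ∃ X, X = Matrix.GeneralLinearGroup.map ι x := ⟨_, rfl⟩
  obtain ⟨Z, hZ⟩ : ∃ Z, Z = Matrix.GeneralLinearGroup.map ι S₀ := ⟨_, rfl⟩
  have cs : ∀ g : GL (Fin n) F, s * g = g * s := fun g => by
    rw [hs]; exact Matrix.GeneralLinearGroup.scalar_commute _ g
  rw [← hu, ← hs, ← hP, ← hY, ← hX, ← hZ] at hW
  rw [← hu, ← hP, ← hY, ← hX, ← hZ]
  have h2 : s * Z = s * (u * P⁻¹ * Y * X) := by
    rw [← hW]
    calc u * (P⁻¹ * (s * Y) * X) = u * ((P⁻¹ * s) * Y * X) := by group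
      _ = u * ((s * P⁻¹) * Y * X) := by rw [cs P⁻¹]
      _ = (u * s) * (P⁻¹ * Y * X) := by group
      _ = (s * u) * (P⁻¹ * Y * X) := by rw [cs u]
      _ = s * (u * P⁻¹ * Y * X) := by group
  exact mul_left_cancel h2

theorem mapι_itGL_of_transpose (ι : F₀ →+* F) (S : GL (Fin n) F₀) (c : F₀ˣ) (lam : Fˣ)
    (hc : Units.map (ι : F₀ →* F) c⁻¹ = lam)
    (hS : (S : Matrix (Fin n) (Fin n) F₀)ᵀ = (c : F₀) • (S : Matrix (Fin n) (Fin n) F₀)) :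
    Matrix.GeneralLinearGroup.map ι (PN.itGL S) =
      Matrix.GeneralLinearGroup.scalar (Fin n) lam * (Matrix.GeneralLinearGroup.map ι S)⁻¹ := by
  rw [(transpose_iff S c).2 hS, map_mul, Matrix.GeneralLinearGroup.map_scalar, hc, map_inv]

theorem transpose_of_mapι_itGL [Fintype F₀] (ι : F₀ →+* F) (S : GL (Fin n) F₀) (c : F₀ˣ)
    (lam : Fˣ) (hc : Units.map (ι : F₀ →* F) c⁻¹ = lam)
    (h : Matrix.GeneralLinearGroup.map ι (PN.itGL S) =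
      Matrix.GeneralLinearGroup.scalar (Fin n) lam * (Matrix.GeneralLinearGroup.map ι S)⁻¹) :
    (S : Matrix (Fin n) (Fin n) F₀)ᵀ = (c : F₀) • (S : Matrix (Fin n) (Fin n) F₀) := by
  apply (transpose_iff S c).1
  apply mapι_injective ι
  rw [h, map_mul, Matrix.GeneralLinearGroup.map_scalar, hc, map_inv]

theorem exists_nu_neg (hodd : Odd q) (hF : Fintype.card F = q ^ 2) (τ : F ≃+* F)
    (hτq : ∀ a, τ a = a ^ q) :
    ∃ ν : Fˣ, ν * Units.map ((τ : F →+* F) : F →* F) ν = -1 := by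
  obtain ⟨c, hc⟩ := Cfsg.Agent.Lib.helper4.unorm_surj hF (-1) (Odd.neg_one_pow hodd)
  have hc0 : c ≠ 0 := by
    rintro rfl
    rw [zero_pow (by omega)] at hc
    exact (neg_ne_zero.2 one_ne_zero) hc.symm
  refine ⟨Units.mk0 c hc0, Units.ext ?_⟩
  show c * τ c = ((-1 : Fˣ) : F)
  rw [hτq, ← pow_succ', hc, Units.val_neg, Units.val_one]

theorem exists_kappa_neg (τ : F ≃+* F) (hτ1 : τ ≠ 1) (hτ2 : τ * τ = 1) :
    ∃ κ : Fˣ, Units.map ((τ : F →+* F) : F →* F) κ = -1 * κ := by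
  obtain ⟨e, he⟩ : ∃ e, τ e ≠ e := by
    by_contra hcon
    push Not at hcon
    exact hτ1 (RingEquiv.ext hcon)
  have hττ : τ (τ e) = e := congrArg (fun s : F ≃+* F => s e) hτ2
  have h0 : e - τ e ≠ 0 := sub_ne_zero.2 (Ne.symm he)
  refine ⟨Units.mk0 (e - τ e) h0, Units.ext ?_⟩
  show τ (e - τ e) = ((-1 * Units.mk0 (e - τ e) h0 : Fˣ) : F)
  rw [map_sub, hττ, Units.val_mul, Units.val_neg, Units.val_one, Units.val_mk0]
  ring

theorem unitsMap_neg_one (ι : F₀ →+* F) : Units.map (ι : F₀ →* F) (-1) = -1 := by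
  apply Units.ext
  show ι ((-1 : F₀ˣ) : F₀) = ((-1 : Fˣ) : F)
  rw [Units.val_neg, Units.val_one, Units.val_neg, Units.val_one, map_neg, map_one]

end psu3

end Cfsg.Agent.Lib.helper13.PU
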