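import Mathlib
import Cfsg.Prelude.Def_LieTypeDatum
import Cfsg.Agent.Lib.helper13.PSLnSplit2
import Cfsg.Agent.Lib.helper13.PSUGraph3
import Cfsg.Agent.Lib.helper13.PSUThm
import Cfsg.Agent.Lib.helper13.PSUCount

set_option autoImplicit false
set_option linter.unusedSectionVars false
set_option linter.unusedVariables false
set_option linter.style.longLine false

/-!
The number of `Inn`-classes in the `Inndiag`-class of an involutory graph automorphism of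
`PSU_n(q)`.
-/

namespace Cfsg.Agent.Lib.helper13.PU

open Matrix

section cyc

theorem cyc_index_comap_sq {D : Type*} [CommGroup D] [IsCyclic D] [Finite D] (N : ℕ)
    (hN : Nat.card D = N) (hNe : Even N) (n : ℕ) (hn : Even n) :
    (((powMonoidHom n : D →* D).range).comap (powMonoidHom 2 : D →* D)).index =
      Nat.gcd n N / 2 := by
  rw [Subgroup.index_comap]
  have hle : (powMonoidHom n : D →* D).range ≤ (powMonoidHom 2 : D →* D).range := by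
    rintro _ ⟨y, rfl⟩
    obtain ⟨k, rfl⟩ := hn
    refine ⟨y ^ k, ?_⟩
    show (y ^ k) ^ 2 = y ^ (k + k)
    rw [← pow_mul]
    congr 1
    ring
  have h1 := Subgroup.relIndex_mul_index hle
  rw [IsCyclic.index_powMonoidHom_range, IsCyclic.index_powMonoidHom_range, hN] at h1
  have h2 : Nat.gcd N 2 = 2 := Nat.gcd_eq_right hNe.two_dvd
  rw [h2] at h1
  rw [Nat.gcd_comm n N]
  omega

theorem cg_aux {G : Type*} [CommGroup G] (d U : G) (n m : ℕ) (hnm : n = 2 * m) :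
    (d⁻¹) ^ n * (d * U) ^ m = (U * d⁻¹) ^ m := by
  subst hnm
  rw [pow_mul, ← mul_pow]
  congr 1
  rw [pow_two]
  calc d⁻¹ * d⁻¹ * (d * U) = d⁻¹ * U := by group
    _ = U * d⁻¹ := mul_comm _ _

theorem cg_aux2 {G : Type*} [CommGroup G] (d U X : G) (n : ℕ) (hX : X ^ 2 = (d * U) ^ n) :
    ((d⁻¹) ^ n * X) ^ 2 = (U * d⁻¹) ^ n := by
  rw [mul_pow, hX, ← pow_mul, mul_comm n 2, pow_mul, ← mul_pow]
  congr 1
  rw [pow_two]
  calc d⁻¹ * d⁻¹ * (d * U) = d⁻¹ * U := by group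
    _ = U * d⁻¹ := mul_comm _ _

theorem cg_aux3 {G : Type*} [CommGroup G] (X B L : G) (h : X * B⁻¹ = L * (B * X)) :
    B ^ 2 = L⁻¹ := by
  have e1 : B * B = L⁻¹ * (X⁻¹ * (L * (B * X)) * B) := by
    rw [mul_comm B X, ← mul_assoc L X B, mul_comm L X, mul_assoc X L B, inv_mul_cancel_left,
      mul_assoc L B B, inv_mul_cancel_left]
  rw [pow_two, e1, ← h]
  group

end cyc

section fld

variable {F : Type*} [Field F]

theorem char2_pow_aux' [Fintype F] (h2 : (2 : F) = 0) (D c : Fˣ) (n N : ℕ) (h : D ^ 2 = c ^ n)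
    (hc : c ^ N = 1) : ∃ t : Fˣ, t ^ n = D ∧ t ^ N = 1 := by
  have hchar : ringChar F = 2 :=
    CharP.ringChar_of_prime_eq_zero Nat.prime_two (by exact_mod_cast h2)
  obtain ⟨d, hd⟩ := FiniteField.isSquare_of_char_two hchar (c : F)
  have hd0 : d ≠ 0 := by
    rintro rfl
    rw [mul_zero] at hd
    exact c.ne_zero hd
  refine ⟨Units.mk0 d hd0, ?_, ?_⟩
  · apply Units.ext
    rw [Units.val_pow_eq_pow_val, Units.val_mk0]
    have h3 : ((D : F)) ^ 2 = (c : F) ^ n := by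
      have := congrArg Units.val h
      rwa [Units.val_pow_eq_pow_val, Units.val_pow_eq_pow_val] at this
    have hcn : (c : F) ^ n = (d ^ n) ^ 2 := by rw [hd, mul_pow, pow_two]
    have h4 : (d ^ n - (D : F)) ^ 2 = 0 := by
      linear_combination (-1 : F) * hcn + h3 + ((c : F) ^ n - d ^ n * D) * h2
    exact sub_eq_zero.1 ((pow_eq_zero_iff two_ne_zero).1 h4)
  · apply Units.ext
    rw [Units.val_pow_eq_pow_val, Units.val_mk0, Units.val_one]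
    have h3 : (c : F) ^ N = 1 := by
      have := congrArg Units.val hc
      rwa [Units.val_pow_eq_pow_val, Units.val_one] at this
    have hcn : (c : F) ^ N = (d ^ N) ^ 2 := by rw [hd, mul_pow, pow_two]
    have h4 : (d ^ N - 1) ^ 2 = 0 := by
      linear_combination (-1 : F) * hcn + h3 + (1 - d ^ N) * h2
    exact sub_eq_zero.1 ((pow_eq_zero_iff two_ne_zero).1 h4)

theorem hilbert90_unit (τ : F ≃+* F) (hτ1 : τ ≠ 1) (hτ2 : τ * τ = 1) (e : F)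
    (he : e * τ e = 1) : ∃ d : Fˣ, τ (d : F) = e * d := by
  have hττ : ∀ x : F, τ (τ x) = x := fun x => congrArg (fun s : F ≃+* F => s x) hτ2
  obtain ⟨x, hx⟩ : ∃ x : F, x + τ (e * x) ≠ 0 := by
    by_contra hcon
    push Not at hcon
    have h1 := hcon 1
    rw [mul_one] at h1
    have hte : τ e = -1 := by linear_combination h1
    have he1 : e = -1 := by
      have h5 := congrArg τ hte
      rw [hττ, map_neg, map_one] at h5
      exact h5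
    apply hτ1
    apply RingEquiv.ext
    intro x
    have h3 := hcon x
    rw [he1, neg_one_mul, map_neg] at h3
    show τ x = x
    linear_combination -h3
  refine ⟨Units.mk0 _ hx, ?_⟩
  rw [Units.val_mk0, map_add, hττ, map_mul]
  linear_combination (-(τ x)) * he

theorem unitsMap_neg {F₀ : Type*} [Field F₀] (ι : F₀ →+* F) (u : F₀ˣ) :
    Units.map (ι : F₀ →* F) (-u) = -Units.map (ι : F₀ →* F) u := by
  apply Units.ext
  rw [Units.coe_map, Units.val_neg, Units.val_neg, Units.coe_map]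
  exact map_neg ι _

theorem sym_all_mult {n : ℕ} [Fintype F] (h2 : (2 : F) ≠ 0) (S₀ a₀ : GL (Fin n) F) (c₀ : Fˣ)
    (ha₀ : (a₀ : Matrix (Fin n) (Fin n) F)ᵀ * (S₀ : Matrix (Fin n) (Fin n) F) *
      (a₀ : Matrix (Fin n) (Fin n) F) = (c₀ : F) • (S₀ : Matrix (Fin n) (Fin n) F))
    (hc₀ : ¬ IsSquare (c₀ : F)) (c : Fˣ) :
    ∃ x : GL (Fin n) F, (x : Matrix (Fin n) (Fin n) F)ᵀ * (S₀ : Matrix (Fin n) (Fin n) F) *
      (x : Matrix (Fin n) (Fin n) F) = (c : F) • (S₀ : Matrix (Fin n) (Fin n) F) := by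
  have key : ∀ (σ : Fˣ) (y : GL (Fin n) F) (μ : F),
      (y : Matrix (Fin n) (Fin n) F)ᵀ * (S₀ : Matrix (Fin n) (Fin n) F) *
        (y : Matrix (Fin n) (Fin n) F) = μ • (S₀ : Matrix (Fin n) (Fin n) F) →
      ((Matrix.GeneralLinearGroup.scalar (Fin n) σ * y : GL (Fin n) F) :
          Matrix (Fin n) (Fin n) F)ᵀ * (S₀ : Matrix (Fin n) (Fin n) F) *
        ((Matrix.GeneralLinearGroup.scalar (Fin n) σ * y : GL (Fin n) F) :
          Matrix (Fin n) (Fin n) F) = ((σ : F) * σ * μ) • (S₀ : Matrix (Fin n) (Fin n) F) := by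
    intro σ y μ hy
    rw [scalar_mul_coe, Matrix.transpose_smul, Matrix.smul_mul, Matrix.smul_mul, Matrix.mul_smul,
      hy, smul_smul, smul_smul]
  by_cases hsq : IsSquare (c : F)
  · obtain ⟨s, hs⟩ := hsq
    have hs0 : s ≠ 0 := by
      rintro rfl
      rw [mul_zero] at hs
      exact c.ne_zero hs
    refine ⟨Matrix.GeneralLinearGroup.scalar (Fin n) (Units.mk0 s hs0) * 1, ?_⟩
    rw [key (Units.mk0 s hs0) 1 1 (by
      rw [Units.val_one, Matrix.transpose_one, Matrix.one_mul, Matrix.mul_one, one_smul]),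
      Units.val_mk0, mul_one, ← hs]
  · obtain ⟨s, hs⟩ := OA.isSquare_mul_inv_of_nonsq h2 (c : F) (c₀ : F) hsq hc₀
    have hs0 : s ≠ 0 := by
      rintro rfl
      rw [mul_zero] at hs
      exact mul_ne_zero c.ne_zero (inv_ne_zero c₀.ne_zero) hs
    refine ⟨Matrix.GeneralLinearGroup.scalar (Fin n) (Units.mk0 s hs0) * a₀, ?_⟩
    rw [key (Units.mk0 s hs0) a₀ c₀ ha₀, Units.val_mk0, ← hs, mul_assoc,
      inv_mul_cancel₀ c₀.ne_zero, mul_one]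

end fld


section psu

variable {F : Type*} [Field F] [Fintype F] {q n : ℕ}

theorem KU_pow (z : (powMonoidHom (q + 1) : Fˣ →* Fˣ).ker) : (z : Fˣ) ^ (q + 1) = 1 := by
  have h1 := z.2
  rwa [MonoidHom.mem_ker, powMonoidHom_apply] at h1

theorem D_index_pow (hF : Fintype.card F = q ^ 2) (d : ℕ) :
    ((powMonoidHom d : (powMonoidHom (q + 1) : Fˣ →* Fˣ).ker →*
      (powMonoidHom (q + 1) : Fˣ →* Fˣ).ker).range).index = Nat.gcd d (q + 1) := by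
  rw [IsCyclic.index_powMonoidHom_range, Cfsg.Agent.S0783.card_K hF, Nat.gcd_comm]

/-- class splitting of an automorphism of `PSU_n`, as an index -/
theorem split_psu_index (hF : Fintype.card F = q ^ 2) (hn : 3 ≤ n) (hs : ¬ (n = 3 ∧ q = 2))
    (p : ℕ) [Fact p.Prime] [CharP F p] (x₀ : MulAut (Cfsg.PSU n F q))
    (Dt : ↥(Cfsg.GU n F q) →* (powMonoidHom (q + 1) : Fˣ →* Fˣ).ker)
    (hDt : ∀ g, ((Dt g : (powMonoidHom (q + 1) : Fˣ →* Fˣ).ker) : Fˣ) =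
      Matrix.GeneralLinearGroup.det (g : GL (Fin n) F)) :
    Cfsg.splitClassCount (Cfsg.inndiagPSU n F q) (Cfsg.Inn (Cfsg.PSU n F q)) x₀ =
      ((powMonoidHom n : (powMonoidHom (q + 1) : Fˣ →* Fˣ).ker →*
        (powMonoidHom (q + 1) : Fˣ →* Fˣ).ker).range ⊔
        (((Subgroup.centralizer {x₀}).comap conjAut).map Dt)).index := by
  have h := split_psu hF hn hs p 1 x₀ Dt hDt
  rw [inv_one, one_mul, mul_one] at h
  rw [h, ← Subgroup.map_map]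
  show (Subgroup.map (QuotientGroup.mk' _) _).index = _
  rw [Subgroup.index_map, QuotientGroup.ker_mk',
    MonoidHom.range_eq_top.2 (QuotientGroup.mk'_surjective _), Subgroup.index_top, mul_one,
    sup_comm]

theorem mem_cent_comap (x₀ : MulAut (Cfsg.PSU n F q)) (b : ↥(Cfsg.GU n F q)) :
    b ∈ (Subgroup.centralizer {x₀}).comap conjAut ↔
      (conjAut b : MulAut (Cfsg.PSU n F q)) * x₀ = x₀ * conjAut b := by
  rw [Subgroup.mem_comap, Subgroup.mem_centralizer_iff]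
  constructor
  · intro h
    exact (h _ rfl).symm
  · intro h y hy
    rw [Set.mem_singleton_iff] at hy
    rw [hy, h]

theorem tau_div_mem (τ : F ≃+* F) (hτq : ∀ a, τ a = a ^ q) (hτ2 : τ * τ = 1) (d : Fˣ) :
    Units.map ((τ : F →+* F) : F →* F) d * d⁻¹ ∈ (powMonoidHom (q + 1) : Fˣ →* Fˣ).ker := by
  rw [MonoidHom.mem_ker, powMonoidHom_apply]
  apply Units.ext
  have hU : ((Units.map ((τ : F →+* F) : F →* F) d * d⁻¹ : Fˣ) : F) =
      τ (d : F) * (d : F)⁻¹ := by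
    rw [Units.val_mul, Units.val_inv_eq_inv_val]
    rfl
  have hττ : τ (τ (d : F)) = d := congrArg (fun s : F ≃+* F => s (d : F)) hτ2
  have hd0 : (d : F) ≠ 0 := d.ne_zero
  have ht0 : τ (d : F) ≠ 0 := (map_ne_zero τ).2 d.ne_zero
  rw [Units.val_pow_eq_pow_val, hU, Units.val_one, pow_succ, ← hτq, map_mul, map_inv₀, hττ]
  field_simp

theorem exists_tau_div (τ : F ≃+* F) (hτq : ∀ a, τ a = a ^ q) (hτ1 : τ ≠ 1) (hτ2 : τ * τ = 1)
    (e : Fˣ) (he : e ^ (q + 1) = 1) :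
    ∃ d : Fˣ, Units.map ((τ : F →+* F) : F →* F) d * d⁻¹ = e := by
  have he' : (e : F) * τ (e : F) = 1 := by
    rw [hτq, ← pow_succ', ← Units.val_pow_eq_pow_val, he, Units.val_one]
  obtain ⟨d, hd⟩ := hilbert90_unit τ hτ1 hτ2 (e : F) he'
  exact ⟨d, mul_inv_eq_iff_eq_mul.2 (Units.ext hd)⟩

theorem det_theta {F₀ : Type*} [Field F₀] (ι : F₀ →+* F) (a : GL (Fin n) F)
    (x : GL (Fin n) F₀) (d : Fˣ) :
    Matrix.GeneralLinearGroup.det (a * thetaHom ι (x, d) * a⁻¹) =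
      (d⁻¹) ^ n * Units.map (ι : F₀ →* F) (Matrix.GeneralLinearGroup.det x) := by
  rw [map_mul, map_mul, map_inv, mul_comm, ← mul_assoc, inv_mul_cancel, one_mul, thetaHom_apply,
    map_mul, Matrix.GeneralLinearGroup.det_scalar, Fintype.card_fin,
    Matrix.GeneralLinearGroup.map_det]

section data

variable {F₀ : Type*} [Field F₀] [Fintype F₀]

theorem theta_mem_gu (τ : F ≃+* F) (hτq : ∀ a, τ a = a ^ q) (hτ2 : τ * τ = 1)
    (ι : F₀ →+* F) (hι : ∀ b : F, τ b = b ↔ ∃ a, ι a = b) (a : GL (Fin n) F) (κ : Fˣ)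
    (S₀ : GL (Fin n) F₀)
    (hS : (Matrix.GeneralLinearGroup.map (τ : F →+* F) (PN.itGL a))⁻¹ * a =
      Matrix.GeneralLinearGroup.scalar (Fin n) κ * Matrix.GeneralLinearGroup.map ι S₀)
    (x : GL (Fin n) F₀) (d : Fˣ) (c : F₀ˣ)
    (hdc : d * Units.map ((τ : F →+* F) : F →* F) d = Units.map (ι : F₀ →* F) c) :
    a * thetaHom ι (x, d) * a⁻¹ ∈ Cfsg.GU n F q ↔
      (x : Matrix (Fin n) (Fin n) F₀)ᵀ * (S₀ : Matrix (Fin n) (Fin n) F₀) *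
        (x : Matrix (Fin n) (Fin n) F₀) = (c : F₀) • (S₀ : Matrix (Fin n) (Fin n) F₀) := by
  rw [conj_mem_gu_iff τ hτ2 q hτq, hS, theta_cond_iff ι τ hι, ← sim_GL_iff, hdc,
    ← Matrix.GeneralLinearGroup.map_scalar, ← map_mul]
  constructor
  · intro h'
    exact mapι_injective ι h'
  · intro h'
    rw [h']

theorem cent_iff (hF : Fintype.card F = q ^ 2) (hn : 3 ≤ n) (τ : F ≃+* F) (hτ1 : τ ≠ 1)
    (hτ2 : τ * τ = 1) (ι : F₀ →+* F) (hι : ∀ b : F, τ b = b ↔ ∃ a, ι a = b)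
    (h : ↥(Cfsg.GU n F q)) (a : GL (Fin n) F) (ν : Fˣ)
    (ha : (h : GL (Fin n) F) = Matrix.GeneralLinearGroup.scalar (Fin n) ν * a *
      (Matrix.GeneralLinearGroup.map (τ : F →+* F) a)⁻¹) (b : ↥(Cfsg.GU n F q)) :
    (conjAut b : MulAut (Cfsg.PSU n F q)) * gamU τ h = gamU τ h * conjAut b ↔
      ∃ (x : GL (Fin n) F₀) (d : Fˣ), a * thetaHom ι (x, d) * a⁻¹ = (b : GL (Fin n) F) := by
  rw [gamU_comm_iff hF hn, ha]
  constructor
  · rintro ⟨lam, hlam⟩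
    have hlam' := (comm_conj_iff _ a _ ν lam).1 hlam
    obtain ⟨x, d, hxd⟩ := descend_of_twisted (by omega) ι τ hτ1 hτ2 hι _ lam hlam'
    refine ⟨x, d, ?_⟩
    rw [← hxd]
    group
  · rintro ⟨x, d, hxd⟩
    refine ⟨d * (Units.map ((τ : F →+* F) : F →* F) d)⁻¹, (comm_conj_iff _ a _ ν _).2 ?_⟩
    have e1 : a⁻¹ * (b : GL (Fin n) F) * a = thetaHom ι (x, d) := by
      rw [← hxd]
      group
    rw [e1, thetaHom_apply, map_mul, Matrix.GeneralLinearGroup.map_scalar,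
      PN.map_map_fixed ι τ hι, ← mul_assoc, ← map_mul]
    congr 2
    rw [map_inv, mul_comm d, mul_assoc, mul_inv_cancel, mul_one]

end data


/-- the count when `n` is odd or the characteristic is two -/
theorem split_psu_odd (hF : Fintype.card F = q ^ 2) (hn : 3 ≤ n) (hs : ¬ (n = 3 ∧ q = 2))
    (p : ℕ) [Fact p.Prime] [CharP F p] (τ : F ≃+* F) (hτq : ∀ a, τ a = a ^ q) (hτ2 : τ * τ = 1)
    (h : ↥(Cfsg.GU n F q)) (hcase : Odd n ∨ (2 : F) = 0) :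
    Cfsg.splitClassCount (Cfsg.inndiagPSU n F q) (Cfsg.Inn (Cfsg.PSU n F q)) (gamU τ h) =
      Nat.gcd n (q + 1) := by
  obtain ⟨Dt, hDt⟩ := Cfsg.Agent.Lib.helper4.exists_detHom hF n
  rw [split_psu_index hF hn hs p _ Dt hDt, ← D_index_pow hF]
  congr 1
  apply sup_eq_left.2
  rintro _ ⟨b, hb, rfl⟩
  have hb' := (gamU_comm_iff hF hn τ h b).1 ((mem_cent_comap _ b).1 hb)
  obtain ⟨lam, hlam⟩ := hb'
  have hlamN : (lam : F) ^ (q + 1) = 1 := by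
    apply scalar_gu_norm (n := n) (by omega) lam
    have e : Matrix.GeneralLinearGroup.scalar (Fin n) lam =
        ((h * mapU τ b * (b * h)⁻¹ : ↥(Cfsg.GU n F q)) : GL (Fin n) F) := by
      show _ = (h : GL (Fin n) F) * Matrix.GeneralLinearGroup.map (τ : F →+* F)
        (b : GL (Fin n) F) * ((b : GL (Fin n) F) * (h : GL (Fin n) F))⁻¹
      rw [hlam, mul_inv_cancel_right]
    rw [e]
    exact SetLike.coe_mem _
  have hmapb : Matrix.GeneralLinearGroup.map (τ : F →+* F) (b : GL (Fin n) F) =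
      PN.itGL (b : GL (Fin n) F) := by
    have h1 := (PN.mem_GU_iff τ hτ2 q hτq (b : GL (Fin n) F)).1 b.2
    rw [← PN.itGL_map] at h1
    have h3 := congrArg PN.itGL h1
    rw [PN.itGL_itGL] at h3
    exact h3
  have hdet : Matrix.GeneralLinearGroup.det (b : GL (Fin n) F) ^ 2 = (lam⁻¹) ^ n := by
    have h3 := congrArg Matrix.GeneralLinearGroup.det hlam
    rw [map_mul, map_mul, map_mul, hmapb, PN.det_itGL, Matrix.GeneralLinearGroup.det_scalar,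
      Fintype.card_fin] at h3
    rw [inv_pow]
    exact cg_aux3 _ _ _ h3
  have hlamU : (lam⁻¹) ^ (q + 1) = 1 := by
    rw [inv_pow, inv_eq_one]
    apply Units.ext
    rw [Units.val_pow_eq_pow_val, hlamN, Units.val_one]
  obtain ⟨ℓ, hℓ⟩ : ∃ ℓ : (powMonoidHom (q + 1) : Fˣ →* Fˣ).ker, (ℓ : Fˣ) = lam⁻¹ :=
    ⟨⟨lam⁻¹, by rw [MonoidHom.mem_ker, powMonoidHom_apply]; exact hlamU⟩, rfl⟩
  have hδ : Dt b ^ 2 = ℓ ^ n := by
    apply Subtype.ext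
    show ((Dt b : (powMonoidHom (q + 1) : Fˣ →* Fˣ).ker) : Fˣ) ^ 2 = (ℓ : Fˣ) ^ n
    rw [hDt, hℓ]
    exact hdet
  rcases hcase with ⟨k, hk⟩ | h2
  · exact ⟨Dt b * (ℓ ^ k)⁻¹, PN.odd_pow_aux _ ℓ n k hk hδ⟩
  · obtain ⟨t, ht, htN⟩ := char2_pow_aux' h2 _ lam⁻¹ n (q + 1) hdet hlamU
    refine ⟨⟨t, by rw [MonoidHom.mem_ker, powMonoidHom_apply]; exact htN⟩, ?_⟩
    apply Subtype.ext
    show t ^ n = ((Dt b : (powMonoidHom (q + 1) : Fˣ →* Fˣ).ker) : Fˣ)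
    rw [hDt]
    exact ht

section data2

variable {F₀ : Type*} [Field F₀] [Fintype F₀]

/-- elements of the centralizer from descent data -/
theorem cent_mk (hF : Fintype.card F = q ^ 2) (hn : 3 ≤ n) (τ : F ≃+* F)
    (hτq : ∀ a, τ a = a ^ q) (hτ1 : τ ≠ 1) (hτ2 : τ * τ = 1) (ι : F₀ →+* F)
    (hι : ∀ b : F, τ b = b ↔ ∃ a, ι a = b) (h : ↥(Cfsg.GU n F q)) (a : GL (Fin n) F)
    (ν κ : Fˣ) (S₀ : GL (Fin n) F₀) (hd : IsData τ ι ν κ h a S₀)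
    (Dt : ↥(Cfsg.GU n F q) →* (powMonoidHom (q + 1) : Fˣ →* Fˣ).ker)
    (hDt : ∀ g, ((Dt g : (powMonoidHom (q + 1) : Fˣ →* Fˣ).ker) : Fˣ) =
      Matrix.GeneralLinearGroup.det (g : GL (Fin n) F))
    (x : GL (Fin n) F₀) (d : Fˣ) (c : F₀ˣ)
    (hdc : d * Units.map ((τ : F →+* F) : F →* F) d = Units.map (ι : F₀ →* F) c)
    (hx : (x : Matrix (Fin n) (Fin n) F₀)ᵀ * (S₀ : Matrix (Fin n) (Fin n) F₀) *
      (x : Matrix (Fin n) (Fin n) F₀) = (c : F₀) • (S₀ : Matrix (Fin n) (Fin n) F₀))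
    (z : (powMonoidHom (q + 1) : Fˣ →* Fˣ).ker)
    (hz : (z : Fˣ) = (d⁻¹) ^ n * Units.map (ι : F₀ →* F) (Matrix.GeneralLinearGroup.det x)) :
    z ∈ ((Subgroup.centralizer {gamU τ h}).comap conjAut).map Dt := by
  refine ⟨⟨a * thetaHom ι (x, d) * a⁻¹,
    (theta_mem_gu τ hτq hτ2 ι hι a κ S₀ hd.2 x d c hdc).2 hx⟩,
    (mem_cent_comap _ _).2 ((cent_iff hF hn τ hτ1 hτ2 ι hι h a ν hd.1 _).2 ⟨x, d, rfl⟩), ?_⟩
  apply Subtype.ext
  rw [hDt, hz]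
  exact det_theta ι a x d

/-- elements of the centralizer in terms of descent data -/
theorem cent_elim (hF : Fintype.card F = q ^ 2) (hn : 3 ≤ n) (τ : F ≃+* F)
    (hτq : ∀ a, τ a = a ^ q) (hτ1 : τ ≠ 1) (hτ2 : τ * τ = 1) (ι : F₀ →+* F)
    (hι : ∀ b : F, τ b = b ↔ ∃ a, ι a = b) (h : ↥(Cfsg.GU n F q)) (a : GL (Fin n) F)
    (ν κ : Fˣ) (S₀ : GL (Fin n) F₀) (hd : IsData τ ι ν κ h a S₀)
    (Dt : ↥(Cfsg.GU n F q) →* (powMonoidHom (q + 1) : Fˣ →* Fˣ).ker)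
    (hDt : ∀ g, ((Dt g : (powMonoidHom (q + 1) : Fˣ →* Fˣ).ker) : Fˣ) =
      Matrix.GeneralLinearGroup.det (g : GL (Fin n) F))
    (b : ↥(Cfsg.GU n F q)) (hb : b ∈ (Subgroup.centralizer {gamU τ h}).comap conjAut) :
    ∃ (x : GL (Fin n) F₀) (d : Fˣ) (c : F₀ˣ),
      d * Units.map ((τ : F →+* F) : F →* F) d = Units.map (ι : F₀ →* F) c ∧
      (x : Matrix (Fin n) (Fin n) F₀)ᵀ * (S₀ : Matrix (Fin n) (Fin n) F₀) *
        (x : Matrix (Fin n) (Fin n) F₀) = (c : F₀) • (S₀ : Matrix (Fin n) (Fin n) F₀) ∧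
      ((Dt b : (powMonoidHom (q + 1) : Fˣ →* Fˣ).ker) : Fˣ) =
        (d⁻¹) ^ n * Units.map (ι : F₀ →* F) (Matrix.GeneralLinearGroup.det x) := by
  obtain ⟨x, d, hxd⟩ := (cent_iff hF hn τ hτ1 hτ2 ι hι h a ν hd.1 b).1
    ((mem_cent_comap _ b).1 hb)
  obtain ⟨c, hdc⟩ := fixed_of_norm τ hτ2 ι hι d
  refine ⟨x, d, c, hdc, (theta_mem_gu τ hτq hτ2 ι hι a κ S₀ hd.2 x d c hdc).1 (by
    rw [hxd]
    exact b.2), ?_⟩
  rw [hDt, ← hxd]
  exact det_theta ι a x d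

end data2


section data3

variable {F₀ : Type*} [Field F₀] [Fintype F₀]

/-- the count for a graph automorphism of symplectic type -/
theorem split_psu_skew (hF : Fintype.card F = q ^ 2) (hn : 3 ≤ n) (hs : ¬ (n = 3 ∧ q = 2))
    (p : ℕ) [Fact p.Prime] [CharP F p] (τ : F ≃+* F) (hτq : ∀ a, τ a = a ^ q) (hτ1 : τ ≠ 1)
    (hτ2 : τ * τ = 1) (ι : F₀ →+* F) (hι : ∀ b : F, τ b = b ↔ ∃ a, ι a = b)
    (h2 : (2 : F₀) ≠ 0) (m : ℕ) (hm : 1 ≤ m) (hnm : n = 2 * m)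
    (h : ↥(Cfsg.GU n F q)) (a : GL (Fin n) F) (ν κ : Fˣ) (S₀ : GL (Fin n) F₀)
    (hd : IsData τ ι ν κ h a S₀)
    (hS₀ : (S₀ : Matrix (Fin n) (Fin n) F₀)ᵀ = -(S₀ : Matrix (Fin n) (Fin n) F₀)) :
    Cfsg.splitClassCount (Cfsg.inndiagPSU n F q) (Cfsg.Inn (Cfsg.PSU n F q)) (gamU τ h) =
      Nat.gcd m (q + 1) := by
  obtain ⟨Dt, hDt⟩ := Cfsg.Agent.Lib.helper4.exists_detHom hF n
  obtain ⟨hdet, hex⟩ := PN.skew_det_image h2 m hm hnm S₀ hS₀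
  rw [split_psu_index hF hn hs p _ Dt hDt, ← D_index_pow hF]
  congr 1
  apply le_antisymm
  · apply sup_le
    · rintro _ ⟨u, rfl⟩
      refine ⟨u ^ 2, ?_⟩
      show (u ^ 2) ^ m = u ^ n
      rw [← pow_mul, hnm]
    · rintro _ ⟨b, hb, rfl⟩
      obtain ⟨x, d, c, hdc, hx, hbx⟩ :=
        cent_elim hF hn τ hτq hτ1 hτ2 ι hι h a ν κ S₀ hd Dt hDt b hb
      refine ⟨⟨Units.map ((τ : F →+* F) : F →* F) d * d⁻¹, tau_div_mem τ hτq hτ2 d⟩, ?_⟩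
      apply Subtype.ext
      show (Units.map ((τ : F →+* F) : F →* F) d * d⁻¹) ^ m =
        ((Dt b : (powMonoidHom (q + 1) : Fˣ →* Fˣ).ker) : Fˣ)
      rw [hbx, hdet x c hx, map_pow, ← hdc]
      exact (cg_aux d _ n m hnm).symm
  · rintro _ ⟨e, rfl⟩
    apply Subgroup.mem_sup_right
    obtain ⟨d, hde⟩ := exists_tau_div τ hτq hτ1 hτ2 (e : Fˣ) (KU_pow e)
    obtain ⟨c, hdc⟩ := fixed_of_norm τ hτ2 ι hι d
    obtain ⟨x, hx, hdx⟩ := hex c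
    apply cent_mk hF hn τ hτq hτ1 hτ2 ι hι h a ν κ S₀ hd Dt hDt x d c hdc hx
    show (e : Fˣ) ^ m = _
    rw [hdx, map_pow, ← hdc, cg_aux d _ n m hnm, hde]

/-- the count for a graph automorphism of orthogonal type -/
theorem split_psu_sym (hF : Fintype.card F = q ^ 2) (hn : 3 ≤ n) (hs : ¬ (n = 3 ∧ q = 2))
    (p : ℕ) [Fact p.Prime] [CharP F p] (τ : F ≃+* F) (hτq : ∀ a, τ a = a ^ q) (hτ1 : τ ≠ 1)
    (hτ2 : τ * τ = 1) (ι : F₀ →+* F) (hι : ∀ b : F, τ b = b ↔ ∃ a, ι a = b)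
    (hoddq : Odd q) (hodd₀ : Odd (Fintype.card F₀)) (m : ℕ) (hnm : n = 2 * m)
    (h : ↥(Cfsg.GU n F q)) (a : GL (Fin n) F) (ν κ : Fˣ) (S₀ : GL (Fin n) F₀)
    (hd : IsData τ ι ν κ h a S₀)
    (hS₀ : (S₀ : Matrix (Fin n) (Fin n) F₀)ᵀ = S₀) :
    Cfsg.splitClassCount (Cfsg.inndiagPSU n F q) (Cfsg.Inn (Cfsg.PSU n F q)) (gamU τ h) =
      Nat.gcd n (q + 1) / 2 := by
  have h2 := GF.two_ne_zero_of_odd hodd₀
  obtain ⟨Dt, hDt⟩ := Cfsg.Agent.Lib.helper4.exists_detHom hF n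
  obtain ⟨Q, hQ, hQnd⟩ := PN.sym_quad h2 S₀ hS₀
  obtain ⟨r, hr, hrdet⟩ := PN.sym_refl (by omega) h2 Q hQnd
  obtain ⟨a₀, c₀, ha₀, hc₀⟩ := PN.sym_nonsq hodd₀ m hnm Q hQnd
  have hr' : (r : Matrix (Fin n) (Fin n) F₀)ᵀ * (S₀ : Matrix (Fin n) (Fin n) F₀) *
      (r : Matrix (Fin n) (Fin n) F₀) = ((1 : F₀ˣ) : F₀) • (S₀ : Matrix (Fin n) (Fin n) F₀) := by
    rw [Units.val_one]
    apply PN.sim_of_quad h2 _ hS₀
    intro v
    rw [← hQ, ← hQ, hr, one_mul]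
  have ha₀' : (a₀ : Matrix (Fin n) (Fin n) F₀)ᵀ * (S₀ : Matrix (Fin n) (Fin n) F₀) *
      (a₀ : Matrix (Fin n) (Fin n) F₀) = (c₀ : F₀) • (S₀ : Matrix (Fin n) (Fin n) F₀) := by
    apply PN.sim_of_quad h2 _ hS₀
    intro v
    rw [← hQ, ← hQ, ha₀]
  rw [split_psu_index hF hn hs p _ Dt hDt,
    ← cyc_index_comap_sq (q + 1) (Cfsg.Agent.S0783.card_K hF) hoddq.add_one n ⟨m, by omega⟩]
  congr 1
  obtain ⟨N, hN⟩ : ∃ N : Subgroup (powMonoidHom (q + 1) : Fˣ →* Fˣ).ker,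
      N = (powMonoidHom n : (powMonoidHom (q + 1) : Fˣ →* Fˣ).ker →*
        (powMonoidHom (q + 1) : Fˣ →* Fˣ).ker).range ⊔
        (((Subgroup.centralizer {gamU τ h}).comap conjAut).map Dt) := ⟨_, rfl⟩
  rw [← hN]
  have hmemN : ∀ (x : GL (Fin n) F₀) (d : Fˣ) (c : F₀ˣ),
      d * Units.map ((τ : F →+* F) : F →* F) d = Units.map (ι : F₀ →* F) c →
      (x : Matrix (Fin n) (Fin n) F₀)ᵀ * (S₀ : Matrix (Fin n) (Fin n) F₀) *
        (x : Matrix (Fin n) (Fin n) F₀) = (c : F₀) • (S₀ : Matrix (Fin n) (Fin n) F₀) →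
      ∀ z : (powMonoidHom (q + 1) : Fˣ →* Fˣ).ker,
        (z : Fˣ) = (d⁻¹) ^ n * Units.map (ι : F₀ →* F) (Matrix.GeneralLinearGroup.det x) →
          z ∈ N := by
    intro x d c hdc hx z hz
    rw [hN]
    exact Subgroup.mem_sup_right
      (cent_mk hF hn τ hτq hτ1 hτ2 ι hι h a ν κ S₀ hd Dt hDt x d c hdc hx z hz)
  have hnegmem : (-1 : Fˣ) ∈ (powMonoidHom (q + 1) : Fˣ →* Fˣ).ker := by
    rw [MonoidHom.mem_ker, powMonoidHom_apply]
    exact Even.neg_one_pow hoddq.add_one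
  obtain ⟨negD, hnegD⟩ : ∃ z : (powMonoidHom (q + 1) : Fˣ →* Fˣ).ker, (z : Fˣ) = -1 :=
    ⟨⟨-1, hnegmem⟩, rfl⟩
  have hneg : negD ∈ N := by
    apply hmemN r 1 1 (by rw [map_one, mul_one, map_one]) hr'
    have hrdetU : Matrix.GeneralLinearGroup.det r = -1 := Units.ext (by
      rw [Matrix.GeneralLinearGroup.val_det_apply, hrdet, Units.val_neg, Units.val_one])
    rw [hnegD, hrdetU, unitsMap_neg_one, inv_one, one_pow, one_mul]
  have hpow : ∀ c : F₀ˣ, c ^ n = (c ^ m) ^ 2 := fun c => by rw [hnm, pow_mul']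
  have hA : ∀ t : (powMonoidHom (q + 1) : Fˣ →* Fˣ).ker, t ^ m ∈ N := by
    intro t
    obtain ⟨d, hde⟩ := exists_tau_div τ hτq hτ1 hτ2 (t : Fˣ) (KU_pow t)
    obtain ⟨c, hdc⟩ := fixed_of_norm τ hτ2 ι hι d
    obtain ⟨x, hx⟩ := sym_all_mult h2 S₀ a₀ c₀ ha₀' hc₀ c
    have hx2 := PN.sim_det_sq S₀ x c hx
    rw [Fintype.card_fin, hpow] at hx2
    rcases PN.units_sq_eq _ _ hx2 with h4 | h4
    · apply hmemN x d c hdc hx
      show (t : Fˣ) ^ m = _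
      rw [h4, map_pow, ← hdc, cg_aux d _ n m hnm, hde]
    · have h5 : negD * t ^ m ∈ N := by
        apply hmemN x d c hdc hx
        show (negD : Fˣ) * (t : Fˣ) ^ m = _
        rw [h4, unitsMap_neg, map_pow, ← hdc, mul_neg, cg_aux d _ n m hnm, hde, hnegD,
          neg_one_mul]
      have h6 := N.mul_mem hneg h5
      have h7 : negD * (negD * t ^ m) = t ^ m := by
        apply Subtype.ext
        show (negD : Fˣ) * ((negD : Fˣ) * (t : Fˣ) ^ m) = (t : Fˣ) ^ m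
        rw [hnegD, neg_one_mul, neg_one_mul, neg_neg]
      rwa [h7] at h6
  apply le_antisymm
  · rw [hN]
    apply sup_le
    · rintro _ ⟨u, rfl⟩
      rw [Subgroup.mem_comap]
      refine ⟨u ^ 2, ?_⟩
      show (u ^ 2) ^ n = (u ^ n) ^ 2
      rw [← pow_mul, ← pow_mul, mul_comm]
    · rintro _ ⟨b, hb, rfl⟩
      rw [Subgroup.mem_comap]
      obtain ⟨x, d, c, hdc, hx, hbx⟩ :=
        cent_elim hF hn τ hτq hτ1 hτ2 ι hι h a ν κ S₀ hd Dt hDt b hb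
      have hx2 := PN.sim_det_sq S₀ x c hx
      rw [Fintype.card_fin] at hx2
      refine ⟨⟨Units.map ((τ : F →+* F) : F →* F) d * d⁻¹, tau_div_mem τ hτq hτ2 d⟩, ?_⟩
      apply Subtype.ext
      show (Units.map ((τ : F →+* F) : F →* F) d * d⁻¹) ^ n =
        ((Dt b : (powMonoidHom (q + 1) : Fˣ →* Fˣ).ker) : Fˣ) ^ 2
      rw [hbx]
      symm
      apply cg_aux2
      rw [← map_pow, hx2, map_pow, hdc]
  · intro δ hδ
    rw [Subgroup.mem_comap] at hδ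
    obtain ⟨t, ht⟩ := hδ
    have ht' : (δ : Fˣ) ^ 2 = ((t : Fˣ) ^ m) ^ 2 := by
      have h6 : t ^ n = δ ^ 2 := ht
      have h7 : (t : Fˣ) ^ n = (δ : Fˣ) ^ 2 :=
        congrArg (fun z : (powMonoidHom (q + 1) : Fˣ →* Fˣ).ker => (z : Fˣ)) h6
      rw [← h7, hnm, pow_mul']
    rcases PN.units_sq_eq _ _ ht' with h4 | h4
    · have h8 : δ = t ^ m := Subtype.ext h4
      rw [h8]
      exact hA t
    · have h8 : δ = negD * t ^ m := by
        apply Subtype.ext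
        show (δ : Fˣ) = (negD : Fˣ) * (t : Fˣ) ^ m
        rw [h4, hnegD, neg_one_mul]
      rw [h8]
      exact N.mul_mem hneg (hA t)

/-- the centralizer of a graph automorphism of symplectic type -/
theorem psu_skew_cent_iso (hF : Fintype.card F = q ^ 2) (hn : 3 ≤ n) (τ : F ≃+* F)
    (hτq : ∀ a, τ a = a ^ q) (hτ1 : τ ≠ 1) (hτ2 : τ * τ = 1) (ι : F₀ →+* F)
    (hι : ∀ b : F, τ b = b ↔ ∃ a, ι a = b) (h2 : (2 : F₀) ≠ 0) (m : ℕ) (hnm : n = 2 * m)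
    (h : ↥(Cfsg.GU n F q)) (a : GL (Fin n) F) (ν κ : Fˣ) (S₀ : GL (Fin n) F₀)
    (hd : IsData τ ι ν κ h a S₀)
    (hS₀ : (S₀ : Matrix (Fin n) (Fin n) F₀)ᵀ = -(S₀ : Matrix (Fin n) (Fin n) F₀)) :
    Nonempty (↥(Cfsg.inndiagPSU n F q ⊓ Subgroup.centralizer {gamU τ h}) ≃*
      Cfsg.PGSp m F₀) := by
  obtain ⟨T, hT⟩ := PN.skew_classify h2 m hnm S₀ hS₀
  obtain ⟨e₁⟩ := psu_graph_centralizer hF hn τ hτq hτ1 hτ2 ι hι h a ν κ S₀ hd.1 hd.2
    (Cfsg.Geo.similarityGroup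
      (fun u v : Fin n → F₀ => u ⬝ᵥ ((S₀ : Matrix (Fin n) (Fin n) F₀) *ᵥ v)))
    (fun x => PN.bilSim_iff _ x)
  obtain ⟨e₂⟩ := GF.psim_congr
    (fun u v : Fin n → F₀ => u ⬝ᵥ ((S₀ : Matrix (Fin n) (Fin n) F₀) *ᵥ v))
    (Cfsg.sympForm m F₀) T (-1) (neg_ne_zero.2 one_ne_zero) hT
  exact ⟨e₁.trans e₂⟩

/-- the centralizer of a graph automorphism of orthogonal type is not of symplectic type -/
theorem psu_sym_cent_not_iso (hF : Fintype.card F = q ^ 2) (hn : 3 ≤ n) (τ : F ≃+* F)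
    (hτq : ∀ a, τ a = a ^ q) (hτ1 : τ ≠ 1) (hτ2 : τ * τ = 1) (ι : F₀ →+* F)
    (hι : ∀ b : F, τ b = b ↔ ∃ a, ι a = b) (hodd₀ : Odd (Fintype.card F₀)) (m : ℕ)
    (hm2 : 2 ≤ m) (hnm : n = 2 * m)
    (h : ↥(Cfsg.GU n F q)) (a : GL (Fin n) F) (ν κ : Fˣ) (S₀ : GL (Fin n) F₀)
    (hd : IsData τ ι ν κ h a S₀)
    (hS₀ : (S₀ : Matrix (Fin n) (Fin n) F₀)ᵀ = S₀) :
    ¬ Nonempty (↥(Cfsg.inndiagPSU n F q ⊓ Subgroup.centralizer {gamU τ h}) ≃*
      Cfsg.PGSp m F₀) := by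
  have h2 := GF.two_ne_zero_of_odd hodd₀
  obtain ⟨Q, hQ, hQnd⟩ := PN.sym_quad h2 S₀ hS₀
  obtain ⟨u, hu⟩ := Cfsg.Agent.Lib.helper4.exists_nonsing Q hQnd ⟨0, by omega⟩
  obtain ⟨a₀, c₀, ha₀, hc₀⟩ := PN.sym_nonsq hodd₀ m hnm Q hQnd
  obtain ⟨e₁⟩ := psu_graph_centralizer hF hn τ hτq hτ1 hτ2 ι hι h a ν κ S₀ hd.1 hd.2
    (Cfsg.Geo.quadSimilarityGroup
      (fun v : Fin n → F₀ => v ⬝ᵥ ((S₀ : Matrix (Fin n) (Fin n) F₀) *ᵥ v)))
    (fun x => PN.quadSim_iff h2 _ hS₀ x)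
  rintro ⟨e⟩
  exact PN.pgo_not_iso h2 m hm2 (by rw [Fintype.card_fin, hnm]) _ Q
    (funext fun v => (hQ v).symm) hQnd u hu a₀ c₀ ha₀ hc₀ ⟨e₁.symm.trans e⟩

end data3

end psu

end Cfsg.Agent.Lib.helper13.PU
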