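import Mathlib
import Cfsg.Agent.Lib.helper13.QuadNormal

set_option autoImplicit false

/-!
Quadratic forms over `𝔽₂` polarizing to the polar form of the plus form `Σ xᵢyᵢ`:
classification by type (plus / minus) and by the number of singular vectors.
-/

namespace Cfsg.Agent.Lib.helper13

open Cfsg.Agent.S2562 Cfsg.Agent.S2616 Cfsg.Agent.S2617

/-- `q` polarizes to the polar form of the plus form over `𝔽₂` -/
def Pol (m : ℕ) (q : (Fin m ⊕ Fin m → ZMod 2) → ZMod 2) : Prop :=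
  ∀ u v : Fin m ⊕ Fin m → ZMod 2, q (u + v) = q u + q v +
    (Cfsg.quadFormPlus m (ZMod 2) (u + v) - Cfsg.quadFormPlus m (ZMod 2) u -
      Cfsg.quadFormPlus m (ZMod 2) v)

lemma z2_mul_self (x : ZMod 2) : x * x = x := by revert x; decide

lemma z2_cases (x : ZMod 2) : x = 0 ∨ x = 1 := by revert x; decide

lemma z2_add_self (x : ZMod 2) : x + x = 0 := by revert x; decide

/-- the polar of the plus form is additive in the first variable -/
lemma fP_add_left (m : ℕ) (u v w : Fin m ⊕ Fin m → ZMod 2) :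
    Cfsg.quadFormPlus m (ZMod 2) (u + v + w) - Cfsg.quadFormPlus m (ZMod 2) (u + v) -
        Cfsg.quadFormPlus m (ZMod 2) w =
      (Cfsg.quadFormPlus m (ZMod 2) (u + w) - Cfsg.quadFormPlus m (ZMod 2) u -
        Cfsg.quadFormPlus m (ZMod 2) w) +
      (Cfsg.quadFormPlus m (ZMod 2) (v + w) - Cfsg.quadFormPlus m (ZMod 2) v -
        Cfsg.quadFormPlus m (ZMod 2) w) := by
  have h := QuadraticMap.polar_add_left (qP (ZMod 2) m) u v w
  simp only [QuadraticMap.polar, qP_apply] at h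
  exact h

/-- a function polarizing to the plus polar form is a nondegenerate quadratic form -/
lemma pol_quadForm (m : ℕ) (q : (Fin m ⊕ Fin m → ZMod 2) → ZMod 2) (hq : Pol m q) :
    ∃ Q : QuadraticForm (ZMod 2) (Fin m ⊕ Fin m → ZMod 2), (∀ v, Q v = q v) ∧
      (QuadraticMap.polarBilin Q).Nondegenerate := by
  have hD : ∀ u v : Fin m ⊕ Fin m → ZMod 2,
      q (u + v) - Cfsg.quadFormPlus m (ZMod 2) (u + v) =
        (q u - Cfsg.quadFormPlus m (ZMod 2) u) + (q v - Cfsg.quadFormPlus m (ZMod 2) v) := by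
    intro u v
    rw [hq u v]
    ring
  let D : (Fin m ⊕ Fin m → ZMod 2) →+ ZMod 2 :=
    AddMonoidHom.mk' (fun v => q v - Cfsg.quadFormPlus m (ZMod 2) v) hD
  let Dl : (Fin m ⊕ Fin m → ZMod 2) →ₗ[ZMod 2] ZMod 2 := AddMonoidHom.toZModLinearMap 2 D
  have hQ : ∀ v, (qP (ZMod 2) m + QuadraticMap.linMulLin Dl Dl) v = q v := by
    intro v
    show qP (ZMod 2) m v + Dl v * Dl v = q v
    rw [qP_apply, z2_mul_self]
    show Cfsg.quadFormPlus m (ZMod 2) v + (q v - Cfsg.quadFormPlus m (ZMod 2) v) = q v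
    ring
  refine ⟨qP (ZMod 2) m + QuadraticMap.linMulLin Dl Dl, hQ, nondeg_of_sep _ ?_⟩
  intro x hx
  apply (nondeg_qP (F := ZMod 2) m).1 x
  intro y
  rw [QuadraticMap.polarBilin_apply_apply]
  have h1 := hx y
  simp only [QuadraticMap.polar, hQ] at h1
  simp only [QuadraticMap.polar, qP_apply]
  rw [hq x y] at h1
  linear_combination h1

/-- every function polarizing to the plus polar form is of plus type or of minus type -/
lemma pol_classify (m : ℕ) (q : (Fin m ⊕ Fin m → ZMod 2) → ZMod 2) (hq : Pol m q) :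
    (∃ g : (Fin m ⊕ Fin m → ZMod 2) ≃ₗ[ZMod 2] (Fin m ⊕ Fin m → ZMod 2),
      ∀ v, q v = Cfsg.quadFormPlus m (ZMod 2) (g v)) ∨
    (∃ g : (Fin m ⊕ Fin m → ZMod 2) ≃ₗ[ZMod 2] ((Fin (m - 1) ⊕ Fin (m - 1)) ⊕ Fin 2 → ZMod 2),
      ∀ v, q v = Cfsg.quadFormMinus (m - 1) (ZMod 2) 1 1 (g v)) := by
  obtain ⟨Q, hQ, hnd⟩ := pol_quadForm m q hq
  have hV : Module.finrank (ZMod 2) (Fin m ⊕ Fin m → ZMod 2) = 2 * m := by
    simp [two_mul]
  rcases quad_classify hV Q hnd with ⟨g, hg⟩ | ⟨k, ζ, rfl, hζ, g, hg⟩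
  · left
    exact ⟨g, fun v => by rw [← hQ, hg]⟩
  · right
    have hζ1 : ζ = 1 := by
      rcases z2_cases ζ with h | h
      · exfalso
        exact hζ 0 (by rw [h]; decide)
      · exact h
    subst hζ1
    exact ⟨g, fun v => by rw [← hQ, hg]; rfl⟩

lemma card_plus_two (m : ℕ) (hm : 1 ≤ m) :
    Nat.card {v : Fin m ⊕ Fin m → ZMod 2 // Cfsg.quadFormPlus m (ZMod 2) v = 0} =
      2 ^ (2 * m - 1) + 2 ^ (m - 1) := by
  have h := card_plus (F := ZMod 2) m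
  have hc : Nat.card (ZMod 2) = 2 := by simp
  rw [hc] at h
  obtain ⟨k, rfl⟩ : ∃ k, m = k + 1 := ⟨m - 1, by omega⟩
  have e1 : 2 * (k + 1) - 1 = 2 * k + 1 := by omega
  rw [e1, Nat.add_sub_cancel]
  have e2 : (2 : ℕ) ^ (k + 1) = 2 * 2 ^ k := by ring
  have e3 : (2 : ℕ) ^ (k + 1 + 1) = 4 * 2 ^ k := by ring
  have e4 : (2 : ℕ) ^ (2 * k + 1) = 2 * (2 ^ k * 2 ^ k) := by ring
  rw [e3, e2] at h
  rw [e4]
  have e5 : 2 * 2 ^ k * (2 * 2 ^ k) = 4 * (2 ^ k * 2 ^ k) := by ring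
  rw [e5] at h
  generalize (2 : ℕ) ^ k * 2 ^ k = c at h ⊢
  generalize (2 : ℕ) ^ k = a at h ⊢
  omega

lemma card_minus_two (k : ℕ) :
    Nat.card {v : (Fin k ⊕ Fin k) ⊕ Fin 2 → ZMod 2 // Cfsg.quadFormMinus k (ZMod 2) 1 1 v = 0} +
      2 ^ k = 2 ^ (2 * k + 1) := by
  have h := card_minus (F := ZMod 2) k 1 (by decide)
  have hc : Nat.card (ZMod 2) = 2 := by simp
  rw [hc] at h
  have e2 : (2 : ℕ) ^ (k + 1) = 2 * 2 ^ k := by ring
  have e3 : (2 : ℕ) ^ (k + 2) = 4 * 2 ^ k := by ring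
  have e4 : (2 : ℕ) ^ (2 * k + 1) = 2 * (2 ^ k * 2 ^ k) := by ring
  rw [e3, e2] at h
  rw [e4]
  have e5 : 2 * 2 ^ k * (2 * 2 ^ k) = 4 * (2 ^ k * 2 ^ k) := by ring
  rw [e5] at h
  generalize (2 : ℕ) ^ k * 2 ^ k = c at h ⊢
  generalize (2 : ℕ) ^ k = a at h ⊢
  omega

lemma card_minus_two' (m : ℕ) (hm : 1 ≤ m) :
    Nat.card {v : (Fin (m - 1) ⊕ Fin (m - 1)) ⊕ Fin 2 → ZMod 2 //
      Cfsg.quadFormMinus (m - 1) (ZMod 2) 1 1 v = 0} + 2 ^ (m - 1) = 2 ^ (2 * m - 1) := by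
  have h := card_minus_two (m - 1)
  have e : 2 * (m - 1) + 1 = 2 * m - 1 := by omega
  rw [e] at h
  exact h

/-- type plus is detected by the number of singular vectors -/
lemma type_plus_iff (m : ℕ) (hm : 1 ≤ m) (q : (Fin m ⊕ Fin m → ZMod 2) → ZMod 2) (hq : Pol m q) :
    (∃ g : (Fin m ⊕ Fin m → ZMod 2) ≃ₗ[ZMod 2] (Fin m ⊕ Fin m → ZMod 2),
      ∀ v, q v = Cfsg.quadFormPlus m (ZMod 2) (g v)) ↔
    Nat.card {v : Fin m ⊕ Fin m → ZMod 2 // q v = 0} = 2 ^ (2 * m - 1) + 2 ^ (m - 1) := by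
  constructor
  · rintro ⟨g, hg⟩
    rw [← card_plus_two m hm]
    exact Nat.card_congr (Equiv.subtypeEquiv g.toEquiv (fun v => by rw [hg]; rfl))
  · intro h
    rcases pol_classify m q hq with h1 | ⟨g, hg⟩
    · exact h1
    · exfalso
      have h2 : Nat.card {v : Fin m ⊕ Fin m → ZMod 2 // q v = 0} =
          Nat.card {v : (Fin (m - 1) ⊕ Fin (m - 1)) ⊕ Fin 2 → ZMod 2 //
            Cfsg.quadFormMinus (m - 1) (ZMod 2) 1 1 v = 0} :=
        Nat.card_congr (Equiv.subtypeEquiv g.toEquiv (fun v => by rw [hg]; rfl))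
      have h3 := card_minus_two' m hm
      have hpos : 0 < 2 ^ (m - 1) := by positivity
      omega

/-- type minus is detected by the number of singular vectors -/
lemma type_minus_iff (m : ℕ) (hm : 1 ≤ m) (q : (Fin m ⊕ Fin m → ZMod 2) → ZMod 2) (hq : Pol m q) :
    (∃ g : (Fin m ⊕ Fin m → ZMod 2) ≃ₗ[ZMod 2] ((Fin (m - 1) ⊕ Fin (m - 1)) ⊕ Fin 2 → ZMod 2),
      ∀ v, q v = Cfsg.quadFormMinus (m - 1) (ZMod 2) 1 1 (g v)) ↔
    Nat.card {v : Fin m ⊕ Fin m → ZMod 2 // q v = 0} + 2 ^ (m - 1) = 2 ^ (2 * m - 1) := by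
  constructor
  · rintro ⟨g, hg⟩
    rw [← card_minus_two' m hm]
    congr 1
    exact Nat.card_congr (Equiv.subtypeEquiv g.toEquiv (fun v => by rw [hg]; rfl))
  · intro h
    rcases pol_classify m q hq with ⟨g, hg⟩ | h1
    · exfalso
      have h2 : Nat.card {v : Fin m ⊕ Fin m → ZMod 2 // q v = 0} =
          Nat.card {v : Fin m ⊕ Fin m → ZMod 2 // Cfsg.quadFormPlus m (ZMod 2) v = 0} :=
        Nat.card_congr (Equiv.subtypeEquiv g.toEquiv (fun v => by rw [hg]; rfl))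
      have h3 := card_plus_two m hm
      have hpos : 0 < 2 ^ (m - 1) := by positivity
      omega
    · exact h1

lemma shift_eq (m : ℕ) (q : (Fin m ⊕ Fin m → ZMod 2) → ZMod 2) (hq : Pol m q)
    (w v : Fin m ⊕ Fin m → ZMod 2) :
    q v + (Cfsg.quadFormPlus m (ZMod 2) (v + w) - Cfsg.quadFormPlus m (ZMod 2) v -
      Cfsg.quadFormPlus m (ZMod 2) w) = q (v + w) + q w := by
  rw [hq v w]
  have := z2_add_self (q w)
  linear_combination (-1 : ZMod 2) * this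

lemma pol_shift (m : ℕ) (q : (Fin m ⊕ Fin m → ZMod 2) → ZMod 2) (hq : Pol m q)
    (w : Fin m ⊕ Fin m → ZMod 2) :
    Pol m (fun v => q v + (Cfsg.quadFormPlus m (ZMod 2) (v + w) - Cfsg.quadFormPlus m (ZMod 2) v -
      Cfsg.quadFormPlus m (ZMod 2) w)) := by
  intro u v
  show q (u + v) + (Cfsg.quadFormPlus m (ZMod 2) (u + v + w) - Cfsg.quadFormPlus m (ZMod 2) (u + v) -
      Cfsg.quadFormPlus m (ZMod 2) w) = _
  rw [fP_add_left, hq u v]
  ring

lemma card_shift (m : ℕ) (q : (Fin m ⊕ Fin m → ZMod 2) → ZMod 2) (hq : Pol m q)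
    (w : Fin m ⊕ Fin m → ZMod 2) :
    Nat.card {v : Fin m ⊕ Fin m → ZMod 2 // q v + (Cfsg.quadFormPlus m (ZMod 2) (v + w) -
      Cfsg.quadFormPlus m (ZMod 2) v - Cfsg.quadFormPlus m (ZMod 2) w) = 0} =
    Nat.card {u : Fin m ⊕ Fin m → ZMod 2 // q u = q w} := by
  apply Nat.card_congr
  exact Equiv.subtypeEquiv (Equiv.addRight w) (fun v => by
    rw [shift_eq m q hq]
    show q (v + w) + q w = 0 ↔ q (v + w) = q w
    constructor
    · intro h
      have := z2_add_self (q w)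
      linear_combination h - this
    · intro h
      rw [h]
      exact z2_add_self _)

lemma card_compl (m : ℕ) (q : (Fin m ⊕ Fin m → ZMod 2) → ZMod 2) :
    Nat.card {u : Fin m ⊕ Fin m → ZMod 2 // q u = 0} +
      Nat.card {u : Fin m ⊕ Fin m → ZMod 2 // q u = 1} = 2 ^ (2 * m) := by
  classical
  have e : {u : Fin m ⊕ Fin m → ZMod 2 // q u = 1} ≃ {u : Fin m ⊕ Fin m → ZMod 2 // ¬ q u = 0} :=
    Equiv.subtypeEquivRight (fun u => by rcases z2_cases (q u) with h | h <;> simp [h])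
  rw [Nat.card_congr e, Nat.card_eq_fintype_card, Nat.card_eq_fintype_card,
    Fintype.card_subtype_compl, Nat.add_sub_of_le (Fintype.card_subtype_le _)]
  simp [two_mul]

/-- zero count of the shifted form -/
lemma card_shift_zero (m : ℕ) (q : (Fin m ⊕ Fin m → ZMod 2) → ZMod 2) (hq : Pol m q)
    (w : Fin m ⊕ Fin m → ZMod 2) (hw : q w = 0) :
    Nat.card {v : Fin m ⊕ Fin m → ZMod 2 // q v + (Cfsg.quadFormPlus m (ZMod 2) (v + w) -
      Cfsg.quadFormPlus m (ZMod 2) v - Cfsg.quadFormPlus m (ZMod 2) w) = 0} =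
    Nat.card {u : Fin m ⊕ Fin m → ZMod 2 // q u = 0} := by
  rw [card_shift m q hq w, hw]

lemma card_shift_one (m : ℕ) (q : (Fin m ⊕ Fin m → ZMod 2) → ZMod 2) (hq : Pol m q)
    (w : Fin m ⊕ Fin m → ZMod 2) (hw : q w ≠ 0) :
    Nat.card {u : Fin m ⊕ Fin m → ZMod 2 // q u = 0} +
    Nat.card {v : Fin m ⊕ Fin m → ZMod 2 // q v + (Cfsg.quadFormPlus m (ZMod 2) (v + w) -
      Cfsg.quadFormPlus m (ZMod 2) v - Cfsg.quadFormPlus m (ZMod 2) w) = 0} = 2 ^ (2 * m) := by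
  have hw1 : q w = 1 := (z2_cases (q w)).resolve_left hw
  rw [card_shift m q hq w, hw1]
  exact card_compl m q

/-- the zero count of a form polarizing to the plus polar form -/
lemma card_zero_cases (m : ℕ) (hm : 1 ≤ m) (q : (Fin m ⊕ Fin m → ZMod 2) → ZMod 2) (hq : Pol m q) :
    Nat.card {v : Fin m ⊕ Fin m → ZMod 2 // q v = 0} = 2 ^ (2 * m - 1) + 2 ^ (m - 1) ∨
    Nat.card {v : Fin m ⊕ Fin m → ZMod 2 // q v = 0} + 2 ^ (m - 1) = 2 ^ (2 * m - 1) := by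
  rcases pol_classify m q hq with h | h
  · left; exact (type_plus_iff m hm q hq).mp h
  · right; exact (type_minus_iff m hm q hq).mp h

end Cfsg.Agent.Lib.helper13
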