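import Mathlib

set_option autoImplicit false

/-!
# Counting elements of order dividing p in a product of a group of order p and a cyclic group
-/

namespace Cfsg.Agent.Lib.helper13.S1455Q1

/-- If `R₀` (of order `p`) and the cyclic `R₁` commute elementwise, a subgroup of exponent `p` of
`R₀ ⊔ R₁` has at most `p ^ 2` elements. -/
theorem narrow_count {R : Type*} [Group R] [Finite R] (p : ℕ) [Fact p.Prime] (R₀ R₁ B : Subgroup R)
    (h0 : Nat.card R₀ = p) (h1 : IsCyclic R₁) (hc : ∀ a ∈ R₀, ∀ b ∈ R₁, a * b = b * a)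
    (hB : B ≤ R₀ ⊔ R₁) (hBp : ∀ b ∈ B, b ^ p = 1) : Nat.card B ≤ p ^ 2 := by
  classical
  have hp : 0 < p := (Fact.out : p.Prime).pos
  have hdec : ∀ x ∈ R₀ ⊔ R₁, ∃ a ∈ R₀, ∃ c ∈ R₁, x = a * c := by
    let T : Subgroup R :=
      { carrier := {x | ∃ a ∈ R₀, ∃ c ∈ R₁, x = a * c}
        one_mem' := ⟨1, R₀.one_mem, 1, R₁.one_mem, by simp⟩
        mul_mem' := by
          rintro _ _ ⟨a, ha, c, hc', rfl⟩ ⟨a', ha', c', hc'', rfl⟩
          refine ⟨a * a', R₀.mul_mem ha ha', c * c', R₁.mul_mem hc' hc'', ?_⟩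
          have := hc a' ha' c hc'
          calc a * c * (a' * c') = a * (c * a') * c' := by group
            _ = a * (a' * c) * c' := by rw [this]
            _ = a * a' * (c * c') := by group
        inv_mem' := by
          rintro _ ⟨a, ha, c, hc', rfl⟩
          refine ⟨a⁻¹, R₀.inv_mem ha, c⁻¹, R₁.inv_mem hc', ?_⟩
          have := hc a⁻¹ (R₀.inv_mem ha) c⁻¹ (R₁.inv_mem hc')
          rw [mul_inv_rev, this] }
    have hT : R₀ ⊔ R₁ ≤ T := by
      apply sup_le
      · intro a ha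
        exact ⟨a, ha, 1, R₁.one_mem, by simp⟩
      · intro c hc'
        exact ⟨1, R₀.one_mem, c, hc', by simp⟩
    intro x hx
    exact hT hx
  have hR0 : ∀ a ∈ R₀, a ^ p = 1 := by
    intro a ha
    have h := pow_card_eq_one' (G := R₀) (x := ⟨a, ha⟩)
    rw [h0] at h
    have h' := congrArg Subtype.val h
    simpa using h'
  have hex : ∀ b : B, ∃ ac : R₀ × {c : R₁ // c ^ p = 1},
      (b : R) = (ac.1 : R) * ((ac.2 : R₁) : R) := by
    intro b
    obtain ⟨a, ha, c, hc', hb⟩ := hdec b.1 (hB b.2)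
    have hcp : c ^ p = 1 := by
      have h1' := hBp b.1 b.2
      rw [hb, (show Commute a c from hc a ha c hc').mul_pow, hR0 a ha, one_mul] at h1'
      exact h1'
    exact ⟨(⟨a, ha⟩, ⟨⟨c, hc'⟩, Subtype.ext (by simpa using hcp)⟩), hb⟩
  choose f hf using hex
  have hinj : Function.Injective f := by
    intro b b' h
    apply Subtype.ext
    rw [hf b, hf b', h]
  have h2 : Nat.card B ≤ Nat.card (R₀ × {c : R₁ // c ^ p = 1}) :=
    Nat.card_le_card_of_injective f hinj
  have h3 : Nat.card {c : R₁ // c ^ p = 1} ≤ p := by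
    have : Fintype R₁ := Fintype.ofFinite _
    rw [Nat.card_eq_fintype_card, Fintype.card_subtype]
    exact IsCyclic.card_pow_eq_one_le hp
  calc Nat.card B ≤ Nat.card (R₀ × {c : R₁ // c ^ p = 1}) := h2
    _ = Nat.card R₀ * Nat.card {c : R₁ // c ^ p = 1} := Nat.card_prod _ _
    _ ≤ p * p := by
        rw [h0]
        exact Nat.mul_le_mul_left _ h3
    _ = p ^ 2 := by ring

/-- The same count, stated with the centralizer of `R₀`. -/
theorem narrow_centralizer_rank {R : Type*} [Group R] [Finite R] (p : ℕ) [Fact p.Prime]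
    (R₀ R₁ : Subgroup R) (h0 : Nat.card R₀ = p) (h1 : IsCyclic R₁)
    (hcomm : ∀ a ∈ R₀, ∀ b ∈ R₁, a * b = b * a)
    (hC : R₀ ⊔ R₁ = Subgroup.centralizer (R₀ : Set R)) (B : Subgroup R)
    (hB : B ≤ Subgroup.centralizer (R₀ : Set R)) (hBp : ∀ b ∈ B, b ^ p = 1) :
    Nat.card B ≤ p ^ 2 :=
  narrow_count p R₀ R₁ B h0 h1 hcomm (hC ▸ hB) hBp

end Cfsg.Agent.Lib.helper13.S1455Q1
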