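import Mathlib
import Cfsg.Agent.S1453
import Cfsg.Agent.Lib.helper13.S1455Q1

set_option autoImplicit false

/-!
# The characteristic subgroup of index p of a narrow p-group of rank at least 3
-/

namespace Cfsg.Agent.Lib.helper13.S1454F2a

/-- A narrow `p`-group `R` (`p` odd) of rank at least 3 has an element `e` and a characteristic subgroup
`T` of index `p` such that every subgroup of exponent `p` of `T` commuting with `e` has order at
most `p`. -/
theorem narrow_T {R : Type*} [Group R] [Finite R] (p : ℕ) [Fact p.Prime] (hp : p ≠ 2)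
    (hR : IsPGroup p R) (hRn : Cfsg.IsNarrow p R) (hr3 : ¬ Cfsg.PRankLE p 2 R) :
    ∃ (e : R) (T : Subgroup R), T.Characteristic ∧ T.index = p ∧
      ∀ B : Subgroup R, B ≤ T → (∀ b ∈ B, b * e = e * b) → (∀ b ∈ B, b ^ p = 1) →
        Nat.card B ≤ p := by
  classical
  have hpp : p.Prime := Fact.out
  obtain ⟨R₀, R₁, h0, h1, -, hc, hsup⟩ := hRn.resolve_left hr3
  -- R₀ is cyclic, with generator e
  have hcyc0 : IsCyclic R₀ := isCyclic_of_prime_card h0
  obtain ⟨g, hg⟩ := hcyc0.exists_generator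
  have hgen : ∀ a ∈ R₀, ∃ i : ℤ, (g : R) ^ i = a := by
    intro a ha
    obtain ⟨i, hi⟩ := Subgroup.mem_zpowers_iff.mp (hg ⟨a, ha⟩)
    exact ⟨i, by simpa using congrArg Subtype.val hi⟩
  have hR0p : ∀ a ∈ R₀, a ^ p = 1 := by
    intro a ha
    have h := pow_card_eq_one' (G := R₀) (x := ⟨a, ha⟩)
    rw [h0] at h
    have h' := congrArg Subtype.val h
    simpa using h'
  have hR0c : ∀ a ∈ R₀, ∀ b ∈ R₀, Commute a b := by
    intro a ha b hb
    obtain ⟨i, rfl⟩ := hgen a ha
    obtain ⟨j, rfl⟩ := hgen b hb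
    exact (Commute.refl (g : R)).zpow_zpow i j
  have hR1c : ∀ a ∈ R₁, ∀ b ∈ R₁, Commute a b := by
    obtain ⟨g1, hg1⟩ := h1.exists_generator
    intro a ha b hb
    obtain ⟨i, hi⟩ := Subgroup.mem_zpowers_iff.mp (hg1 ⟨a, ha⟩)
    obtain ⟨j, hj⟩ := Subgroup.mem_zpowers_iff.mp (hg1 ⟨b, hb⟩)
    have h : (⟨a, ha⟩ : R₁) * ⟨b, hb⟩ = ⟨b, hb⟩ * ⟨a, ha⟩ := by
      rw [← hi, ← hj, ← zpow_add, ← zpow_add, add_comm]
    exact congrArg Subtype.val h
  -- decomposition of R₀ ⊔ R₁
  have hdec : ∀ x ∈ R₀ ⊔ R₁, ∃ a ∈ R₀, ∃ c ∈ R₁, x = a * c := by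
    let T : Subgroup R :=
      { carrier := {x | ∃ a ∈ R₀, ∃ c ∈ R₁, x = a * c}
        one_mem' := ⟨1, R₀.one_mem, 1, R₁.one_mem, by simp⟩
        mul_mem' := by
          rintro _ _ ⟨a, ha, c, hc', rfl⟩ ⟨a', ha', c', hc'', rfl⟩
          refine ⟨a * a', R₀.mul_mem ha ha', c * c', R₁.mul_mem hc' hc'', ?_⟩
          have := hc a' ha' c hc'
          calc a * c * (a' * c') = a * (c * a') * c' := by group
            _ = a * (a' * c) * c' := by rw [this]
            _ = a * a' * (c * c') := by group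
        inv_mem' := by
          rintro _ ⟨a, ha, c, hc', rfl⟩
          refine ⟨a⁻¹, R₀.inv_mem ha, c⁻¹, R₁.inv_mem hc', ?_⟩
          have := hc a⁻¹ (R₀.inv_mem ha) c⁻¹ (R₁.inv_mem hc')
          rw [mul_inv_rev, this] }
    have hT : R₀ ⊔ R₁ ≤ T := by
      apply sup_le
      · intro a ha
        exact ⟨a, ha, 1, R₁.one_mem, by simp⟩
      · intro c hc'
        exact ⟨1, R₀.one_mem, c, hc', by simp⟩
    intro x hx
    exact hT hx
  -- R₀ ⊔ R₁ is abelian
  have hCc : ∀ x ∈ R₀ ⊔ R₁, ∀ y ∈ R₀ ⊔ R₁, Commute x y := by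
    intro x hx y hy
    obtain ⟨a, ha, c, hc', rfl⟩ := hdec x hx
    obtain ⟨a', ha', c', hc'', rfl⟩ := hdec y hy
    have h1' : Commute a a' := hR0c a ha a' ha'
    have h2' : Commute a c' := hc a ha c' hc''
    have h3' : Commute c a' := (show Commute a' c from hc a' ha' c hc').symm
    have h4' : Commute c c' := hR1c c hc' c' hc''
    exact (h1'.mul_right h2').mul_left (h3'.mul_right h4')
  -- commuting with e means lying in the centralizer of R₀
  have hcent : ∀ x : R, x * (g : R) = (g : R) * x → x ∈ R₀ ⊔ R₁ := by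
    intro x hx
    rw [hsup, Subgroup.mem_centralizer_iff]
    intro h hh
    obtain ⟨i, rfl⟩ := hgen h hh
    exact ((show Commute x (g : R) from hx).zpow_right i).symm
  have hR0le : R₀ ≤ R₀ ⊔ R₁ := le_sup_left
  -- the subgroup E
  let E : Subgroup R :=
    { carrier := {x | x ∈ R₀ ⊔ R₁ ∧ x ^ p = 1}
      one_mem' := ⟨Subgroup.one_mem _, one_pow _⟩
      mul_mem' := by
        rintro x y ⟨hx, hxp⟩ ⟨hy, hyp⟩
        refine ⟨Subgroup.mul_mem _ hx hy, ?_⟩
        rw [(hCc x hx y hy).mul_pow, hxp, hyp, one_mul]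
      inv_mem' := by
        rintro x ⟨hx, hxp⟩
        exact ⟨Subgroup.inv_mem _ hx, by rw [inv_pow, hxp, inv_one]⟩ }
  have hEmem : ∀ x : R, x ∈ E ↔ x ∈ R₀ ⊔ R₁ ∧ x ^ p = 1 := fun x => Iff.rfl
  have hEle : E ≤ R₀ ⊔ R₁ := fun x hx => hx.1
  have hEp : ∀ a ∈ E, a ^ p = 1 := fun a ha => ha.2
  have hR0E : R₀ ≤ E := fun a ha => ⟨hR0le ha, hR0p a ha⟩
  have hEea : Cfsg.IsElementaryAbelian p E := by
    refine ⟨⟨⟨?_⟩⟩, hEp⟩
    rintro ⟨x, hx⟩ ⟨y, hy⟩
    apply Subtype.ext
    exact hCc x hx.1 y hy.1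
  have hEcard : Nat.card E ≤ p ^ 2 :=
    Cfsg.Agent.Lib.helper13.S1455Q1.narrow_count p R₀ R₁ E h0 h1 hc hEle hEp
  have hEmax : ∀ B : Subgroup R, Cfsg.IsElementaryAbelian p B → E ≤ B → B = E := by
    intro B hB hEB
    apply le_antisymm _ hEB
    intro b hb
    refine ⟨?_, hB.2 b hb⟩
    rw [hsup, Subgroup.mem_centralizer_iff]
    intro h hh
    have hhB : h ∈ B := hEB (hR0E hh)
    have := hB.1.is_comm.comm (⟨h, hhB⟩ : B) ⟨b, hb⟩
    exact congrArg Subtype.val this
  -- the order of E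
  have hE2 : Nat.card E = p ^ 2 := by
    obtain ⟨k, hk⟩ := (hR.to_subgroup E).exists_card_eq
    have hdvd : p ∣ Nat.card E := by
      have := Subgroup.card_dvd_of_le hR0E
      rwa [h0] at this
    have hk2 : k ≤ 2 := by
      rw [hk] at hEcard
      exact (Nat.pow_le_pow_iff_right hpp.one_lt).mp hEcard
    have hk0 : k ≠ 0 := by
      rintro rfl
      rw [hk, pow_zero] at hdvd
      exact hpp.one_lt.ne' (Nat.dvd_one.mp hdvd)
    have hk1 : k ≠ 1 := by
      rintro rfl
      rw [pow_one] at hk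
      -- E = R₀
      have hER : R₀ = E := Subgroup.eq_of_le_of_card_ge hR0E (by rw [hk, h0])
      -- a central element of order p
      have hnt : Nontrivial R := by
        have : 1 < Nat.card R₀ := by
          rw [h0]
          exact hpp.one_lt
        obtain ⟨a, b, hab⟩ := (Finite.one_lt_card_iff_nontrivial.mp this)
        exact ⟨⟨(a : R), (b : R), fun h => hab (Subtype.ext h)⟩⟩
      have hcnt : Nontrivial (Subgroup.center R) := hR.center_nontrivial
      have hpc : p ∣ Nat.card (Subgroup.center R) := by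
        obtain ⟨n, hn⟩ := (hR.to_subgroup (Subgroup.center R)).exists_card_eq
        have hn0 : n ≠ 0 := by
          rintro rfl
          rw [pow_zero] at hn
          have := Finite.one_lt_card_iff_nontrivial.mpr hcnt
          omega
        rw [hn]
        exact dvd_pow_self p hn0
      obtain ⟨z, hz⟩ := exists_prime_orderOf_dvd_card' (G := Subgroup.center R) p hpc
      have hzc : (z : R) ∈ Subgroup.center R := z.2
      have hzo : orderOf (z : R) = p := by
        rw [Subgroup.orderOf_coe]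
        exact hz
      have hzE : (z : R) ∈ E := by
        refine ⟨?_, ?_⟩
        · rw [hsup, Subgroup.mem_centralizer_iff]
          intro h _
          exact (Subgroup.mem_center_iff.mp hzc h)
        · rw [← hzo]
          exact pow_orderOf_eq_one _
      have hzR0 : (z : R) ∈ R₀ := by
        rw [hER]
        exact hzE
      -- R₀ = zpowers z, so R₀ is central
      have hzp : Subgroup.zpowers (z : R) = R₀ := by
        apply Subgroup.eq_of_le_of_card_ge
        · rw [Subgroup.zpowers_le]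
          exact hzR0
        · rw [Nat.card_zpowers, hzo, h0]
      have hR0cen : R₀ ≤ Subgroup.center R := by
        rw [← hzp, Subgroup.zpowers_le]
        exact hzc
      have htop : R₀ ⊔ R₁ = ⊤ := by
        rw [hsup, eq_top_iff]
        intro x _
        rw [Subgroup.mem_centralizer_iff]
        intro h hh
        exact (Subgroup.mem_center_iff.mp (hR0cen hh) x).symm
      apply hr3
      intro B _ hBp
      exact Cfsg.Agent.Lib.helper13.S1455Q1.narrow_count p R₀ R₁ B h0 h1 hc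
        (by rw [htop]; exact le_top) hBp
    have : k = 2 := by omega
    rw [hk, this]
  obtain ⟨hnot, -, -, hchar, hidx⟩ := Cfsg.Agent.S1453.result p hp hR hr3 E hEea hE2 hEmax
  refine ⟨(g : R), _, hchar, hidx, ?_⟩
  intro B hBT hBe hBp
  set T := Subgroup.centralizer ((Subgroup.closure
    {x : R | x ∈ Subgroup.upperCentralSeries R 2 ∧ x ^ p = 1} : Subgroup R) : Set R) with hT
  have hBE : B ≤ E ⊓ T := by
    intro b hb
    exact ⟨⟨hcent b (hBe b hb), hBp b hb⟩, hBT hb⟩
  have h1' : Nat.card B ≤ Nat.card (E ⊓ T : Subgroup R) := Subgroup.card_le_of_le hBE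
  have h2' : Nat.card (E ⊓ T : Subgroup R) ∣ p ^ 2 := by
    rw [← hE2]
    exact Subgroup.card_dvd_of_le inf_le_left
  obtain ⟨m, hm, hmc⟩ := (Nat.dvd_prime_pow hpp).mp h2'
  have hm2 : m ≠ 2 := by
    rintro rfl
    apply hnot
    have : E ⊓ T = E := Subgroup.eq_of_le_of_card_ge inf_le_left (by rw [hmc, hE2])
    rw [← this]
    exact inf_le_right
  have hm1 : m ≤ 1 := by omega
  calc Nat.card B ≤ Nat.card (E ⊓ T : Subgroup R) := h1'
    _ = p ^ m := hmc
    _ ≤ p ^ 1 := Nat.pow_le_pow_right hpp.pos hm1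
    _ = p := pow_one p

end Cfsg.Agent.Lib.helper13.S1454F2a
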