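import Mathlib
import Cfsg.Prelude.Def_Solvable

set_option autoImplicit false

/-!
# A finite group whose derived subgroup is a p-group: O_p contains the derived subgroup, p'-index
-/

namespace Cfsg.Agent.Lib.helper13.S1454G1

open scoped commutatorElement

/-- If the derived subgroup of the finite group `A` is a `p`-group, then it lies in `O_p(A)` and
`O_p(A)` has index prime to `p`. -/
theorem pcore_of_der_pgroup {A : Type*} [Group A] [Finite A] (p : ℕ) [Fact p.Prime]
    (h : IsPGroup p ↥(commutator A)) :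
    commutator A ≤ Cfsg.pCore p A ∧ ((Cfsg.pCore p A).index).Coprime p := by
  have hpp : p.Prime := Fact.out
  have hcn : (commutator A).Normal := by
    rw [commutator_def]
    infer_instance
  refine ⟨le_sSup ⟨hcn, h⟩, ?_⟩
  obtain ⟨S, hS⟩ := h.exists_le_sylow
  have hSn : (S : Subgroup A).Normal := by
    constructor
    intro x hx g
    have h1 : ⁅g, x⁆ ∈ commutator A := by
      rw [commutator_def]
      exact Subgroup.commutator_mem_commutator (Subgroup.mem_top g) (Subgroup.mem_top x)
    have h2 : g * x * g⁻¹ = ⁅g, x⁆ * x := by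
      rw [commutatorElement_def]
      group
    rw [h2]
    exact (S : Subgroup A).mul_mem (hS h1) hx
  have hSle : (S : Subgroup A) ≤ Cfsg.pCore p A := le_sSup ⟨hSn, S.isPGroup'⟩
  have hdvd : (Cfsg.pCore p A).index ∣ (S : Subgroup A).index := Subgroup.index_dvd_of_le hSle
  have hnd : ¬ p ∣ (S : Subgroup A).index := S.not_dvd_index
  have hnd' : ¬ p ∣ (Cfsg.pCore p A).index := fun hp => hnd (hp.trans hdvd)
  exact ((Nat.Prime.coprime_iff_not_dvd hpp).mpr hnd').symm

/-- The same conclusion when every `p'`-element of the derived subgroup is trivial. -/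
theorem part_one_wrap {A : Type*} [Group A] [Finite A] (p : ℕ) [Fact p.Prime]
    (h : ∀ g ∈ commutator A, (orderOf g).Coprime p → g = 1) :
    commutator A ≤ Cfsg.pCore p A ∧ ((Cfsg.pCore p A).index).Coprime p := by
  have hpp : p.Prime := Fact.out
  apply pcore_of_der_pgroup
  intro g
  have hn : orderOf (g : A) ≠ 0 := (orderOf_pos (g : A)).ne'
  obtain ⟨k, m, hm, hkm⟩ := Nat.exists_eq_pow_mul_and_not_dvd hn p hpp.ne_one
  refine ⟨k, ?_⟩
  have hy : (g : A) ^ p ^ k ∈ commutator A := (commutator A).pow_mem g.2 _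
  have hym : ((g : A) ^ p ^ k) ^ m = 1 := by
    rw [← pow_mul, ← hkm, pow_orderOf_eq_one]
  have hdvd : orderOf ((g : A) ^ p ^ k) ∣ m := orderOf_dvd_of_pow_eq_one hym
  have hcop : (orderOf ((g : A) ^ p ^ k)).Coprime p :=
    Nat.Coprime.coprime_dvd_left hdvd ((Nat.Prime.coprime_iff_not_dvd hpp).mpr hm).symm
  have := h _ hy hcop
  apply Subtype.ext
  simpa using this

end Cfsg.Agent.Lib.helper13.S1454G1
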