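import Mathlib
import Cfsg.Prelude.Def_OddOrderLocal
import Cfsg.Agent.Lib.helper13.S1455Q1

set_option autoImplicit false

/-!
# The elementary abelian subgroup attached to a narrow p-subgroup
-/

namespace Cfsg.Agent.Lib.helper13.S1454N0

/-- A narrow subgroup `R` of `G` contains an elementary abelian `E` such that every elementary abelian
subgroup of `C_R(E)` has order at most `p ^ 2`. -/
theorem narrow_data {G : Type*} [Group G] [Finite G] (p : ℕ) [Fact p.Prime] (R : Subgroup G)
    (hRn : Cfsg.IsNarrow p R) :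
    ∃ E : Subgroup G, E ≤ R ∧ (∀ a ∈ E, ∀ b ∈ E, a * b = b * a) ∧ (∀ a ∈ E, a ^ p = 1) ∧
      ∀ B : Subgroup G, B ≤ R → B ≤ Subgroup.centralizer (E : Set G) →
        (∀ a ∈ B, ∀ b ∈ B, a * b = b * a) → (∀ b ∈ B, b ^ p = 1) → Nat.card B ≤ p ^ 2 := by
  classical
  have hcardsub : ∀ B : Subgroup G, B ≤ R → Nat.card (B.subgroupOf R) = Nat.card B := by
    intro B hBR
    exact Nat.card_congr (Subgroup.subgroupOfEquivOfLe hBR).toEquiv
  rcases hRn with hr | ⟨R₀, R₁, h0, h1, -, hc, hsup⟩
  · refine ⟨⊥, bot_le, ?_, ?_, ?_⟩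
    · intro a ha b hb
      rw [Subgroup.mem_bot] at ha hb
      rw [ha, hb]
    · intro a ha
      rw [Subgroup.mem_bot] at ha
      rw [ha, one_pow]
    · intro B hBR _ hBc hBp
      rw [← hcardsub B hBR]
      apply hr (B.subgroupOf R)
      · constructor
        constructor
        rintro ⟨x, hx⟩ ⟨y, hy⟩
        apply Subtype.ext
        apply Subtype.ext
        exact hBc _ (Subgroup.mem_subgroupOf.mp hx) _ (Subgroup.mem_subgroupOf.mp hy)
      · intro x hx
        apply Subtype.ext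
        have := hBp _ (Subgroup.mem_subgroupOf.mp hx)
        simpa using this
  · have hR0p : ∀ a ∈ R₀, a ^ p = 1 := by
      intro a ha
      have h := pow_card_eq_one' (G := R₀) (x := ⟨a, ha⟩)
      rw [h0] at h
      have h' := congrArg Subtype.val h
      simpa using h'
    have hR0c : ∀ a ∈ R₀, ∀ b ∈ R₀, a * b = b * a := by
      have hcyc : IsCyclic R₀ := isCyclic_of_prime_card h0
      obtain ⟨g, hg⟩ := hcyc.exists_generator
      intro a ha b hb
      obtain ⟨i, hi⟩ := Subgroup.mem_zpowers_iff.mp (hg ⟨a, ha⟩)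
      obtain ⟨j, hj⟩ := Subgroup.mem_zpowers_iff.mp (hg ⟨b, hb⟩)
      have h : (⟨a, ha⟩ : R₀) * ⟨b, hb⟩ = ⟨b, hb⟩ * ⟨a, ha⟩ := by
        rw [← hi, ← hj, ← zpow_add, ← zpow_add, add_comm]
      exact congrArg Subtype.val h
    refine ⟨R₀.map R.subtype, ?_, ?_, ?_, ?_⟩
    · rintro _ ⟨r, -, rfl⟩
      exact r.2
    · rintro _ ⟨a, ha, rfl⟩ _ ⟨b, hb, rfl⟩
      rw [← map_mul, ← map_mul, hR0c a ha b hb]
    · rintro _ ⟨a, ha, rfl⟩
      rw [← map_pow, hR0p a ha, map_one]
    · intro B hBR hBE _ hBp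
      rw [← hcardsub B hBR]
      apply Cfsg.Agent.Lib.helper13.S1455Q1.narrow_count p R₀ R₁ (B.subgroupOf R) h0 h1 hc
      · rw [hsup]
        intro b hb
        rw [Subgroup.mem_centralizer_iff]
        intro r hr
        have hbB : (b : G) ∈ B := Subgroup.mem_subgroupOf.mp hb
        have hrE : (r : G) ∈ R₀.map R.subtype := ⟨r, hr, rfl⟩
        have h := (Subgroup.mem_centralizer_iff.mp (hBE hbB)) (r : G) hrE
        apply Subtype.ext
        exact h
      · intro b hb
        have hbB : (b : G) ∈ B := Subgroup.mem_subgroupOf.mp hb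
        apply Subtype.ext
        have := hBp _ hbB
        simpa using this

end Cfsg.Agent.Lib.helper13.S1454N0
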