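import Mathlib

set_option autoImplicit false

/-!
# R = D · C_R(D) for a subgroup D of order p ^ 3 with centre of order p and [D, R] ≤ Z(D)
-/

namespace Cfsg.Agent.Lib.helper13.S1454X2

open scoped commutatorElement

/-- If the fibres of `f` lie in left cosets of `K`, then `|X| ≤ |T| * |K|`. -/
theorem card_le_of_fibres {X : Type*} [Group X] [Finite X] (K : Subgroup X) {T : Type*} [Finite T]
    (f : X → T) (hf : ∀ x x' : X, f x = f x' → x⁻¹ * x' ∈ K) :
    Nat.card X ≤ Nat.card T * Nat.card K := by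
  classical
  let s : T → X := Function.invFun f
  have hs : ∀ x, f (s (f x)) = f x := fun x => Function.invFun_eq ⟨x, rfl⟩
  let ι : X → T × K := fun x => (f x, ⟨(s (f x))⁻¹ * x, hf _ _ (hs x)⟩)
  have hι : Function.Injective ι := by
    intro x x' h
    have h1 : f x = f x' := congrArg Prod.fst h
    have h2 : (s (f x))⁻¹ * x = (s (f x'))⁻¹ * x' := congrArg (fun t => (t.2 : X)) h
    rw [h1] at h2
    exact mul_left_cancel h2
  calc Nat.card X ≤ Nat.card (T × K) := Nat.card_le_card_of_injective ι hι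
    _ = Nat.card T * Nat.card K := Nat.card_prod _ _

/-- A finite group of order `p ^ k`, `k ≤ 2`, is commutative. -/
theorem comm_of_card_le_sq {M : Type*} [Group M] [Finite M] (p : ℕ) [Fact p.Prime] (k : ℕ)
    (hk : k ≤ 2) (h : Nat.card M = p ^ k) : ∀ a b : M, a * b = b * a := by
  have hk' : k = 0 ∨ k = 1 ∨ k = 2 := by omega
  rcases hk' with rfl | rfl | rfl
  · rw [pow_zero] at h
    have : Subsingleton M := (Nat.card_eq_one_iff_unique.mp h).1
    intro a b
    exact Subsingleton.elim _ _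
  · rw [pow_one] at h
    have hcyc : IsCyclic M := isCyclic_of_prime_card h
    obtain ⟨g, hg⟩ := hcyc.exists_generator
    intro a b
    obtain ⟨i, rfl⟩ := Subgroup.mem_zpowers_iff.mp (hg a)
    obtain ⟨j, rfl⟩ := Subgroup.mem_zpowers_iff.mp (hg b)
    rw [← zpow_add, ← zpow_add, add_comm]
  · exact (IsPGroup.isMulCommutative_of_card_eq_prime_sq h).is_comm.comm

/-- `R = D · C_R(D)`. -/
theorem prod_centralizer {H : Type*} [Group H] [Finite H] (p : ℕ) [Fact p.Prime] (R D : Subgroup H)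
    (hR : IsPGroup p R) (hDR : D ≤ R) (hD3 : Nat.card D = p ^ 3)
    (hZ : Nat.card ↥(D ⊓ Subgroup.centralizer (D : Set H)) = p)
    (hDn : R ≤ Subgroup.normalizer (D : Set H))
    (hcomm : ∀ d ∈ D, ∀ r ∈ R, ⁅d, r⁆ ∈ Subgroup.centralizer (D : Set H)) :
    ∀ r ∈ R, ∃ d ∈ D, ∃ c ∈ R ⊓ Subgroup.centralizer (D : Set H), r = d * c := by
  classical
  have hpp : p.Prime := Fact.out
  set Z : Subgroup H := D ⊓ Subgroup.centralizer (D : Set H) with hZdef
  -- commutators lie in Z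
  have hcZ : ∀ d ∈ D, ∀ r ∈ R, ⁅d, r⁆ ∈ Z := by
    intro d hd r hr
    refine ⟨?_, hcomm d hd r hr⟩
    have h1 : r * d⁻¹ * r⁻¹ ∈ D := (Subgroup.mem_normalizer_iff.mp (hDn hr) d⁻¹).mp (D.inv_mem hd)
    have h2 : ⁅d, r⁆ = d * (r * d⁻¹ * r⁻¹) := by
      rw [commutatorElement_def]
      group
    rw [h2]
    exact D.mul_mem hd h1
  -- two non-commuting elements of D
  obtain ⟨x, hxD, y, hyD, hxy⟩ : ∃ x ∈ D, ∃ y ∈ D, y * x ≠ x * y := by
    by_contra hne
    have hall : ∀ x ∈ D, ∀ y ∈ D, y * x = x * y := by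
      intro x hx y hy
      by_contra h
      exact hne ⟨x, hx, y, hy, h⟩
    have hZD : Z = D := by
      apply le_antisymm inf_le_left
      intro x hx
      exact ⟨hx, Subgroup.mem_centralizer_iff.mpr (fun y hy => hall x hx y hy)⟩
    rw [hZD, hD3] at hZ
    have h1 : p ^ 3 = p ^ 1 := by rw [pow_one]; exact hZ
    have := Nat.pow_right_injective hpp.two_le h1
    omega
  -- an element commuting with x and y centralizes D
  have hgen : ∀ g : H, g * x = x * g → g * y = y * g → g ∈ Subgroup.centralizer (D : Set H) := by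
    intro g hgx hgy
    set M : Subgroup H := D ⊓ Subgroup.centralizer ({g} : Set H) with hM
    have hxM : x ∈ M := ⟨hxD, Subgroup.mem_centralizer_iff.mpr (fun h hh => by
      rw [Set.mem_singleton_iff.mp hh]; exact hgx)⟩
    have hyM : y ∈ M := ⟨hyD, Subgroup.mem_centralizer_iff.mpr (fun h hh => by
      rw [Set.mem_singleton_iff.mp hh]; exact hgy)⟩
    have hdvd : Nat.card M ∣ p ^ 3 := by
      rw [← hD3]
      exact Subgroup.card_dvd_of_le inf_le_left
    obtain ⟨k, hk3, hk⟩ := (Nat.dvd_prime_pow hpp).mp hdvd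
    have hk3' : k = 3 := by
      by_contra hne
      have hk2 : k ≤ 2 := by omega
      have hc := comm_of_card_le_sq p k hk2 hk (⟨y, hyM⟩ : M) ⟨x, hxM⟩
      exact hxy (congrArg Subtype.val hc)
    have hMD : M = D := Subgroup.eq_of_le_of_card_ge inf_le_left (by rw [hk, hk3', hD3])
    rw [Subgroup.mem_centralizer_iff]
    intro h hh
    have : h ∈ M := by rw [hMD]; exact hh
    exact (Subgroup.mem_centralizer_iff.mp this.2 g rfl).symm
  -- the map Θ
  let Θ : ↥R → ↥Z × ↥Z := fun r =>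
    (⟨⁅x, (r : H)⁆, hcZ x hxD r r.2⟩, ⟨⁅y, (r : H)⁆, hcZ y hyD r r.2⟩)
  have hfib : ∀ r r' : ↥R, Θ r = Θ r' → (r' : H)⁻¹ * (r : H) ∈ Subgroup.centralizer (D : Set H) := by
    intro r r' h
    have h1 : ⁅x, (r : H)⁆ = ⁅x, (r' : H)⁆ := congrArg (fun t => (t.1 : H)) h
    have h2 : ⁅y, (r : H)⁆ = ⁅y, (r' : H)⁆ := congrArg (fun t => (t.2 : H)) h
    rw [commutatorElement_def, commutatorElement_def] at h1 h2
    apply hgen
    · have e1 : (r : H) * x⁻¹ * (r : H)⁻¹ = (r' : H) * x⁻¹ * (r' : H)⁻¹ := by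
        have := congrArg (fun t => x⁻¹ * t) h1
        simpa [mul_assoc] using this
      have e2 : (r' : H)⁻¹ * (r : H) * x⁻¹ = x⁻¹ * ((r' : H)⁻¹ * (r : H)) := by
        have := congrArg (fun t => (r' : H)⁻¹ * t * (r : H)) e1
        simpa [mul_assoc] using this
      have e3 := congrArg (fun t => x * t * x) e2
      simp only [mul_assoc, inv_mul_cancel, mul_one, mul_inv_cancel_left] at e3
      have e4 := e3.symm
      simp only [mul_assoc] at e4 ⊢
      exact e4
    · have e1 : (r : H) * y⁻¹ * (r : H)⁻¹ = (r' : H) * y⁻¹ * (r' : H)⁻¹ := by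
        have := congrArg (fun t => y⁻¹ * t) h2
        simpa [mul_assoc] using this
      have e2 : (r' : H)⁻¹ * (r : H) * y⁻¹ = y⁻¹ * ((r' : H)⁻¹ * (r : H)) := by
        have := congrArg (fun t => (r' : H)⁻¹ * t * (r : H)) e1
        simpa [mul_assoc] using this
      have e3 := congrArg (fun t => y * t * y) e2
      simp only [mul_assoc, inv_mul_cancel, mul_one, mul_inv_cancel_left] at e3
      have e4 := e3.symm
      simp only [mul_assoc] at e4 ⊢
      exact e4
  -- Θ restricted to D is onto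
  have hsurj : ∀ t : ↥Z × ↥Z, ∃ d : ↥D, Θ ⟨(d : H), hDR d.2⟩ = t := by
    by_contra hne
    obtain ⟨t₀, ht₀⟩ := not_forall.mp hne
    let f : ↥D → {t : ↥Z × ↥Z // t ≠ t₀} := fun d => ⟨Θ ⟨(d : H), hDR d.2⟩, fun h => ht₀ ⟨d, h⟩⟩
    have hf : ∀ d d' : ↥D, f d = f d' → d⁻¹ * d' ∈ Z.subgroupOf D := by
      intro d d' h
      have h' : Θ ⟨(d' : H), hDR d'.2⟩ = Θ ⟨(d : H), hDR d.2⟩ := (congrArg Subtype.val h).symm
      have := hfib _ _ h'
      rw [Subgroup.mem_subgroupOf]
      exact ⟨D.mul_mem (D.inv_mem d.2) d'.2, this⟩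
    have h1 := card_le_of_fibres (Z.subgroupOf D) f hf
    have h2 : Nat.card {t : ↥Z × ↥Z // t ≠ t₀} < Nat.card (↥Z × ↥Z) :=
      Finite.card_subtype_lt (x := t₀) (by simp)
    have h3 : Nat.card (Z.subgroupOf D) = p := by
      rw [← hZ]
      exact Nat.card_congr (Subgroup.subgroupOfEquivOfLe inf_le_left).toEquiv
    rw [Nat.card_prod, hZ] at h2
    rw [h3, hD3] at h1
    have h4 : Nat.card {t : ↥Z × ↥Z // t ≠ t₀} * p < p * p * p :=
      Nat.mul_lt_mul_of_pos_right h2 hpp.pos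
    have h5 : p ^ 3 = p * p * p := by ring
    omega
  intro r hr
  obtain ⟨d, hd⟩ := hsurj (Θ ⟨r, hr⟩)
  have hc := hfib ⟨r, hr⟩ ⟨(d : H), hDR d.2⟩ hd.symm
  refine ⟨(d : H), d.2, (d : H)⁻¹ * r, ⟨R.mul_mem (R.inv_mem (hDR d.2)) hr, hc⟩, ?_⟩
  group

end Cfsg.Agent.Lib.helper13.S1454X2
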