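import Mathlib
import Cfsg.Agent.Lib.helper13.S1455Q1

set_option autoImplicit false

/-!
# A narrow Sylow subgroup seen in the quotient by a normal subgroup of coprime order
-/

namespace Cfsg.Agent.Lib.helper13.S1455Q2

/-- Transfer of the narrow data of a Sylow `p`-subgroup `S` to `G ⧸ N`, `N` a normal subgroup of
order prime to `p` with `N ⊔ N_G(S) = ⊤`. -/
theorem narrow_quot {G : Type*} [Group G] [Finite G] (p : ℕ) [Fact p.Prime] (S : Sylow p G)
    (N : Subgroup G) [N.Normal] (hN : (Nat.card N).Coprime p)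
    (hSn : N ⊔ Subgroup.normalizer ((S : Subgroup G) : Set G) = ⊤)
    (R₀ R₁ : Subgroup ↥(S : Subgroup G)) (h0 : Nat.card R₀ = p) (h1 : IsCyclic R₁)
    (hc : ∀ a ∈ R₀, ∀ b ∈ R₁, a * b = b * a)
    (hsup : R₀ ⊔ R₁ = Subgroup.centralizer (R₀ : Set ↥(S : Subgroup G))) :
    ∃ P E : Subgroup (G ⧸ N), P.Normal ∧ IsPGroup p P ∧
      (∀ Q : Subgroup (G ⧸ N), Q.Normal → IsPGroup p Q → Q ≤ P) ∧ E ≤ P ∧
      (∀ a ∈ E, ∀ b ∈ E, a * b = b * a) ∧ (∀ a ∈ E, a ^ p = 1) ∧
      ∀ B : Subgroup (G ⧸ N), B ≤ P → B ≤ Subgroup.centralizer (E : Set (G ⧸ N)) →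
        (∀ a ∈ B, ∀ b ∈ B, a * b = b * a) → (∀ b ∈ B, b ^ p = 1) → Nat.card B ≤ p ^ 2 := by
  classical
  have hpp : p.Prime := Fact.out
  set π : G →* G ⧸ N := QuotientGroup.mk' N with hπ
  set φ : ↥(S : Subgroup G) →* G ⧸ N := π.comp (S : Subgroup G).subtype with hφ
  have hφapp : ∀ s : ↥(S : Subgroup G), φ s = π (s : G) := fun s => rfl
  -- injectivity of φ
  have hinj : Function.Injective φ := by
    rw [injective_iff_map_eq_one]
    intro s hs
    have hsN : (s : G) ∈ N := by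
      have : π (s : G) = 1 := hs
      exact (QuotientGroup.eq_one_iff (s : G)).mp this
    obtain ⟨k, hk⟩ := (IsPGroup.iff_orderOf.mp S.isPGroup') s
    have hdvd : orderOf (s : G) ∣ Nat.card N := by
      have := orderOf_dvd_natCard (⟨(s : G), hsN⟩ : N)
      rwa [Subgroup.orderOf_mk] at this
    have hk' : orderOf (s : G) = p ^ k := by
      rw [← hk, Subgroup.orderOf_coe]
    rw [hk'] at hdvd
    have hk0 : k = 0 := by
      by_contra hne
      have hpd : p ∣ Nat.card N := (dvd_pow_self p hne).trans hdvd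
      have := Nat.Coprime.eq_one_of_dvd hN.symm hpd
      exact hpp.one_lt.ne' this
    rw [hk0, pow_zero] at hk
    exact orderOf_eq_one_iff.mp hk
  -- the image of S
  let P : Subgroup (G ⧸ N) := (S : Subgroup G).map π
  have hPn : P.Normal := by
    constructor
    intro x hx y
    obtain ⟨s, hs, rfl⟩ := hx
    obtain ⟨g, rfl⟩ := QuotientGroup.mk'_surjective N y
    have hg : g ∈ ((N ⊔ Subgroup.normalizer ((S : Subgroup G) : Set G) : Subgroup G) : Set G) := by
      rw [hSn]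
      trivial
    rw [Subgroup.normal_mul] at hg
    obtain ⟨k, hk, n, hn, rfl⟩ := hg
    have hk1 : π k = 1 := (QuotientGroup.eq_one_iff k).mpr hk
    refine ⟨n * s * n⁻¹, (Subgroup.mem_normalizer_iff.mp hn s).mp hs, ?_⟩
    show π (n * s * n⁻¹) = π (k * n) * π s * (π (k * n))⁻¹
    rw [map_mul, map_mul, map_mul, map_inv, hk1, one_mul]
  have hPp : IsPGroup p P := S.isPGroup'.map π
  have hmax : ∀ Q : Subgroup (G ⧸ N), Q.Normal → IsPGroup p Q → Q ≤ P := by
    intro Q _ hQp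
    let P' : Sylow p (G ⧸ N) := S.mapSurjective (QuotientGroup.mk'_surjective N)
    have hP' : (P' : Subgroup (G ⧸ N)) = P := rfl
    obtain ⟨Q', hQ'⟩ := hQp.exists_le_sylow
    have hP'n : (P' : Subgroup (G ⧸ N)).Normal := hPn
    have hu := Sylow.unique_of_normal P' hP'n
    have hQP : Q' = P' := Subsingleton.elim _ _
    rw [hQP] at hQ'
    exact hQ'
  -- R₀ is commutative of exponent p
  have hR0p : ∀ a ∈ R₀, a ^ p = 1 := by
    intro a ha
    have h := pow_card_eq_one' (G := R₀) (x := ⟨a, ha⟩)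
    rw [h0] at h
    have h' := congrArg Subtype.val h
    simpa using h'
  have hR0c : ∀ a ∈ R₀, ∀ b ∈ R₀, a * b = b * a := by
    have hcyc : IsCyclic R₀ := isCyclic_of_prime_card h0
    obtain ⟨g, hg⟩ := hcyc.exists_generator
    intro a ha b hb
    obtain ⟨i, hi⟩ := Subgroup.mem_zpowers_iff.mp (hg ⟨a, ha⟩)
    obtain ⟨j, hj⟩ := Subgroup.mem_zpowers_iff.mp (hg ⟨b, hb⟩)
    have h : (⟨a, ha⟩ : R₀) * ⟨b, hb⟩ = ⟨b, hb⟩ * ⟨a, ha⟩ := by
      rw [← hi, ← hj, ← zpow_add, ← zpow_add, add_comm]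
    exact congrArg Subtype.val h
  refine ⟨P, R₀.map φ, hPn, hPp, hmax, ?_, ?_, ?_, ?_⟩
  · rintro _ ⟨r, -, rfl⟩
    exact ⟨(r : G), r.2, rfl⟩
  · rintro _ ⟨a, ha, rfl⟩ _ ⟨b, hb, rfl⟩
    rw [← map_mul, ← map_mul, hR0c a ha b hb]
  · rintro _ ⟨a, ha, rfl⟩
    rw [← map_pow, hR0p a ha, map_one]
  · intro B hBP hBE _ hBp
    have hBr : B ≤ φ.range := by
      intro x hx
      obtain ⟨s, hs, rfl⟩ := hBP hx
      exact ⟨⟨s, hs⟩, rfl⟩
    have hmap : (B.comap φ).map φ = B := Subgroup.map_comap_eq_self hBr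
    have hcard : Nat.card B = Nat.card (B.comap φ) := by
      conv_lhs => rw [← hmap]
      exact (Nat.card_congr ((B.comap φ).equivMapOfInjective φ hinj).toEquiv).symm
    rw [hcard]
    apply Cfsg.Agent.Lib.helper13.S1455Q1.narrow_count p R₀ R₁ (B.comap φ) h0 h1 hc
    · rw [hsup]
      intro b hb
      rw [Subgroup.mem_centralizer_iff]
      intro r hr
      have hbB : φ b ∈ B := hb
      have hrE : φ r ∈ R₀.map φ := ⟨r, hr, rfl⟩
      have h := (Subgroup.mem_centralizer_iff.mp (hBE hbB)) (φ r) hrE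
      apply hinj
      rw [map_mul, map_mul]
      exact h
    · intro b hb
      have hbB : φ b ∈ B := hb
      apply hinj
      rw [map_pow, map_one]
      exact hBp _ hbB

end Cfsg.Agent.Lib.helper13.S1455Q2
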