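import Mathlib
import Cfsg.Prelude.Def_CaseTheorems

set_option autoImplicit false

/-!
# The p-rank of a finite group is the p-rank of a Sylow p-subgroup
-/

namespace Cfsg.Agent.Lib.helper13.S1455Q3

/-- If a Sylow `p`-subgroup of the finite group `G` has `p`-rank at most `k`, so does `G`. -/
theorem pRankLE_of_sylow_gen {G : Type*} [Group G] [Finite G] (p k : ℕ) [Fact p.Prime] (S : Sylow p G)
    (h : Cfsg.PRankLE p k ↥(S : Subgroup G)) : Cfsg.PRankLE p k G := by
  intro A hA hAp
  have hpA : IsPGroup p A := by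
    intro a
    refine ⟨1, ?_⟩
    apply Subtype.ext
    simpa using hAp a.1 a.2
  obtain ⟨Q, hQ⟩ := hpA.exists_le_sylow
  obtain ⟨g, hg⟩ := MulAction.exists_smul_eq G Q S
  have hle : A.map (MulAut.conj g).toMonoidHom ≤ (S : Subgroup G) := by
    rintro _ ⟨a, ha, rfl⟩
    have h1 : a ∈ (Q : Subgroup G) := hQ ha
    have h2 : (MulAut.conj g) a ∈ ((g • Q : Sylow p G) : Subgroup G) := by
      rw [Sylow.coe_subgroup_smul]
      exact Subgroup.smul_mem_pointwise_smul _ _ _ h1
    rw [hg] at h2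
    exact h2
  let B : Subgroup (S : Subgroup G) := (A.map (MulAut.conj g).toMonoidHom).subgroupOf (S : Subgroup G)
  have hcard : Nat.card B = Nat.card A := by
    have e1 : Nat.card B = Nat.card (A.map (MulAut.conj g).toMonoidHom) :=
      Nat.card_congr (Subgroup.subgroupOfEquivOfLe hle).toEquiv
    rw [e1]
    exact Nat.card_congr (A.equivMapOfInjective _ (MulAut.conj g).injective).toEquiv.symm
  rw [← hcard]
  apply h B
  · constructor
    constructor
    rintro ⟨⟨x, hxS⟩, hx⟩ ⟨⟨y, hyS⟩, hy⟩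
    have hx' : x ∈ A.map (MulAut.conj g).toMonoidHom := hx
    have hy' : y ∈ A.map (MulAut.conj g).toMonoidHom := hy
    obtain ⟨a, ha, rfl⟩ := hx'
    obtain ⟨b, hb, rfl⟩ := hy'
    apply Subtype.ext
    apply Subtype.ext
    have hab : a * b = b * a := by
      have := hA.is_comm.comm (⟨a, ha⟩ : A) ⟨b, hb⟩
      exact congrArg Subtype.val this
    show (MulAut.conj g).toMonoidHom a * (MulAut.conj g).toMonoidHom b
      = (MulAut.conj g).toMonoidHom b * (MulAut.conj g).toMonoidHom a
    rw [← map_mul, ← map_mul, hab]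
  · rintro ⟨x, hxS⟩ hx
    have hx' : x ∈ A.map (MulAut.conj g).toMonoidHom := hx
    obtain ⟨a, ha, rfl⟩ := hx'
    apply Subtype.ext
    show (MulAut.conj g).toMonoidHom a ^ p = 1
    rw [← map_pow, hAp a ha, map_one]

/-- The exact form asked for in the S1455 split (rank two). -/
theorem pRankLE_of_sylow {G : Type*} [Group G] [Finite G] (p : ℕ) [Fact p.Prime] (S : Sylow p G)
    (h : Cfsg.PRankLE p 2 ↥(S : Subgroup G)) : Cfsg.PRankLE p 2 G :=
  pRankLE_of_sylow_gen p 2 S h

end Cfsg.Agent.Lib.helper13.S1455Q3
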