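import Mathlib

set_option autoImplicit false

namespace Cfsg.Agent.Lib.helper13

open Polynomial

section SemiCent

variable {F V : Type*} [Field F] [AddCommGroup V] [Module F V] [FiniteDimensional F V]

/-- a minimal nonzero invariant subspace -/
lemma exists_min_invt [Nontrivial V] (T : Module.End F V) :
    ∃ W ∈ T.invtSubmodule, W ≠ ⊥ ∧ ∀ U ∈ T.invtSubmodule, U ≤ W → U = ⊥ ∨ U = W := by
  classical
  have hS : ∃ d, ∃ W ∈ T.invtSubmodule, W ≠ ⊥ ∧ Module.finrank F W = d :=
    ⟨_, ⊤, (Module.End.mem_invtSubmodule T).mpr (fun _ _ => Submodule.mem_top), top_ne_bot, rfl⟩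
  obtain ⟨W, hW, hW0, hWd⟩ := Nat.find_spec hS
  refine ⟨W, hW, hW0, ?_⟩
  intro U hU hUW
  by_cases hU0 : U = ⊥
  · exact Or.inl hU0
  · right
    have h1 : Nat.find hS ≤ Module.finrank F U := Nat.find_min' hS ⟨U, hU, hU0, rfl⟩
    exact Submodule.eq_of_le_of_finrank_le hUW (by rw [hWd]; exact h1)

/-- an irreducible endomorphism is annihilated by an irreducible polynomial -/
lemma exists_irreducible_aeval [Nontrivial V] (T : Module.End F V)
    (hirr : ∀ U : Submodule F V, (∀ u ∈ U, T u ∈ U) → U = ⊥ ∨ U = ⊤) :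
    ∃ f : F[X], Irreducible f ∧ aeval T f = 0 := by
  have hint : IsIntegral F T := Algebra.IsIntegral.isIntegral T
  obtain ⟨f, hf, hdvd⟩ := WfDvdMonoid.exists_irreducible_factor (minpoly.not_isUnit F T)
    (minpoly.ne_zero hint)
  refine ⟨f, hf, ?_⟩
  obtain ⟨g, hg⟩ := hdvd
  have hcomm : ∀ u, aeval T f (T u) = T (aeval T f u) := by
    intro u
    have h1 : aeval T f * T = T * aeval T f := by
      have := (Polynomial.commute_X f).map (aeval T (R := F))
      rw [aeval_X] at this
      exact this.symm.eq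
    exact LinearMap.congr_fun h1 u
  have hinv : ∀ u ∈ LinearMap.ker (aeval T f), T u ∈ LinearMap.ker (aeval T f) := by
    intro u hu
    rw [LinearMap.mem_ker] at hu ⊢
    rw [hcomm, hu, map_zero]
  rcases hirr _ hinv with h | h
  · exfalso
    -- aeval f injective, so aeval g = 0
    have hg0 : aeval T g = 0 := by
      apply LinearMap.ext
      intro u
      have h1 : aeval T f (aeval T g u) = 0 := by
        have : aeval T (minpoly F T) = 0 := minpoly.aeval F T
        rw [hg, map_mul] at this
        exact LinearMap.congr_fun this u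
      have h2 : aeval T g u ∈ LinearMap.ker (aeval T f) := h1
      rw [h] at h2
      simpa using h2
    have h3 : minpoly F T ∣ g := minpoly.dvd F T hg0
    rw [hg] at h3
    have hg_ne : g ≠ 0 := by
      rintro rfl
      rw [mul_zero] at hg
      exact minpoly.ne_zero hint hg
    obtain ⟨k, hk⟩ := h3
    have h4 : g * 1 = g * (f * k) := by
      rw [mul_one]
      calc g = f * g * k := hk
        _ = g * (f * k) := by ring
    have h5 : f * k = 1 := (mul_left_cancel₀ hg_ne h4).symm
    exact hf.not_isUnit (IsUnit.of_mul_eq_one _ h5)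
  · apply LinearMap.ext
    intro u
    have : u ∈ LinearMap.ker (aeval T f) := by rw [h]; exact Submodule.mem_top
    simpa using this

/-- for an irreducible endomorphism of a space over a finite field, the commutant realises
every determinant -/
lemma irr_commuting_det [Finite F] [Nontrivial V] (T : Module.End F V)
    (hirr : ∀ U : Submodule F V, (∀ u ∈ U, T u ∈ U) → U = ⊥ ∨ U = ⊤) (a : F) :
    ∃ c : Module.End F V, c * T = T * c ∧ LinearMap.det c = a := by
  classical
  obtain ⟨f, hf, hfT⟩ := exists_irreducible_aeval T hirr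
  have : Fact (Irreducible f) := ⟨hf⟩
  have : Module.Finite F (AdjoinRoot f) := (AdjoinRoot.powerBasis hf.ne_zero).finite
  have : Finite (AdjoinRoot f) := Module.finite_of_finite F
  let φ : AdjoinRoot f →ₐ[F] Module.End F V :=
    Ideal.Quotient.liftₐ (Ideal.span {f}) (aeval T) (by
      intro g hg
      obtain ⟨h, rfl⟩ := Ideal.mem_span_singleton.mp hg
      rw [map_mul, hfT, zero_mul])
  have hφroot : φ (AdjoinRoot.root f) = T := by
    show aeval T (X : F[X]) = T
    exact aeval_X T
  obtain ⟨w₀, hw₀⟩ := exists_ne (0 : V)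
  let ev : AdjoinRoot f →ₗ[F] V :=
    { toFun := fun α => φ α w₀
      map_add' := fun α β => by rw [map_add]; rfl
      map_smul' := fun r α => by rw [map_smul]; rfl }
  have hev : ∀ α, ev α = φ α w₀ := fun α => rfl
  have hinj : Function.Injective ev := by
    rw [← LinearMap.ker_eq_bot, Submodule.eq_bot_iff]
    intro α hα
    rw [LinearMap.mem_ker, hev] at hα
    by_contra hne
    have h1 : φ (α⁻¹ * α) w₀ = 0 := by
      rw [map_mul]
      show φ α⁻¹ (φ α w₀) = 0
      rw [hα, map_zero]
    rw [inv_mul_cancel₀ hne, map_one] at h1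
    exact hw₀ h1
  have hsurj : Function.Surjective ev := by
    rw [← LinearMap.range_eq_top]
    have hinv : ∀ u ∈ LinearMap.range ev, T u ∈ LinearMap.range ev := by
      rintro _ ⟨α, rfl⟩
      refine ⟨AdjoinRoot.root f * α, ?_⟩
      rw [hev, hev, map_mul, hφroot]
      rfl
    rcases hirr _ hinv with h | h
    · exfalso
      have : w₀ ∈ LinearMap.range ev := ⟨1, by rw [hev, map_one]; rfl⟩
      rw [h] at this
      exact hw₀ ((Submodule.mem_bot F).mp this)
    · exact h
  let E : AdjoinRoot f ≃ₗ[F] V := LinearEquiv.ofBijective ev ⟨hinj, hsurj⟩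
  have hE : ∀ α, E α = φ α w₀ := fun α => rfl
  have hconj : ∀ α : AdjoinRoot f,
      φ α = (E : AdjoinRoot f →ₗ[F] V) ∘ₗ (Algebra.lmul F (AdjoinRoot f) α) ∘ₗ
        (E.symm : V →ₗ[F] AdjoinRoot f) := by
    intro α
    apply LinearMap.ext
    intro w
    obtain ⟨β, rfl⟩ := E.surjective w
    simp only [LinearMap.coe_comp, LinearEquiv.coe_coe, Function.comp_apply,
      LinearEquiv.symm_apply_apply]
    rw [hE, hE]
    show φ α (φ β w₀) = φ (α * β) w₀
    rw [map_mul]
    rfl
  obtain ⟨α, hα⟩ := FiniteField.norm_surjective F (AdjoinRoot f) a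
  refine ⟨φ α, ?_, ?_⟩
  · rw [← hφroot, ← map_mul, ← map_mul, mul_comm]
  · rw [hconj α, LinearMap.det_conj]
    exact hα

/-- for a semisimple endomorphism of a nonzero space over a finite field, the commutant
realises every determinant -/
theorem semisimple_commuting_det [Finite F] [Nontrivial V] (T : Module.End F V)
    (hT : T.IsSemisimple) (a : F) :
    ∃ c : Module.End F V, c * T = T * c ∧ LinearMap.det c = a := by
  classical
  obtain ⟨W, hW, hW0, hWmin⟩ := exists_min_invt T
  obtain ⟨W', hW', hc⟩ := (Module.End.isSemisimple_iff.mp hT) W hW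
  have hWm : ∀ x ∈ W, T x ∈ W := fun x hx => hW hx
  have hW'm : ∀ x ∈ W', T x ∈ W' := fun x hx => hW' hx
  have : Nontrivial W := by
    rw [Submodule.nontrivial_iff_ne_bot]
    exact hW0
  have hirr : ∀ U : Submodule F W, (∀ u ∈ U, T.restrict hWm u ∈ U) → U = ⊥ ∨ U = ⊤ := by
    intro U hU
    have h1 : U.map W.subtype ∈ T.invtSubmodule := by
      rw [Module.End.mem_invtSubmodule]
      rintro _ ⟨u, hu, rfl⟩
      exact ⟨T.restrict hWm u, hU u hu, rfl⟩
    have h2 : U.map W.subtype ≤ W := by
      rintro _ ⟨u, -, rfl⟩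
      exact u.2
    rcases hWmin _ h1 h2 with h | h
    · left
      rw [Submodule.eq_bot_iff]
      intro u hu
      have : (u : V) ∈ U.map W.subtype := ⟨u, hu, rfl⟩
      rw [h] at this
      exact Subtype.ext ((Submodule.mem_bot F).mp this)
    · right
      rw [Submodule.eq_top_iff']
      intro w
      have : (w : V) ∈ U.map W.subtype := by rw [h]; exact w.2
      obtain ⟨u, hu, huw⟩ := this
      have : u = w := Subtype.ext huw
      rw [← this]; exact hu
  obtain ⟨cW, hcW, hdet⟩ := irr_commuting_det (T.restrict hWm) hirr a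
  let e := Submodule.prodEquivOfIsCompl W W' hc
  have he : ∀ (w : W) (w' : W'), e (w, w') = (w : V) + (w' : V) := fun w w' => rfl
  refine ⟨(e : (W × W') →ₗ[F] V) ∘ₗ (cW.prodMap LinearMap.id) ∘ₗ (e.symm : V →ₗ[F] (W × W')), ?_, ?_⟩
  · apply LinearMap.ext
    intro v
    obtain ⟨⟨w, w'⟩, rfl⟩ := e.surjective v
    have hT1 : ∀ (w : W) (w' : W'), T (e (w, w')) = e (T.restrict hWm w, T.restrict hW'm w') := by
      intro w w'
      rw [he, he, map_add]
      rfl
    have hc1 : ∀ (w : W) (w' : W'),
        ((e : (W × W') →ₗ[F] V) ∘ₗ (cW.prodMap LinearMap.id) ∘ₗ (e.symm : V →ₗ[F] (W × W')))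
          (e (w, w')) = e (cW w, w') := by
      intro w w'
      simp
    rw [Module.End.mul_apply, Module.End.mul_apply, hT1, hc1, hc1, hT1]
    have h3 : cW (T.restrict hWm w) = T.restrict hWm (cW w) := LinearMap.congr_fun hcW w
    rw [h3]
  · rw [LinearMap.det_conj, LinearMap.det_prodMap, LinearMap.det_id, mul_one, hdet]

end SemiCent

end Cfsg.Agent.Lib.helper13
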