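import Mathlib
import Cfsg.Prelude.Def_LieTypeDatum
import Cfsg.Agent.Lib.helper13.Embed
import Cfsg.Agent.Lib.helper4.SLSymp

set_option autoImplicit false
set_option linter.unusedSectionVars false
set_option linter.unusedVariables false
set_option linter.style.longLine false

/-! Elements of `SL_n` with no conjugate in the similarity group of a symplectic form: block
elements `h ⊕ 1`. -/

namespace Cfsg.Agent.Lib.helper13.SD

open Matrix Module

universe u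

variable {F : Type u} [Field F]

theorem form_sub_right {ι : Type} [Fintype ι] [DecidableEq ι] {g : (ι → F) → (ι → F) → F}
    (hg : Cfsg.Geo.IsBilinearForm g) (u v v' : ι → F) : g u (v - v') = g u v - g u v' := by
  rw [sub_eq_add_neg, ← neg_one_smul F v', hg.add_right, hg.smul_right]; ring

/-- A conjugate of `x` in the similarity group of `f` gives a symplectic form of which `x` is a
similarity. -/
theorem exists_form {n : ℕ} (f : (Fin n → F) → (Fin n → F) → F)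
    (hf : Cfsg.Geo.IsSymplecticForm f) (x P : Matrix.SpecialLinearGroup (Fin n) F)
    (hP : P⁻¹ * x * P ∈ ((Cfsg.Geo.similarityGroup f).comap
      (Matrix.SpecialLinearGroup.toGL : Matrix.SpecialLinearGroup (Fin n) F →* GL (Fin n) F))) :
    ∃ (c : F) (g : (Fin n → F) → (Fin n → F) → F), c ≠ 0 ∧ Cfsg.Geo.IsSymplecticForm g ∧
      ∀ u v, g ((x : Matrix (Fin n) (Fin n) F) *ᵥ u) ((x : Matrix (Fin n) (Fin n) F) *ᵥ v)
        = c * g u v := by
  classical
  rw [Subgroup.mem_comap] at hP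
  have hP' : ∃ c : Fˣ, ∀ u v : Fin n → F,
      f (((Matrix.SpecialLinearGroup.toGL (P⁻¹ * x * P) : GL (Fin n) F) :
        Matrix (Fin n) (Fin n) F) *ᵥ u)
      (((Matrix.SpecialLinearGroup.toGL (P⁻¹ * x * P) : GL (Fin n) F) :
        Matrix (Fin n) (Fin n) F) *ᵥ v) = (c : F) * f u v := hP
  obtain ⟨c, hc⟩ := hP'
  obtain ⟨Pi', hPi⟩ : ∃ Q : Matrix (Fin n) (Fin n) F,
      Q = ((P⁻¹ : Matrix.SpecialLinearGroup (Fin n) F) : Matrix (Fin n) (Fin n) F) := ⟨_, rfl⟩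
  have hQP : Pi' * (P : Matrix (Fin n) (Fin n) F) = 1 := by
    rw [hPi, ← Matrix.SpecialLinearGroup.coe_mul, inv_mul_cancel, Matrix.SpecialLinearGroup.coe_one]
  have hPQ : (P : Matrix (Fin n) (Fin n) F) * Pi' = 1 := by
    rw [hPi, ← Matrix.SpecialLinearGroup.coe_mul, mul_inv_cancel, Matrix.SpecialLinearGroup.coe_one]
  obtain ⟨g, hg⟩ : ∃ g : (Fin n → F) → (Fin n → F) → F,
      ∀ u v, g u v = f (Pi' *ᵥ u) (Pi' *ᵥ v) := ⟨_, fun _ _ => rfl⟩
  have hgx : ∀ u v, g ((x : Matrix (Fin n) (Fin n) F) *ᵥ u)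
      ((x : Matrix (Fin n) (Fin n) F) *ᵥ v) = (c : F) * g u v := by
    have e : ∀ u, Pi' *ᵥ ((x : Matrix (Fin n) (Fin n) F) *ᵥ u) =
        ((Matrix.SpecialLinearGroup.toGL (P⁻¹ * x * P) : GL (Fin n) F) :
          Matrix (Fin n) (Fin n) F) *ᵥ (Pi' *ᵥ u) := by
      intro u
      have e' : ((Matrix.SpecialLinearGroup.toGL (P⁻¹ * x * P) : GL (Fin n) F) :
          Matrix (Fin n) (Fin n) F) = Pi' * (x : Matrix (Fin n) (Fin n) F) *
            (P : Matrix (Fin n) (Fin n) F) := by rw [hPi]; rfl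
      rw [e', Matrix.mulVec_mulVec, Matrix.mulVec_mulVec, Matrix.mul_assoc, Matrix.mul_assoc, hPQ,
        Matrix.mul_one]
    intro u v
    rw [hg, hg, e, e, hc]
  have hne : ∀ v : Fin n → F, v ≠ 0 → Pi' *ᵥ v ≠ 0 := by
    intro v hv h
    apply hv
    have h3 := congrArg (fun t => (P : Matrix (Fin n) (Fin n) F) *ᵥ t) h
    simp only [Matrix.mulVec_mulVec, Matrix.mulVec_zero, hPQ, Matrix.one_mulVec] at h3
    exact h3
  have hback : ∀ y : Fin n → F, Pi' *ᵥ ((P : Matrix (Fin n) (Fin n) F) *ᵥ y) = y := by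
    intro y; rw [Matrix.mulVec_mulVec, hQP, Matrix.one_mulVec]
  refine ⟨(c : F), g, c.ne_zero, ⟨⟨?_, ?_, ?_, ?_⟩, ?_, ?_, ?_⟩, hgx⟩
  · intro u u' v; rw [hg, hg, hg, Matrix.mulVec_add, hf.bilinear.add_left]
  · intro a u v; rw [hg, hg, Matrix.mulVec_smul, hf.bilinear.smul_left]
  · intro u v v'; rw [hg, hg, hg, Matrix.mulVec_add, hf.bilinear.add_right]
  · intro a u v; rw [hg, hg, Matrix.mulVec_smul, hf.bilinear.smul_right]
  · intro v w; rw [hg, hg]; exact hf.skew _ _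
  · intro v; rw [hg]; exact hf.alternating _
  · intro v hv
    obtain ⟨⟨y1, hy1⟩, ⟨y2, hy2⟩⟩ := hf.nondegenerate _ (hne v hv)
    refine ⟨⟨(P : Matrix (Fin n) (Fin n) F) *ᵥ y1, ?_⟩,
      ⟨(P : Matrix (Fin n) (Fin n) F) *ᵥ y2, ?_⟩⟩
    · rw [hg, hback]; exact hy1
    · rw [hg, hback]; exact hy2

/-- Transport of an invariant symplectic form along a reindexing. -/
theorem form_reindex {ι : Type} [Fintype ι] [DecidableEq ι] {n : ℕ} (σ : ι ≃ Fin n)
    (X : Matrix ι ι F) (c : F) (g : (Fin n → F) → (Fin n → F) → F)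
    (hg : Cfsg.Geo.IsSymplecticForm g)
    (hgx : ∀ u v, g ((Matrix.reindex σ σ X) *ᵥ u) ((Matrix.reindex σ σ X) *ᵥ v) = c * g u v) :
    ∃ g' : (ι → F) → (ι → F) → F, Cfsg.Geo.IsSymplecticForm g' ∧
      ∀ u v, g' (X *ᵥ u) (X *ᵥ v) = c * g' u v := by
  classical
  have e0 : ∀ y : Fin n → F, (y ∘ σ) ∘ σ.symm = y := by
    intro y; funext i; simp
  refine ⟨fun u v => g (u ∘ σ.symm) (v ∘ σ.symm), ⟨⟨?_, ?_, ?_, ?_⟩, ?_, ?_, ?_⟩, ?_⟩
  · intro u u' v; exact hg.bilinear.add_left _ _ _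
  · intro a u v; exact hg.bilinear.smul_left _ _ _
  · intro v u u'; exact hg.bilinear.add_right _ _ _
  · intro a v u; exact hg.bilinear.smul_right _ _ _
  · intro v w; exact hg.skew _ _
  · intro v; exact hg.alternating _
  · intro v hv
    have hv' : v ∘ σ.symm ≠ 0 := by
      intro h; apply hv; funext i
      have h1 := congrFun h (σ i)
      simpa using h1
    obtain ⟨⟨y1, hy1⟩, ⟨y2, hy2⟩⟩ := hg.nondegenerate _ hv'
    refine ⟨⟨y1 ∘ σ, ?_⟩, ⟨y2 ∘ σ, ?_⟩⟩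
    · show g ((y1 ∘ σ) ∘ σ.symm) (v ∘ σ.symm) ≠ 0
      rw [e0]; exact hy1
    · show g (v ∘ σ.symm) ((y2 ∘ σ) ∘ σ.symm) ≠ 0
      rw [e0]; exact hy2
  · intro u v
    have e : ∀ w : ι → F, (X *ᵥ w) ∘ σ.symm = (Matrix.reindex σ σ X) *ᵥ (w ∘ σ.symm) := by
      intro w
      rw [Matrix.reindex_apply, Matrix.submatrix_mulVec_equiv]
      have e1 : (w ∘ σ.symm) ∘ σ.symm.symm = w := by funext i; simp
      rw [e1]
    show g ((X *ᵥ u) ∘ σ.symm) ((X *ᵥ v) ∘ σ.symm) = c * g (u ∘ σ.symm) (v ∘ σ.symm)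
    rw [e, e, hgx]

/-- The block element `h ⊕ 1` of `SL_n`: a conjugate in the similarity group gives an invariant
symplectic form in block coordinates. -/
theorem blk_sl {n k : ℕ} (hk : k < n) (h : Matrix (Fin k) (Fin k) F) (hdet : h.det = 1) (r : ℕ)
    (hr : h ^ r = 1) (h1 : h ≠ 1) (f : (Fin n → F) → (Fin n → F) → F)
    (hf : Cfsg.Geo.IsSymplecticForm f) :
    ∃ x : Matrix.SpecialLinearGroup (Fin n) F,
      ((x ^ r : Matrix.SpecialLinearGroup (Fin n) F) : Matrix (Fin n) (Fin n) F) = 1 ∧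
      (∀ z : F, (x : Matrix (Fin n) (Fin n) F) ≠ z • (1 : Matrix (Fin n) (Fin n) F)) ∧
      ∀ P : Matrix.SpecialLinearGroup (Fin n) F,
        P⁻¹ * x * P ∈ ((Cfsg.Geo.similarityGroup f).comap
          (Matrix.SpecialLinearGroup.toGL : Matrix.SpecialLinearGroup (Fin n) F →* GL (Fin n) F)) →
        ∃ (c : F) (g' : (Fin k ⊕ Fin (n - k) → F) → (Fin k ⊕ Fin (n - k) → F) → F),
          c ^ r = 1 ∧ Cfsg.Geo.IsSymplecticForm g' ∧
          ∀ u v, g' (Matrix.fromBlocks h 0 0 1 *ᵥ u) (Matrix.fromBlocks h 0 0 1 *ᵥ v)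
            = c * g' u v := by
  classical
  obtain ⟨σ⟩ : Nonempty (Fin k ⊕ Fin (n - k) ≃ Fin n) :=
    ⟨Fintype.equivFinOfCardEq (by rw [Fintype.card_sum, Fintype.card_fin, Fintype.card_fin]; omega)⟩
  obtain ⟨X, hX⟩ : ∃ X : Matrix (Fin k ⊕ Fin (n - k)) (Fin k ⊕ Fin (n - k)) F,
      X = Matrix.fromBlocks h 0 0 1 := ⟨_, rfl⟩
  have hXdet : X.det = 1 := by
    rw [hX, Matrix.det_fromBlocks_zero₂₁, hdet, Matrix.det_one, mul_one]
  have hXpow : ∀ j : ℕ, X ^ j = Matrix.fromBlocks (h ^ j) 0 0 1 := by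
    intro j
    induction j with
    | zero => rw [pow_zero, pow_zero, Matrix.fromBlocks_one]
    | succ j ih =>
      rw [pow_succ, ih, hX, Matrix.fromBlocks_multiply, pow_succ]
      simp
  have hXr : X ^ r = 1 := by rw [hXpow, hr, Matrix.fromBlocks_one]
  obtain ⟨φ, hφ⟩ : ∃ φ : Matrix (Fin k ⊕ Fin (n - k)) (Fin k ⊕ Fin (n - k)) F ≃ₐ[F]
      Matrix (Fin n) (Fin n) F, φ = Matrix.reindexAlgEquiv F F σ := ⟨_, rfl⟩
  have hφapp : ∀ M, φ M = Matrix.reindex σ σ M := by intro M; rw [hφ]; rfl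
  have hxdet : (φ X).det = 1 := by rw [hφapp, Matrix.det_reindex_self, hXdet]
  have hj0 : 0 < n - k := by omega
  obtain ⟨x, hx⟩ : ∃ x : Matrix.SpecialLinearGroup (Fin n) F,
      (x : Matrix (Fin n) (Fin n) F) = φ X := ⟨⟨φ X, hxdet⟩, rfl⟩
  refine ⟨x, ?_, ?_, ?_⟩
  · rw [Matrix.SpecialLinearGroup.coe_pow, hx, ← map_pow, hXr, map_one]
  · intro z hz
    have hz' : φ X = z • (1 : Matrix (Fin n) (Fin n) F) := by rw [← hx]; exact hz
    have e1 : φ X = φ (z • (1 : Matrix (Fin k ⊕ Fin (n - k)) (Fin k ⊕ Fin (n - k)) F)) := by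
      rw [hz', map_smul, map_one]
    have e2 := φ.injective e1
    have e3 := congrFun (congrFun e2 (Sum.inr ⟨0, hj0⟩)) (Sum.inr ⟨0, hj0⟩)
    rw [hX] at e3
    have hz1 : z = 1 := by simpa using e3.symm
    subst hz1
    apply h1
    ext i j
    have e4 := congrFun (congrFun e2 (Sum.inl i)) (Sum.inl j)
    rw [hX] at e4
    simpa [Matrix.one_apply] using e4
  · intro P hP
    obtain ⟨c, g, hc, hg, hgx⟩ := exists_form f hf x P hP
    obtain ⟨g', hg', hgx'⟩ := form_reindex σ X c g hg (by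
      intro u v
      have h5 := hgx u v
      rw [← hφapp, ← hx]; exact h5)
    have hpow : ∀ j : ℕ, ∀ u v, g' (X ^ j *ᵥ u) (X ^ j *ᵥ v) = c ^ j * g' u v := by
      intro j
      induction j with
      | zero => intro u v; rw [pow_zero, pow_zero, Matrix.one_mulVec, Matrix.one_mulVec, one_mul]
      | succ j ih =>
        intro u v
        rw [pow_succ', ← Matrix.mulVec_mulVec, ← Matrix.mulVec_mulVec, hgx', ih, pow_succ']; ring
    obtain ⟨v0, hv0⟩ : ∃ v0 : Fin k ⊕ Fin (n - k) → F, v0 = Pi.single (Sum.inr ⟨0, hj0⟩) 1 :=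
      ⟨_, rfl⟩
    have hv0ne : v0 ≠ 0 := by
      rw [hv0]; intro h2
      have h3 := congrFun h2 (Sum.inr ⟨0, hj0⟩)
      simp at h3
    obtain ⟨y, hy⟩ := (hg'.nondegenerate v0 hv0ne).2
    have h6 := hpow r v0 y
    rw [hXr, Matrix.one_mulVec, Matrix.one_mulVec] at h6
    have hcr : c ^ r = 1 := by
      have h7 : (c ^ r - 1) * g' v0 y = 0 := by linear_combination -h6
      rcases mul_eq_zero.1 h7 with h8 | h8
      · exact sub_eq_zero.1 h8
      · exact absurd h8 hy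
    exact ⟨c, g', hcr, hg', by rw [← hX]; exact hgx'⟩

/-! ### the fixed-point-free block -/

theorem no_form_of_fixfree {k m' : ℕ} (hodd : Odd m') (h : Matrix (Fin k) (Fin k) F)
    (hfix : ∀ a : Fin k → F, h *ᵥ a = a → a = 0)
    (g : (Fin k ⊕ Fin m' → F) → (Fin k ⊕ Fin m' → F) → F) (hg : Cfsg.Geo.IsSymplecticForm g)
    (hgx : ∀ u v, g (Matrix.fromBlocks h 0 0 1 *ᵥ u) (Matrix.fromBlocks h 0 0 1 *ᵥ v) = g u v) :
    False := by
  classical
  obtain ⟨X, hX⟩ : ∃ X : Matrix (Fin k ⊕ Fin m') (Fin k ⊕ Fin m') F,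
      X = Matrix.fromBlocks h 0 0 1 := ⟨_, rfl⟩
  rw [← hX] at hgx
  have hXv : ∀ u : Fin k ⊕ Fin m' → F,
      X *ᵥ u = Sum.elim (h *ᵥ (u ∘ Sum.inl)) (u ∘ Sum.inr) := by
    intro u
    rw [hX, Matrix.fromBlocks_mulVec]
    simp
  obtain ⟨B, hB⟩ : ∃ B : LinearMap.BilinForm F (Fin k ⊕ Fin m' → F), ∀ u v, B u v = g u v :=
    ⟨LinearMap.mk₂ F g hg.bilinear.add_left
      (fun c x v => by rw [hg.bilinear.smul_left, smul_eq_mul])
      hg.bilinear.add_right (fun c v x => by rw [hg.bilinear.smul_right, smul_eq_mul]),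
      fun _ _ => rfl⟩
  obtain ⟨π, hπ⟩ : ∃ π : (Fin k ⊕ Fin m' → F) →ₗ[F] (Fin k → F), ∀ u, π u = u ∘ Sum.inl :=
    ⟨LinearMap.funLeft F F Sum.inl, fun _ => rfl⟩
  obtain ⟨W, hW⟩ : ∃ W : Submodule F (Fin k ⊕ Fin m' → F), W = LinearMap.ker π := ⟨_, rfl⟩
  have hmem : ∀ u, u ∈ W ↔ u ∘ Sum.inl = 0 := by
    intro u; rw [hW, LinearMap.mem_ker, hπ]
  have hfixW : ∀ w ∈ W, X *ᵥ w = w := by
    intro w hw
    rw [hXv, (hmem w).1 hw, Matrix.mulVec_zero]
    funext i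
    rcases i with i | i
    · exact (congrFun ((hmem w).1 hw) i).symm
    · rfl
  have hsurj : ∀ b : Fin k → F, ∃ a : Fin k → F, h *ᵥ a - a = b := by
    have hinj : Function.Injective
        (Matrix.toLin' h - LinearMap.id : (Fin k → F) →ₗ[F] (Fin k → F)) := by
      rw [← LinearMap.ker_eq_bot, LinearMap.ker_eq_bot']
      intro a ha
      rw [LinearMap.sub_apply, Matrix.toLin'_apply, LinearMap.id_apply, sub_eq_zero] at ha
      exact hfix a ha
    have hs := LinearMap.surjective_of_injective hinj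
    intro b
    obtain ⟨a, ha⟩ := hs b
    refine ⟨a, ?_⟩
    rw [← ha, LinearMap.sub_apply, Matrix.toLin'_apply, LinearMap.id_apply]
  have hfr : finrank F W = m' := by
    have h1 := π.finrank_range_add_finrank_ker
    have h2 : LinearMap.range π = ⊤ := by
      rw [LinearMap.range_eq_top]
      intro a
      exact ⟨Sum.elim a (0 : Fin m' → F), by rw [hπ]; rfl⟩
    rw [h2, finrank_top, ← hW, Module.finrank_fintype_fun_eq_card,
      Module.finrank_fintype_fun_eq_card, Fintype.card_sum, Fintype.card_fin, Fintype.card_fin] at h1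
    omega
  have key : ∀ w ∈ W, w ≠ 0 → ∃ v ∈ W, g w v ≠ 0 := by
    intro w hw hw0
    obtain ⟨y, hy⟩ := (hg.nondegenerate w hw0).2
    obtain ⟨a, ha⟩ := hsurj (y ∘ Sum.inl)
    obtain ⟨a', ha'⟩ : ∃ a' : Fin k ⊕ Fin m' → F, a' = Sum.elim a (0 : Fin m' → F) := ⟨_, rfl⟩
    obtain ⟨y2, hy2⟩ : ∃ y2 : Fin k ⊕ Fin m' → F, y2 = Sum.elim (0 : Fin k → F) (y ∘ Sum.inr) := ⟨_, rfl⟩
    have hdec : y = (X *ᵥ a' - a') + y2 := by
      rw [hXv, ha', hy2]
      funext i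
      rcases i with i | i
      · have h5 := congrFun ha i
        simp only [Pi.sub_apply, Function.comp_apply] at h5
        simp only [Pi.add_apply, Pi.sub_apply, Sum.elim_inl, Sum.elim_comp_inl, Pi.zero_apply,
          add_zero]
        exact h5.symm
      · simp
    have h0 : g w (X *ᵥ a' - a') = 0 := by
      have e1 : g w (X *ᵥ a') = g w a' := by
        have h5 := hgx w a'
        rw [hfixW w hw] at h5
        exact h5
      rw [form_sub_right hg.bilinear, e1, sub_self]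
    refine ⟨y2, ?_, ?_⟩
    · rw [hmem, hy2]; rfl
    · intro h2
      apply hy
      rw [hdec, hg.bilinear.add_right, h0, h2, add_zero]
  have hAlt : (B.restrict W).IsAlt := fun w => by
    show B w.1 w.1 = 0
    rw [hB]; exact hg.alternating _
  have hnd : (B.restrict W).Nondegenerate := by
    refine ⟨fun x hx => ?_, fun y hy => ?_⟩
    · by_contra hx0
      have hx1 : (x : Fin k ⊕ Fin m' → F) ≠ 0 := fun h => hx0 (Subtype.ext h)
      obtain ⟨v, hv, hgv⟩ := key x.1 x.2 hx1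
      apply hgv
      have h5 := hx ⟨v, hv⟩
      rw [← hB]; exact h5
    · by_contra hy0
      have hy1 : (y : Fin k ⊕ Fin m' → F) ≠ 0 := fun h => hy0 (Subtype.ext h)
      obtain ⟨v, hv, hgv⟩ := key y.1 y.2 hy1
      apply hgv
      have h5 := hy ⟨v, hv⟩
      rw [hg.skew, ← hB, neg_eq_zero]; exact h5
  obtain ⟨n', hn', -⟩ := Cfsg.Agent.Lib.helper13.symp_fam_main (finrank F W) (B.restrict W)
    hAlt hnd rfl
  rw [hfr] at hn'
  obtain ⟨t, ht⟩ := hodd
  omega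

/-! ### the unipotent block -/

/-- the `3 × 3` Jordan block -/
def J3 (F : Type u) [Field F] : Matrix (Fin 3) (Fin 3) F := !![1, 1, 0; 0, 1, 1; 0, 0, 1]

theorem J3_pow (j : ℕ) :
    J3 F ^ j = !![1, (j : F), ((j.choose 2 : ℕ) : F); 0, 1, (j : F); 0, 0, 1] := by
  induction j with
  | zero =>
    rw [pow_zero, Matrix.one_fin_three]
    simp
  | succ j ih =>
    rw [pow_succ, ih, J3, Matrix.mul_fin_three]
    have hc : (((j + 1).choose 2 : ℕ) : F) = (j : F) + ((j.choose 2 : ℕ) : F) := by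
      rw [Nat.choose_succ_succ' j 1, Nat.choose_one_right]; push_cast; ring
    rw [hc]
    simp [add_comm]

theorem J3_pow_char (p : ℕ) [Fact p.Prime] [CharP F p] (hp : p ≠ 2) : J3 F ^ p = 1 := by
  have h1 : ((p : ℕ) : F) = 0 := CharP.cast_eq_zero F p
  have h2 : ((p.choose 2 : ℕ) : F) = 0 := by
    rw [CharP.cast_eq_zero_iff F p]
    have hp2 := (Fact.out : p.Prime).two_le
    exact Nat.Prime.dvd_choose_self (Fact.out : p.Prime) (by norm_num) (by omega)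
  rw [J3_pow, h1, h2, Matrix.one_fin_three]

theorem J3_det : (J3 F).det = 1 := by
  rw [J3, Matrix.det_fin_three]
  simp

theorem J3_ne_one : J3 F ≠ 1 := by
  intro h
  have h1 := congrFun (congrFun h 0) 1
  simp [J3] at h1

theorem J3_mulVec (a : Fin 3 → F) : J3 F *ᵥ a = ![a 0 + a 1, a 1 + a 2, a 2] := by
  funext i
  fin_cases i <;> simp [J3, Matrix.mulVec, dotProduct, Fin.sum_univ_three]

theorem no_form_J3 {m' : ℕ} (g : (Fin 3 ⊕ Fin m' → F) → (Fin 3 ⊕ Fin m' → F) → F)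
    (hg : Cfsg.Geo.IsSymplecticForm g)
    (hgx : ∀ u v, g (Matrix.fromBlocks (J3 F) 0 0 1 *ᵥ u) (Matrix.fromBlocks (J3 F) 0 0 1 *ᵥ v)
      = g u v) : False := by
  classical
  obtain ⟨X, hX⟩ : ∃ X : Matrix (Fin 3 ⊕ Fin m') (Fin 3 ⊕ Fin m') F,
      X = Matrix.fromBlocks (J3 F) 0 0 1 := ⟨_, rfl⟩
  rw [← hX] at hgx
  have hXv : ∀ u : Fin 3 ⊕ Fin m' → F,
      X *ᵥ u = Sum.elim (J3 F *ᵥ (u ∘ Sum.inl)) (u ∘ Sum.inr) := by
    intro u
    rw [hX, Matrix.fromBlocks_mulVec]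
    simp
  obtain ⟨e0, he0⟩ : ∃ e0 : Fin 3 ⊕ Fin m' → F, e0 = Pi.single (Sum.inl 0) 1 := ⟨_, rfl⟩
  have hXe0 : X *ᵥ e0 = e0 := by
    rw [hXv, J3_mulVec, he0]
    funext i
    rcases i with i | i
    · fin_cases i <;> simp [Pi.single_apply]
    · simp [Pi.single_apply]
  have hN2 : ∀ w : Fin 3 ⊕ Fin m' → F,
      X *ᵥ (X *ᵥ w) - X *ᵥ w - X *ᵥ w + w = w (Sum.inl 2) • e0 := by
    intro w
    have h1 : X *ᵥ w = Sum.elim ![w (Sum.inl 0) + w (Sum.inl 1), w (Sum.inl 1) + w (Sum.inl 2),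
        w (Sum.inl 2)] (w ∘ Sum.inr) := by
      rw [hXv, J3_mulVec]; rfl
    have h2 : X *ᵥ (X *ᵥ w) = Sum.elim ![w (Sum.inl 0) + w (Sum.inl 1) + (w (Sum.inl 1) +
        w (Sum.inl 2)), w (Sum.inl 1) + w (Sum.inl 2) + w (Sum.inl 2), w (Sum.inl 2)]
        (w ∘ Sum.inr) := by
      rw [hXv, h1, Sum.elim_comp_inl, Sum.elim_comp_inr, J3_mulVec]
      simp
    rw [h2, h1, he0]
    funext i
    rcases i with i | i
    · fin_cases i <;> simp [Pi.single_apply] <;> ring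
    · simp [Pi.single_apply]
  have hkey : ∀ w : Fin 3 ⊕ Fin m' → F, w (Sum.inl 2) * g w e0 = 0 := by
    intro w
    have h1 : g (X *ᵥ w) (X *ᵥ (X *ᵥ w) - X *ᵥ w - X *ᵥ w + w) = 0 := by
      have e1 : g (X *ᵥ w) (X *ᵥ (X *ᵥ w)) = g w (X *ᵥ w) := hgx w (X *ᵥ w)
      have e2 : g (X *ᵥ w) (X *ᵥ w) = 0 := hg.alternating _
      have e3 : g (X *ᵥ w) w = - g w (X *ᵥ w) := hg.skew _ _
      rw [hg.bilinear.add_right, form_sub_right hg.bilinear, form_sub_right hg.bilinear, e1, e2,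
        e3]
      ring
    rw [hN2, hg.bilinear.smul_right] at h1
    have e5 : g (X *ᵥ w) e0 = g w e0 := by
      have h5 := hgx w e0
      rw [hXe0] at h5; exact h5
    rw [e5] at h1; exact h1
  have he0ne : e0 ≠ 0 := by
    rw [he0]; intro h
    have h1 := congrFun h (Sum.inl 0)
    simp at h1
  obtain ⟨u, hu⟩ := (hg.nondegenerate e0 he0ne).1
  have h1 := hkey u
  have hu2 : u (Sum.inl 2) = 0 := (mul_eq_zero.1 h1).resolve_right hu
  obtain ⟨e2, he2⟩ : ∃ e2 : Fin 3 ⊕ Fin m' → F, e2 = Pi.single (Sum.inl 2) 1 := ⟨_, rfl⟩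
  have h22 : e2 (Sum.inl 2) = 1 := by rw [he2]; simp
  have h2 := hkey e2
  rw [h22, one_mul] at h2
  have h3 := hkey (u + e2)
  rw [Pi.add_apply, hu2, h22, zero_add, one_mul, hg.bilinear.add_left, h2, add_zero] at h3
  exact hu h3

end Cfsg.Agent.Lib.helper13.SD
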