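import Mathlib
import Cfsg.Prelude.Def_LieTypeDatum
import Cfsg.Agent.Lib.helper13.SympDerA

set_option autoImplicit false
set_option linter.unusedSectionVars false
set_option linter.unusedVariables false
set_option linter.style.longLine false

/-! Diagonal elements of `SL_n` with no conjugate in the similarity group of a symplectic form. -/

namespace Cfsg.Agent.Lib.helper13.SD

open Matrix Module

universe u

variable {F : Type u} [Field F]

theorem form_left_zero {n : ℕ} {g : (Fin n → F) → (Fin n → F) → F}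
    (hg : Cfsg.Geo.IsSymplecticForm g) (v : Fin n → F)
    (hv : ∀ j, g v (Pi.single j 1) = 0) : v = 0 := by
  classical
  by_contra hv0
  obtain ⟨x, hx⟩ := (hg.nondegenerate v hv0).1
  apply hx
  rw [Cfsg.Agent.Lib.helper4.f_sum_left g hg.bilinear x v]
  apply Finset.sum_eq_zero
  intro j _
  rw [hg.skew, hv j, neg_zero, mul_zero]

theorem pair_le {n : ℕ} (g : (Fin n → F) → (Fin n → F) → F) (hg : Cfsg.Geo.IsSymplecticForm g)
    (S : Finset (Fin n))
    (hS : ∀ i j, g (Pi.single i 1) (Pi.single j 1) ≠ 0 → (i ∈ S ↔ j ∉ S)) :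
    n - S.card ≤ S.card := by
  classical
  by_contra hlt
  push Not at hlt
  obtain ⟨Φ, hΦ⟩ : ∃ Φ : ({k // k ∉ S} → F) →ₗ[F] ({i // i ∈ S} → F),
      ∀ t i, Φ t i = ∑ k : {k // k ∉ S}, t k * g (Pi.single k.1 1) (Pi.single i.1 1) :=
    ⟨{ toFun := fun t i => ∑ k : {k // k ∉ S}, t k * g (Pi.single k.1 1) (Pi.single i.1 1)
       map_add' := fun t t' => by
         funext i
         simp only [Pi.add_apply, add_mul, Finset.sum_add_distrib]
       map_smul' := fun a t => by
         funext i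
         simp only [Pi.smul_apply, smul_eq_mul, RingHom.id_apply, Finset.mul_sum, mul_assoc] },
     fun _ _ => rfl⟩
  have hcardc : Fintype.card {k // k ∉ S} = n - S.card := by
    rw [Fintype.card_subtype_compl, Fintype.card_coe, Fintype.card_fin]
  have hfr : finrank F ({i // i ∈ S} → F) < finrank F ({k // k ∉ S} → F) := by
    rw [Module.finrank_fintype_fun_eq_card, Module.finrank_fintype_fun_eq_card, hcardc,
      Fintype.card_coe]
    exact hlt
  have hker := LinearMap.ker_ne_bot_of_finrank_lt (f := Φ) hfr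
  obtain ⟨t, htk, ht0⟩ := (Submodule.ne_bot_iff _).1 hker
  rw [LinearMap.mem_ker] at htk
  obtain ⟨v, hv⟩ : ∃ v : Fin n → F,
      v = ∑ k : {k // k ∉ S}, t k • (Pi.single k.1 1 : Fin n → F) := ⟨_, rfl⟩
  have hgv : ∀ j, g v (Pi.single j 1) =
      ∑ k : {k // k ∉ S}, t k * g (Pi.single k.1 1) (Pi.single j 1) := by
    intro j
    have h1 : ∀ (s : Finset {k // k ∉ S}),
        g (∑ k ∈ s, t k • (Pi.single k.1 1 : Fin n → F)) (Pi.single j 1)
          = ∑ k ∈ s, t k * g (Pi.single k.1 1) (Pi.single j 1) := by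
      intro s
      induction s using Finset.induction_on with
      | empty =>
        rw [Finset.sum_empty, Finset.sum_empty]
        have h2 := hg.bilinear.smul_left 0 (0 : Fin n → F) (Pi.single j 1)
        rw [zero_smul, zero_mul] at h2
        exact h2
      | insert a s ha ih =>
        rw [Finset.sum_insert ha, Finset.sum_insert ha, hg.bilinear.add_left,
          hg.bilinear.smul_left, ih]
    rw [hv]; exact h1 Finset.univ
  have hv0 : v = 0 := by
    apply form_left_zero hg
    intro j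
    rw [hgv]
    by_cases hj : j ∈ S
    · have h2 := congrFun htk ⟨j, hj⟩
      rw [hΦ] at h2
      exact h2
    · apply Finset.sum_eq_zero
      intro k _
      have h3 : g (Pi.single k.1 1) (Pi.single j 1) = 0 := by
        by_contra h4
        have h5 := hS k.1 j h4
        exact k.2 (h5.2 hj)
      rw [h3, mul_zero]
  apply ht0
  have hli : LinearIndependent F (fun k : {k // k ∉ S} => (Pi.single k.1 1 : Fin n → F)) :=
    (Pi.linearIndependent_single_one (Fin n) F).comp Subtype.val Subtype.val_injective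
  have h6 := Fintype.linearIndependent_iff.1 hli t (by rw [← hv]; exact hv0)
  funext k
  exact h6 k

theorem pair_count {n : ℕ} (g : (Fin n → F) → (Fin n → F) → F)
    (hg : Cfsg.Geo.IsSymplecticForm g) (S : Finset (Fin n))
    (hS : ∀ i j, g (Pi.single i 1) (Pi.single j 1) ≠ 0 → (i ∈ S ↔ j ∉ S)) :
    2 * S.card = n := by
  classical
  have h1 := pair_le g hg S hS
  have h2 := pair_le g hg Sᶜ (by
    intro i j hij
    have h3 := hS i j hij
    rw [Finset.mem_compl, Finset.mem_compl]
    tauto)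
  have h3 : Sᶜ.card = n - S.card := by
    rw [Finset.card_compl, Fintype.card_fin]
  have h4 : S.card ≤ n := by
    have h5 := Finset.card_le_univ S
    rw [Fintype.card_fin] at h5; exact h5
  rw [h3] at h2
  omega

theorem diag_not_conj {n : ℕ} (hn : 4 ≤ n) (r : ℕ) (hr : r.Prime) (hr2 : r ≠ 2)
    (hgap : ¬ (n = 6 ∧ r = 3)) (lam : F) (hl : lam ^ r = 1) (hl1 : lam ≠ 1)
    (f : (Fin n → F) → (Fin n → F) → F) (hf : Cfsg.Geo.IsSymplecticForm f) :
    ∃ x : Matrix.SpecialLinearGroup (Fin n) F,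
      ((x ^ r : Matrix.SpecialLinearGroup (Fin n) F) : Matrix (Fin n) (Fin n) F) = 1 ∧
      (∀ z : F, (x : Matrix (Fin n) (Fin n) F) ≠ z • (1 : Matrix (Fin n) (Fin n) F)) ∧
      ∀ P : Matrix.SpecialLinearGroup (Fin n) F,
        P⁻¹ * x * P ∉ ((Cfsg.Geo.similarityGroup f).comap
          (Matrix.SpecialLinearGroup.toGL :
            Matrix.SpecialLinearGroup (Fin n) F →* GL (Fin n) F)) := by
  classical
  have hl0 : lam ≠ 0 := by
    rintro rfl
    rw [zero_pow hr.ne_zero] at hl
    exact zero_ne_one hl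
  obtain ⟨mu, hmu⟩ : ∃ mu : F, mu = lam⁻¹ * lam⁻¹ := ⟨_, rfl⟩
  have hmu0 : mu ≠ 0 := by rw [hmu]; exact mul_ne_zero (inv_ne_zero hl0) (inv_ne_zero hl0)
  have hlm : lam * lam * mu = 1 := by rw [hmu]; field_simp
  have hmur : mu ^ r = 1 := by rw [hmu, mul_pow, inv_pow, hl]; simp
  have hc2 : Nat.gcd 2 r = 1 := (Nat.coprime_primes Nat.prime_two hr).2 (Ne.symm hr2)
  have F1 : lam * lam = 1 → False := by
    intro h
    have h2 : lam ^ 2 = 1 := by rw [pow_two]; exact h
    have h3 := (pow_gcd_eq_one (a := lam)).2 ⟨h2, hl⟩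
    rw [hc2, pow_one] at h3
    exact hl1 h3
  have F2 : lam * lam * (lam * lam) = 1 → False := by
    intro h
    have h4 : lam ^ 4 = 1 := by rw [← h]; ring
    have hc4 : Nat.gcd 4 r = 1 := by
      have h5 : Nat.Coprime (2 ^ 2) r := Nat.Coprime.pow_left 2 hc2
      exact h5
    have h3 := (pow_gcd_eq_one (a := lam)).2 ⟨h4, hl⟩
    rw [hc4, pow_one] at h3
    exact hl1 h3
  have F3 : lam * lam * lam = 1 → r = 3 := by
    intro h
    by_contra hr3
    have h3' : lam ^ 3 = 1 := by rw [← h]; ring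
    have hc3 : Nat.gcd 3 r = 1 := (Nat.coprime_primes Nat.prime_three hr).2 (Ne.symm hr3)
    have h3 := (pow_gcd_eq_one (a := lam)).2 ⟨h3', hl⟩
    rw [hc3, pow_one] at h3
    exact hl1 h3
  obtain ⟨i0, hi0⟩ : ∃ i0 : Fin n, i0 = ⟨0, by omega⟩ := ⟨_, rfl⟩
  obtain ⟨i1, hi1⟩ : ∃ i1 : Fin n, i1 = ⟨1, by omega⟩ := ⟨_, rfl⟩
  obtain ⟨i2, hi2⟩ : ∃ i2 : Fin n, i2 = ⟨2, by omega⟩ := ⟨_, rfl⟩
  obtain ⟨i3, hi3⟩ : ∃ i3 : Fin n, i3 = ⟨3, by omega⟩ := ⟨_, rfl⟩
  have h01 : i0 ≠ i1 := by rw [hi0, hi1]; simp [Fin.ext_iff]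
  have h02 : i0 ≠ i2 := by rw [hi0, hi2]; simp [Fin.ext_iff]
  have h03 : i0 ≠ i3 := by rw [hi0, hi3]; simp [Fin.ext_iff]
  have h12 : i1 ≠ i2 := by rw [hi1, hi2]; simp [Fin.ext_iff]
  have h13 : i1 ≠ i3 := by rw [hi1, hi3]; simp [Fin.ext_iff]
  have h23 : i2 ≠ i3 := by rw [hi2, hi3]; simp [Fin.ext_iff]
  obtain ⟨d, hd⟩ : ∃ d : Fin n → F, d = fun i =>
      (if i = i0 then lam else 1) * (if i = i1 then lam else 1) * (if i = i2 then mu else 1) :=
    ⟨_, rfl⟩
  have hd0 : d i0 = lam := by rw [hd]; simp [h01, h02]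
  have hd1 : d i1 = lam := by rw [hd]; simp [h01.symm, h12]
  have hd2 : d i2 = mu := by rw [hd]; simp [h02.symm, h12.symm]
  have hdo : ∀ i, i ≠ i0 → i ≠ i1 → i ≠ i2 → d i = 1 := by
    intro i a b c; rw [hd]; simp [a, b, c]
  have hd3 : d i3 = 1 := hdo i3 h03.symm h13.symm h23.symm
  have hdet : (Matrix.diagonal d).det = 1 := by
    rw [Matrix.det_diagonal, hd]
    simp only [Finset.prod_mul_distrib, Finset.prod_ite_eq', Finset.mem_univ, if_true]
    exact hlm
  have hdr : ∀ i, d i ^ r = 1 := by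
    intro i
    by_cases a : i = i0
    · rw [a, hd0, hl]
    by_cases b : i = i1
    · rw [b, hd1, hl]
    by_cases c : i = i2
    · rw [c, hd2, hmur]
    rw [hdo i a b c, one_pow]
  obtain ⟨x, hxd⟩ : ∃ x : Matrix.SpecialLinearGroup (Fin n) F,
      (x : Matrix (Fin n) (Fin n) F) = Matrix.diagonal d := ⟨⟨Matrix.diagonal d, hdet⟩, rfl⟩
  refine ⟨x, ?_, ?_, ?_⟩
  · rw [Matrix.SpecialLinearGroup.coe_pow, hxd, Matrix.diagonal_pow]
    have e : d ^ r = 1 := by funext i; rw [Pi.pow_apply, hdr]; rfl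
    rw [e]; exact Matrix.diagonal_one
  · intro z hz
    rw [hxd] at hz
    have h0 := congrFun (congrFun hz i0) i0
    have h3 := congrFun (congrFun hz i3) i3
    rw [Matrix.diagonal_apply_eq, Matrix.smul_apply, Matrix.one_apply_eq, smul_eq_mul,
      mul_one] at h0 h3
    rw [hd0] at h0
    rw [hd3] at h3
    exact hl1 (by rw [h0, ← h3])
  · intro P hP
    obtain ⟨c, g, hc, hg, hgx⟩ := exists_form f hf x P hP
    rw [hxd] at hgx
    have hE : ∀ i, Matrix.diagonal d *ᵥ (Pi.single i 1 : Fin n → F) =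
        d i • (Pi.single i 1 : Fin n → F) := by
      intro i
      rw [Matrix.diagonal_mulVec_single, mul_one]
      funext k
      by_cases hk : k = i
      · subst hk; simp
      · simp [hk]
    have hpair : ∀ i j, g (Pi.single i 1) (Pi.single j 1) ≠ 0 → d i * d j = c := by
      intro i j hij
      have h1 := hgx (Pi.single i 1) (Pi.single j 1)
      rw [hE, hE, hg.bilinear.smul_left, hg.bilinear.smul_right] at h1
      have h2 : (d i * d j - c) * g (Pi.single i 1) (Pi.single j 1) = 0 := by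
        linear_combination h1
      rcases mul_eq_zero.1 h2 with h3 | h3
      · exact sub_eq_zero.1 h3
      · exact absurd h3 hij
    have hex : ∀ i : Fin n, ∃ j, j ≠ i ∧ g (Pi.single i 1) (Pi.single j 1) ≠ 0 := by
      intro i
      by_contra hcon
      push Not at hcon
      have hz : (Pi.single i 1 : Fin n → F) = 0 := by
        apply form_left_zero hg
        intro j
        by_cases hj : j = i
        · rw [hj]; exact hg.alternating _
        · exact hcon j hj
      have h1 := congrFun hz i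
      simp at h1
    have hval : ∀ j, ((j = i0 ∨ j = i1) ∧ d j = lam) ∨ (j = i2 ∧ d j = mu) ∨
        ((j ≠ i0 ∧ j ≠ i1 ∧ j ≠ i2) ∧ d j = 1) := by
      intro j
      by_cases a : j = i0
      · left; exact ⟨Or.inl a, by rw [a, hd0]⟩
      by_cases b : j = i1
      · left; exact ⟨Or.inr b, by rw [b, hd1]⟩
      by_cases c' : j = i2
      · right; left; exact ⟨c', by rw [c', hd2]⟩
      right; right; exact ⟨⟨a, b, c'⟩, hdo j a b c'⟩
    obtain ⟨j, hj2, hgj⟩ := hex i2
    have hcj := hpair i2 j hgj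
    rw [hd2] at hcj
    rcases hval j with ⟨_, hdj⟩ | ⟨hj, _⟩ | ⟨_, hdj⟩
    · rw [hdj] at hcj
      obtain ⟨j', hj3, hgj'⟩ := hex i3
      have hcj' := hpair i3 j' hgj'
      rw [hd3, one_mul, ← hcj] at hcj'
      rcases hval j' with ⟨_, hdj'⟩ | ⟨_, hdj'⟩ | ⟨_, hdj'⟩
      · rw [hdj'] at hcj'
        have h5 : mu = 1 := by
          have h6 : mu * lam = 1 * lam := by rw [one_mul]; exact hcj'.symm
          exact mul_right_cancel₀ hl0 h6
        rw [h5, mul_one] at hlm
        exact F1 hlm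
      · rw [hdj'] at hcj'
        have h5 : lam = 1 := by
          have h6 : mu * lam = mu * 1 := by rw [mul_one]; exact hcj'.symm
          exact mul_left_cancel₀ hmu0 h6
        exact hl1 h5
      · rw [hdj'] at hcj'
        have h5 : lam = 1 := by
          have h6 : lam * (mu * lam) = 1 := by rw [← hlm]; ring
          rw [← hcj', mul_one] at h6
          exact h6
        exact hl1 h5
    · exact hj2 hj
    · rw [hdj, mul_one] at hcj
      obtain ⟨j', hj0, hgj'⟩ := hex i0
      have hcj' := hpair i0 j' hgj'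
      rw [hd0, ← hcj] at hcj'
      rcases hval j' with ⟨hj', hdj'⟩ | ⟨_, hdj'⟩ | ⟨_, hdj'⟩
      · rw [hdj'] at hcj'
        exact F2 (by rw [← hlm, ← hcj'])
      · rw [hdj'] at hcj'
        have h5 : lam = 1 := by
          have h6 : lam * mu = 1 * mu := by rw [one_mul]; exact hcj'
          exact mul_right_cancel₀ hmu0 h6
        exact hl1 h5
      · rw [hdj', mul_one] at hcj'
        have hr3 : r = 3 := F3 (by rw [← hlm, ← hcj'])
        have hval' : ∀ j, ((j = i0 ∨ j = i1 ∨ j = i2) ∧ d j = lam) ∨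
            (¬ (j = i0 ∨ j = i1 ∨ j = i2) ∧ d j = 1) := by
          intro j
          rcases hval j with ⟨h, hd'⟩ | ⟨h, hd'⟩ | ⟨h, hd'⟩
          · left; exact ⟨h.elim Or.inl (fun h' => Or.inr (Or.inl h')), hd'⟩
          · left; exact ⟨Or.inr (Or.inr h), by rw [hd', ← hcj']⟩
          · right; exact ⟨fun h' => h'.elim h.1 (fun h'' => h''.elim h.2.1 h.2.2), hd'⟩
        have hS := pair_count g hg {i0, i1, i2} (by
          intro i j hij
          have h7 := hpair i j hij
          simp only [Finset.mem_insert, Finset.mem_singleton]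
          rcases hval' i with ⟨hi, hdi⟩ | ⟨hi, hdi⟩ <;>
            rcases hval' j with ⟨hj, hdj⟩ | ⟨hj, hdj⟩
          · exfalso
            rw [hdi, hdj, ← hcj, ← hcj'] at h7
            have h8 : lam * lam = lam * 1 := by rw [mul_one]; exact h7
            exact hl1 (mul_left_cancel₀ hl0 h8)
          · exact ⟨fun _ => hj, fun _ => hi⟩
          · exact ⟨fun h => absurd h hi, fun h => absurd hj h⟩
          · exfalso
            rw [hdi, hdj, one_mul, ← hcj, ← hcj'] at h7
            exact hl1 h7.symm)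
        have hcard : ({i0, i1, i2} : Finset (Fin n)).card = 3 := by
          rw [Finset.card_eq_three]
          exact ⟨i0, i1, i2, h01, h02, h12, rfl⟩
        rw [hcard] at hS
        exact hgap ⟨by omega, hr3⟩

end Cfsg.Agent.Lib.helper13.SD
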