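import Mathlib
import Cfsg.Prelude.Def_LieTypeDatum
import Cfsg.Agent.Lib.helper13.Embed
import Cfsg.Agent.Lib.helper4.SLSymp
import Cfsg.Agent.Lib.helper4.SpCard
import Cfsg.Agent.Lib.helper2.SLCard

set_option autoImplicit false
set_option linter.unusedSectionVars false
set_option linter.unusedVariables false
set_option linter.style.longLine false

/-! The index of the symplectic-type subgroup of `SL_n(q)` and fixed-point-free blocks. -/

namespace Cfsg.Agent.Lib.helper13.SD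

open Matrix Module

universe u

variable {F : Type u} [Field F]

/-- fixed space of a matrix -/
def fxS {ι : Type} [Fintype ι] [DecidableEq ι] (a : Matrix ι ι F) : Submodule F (ι → F) :=
  LinearMap.ker (Matrix.toLin' a - 1)

theorem mem_fxS {ι : Type} [Fintype ι] [DecidableEq ι] (a : Matrix ι ι F) (v : ι → F) :
    v ∈ fxS a ↔ a *ᵥ v = v := by
  unfold fxS
  rw [LinearMap.mem_ker, LinearMap.sub_apply, Matrix.toLin'_apply, sub_eq_zero]
  rfl

theorem fix_modEqS [Fintype F] {ι : Type} [Fintype ι] [DecidableEq ι]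
    (r : ℕ) [Fact r.Prime] (a : Matrix ι ι F) (ha : a ^ r = 1) :
    Fintype.card F ^ Fintype.card ι ≡ Fintype.card F ^ Module.finrank F ↥(fxS a) [MOD r] := by
  classical
  let f : Function.End (ι → F) := fun v => a *ᵥ v
  have hpow : ∀ (n : ℕ) (v : ι → F), (f ^ n) v = (a ^ n) *ᵥ v := by
    intro n
    induction n with
    | zero =>
      intro v
      rw [pow_zero, pow_zero, Matrix.one_mulVec]
      rfl
    | succ n ih =>
      intro v
      have e1 : (f ^ (n + 1)) v = f ((f ^ n) v) := by rw [pow_succ']; rfl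
      rw [e1]
      show a *ᵥ ((f ^ n) v) = _
      rw [ih, Matrix.mulVec_mulVec, ← pow_succ']
  have hf : f ^ r ^ 1 = 1 := by
    funext v
    rw [pow_one, hpow, ha, Matrix.one_mulVec]
    rfl
  have h1 := Equiv.Perm.card_fixedPoints_modEq (p := r) (n := 1) hf
  have h2 : Fintype.card ↥(Function.fixedPoints f) = Nat.card ↥(fxS a) := by
    rw [← Nat.card_eq_fintype_card]
    apply Nat.card_congr
    exact ⟨fun x => ⟨x.1, (mem_fxS a _).2 x.2⟩, fun y => ⟨y.1, (mem_fxS a _).1 y.2⟩,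
      fun x => rfl, fun y => rfl⟩
  have e1 : Fintype.card (ι → F) = Fintype.card F ^ Fintype.card ι := Fintype.card_fun
  have e2 : Fintype.card ↥(fxS a) = Fintype.card F ^ Module.finrank F ↥(fxS a) :=
    Module.card_eq_pow_finrank
  rw [h2, Nat.card_eq_fintype_card, e1, e2] at h1
  exact h1

/-- an element of order `r` of `SL_e(q)`, `e` the order of `q` modulo `r`, without fixed vectors -/
theorem exists_block [Fintype F] {p : ℕ} [Fact p.Prime] [CharP F p] {q : ℕ}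
    (hq : Fintype.card F = q) (r : ℕ) (hr : r.Prime) (hrp : r ≠ p) (hr1 : ¬ r ∣ q - 1) (e : ℕ)
    (he : e = orderOf (q : ZMod r)) :
    0 < e ∧ ∃ A : Matrix (Fin e) (Fin e) F, A.det = 1 ∧ A ^ r = 1 ∧ A ≠ 1 ∧
      ∀ a : Fin e → F, A *ᵥ a = a → a = 0 := by
  classical
  have : Fact r.Prime := ⟨hr⟩
  have hp : p.Prime := Fact.out
  obtain ⟨k, -, hk⟩ := FiniteField.card F p
  have hrq : ¬ r ∣ q := by
    intro h
    rw [← hq, hk] at h
    exact hrp ((Nat.prime_dvd_prime_iff_eq hr hp).1 (hr.dvd_of_dvd_pow h))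
  have hq0 : (q : ZMod r) ≠ 0 := by
    intro h
    exact hrq ((CharP.cast_eq_zero_iff (ZMod r) r q).1 h)
  have hfin : (q : ZMod r) ^ (r - 1) = 1 := ZMod.pow_card_sub_one_eq_one hq0
  have he0 : 0 < e := by
    rw [he]
    apply orderOf_pos_iff.2
    rw [isOfFinOrder_iff_pow_eq_one]
    exact ⟨r - 1, by have := hr.two_le; omega, hfin⟩
  have hqe : (q : ZMod r) ^ e = 1 := by rw [he]; exact pow_orderOf_eq_one _
  have hq1 : 1 ≤ q ^ e := Nat.one_le_pow _ _ (by rw [← hq]; exact Fintype.card_pos)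
  have hdvd : r ∣ q ^ e - 1 := by
    rw [← CharP.cast_eq_zero_iff (ZMod r) r, Nat.cast_sub hq1, Nat.cast_pow, hqe, Nat.cast_one,
      sub_self]
  have hcardGL : r ∣ Nat.card (GL (Fin e) F) := by
    rw [Matrix.card_GL_field, hq]
    have h1 : q ^ e - 1 ∣ ∏ i : Fin e, (q ^ e - q ^ (i : ℕ)) := by
      have h2 := Finset.dvd_prod_of_mem (fun i : Fin e => q ^ e - q ^ (i : ℕ))
        (Finset.mem_univ (⟨0, he0⟩ : Fin e))
      simpa using h2
    exact hdvd.trans h1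
  obtain ⟨a, ha⟩ := exists_prime_orderOf_dvd_card' r hcardGL
  obtain ⟨A, hA⟩ : ∃ A : Matrix (Fin e) (Fin e) F, A = (a : Matrix (Fin e) (Fin e) F) :=
    ⟨_, rfl⟩
  have hAr : A ^ r = 1 := by
    have h1 : a ^ r = 1 := by rw [← ha]; exact pow_orderOf_eq_one a
    have h2 := congrArg (fun u : GL (Fin e) F => (u : Matrix (Fin e) (Fin e) F)) h1
    simp only [Units.val_pow_eq_pow_val, Units.val_one] at h2
    rw [hA]; exact h2
  have hA1 : A ≠ 1 := by
    intro h
    have h1 : a = 1 := Units.ext (by rw [← hA, h]; rfl)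
    rw [h1, orderOf_one] at ha
    exact hr.one_lt.ne ha
  have hdet : A.det = 1 := by
    have h1 : A.det ^ r = 1 := by rw [← Matrix.det_pow, hAr, Matrix.det_one]
    have hd0 : A.det ≠ 0 := by
      intro h; rw [h, zero_pow hr.ne_zero] at h1; exact zero_ne_one h1
    have h2 : A.det ^ (q - 1) = 1 := by
      rw [← hq]; exact FiniteField.pow_card_sub_one_eq_one _ hd0
    have hc : Nat.gcd r (q - 1) = 1 := (Nat.Prime.coprime_iff_not_dvd hr).2 hr1
    have h3 := (pow_gcd_eq_one (a := A.det)).2 ⟨h1, h2⟩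
    rw [hc, pow_one] at h3
    exact h3
  refine ⟨he0, A, hdet, hAr, hA1, ?_⟩
  have c1 := fix_modEqS r A hAr
  rw [Fintype.card_fin, hq] at c1
  have c2 : (q : ZMod r) ^ e = (q : ZMod r) ^ finrank F ↥(fxS A) := by
    have h5 := (ZMod.natCast_eq_natCast_iff _ _ _).2 c1
    push_cast at h5; exact h5
  rw [hqe] at c2
  have c3 : e ∣ finrank F ↥(fxS A) := by
    have h6 := orderOf_dvd_of_pow_eq_one c2.symm
    rw [← he] at h6
    exact h6
  have hlt : finrank F ↥(fxS A) < e := by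
    have hne : fxS A ≠ ⊤ := by
      intro htop
      apply hA1
      apply Matrix.toLin'.injective
      apply LinearMap.ext
      intro v
      have hv : v ∈ fxS A := by rw [htop]; exact Submodule.mem_top
      rw [Matrix.toLin'_apply, (mem_fxS A v).1 hv, Matrix.toLin'_one]
      rfl
    have h5 := Submodule.finrank_lt hne
    rwa [Module.finrank_fin_fun] at h5
  have hz : finrank F ↥(fxS A) = 0 := Nat.eq_zero_of_dvd_of_lt c3 hlt
  have hbot : fxS A = ⊥ := Submodule.finrank_eq_zero.1 hz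
  intro v hv
  have h5 : v ∈ fxS A := (mem_fxS A v).2 hv
  rw [hbot, Submodule.mem_bot] at h5
  exact h5

/-! ### the index -/

theorem prod_even_odd (q m : ℕ) :
    ∏ j ∈ Finset.range (2 * m), (q ^ (j + 1) - 1) =
      (∏ i ∈ Finset.range m, (q ^ (2 * (i + 1)) - 1)) *
        ∏ i ∈ Finset.range m, (q ^ (2 * i + 1) - 1) := by
  induction m with
  | zero => simp
  | succ m ih =>
    rw [show 2 * (m + 1) = 2 * m + 1 + 1 from by ring]
    simp only [Finset.prod_range_succ]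
    rw [ih]
    have e1 : 2 * m + 1 + 1 = 2 * (m + 1) := by ring
    rw [e1]
    ring

theorem prod_gl_split (q m : ℕ) :
    ∏ i : Fin (2 * m), (q ^ (2 * m) - q ^ (i : ℕ)) =
      (∏ i ∈ Finset.range (2 * m), q ^ i) *
        ((∏ i ∈ Finset.range m, (q ^ (2 * (i + 1)) - 1)) *
          ∏ i ∈ Finset.range m, (q ^ (2 * i + 1) - 1)) := by
  rw [Fin.prod_univ_eq_prod_range (fun i => q ^ (2 * m) - q ^ i) (2 * m)]
  have h1 : ∀ i ∈ Finset.range (2 * m),
      q ^ (2 * m) - q ^ i = q ^ i * (q ^ (2 * m - 1 - i + 1) - 1) := by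
    intro i hi
    rw [Finset.mem_range] at hi
    have e : q ^ (2 * m) = q ^ i * q ^ (2 * m - 1 - i + 1) := by
      rw [← pow_add]; congr 1; omega
    rw [Nat.mul_sub_one, ← e]
  rw [Finset.prod_congr rfl h1, Finset.prod_mul_distrib]
  have h2 : ∏ j ∈ Finset.range (2 * m), (q ^ (2 * m - 1 - j + 1) - 1) =
      ∏ j ∈ Finset.range (2 * m), (q ^ (j + 1) - 1) :=
    Finset.prod_range_reflect (fun j => q ^ (j + 1) - 1) (2 * m)
  rw [h2, prod_even_odd]

theorem mem_sim_of_pres {n : ℕ} (f : (Fin n → F) → (Fin n → F) → F)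
    (y : Matrix.SpecialLinearGroup (Fin n) F)
    (h : ∀ u v, f ((y : Matrix (Fin n) (Fin n) F) *ᵥ u) ((y : Matrix (Fin n) (Fin n) F) *ᵥ v)
      = f u v) :
    y ∈ (Cfsg.Geo.similarityGroup f).comap
      (Matrix.SpecialLinearGroup.toGL : Matrix.SpecialLinearGroup (Fin n) F →* GL (Fin n) F) := by
  rw [Subgroup.mem_comap]
  show ∃ c : Fˣ, ∀ u v : Fin n → F,
    f (((Matrix.SpecialLinearGroup.toGL y : GL (Fin n) F) : Matrix (Fin n) (Fin n) F) *ᵥ u)
      (((Matrix.SpecialLinearGroup.toGL y : GL (Fin n) F) : Matrix (Fin n) (Fin n) F) *ᵥ v)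
        = (c : F) * f u v
  refine ⟨1, fun u v => ?_⟩
  rw [Units.val_one, one_mul]
  exact h u v

theorem index_cases [Fintype F] {p : ℕ} [Fact p.Prime] [CharP F p] {q : ℕ}
    (hq : Fintype.card F = q) {n m : ℕ} (hnm : n = 2 * m) (hm : 1 ≤ m)
    (f : (Fin n → F) → (Fin n → F) → F) (hf : Cfsg.Geo.IsSymplecticForm f) (r : ℕ)
    (hr : r.Prime)
    (hΩ : r ∣ ((Cfsg.Geo.similarityGroup f).comap
      (Matrix.SpecialLinearGroup.toGL :
        Matrix.SpecialLinearGroup (Fin n) F →* GL (Fin n) F)).index) :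
    r = p ∨ r ∣ q - 1 ∨ ∃ i, 1 ≤ i ∧ i < m ∧ r ∣ q ^ (2 * i + 1) - 1 := by
  classical
  subst hnm
  have hV : finrank F (Fin (2 * m) → F) = 2 * m := by
    rw [Module.finrank_fintype_fun_eq_card, Fintype.card_fin]
  obtain ⟨T, hT⟩ := Cfsg.Agent.Lib.helper13.symp_basis_equiv
    (Cfsg.Agent.Lib.helper4.fB f hf.bilinear) (fun v => hf.alternating v)
    (Cfsg.Agent.Lib.helper4.fB_nondeg f hf) hV
  have hT' : ∀ u v, f u v = -Cfsg.sympForm m F (T u) (T v) := fun u v => hT u v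
  obtain ⟨ρ, hρdef⟩ : ∃ ρ : Matrix.symplecticGroup (Fin m) F →*
      Module.End F (Fin m ⊕ Fin m → F),
      ∀ A, ρ A = Matrix.toLin' (A : Matrix (Fin m ⊕ Fin m) (Fin m ⊕ Fin m) F) :=
    ⟨{ toFun := fun A => Matrix.toLin' (A : Matrix (Fin m ⊕ Fin m) (Fin m ⊕ Fin m) F)
       map_one' := by
         show Matrix.toLin' (1 : Matrix (Fin m ⊕ Fin m) (Fin m ⊕ Fin m) F) = 1
         exact Matrix.toLin'_one
       map_mul' := fun A B => by
         show Matrix.toLin' ((A : Matrix (Fin m ⊕ Fin m) (Fin m ⊕ Fin m) F) *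
           (B : Matrix (Fin m ⊕ Fin m) (Fin m ⊕ Fin m) F)) = _
         exact Matrix.toLin'_mul _ _ }, fun _ => rfl⟩
  have hρ : Function.Injective ρ := by
    intro A B hAB
    apply Subtype.ext
    rw [hρdef, hρdef] at hAB
    exact Matrix.toLin'.injective hAB
  obtain ⟨Ψ, hΨ⟩ : ∃ Ψ : Matrix.symplecticGroup (Fin m) F →*
      Matrix (Fin (2 * m)) (Fin (2 * m)) F, Ψ = Cfsg.Agent.Lib.helper13.matHom ρ T.symm :=
    ⟨_, rfl⟩
  have hΨv : ∀ (A : Matrix.symplecticGroup (Fin m) F) (u : Fin (2 * m) → F),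
      Ψ A *ᵥ u = T.symm ((A : Matrix (Fin m ⊕ Fin m) (Fin m ⊕ Fin m) F) *ᵥ (T u)) := by
    intro A u
    rw [hΨ, Cfsg.Agent.Lib.helper13.matHom_mulVec, hρdef, Matrix.toLin'_apply]
    rfl
  have hΨinj : Function.Injective Ψ := by
    rw [hΨ]; exact Cfsg.Agent.Lib.helper13.matHom_injective ρ hρ T.symm
  have hpres : ∀ (A : Matrix.symplecticGroup (Fin m) F) (u v : Fin (2 * m) → F),
      f (Ψ A *ᵥ u) (Ψ A *ᵥ v) = f u v := by
    intro A u v
    rw [hT', hT', hΨv, hΨv, LinearEquiv.apply_symm_apply, LinearEquiv.apply_symm_apply]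
    congr 1
    unfold Cfsg.sympForm
    rw [Cfsg.Agent.Lib.helper13.form_mul, (SymplecticGroup.mem_iff'.1 A.2)]
  obtain ⟨Ψu, hΨu⟩ : ∃ Ψu : Matrix.symplecticGroup (Fin m) F →* GL (Fin (2 * m)) F,
      ∀ A, ((Ψu A : GL (Fin (2 * m)) F) : Matrix (Fin (2 * m)) (Fin (2 * m)) F) = Ψ A :=
    ⟨Ψ.toHomUnits, fun A => rfl⟩
  obtain ⟨δ, hδ⟩ : ∃ δ : Matrix.symplecticGroup (Fin m) F →* Fˣ,
      ∀ A, ((δ A : Fˣ) : F) = (Ψ A).det :=
    ⟨(Matrix.GeneralLinearGroup.det : GL (Fin (2 * m)) F →* Fˣ).comp Ψu, fun A => by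
      rw [MonoidHom.comp_apply, Matrix.GeneralLinearGroup.val_det_apply, hΨu]⟩
  obtain ⟨K, hK⟩ : ∃ K : Subgroup (Matrix.symplecticGroup (Fin m) F), K = δ.ker := ⟨_, rfl⟩
  have hKdet : ∀ A : K, (Ψ (A : Matrix.symplecticGroup (Fin m) F)).det = 1 := by
    intro A
    have h0 : (A : Matrix.symplecticGroup (Fin m) F) ∈ δ.ker := hK ▸ A.2
    have h1 : δ A.1 = 1 := MonoidHom.mem_ker.1 h0
    rw [← hδ, h1, Units.val_one]
  obtain ⟨H, hH⟩ : ∃ H : Subgroup (Matrix.SpecialLinearGroup (Fin (2 * m)) F),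
      H = (Cfsg.Geo.similarityGroup f).comap
        (Matrix.SpecialLinearGroup.toGL :
          Matrix.SpecialLinearGroup (Fin (2 * m)) F →* GL (Fin (2 * m)) F) := ⟨_, rfl⟩
  rw [← hH] at hΩ
  have hmemH : ∀ A : K, (⟨Ψ A.1, hKdet A⟩ : Matrix.SpecialLinearGroup (Fin (2 * m)) F) ∈ H := by
    intro A
    rw [hH]
    exact mem_sim_of_pres f _ (fun u v => hpres A.1 u v)
  obtain ⟨κ, hκdef⟩ : ∃ κ : K →* H, ∀ A : K,
      (((κ A : H) : Matrix.SpecialLinearGroup (Fin (2 * m)) F) :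
        Matrix (Fin (2 * m)) (Fin (2 * m)) F) = Ψ A.1 :=
    ⟨MonoidHom.mk' (fun A : K => (⟨(⟨Ψ A.1, hKdet A⟩ :
        Matrix.SpecialLinearGroup (Fin (2 * m)) F), hmemH A⟩ : H))
      (fun A B => Subtype.ext (Subtype.ext (by
        show Ψ (A.1 * B.1) = Ψ A.1 * Ψ B.1
        exact map_mul Ψ _ _))), fun _ => rfl⟩
  have hκ : Function.Injective κ := by
    intro A B hAB
    apply Subtype.ext
    apply hΨinj
    have h9 : (((κ A : H) : Matrix.SpecialLinearGroup (Fin (2 * m)) F) :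
        Matrix (Fin (2 * m)) (Fin (2 * m)) F) = (((κ B : H) :
          Matrix.SpecialLinearGroup (Fin (2 * m)) F) : Matrix (Fin (2 * m)) (Fin (2 * m)) F) := by
      rw [hAB]
    rw [hκdef, hκdef] at h9
    exact h9
  have hd1 : Nat.card K ∣ Nat.card H := Subgroup.card_dvd_of_injective κ hκ
  have hd2 : Nat.card K * K.index = Nat.card (Matrix.symplecticGroup (Fin m) F) :=
    Subgroup.card_mul_index K
  have hd3 : K.index ∣ q - 1 := by
    rw [hK, Subgroup.index_ker]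
    have h1 := Subgroup.card_subgroup_dvd_card δ.range
    rw [Nat.card_units, Nat.card_eq_fintype_card (α := F), hq] at h1
    exact h1
  have hd4 : H.index * Nat.card H = Nat.card (Matrix.SpecialLinearGroup (Fin (2 * m)) F) :=
    Subgroup.index_mul_card H
  have hd5 := Cfsg.Agent.Lib.helper2.SLCard.card_SL F (2 * m) (by omega)
  rw [hq, prod_gl_split] at hd5
  have hd6 := Cfsg.Agent.Lib.helper4.card_sp (F := F) hq m
  obtain ⟨Ev, hEv⟩ : ∃ Ev : ℕ, Ev = ∏ i ∈ Finset.range m, (q ^ (2 * (i + 1)) - 1) := ⟨_, rfl⟩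
  obtain ⟨Od, hOd⟩ : ∃ Od : ℕ, Od = ∏ i ∈ Finset.range m, (q ^ (2 * i + 1) - 1) := ⟨_, rfl⟩
  obtain ⟨Q1, hQ1⟩ : ∃ Q1 : ℕ, Q1 = ∏ i ∈ Finset.range (2 * m), q ^ i := ⟨_, rfl⟩
  rw [← hEv, ← hOd, ← hQ1] at hd5
  rw [← hEv] at hd6
  have hq2 : 2 ≤ q := by rw [← hq]; exact Fintype.one_lt_card
  have hEv0 : 0 < Ev := by
    rw [hEv]
    apply Finset.prod_pos
    intro i _
    have h1 : 2 ≤ q ^ (2 * (i + 1)) := by
      calc 2 ≤ q := hq2
        _ = q ^ 1 := (pow_one q).symm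
        _ ≤ q ^ (2 * (i + 1)) := Nat.pow_le_pow_right (by omega) (by omega)
    omega
  have hd7 : Nat.card (Matrix.symplecticGroup (Fin m) F) ∣ Nat.card H * (q - 1) := by
    rw [← hd2]; exact mul_dvd_mul hd1 hd3
  obtain ⟨t, ht⟩ := hd7
  have hmain : Ev * (H.index * (q ^ (m ^ 2) * t)) = Ev * (Q1 * Od) := by
    have h1 : H.index * (Nat.card H * (q - 1)) = Q1 * (Ev * Od) := by
      rw [← hd5, ← hd4]; ring
    rw [ht, hd6] at h1
    calc Ev * (H.index * (q ^ (m ^ 2) * t)) = H.index * (q ^ (m ^ 2) * Ev * t) := by ring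
      _ = Q1 * (Ev * Od) := h1
      _ = Ev * (Q1 * Od) := by ring
  have hmain' : H.index * (q ^ (m ^ 2) * t) = Q1 * Od := Nat.eq_of_mul_eq_mul_left hEv0 hmain
  have hdvd : r ∣ Q1 * Od := by
    rw [← hmain']; exact Dvd.dvd.mul_right hΩ _
  rcases (Nat.Prime.dvd_mul hr).1 hdvd with h1 | h1
  · left
    rw [hQ1] at h1
    obtain ⟨i, -, hi⟩ := (Prime.dvd_finsetProd_iff (Nat.Prime.prime hr) _).1 h1
    have h2 : r ∣ q := hr.dvd_of_dvd_pow hi
    obtain ⟨k, -, hk⟩ := FiniteField.card F p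
    rw [← hq, hk] at h2
    exact (Nat.prime_dvd_prime_iff_eq hr Fact.out).1 (hr.dvd_of_dvd_pow h2)
  · rw [hOd] at h1
    obtain ⟨i, hi, hi2⟩ := (Prime.dvd_finsetProd_iff (Nat.Prime.prime hr) _).1 h1
    rw [Finset.mem_range] at hi
    rcases Nat.eq_zero_or_pos i with h0 | h0
    · right; left
      rw [h0] at hi2
      simpa using hi2
    · right; right
      exact ⟨i, h0, hi, hi2⟩

end Cfsg.Agent.Lib.helper13.SD
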