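import Mathlib
import Cfsg.Prelude.Def_LieTypeDatum
import Cfsg.Agent.Lib.helper13.Embed
import Cfsg.Agent.Lib.helper4.SLSymp

set_option autoImplicit false
set_option linter.unusedSectionVars false
set_option linter.unusedVariables false
set_option linter.style.longLine false

/-! Endomorphisms `X` with `X ∘ X = z` : decomposition of the space into `X`-invariant planes on
which `X` has a common determinant. -/

namespace Cfsg.Agent.Lib.helper13.SI

open Matrix Module

universe u v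

variable {F : Type u} [Field F]

/-- `V` has a basis of pairs spanning `X`-invariant planes on which `X` has determinant `μ`. -/
def Good {V : Type v} [AddCommGroup V] [Module F V] (X : V →ₗ[F] V) (μ : F) : Prop :=
  ∃ (κ : Type) (_ : Fintype κ) (b : Basis (κ ⊕ κ) F V) (α β γ θ : κ → F),
    (∀ i, X (b (Sum.inl i)) = α i • b (Sum.inl i) + γ i • b (Sum.inr i)) ∧
    (∀ i, X (b (Sum.inr i)) = β i • b (Sum.inl i) + θ i • b (Sum.inr i)) ∧
    ∀ i, α i * θ i - β i * γ i = μ

theorem good_of_equiv {V : Type v} {V₁ V₂ : Type*} [AddCommGroup V] [Module F V]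
    [AddCommGroup V₁] [Module F V₁] [AddCommGroup V₂] [Module F V₂]
    (X : V →ₗ[F] V) (X₁ : V₁ →ₗ[F] V₁) (X₂ : V₂ →ₗ[F] V₂)
    (φ : (V₁ × V₂) ≃ₗ[F] V) (hφ : ∀ a b, X (φ (a, b)) = φ (X₁ a, X₂ b)) (μ : F)
    (h₁ : Good X₁ μ) (h₂ : Good X₂ μ) : Good X μ := by
  obtain ⟨κ₁, _, b₁, α₁, β₁, γ₁, θ₁, h11, h12, h13⟩ := h₁
  obtain ⟨κ₂, _, b₂, α₂, β₂, γ₂, θ₂, h21, h22, h23⟩ := h₂
  obtain ⟨B, hB⟩ : ∃ B : Basis ((κ₁ ⊕ κ₂) ⊕ (κ₁ ⊕ κ₂)) F V,
      B = ((b₁.prod b₂).map φ).reindex (Equiv.sumSumSumComm κ₁ κ₁ κ₂ κ₂) := ⟨_, rfl⟩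
  have e1 : ∀ i, B (Sum.inl (Sum.inl i)) = φ (b₁ (Sum.inl i), 0) := by
    intro i
    rw [hB, Basis.reindex_apply, Basis.map_apply]
    congr 1
    exact Prod.ext (Basis.prod_apply_inl_fst b₁ b₂ _) (Basis.prod_apply_inl_snd b₁ b₂ _)
  have e2 : ∀ i, B (Sum.inl (Sum.inr i)) = φ (0, b₂ (Sum.inl i)) := by
    intro i
    rw [hB, Basis.reindex_apply, Basis.map_apply]
    congr 1
    exact Prod.ext (Basis.prod_apply_inr_fst b₁ b₂ _) (Basis.prod_apply_inr_snd b₁ b₂ _)
  have e3 : ∀ i, B (Sum.inr (Sum.inl i)) = φ (b₁ (Sum.inr i), 0) := by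
    intro i
    rw [hB, Basis.reindex_apply, Basis.map_apply]
    congr 1
    exact Prod.ext (Basis.prod_apply_inl_fst b₁ b₂ _) (Basis.prod_apply_inl_snd b₁ b₂ _)
  have e4 : ∀ i, B (Sum.inr (Sum.inr i)) = φ (0, b₂ (Sum.inr i)) := by
    intro i
    rw [hB, Basis.reindex_apply, Basis.map_apply]
    congr 1
    exact Prod.ext (Basis.prod_apply_inr_fst b₁ b₂ _) (Basis.prod_apply_inr_snd b₁ b₂ _)
  have key : ∀ (a a' : V₁) (c c' : F), c • φ (a, 0) + c' • φ (a', 0) = φ (c • a + c' • a', 0) := by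
    intro a a' c c'
    rw [← φ.map_smul, ← φ.map_smul, ← φ.map_add]
    congr 1
    ext <;> simp
  have key2 : ∀ (a a' : V₂) (c c' : F), c • φ (0, a) + c' • φ (0, a') = φ (0, c • a + c' • a') := by
    intro a a' c c'
    rw [← φ.map_smul, ← φ.map_smul, ← φ.map_add]
    congr 1
    ext <;> simp
  refine ⟨κ₁ ⊕ κ₂, inferInstance, B, Sum.elim α₁ α₂, Sum.elim β₁ β₂, Sum.elim γ₁ γ₂,
    Sum.elim θ₁ θ₂, ?_, ?_, ?_⟩
  · rintro (i | i)
    · rw [e1, e3, hφ, h11, map_zero, Sum.elim_inl, Sum.elim_inl, key]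
    · rw [e2, e4, hφ, h21, map_zero, Sum.elim_inr, Sum.elim_inr, key2]
  · rintro (i | i)
    · rw [e1, e3, hφ, h12, map_zero, Sum.elim_inl, Sum.elim_inl, key]
    · rw [e2, e4, hφ, h22, map_zero, Sum.elim_inr, Sum.elim_inr, key2]
  · rintro (i | i)
    · exact h13 i
    · exact h23 i

/-- the model of a cyclic plane -/
theorem good_plane (z : F) :
    Good ((z • LinearMap.snd F F F).prod (LinearMap.fst F F F) : F × F →ₗ[F] F × F) (-z) := by
  refine ⟨Unit, inferInstance, (Basis.singleton Unit F).prod (Basis.singleton Unit F),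
    fun _ => 0, fun _ => z, fun _ => 1, fun _ => 0, ?_, ?_, ?_⟩
  · intro i
    ext <;> simp [Basis.prod_apply]
  · intro i
    ext <;> simp [Basis.prod_apply]
  · intro i
    ring

/-- scalar maps on even-dimensional spaces -/
theorem good_scalar {V : Type v} [AddCommGroup V] [Module F V] [FiniteDimensional F V]
    (X : V →ₗ[F] V) (c : F) (hX : ∀ u, X u = c • u) (k : ℕ) (hV : finrank F V = 2 * k) :
    Good X (c * c) := by
  obtain ⟨b⟩ : Nonempty (Basis (Fin k ⊕ Fin k) F V) :=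
    ⟨(Module.finBasisOfFinrankEq F V hV).reindex
      ((finCongr (by omega : 2 * k = k + k)).trans finSumFinEquiv.symm)⟩
  refine ⟨Fin k, inferInstance, b, fun _ => c, fun _ => 0, fun _ => 0, fun _ => c, ?_, ?_, ?_⟩
  · intro i
    rw [hX, zero_smul, add_zero]
  · intro i
    rw [hX, zero_smul, zero_add]
  · intro i
    ring

theorem good_zero {V : Type v} [AddCommGroup V] [Module F V] [FiniteDimensional F V]
    (X : V →ₗ[F] V) (hV : finrank F V = 0) (μ : F) : Good X μ := by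
  obtain ⟨b⟩ : Nonempty (Basis (Fin 0 ⊕ Fin 0) F V) :=
    ⟨(Module.finBasisOfFinrankEq F V hV).reindex
      ((finCongr (by omega : 0 = 0 + 0)).trans finSumFinEquiv.symm)⟩
  exact ⟨Fin 0, inferInstance, b, fun _ => 0, fun _ => 0, fun _ => 0, fun _ => 0,
    fun i => i.elim0, fun i => i.elim0, fun i => i.elim0⟩

/-- Main decomposition: if `X ∘ X = z` and either the characteristic is two or `z` is not a
square, the space is a sum of `X`-invariant planes on which `X` has determinant `-z`. -/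
theorem good_main (z : F) (h2z : (2 : F) = 0 ∨ ∀ c : F, c * c ≠ z) :
    ∀ (k : ℕ) (V : Type v) [AddCommGroup V] [Module F V] [FiniteDimensional F V],
      finrank F V = 2 * k → ∀ X : V →ₗ[F] V, (∀ u, X (X u) = z • u) → Good X (-z) := by
  intro k
  induction k with
  | zero =>
    intro V _ _ _ hV X hX
    exact good_zero X hV _
  | succ k ih =>
    intro V _ _ _ hV X hX
    by_cases hne : ∃ v : V, ∀ c : F, X v ≠ c • v
    · obtain ⟨v, hv⟩ := hne
      have hv0 : v ≠ 0 := by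
        rintro rfl
        exact hv 0 (by simp)
      have hnm : X v ∉ Submodule.span F {v} := by
        intro h
        obtain ⟨c, hc⟩ := Submodule.mem_span_singleton.1 h
        exact hv c hc.symm
      obtain ⟨f, hf1, hf2⟩ := Submodule.exists_dual_map_eq_bot_of_notMem hnm inferInstance
      have hfv : f v = 0 := by
        have : f v ∈ (Submodule.span F {v}).map f :=
          Submodule.mem_map_of_mem (Submodule.mem_span_singleton_self v)
        rw [hf2] at this
        exact (Submodule.mem_bot F).1 this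
      obtain ⟨ℓ, hℓ⟩ : ∃ ℓ : V →ₗ[F] F, ℓ = (f (X v))⁻¹ • f := ⟨_, rfl⟩
      have hℓv : ℓ v = 0 := by rw [hℓ]; simp [hfv]
      have hℓX : ℓ (X v) = 1 := by
        rw [hℓ, LinearMap.smul_apply, smul_eq_mul, inv_mul_cancel₀ hf1]
      obtain ⟨π, hπ⟩ : ∃ π : V →ₗ[F] V, ∀ u, π u = ℓ (X u) • v + ℓ u • X v :=
        ⟨(ℓ ∘ₗ X).smulRight v + ℓ.smulRight (X v), fun u => by simp⟩
      have hπX : ∀ u, π (X u) = X (π u) := by
        intro u
        rw [hπ, hπ, hX, map_add, map_smul, map_smul, map_smul, hX, smul_eq_mul]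
        module
      obtain ⟨W, hW⟩ : ∃ W : Submodule F V, W = LinearMap.ker π := ⟨_, rfl⟩
      have hWX : ∀ w ∈ W, X w ∈ W := by
        intro w hw
        rw [hW, LinearMap.mem_ker] at hw ⊢
        rw [hπX, hw, map_zero]
      have hWℓ : ∀ w ∈ W, ℓ (X w) = 0 ∧ ℓ w = 0 := by
        intro w hw
        rw [hW, LinearMap.mem_ker, hπ] at hw
        have h1 : ℓ w = 0 := by
          by_contra h
          apply hv (-(ℓ (X w)) / ℓ w)
          have h2 : ℓ w • X v = -(ℓ (X w)) • v := by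
            rw [neg_smul]; exact eq_neg_of_add_eq_zero_right hw
          calc X v = (ℓ w)⁻¹ • (ℓ w • X v) := by rw [smul_smul, inv_mul_cancel₀ h, one_smul]
            _ = (-(ℓ (X w)) / ℓ w) • v := by rw [h2, smul_smul]; congr 1; field_simp
        refine ⟨?_, h1⟩
        rw [h1, zero_smul, add_zero] at hw
        exact (smul_eq_zero.1 hw).resolve_right hv0
      have hπv : π v = v := by rw [hπ, hℓX, hℓv, one_smul, zero_smul, add_zero]
      have hπXv : π (X v) = X v := by rw [hπX, hπv]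
      have hππ : ∀ u, π (π u) = π u := by
        intro u
        conv_lhs => rw [hπ u]
        rw [map_add, map_smul, map_smul, hπv, hπXv, ← hπ]
      obtain ⟨f0, hf0⟩ : ∃ f0 : (F × F) × W →ₗ[F] V,
          ∀ (a b : F) (w : W), f0 ((a, b), w) = a • v + b • X v + (w : V) :=
        ⟨((LinearMap.fst F F F).smulRight v + (LinearMap.snd F F F).smulRight (X v)).coprod
          W.subtype, fun a b w => by simp⟩
      have hinj : Function.Injective f0 := by
        rw [← LinearMap.ker_eq_bot, LinearMap.ker_eq_bot']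
        rintro ⟨⟨a, b⟩, w⟩ h
        rw [hf0] at h
        obtain ⟨hw1, hw2⟩ := hWℓ w w.2
        have ha : a = 0 := by
          have h3 := congrArg (fun u => ℓ (X u)) h
          simp only [map_add, map_smul, hX, hℓX, hℓv, hw1, smul_eq_mul, map_zero] at h3
          simpa using h3
        have hb : b = 0 := by
          have h3 := congrArg ℓ h
          simp only [map_add, map_smul, hℓX, hℓv, hw2, smul_eq_mul, map_zero] at h3
          simpa using h3
        rw [ha, hb, zero_smul, zero_smul, zero_add, zero_add] at h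
        have hw0 : w = 0 := Subtype.ext h
        rw [ha, hb, hw0]; rfl
      have hsurj : Function.Surjective f0 := by
        intro u
        refine ⟨((ℓ (X u), ℓ u), ⟨u - π u, ?_⟩), ?_⟩
        · rw [hW, LinearMap.mem_ker, map_sub, hππ, sub_self]
        · rw [hf0]
          show ℓ (X u) • v + ℓ u • X v + (u - π u) = u
          rw [← hπ]; abel
      obtain ⟨φ, hφ⟩ : ∃ φ : ((F × F) × W) ≃ₗ[F] V, ∀ p, φ p = f0 p :=
        ⟨LinearEquiv.ofBijective f0 ⟨hinj, hsurj⟩, fun p => rfl⟩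
      have hWrank : finrank F W = 2 * k := by
        have h1 := LinearEquiv.finrank_eq φ
        rw [Module.finrank_prod, Module.finrank_prod, Module.finrank_self, hV] at h1
        omega
      have hXW : ∀ w : W, (X.restrict hWX) ((X.restrict hWX) w) = z • w := by
        intro w
        apply Subtype.ext
        rw [LinearMap.coe_restrict_apply, LinearMap.coe_restrict_apply, hX]
        rfl
      have hGW := ih W hWrank (X.restrict hWX) hXW
      apply good_of_equiv X ((z • LinearMap.snd F F F).prod (LinearMap.fst F F F))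
        (X.restrict hWX) φ ?_ (-z) (good_plane z) hGW
      rintro ⟨a, b⟩ w
      rw [hφ, hφ, hf0]
      have e1 : ((z • LinearMap.snd F F F).prod (LinearMap.fst F F F) : F × F →ₗ[F] F × F) (a, b)
          = (z * b, a) := by simp
      rw [e1, hf0, map_add, map_add, map_smul, map_smul, hX, LinearMap.coe_restrict_apply]
      module
    · push Not at hne
      have hpos : 0 < finrank F V := by omega
      obtain ⟨v₀, hv₀⟩ := Module.finrank_pos_iff_exists_ne_zero.1 hpos
      obtain ⟨c, hc⟩ := hne v₀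
      have hcc : c * c = z := by
        have h1 := hX v₀
        rw [hc, map_smul, hc, smul_smul] at h1
        have h2 : (c * c - z) • v₀ = 0 := by rw [sub_smul, h1, sub_self]
        exact sub_eq_zero.1 ((smul_eq_zero.1 h2).resolve_right hv₀)
      have h2 : (2 : F) = 0 := by
        rcases h2z with h | h
        · exact h
        · exact absurd hcc (h c)
      have hall : ∀ u, X u = c • u := by
        intro u
        by_cases hu : ∃ t : F, u = t • v₀
        · obtain ⟨t, rfl⟩ := hu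
          rw [map_smul, hc, smul_comm]
        · obtain ⟨c₁, hc₁⟩ := hne u
          obtain ⟨c₂, hc₂⟩ := hne (u + v₀)
          rw [map_add, hc₁, hc, smul_add] at hc₂
          have h3 : (c₁ - c₂) • u = (c₂ - c) • v₀ := by
            rw [sub_smul, sub_smul, sub_eq_sub_iff_add_eq_add, hc₂, add_comm]
          have h4 : c₁ = c₂ := by
            by_contra h
            apply hu
            refine ⟨(c₁ - c₂)⁻¹ * (c₂ - c), ?_⟩
            rw [← smul_smul, ← h3, smul_smul, inv_mul_cancel₀ (sub_ne_zero.2 h), one_smul]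
          rw [h4, sub_self, zero_smul] at h3
          have h5 : c₂ = c := sub_eq_zero.1 ((smul_eq_zero.1 h3.symm).resolve_right hv₀)
          rw [hc₁, h4, h5]
      have h6 := good_scalar X c hall (k + 1) hV
      have h7 : c * c = -z := by
        rw [hcc]
        have : z + z = 0 := by rw [← two_mul, h2, zero_mul]
        exact eq_neg_of_add_eq_zero_left this
      rw [h7] at h6
      exact h6

/-- Case of a square `z = w * w` in characteristic not two: eigenspace decomposition. -/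
theorem good_split {V : Type v} [AddCommGroup V] [Module F V] [FiniteDimensional F V]
    (h2 : (2 : F) ≠ 0) (X : V →ₗ[F] V) (w : F) (hw : w ≠ 0)
    (hX : ∀ u, X (X u) = (w * w) • u) :
    ∃ a b : ℕ, a + b = finrank F V ∧ LinearMap.det X = w ^ a * (-w) ^ b ∧
      (∀ a' b' : ℕ, a = 2 * a' → b = 2 * b' → Good X (w * w)) := by
  classical
  obtain ⟨Ep, hEp⟩ : ∃ E : Submodule F V, E = LinearMap.ker (X - w • LinearMap.id) := ⟨_, rfl⟩
  obtain ⟨Em, hEm⟩ : ∃ E : Submodule F V, E = LinearMap.ker (X + w • LinearMap.id) := ⟨_, rfl⟩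
  have hp : ∀ u, u ∈ Ep ↔ X u = w • u := by
    intro u
    rw [hEp, LinearMap.mem_ker, LinearMap.sub_apply, LinearMap.smul_apply, LinearMap.id_apply,
      sub_eq_zero]
  have hm : ∀ u, u ∈ Em ↔ X u = -w • u := by
    intro u
    rw [hEm, LinearMap.mem_ker, LinearMap.add_apply, LinearMap.smul_apply, LinearMap.id_apply,
      neg_smul, add_eq_zero_iff_eq_neg]
  have h2w : (2 * w : F) ≠ 0 := mul_ne_zero h2 hw
  have hcompl : IsCompl Ep Em := by
    constructor
    · rw [Submodule.disjoint_def]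
      intro u hu1 hu2
      rw [hp] at hu1
      rw [hm] at hu2
      have h3 : (2 * w) • u = 0 := by
        have : w • u = -w • u := hu1.symm.trans hu2
        rw [neg_smul] at this
        rw [mul_smul, two_smul]
        exact eq_neg_iff_add_eq_zero.1 this
      exact (smul_eq_zero.1 h3).resolve_left h2w
    · rw [codisjoint_iff, eq_top_iff]
      intro u _
      rw [Submodule.mem_sup]
      refine ⟨(2 * w)⁻¹ • (X u + w • u), ?_, (2 * w)⁻¹ • (w • u - X u), ?_, ?_⟩
      · apply Submodule.smul_mem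
        rw [hp, map_add, map_smul, hX]
        module
      · apply Submodule.smul_mem
        rw [hm, map_sub, map_smul, hX]
        module
      · rw [← smul_add]
        have : X u + w • u + (w • u - X u) = (2 * w) • u := by module
        rw [this, smul_smul, inv_mul_cancel₀ h2w, one_smul]
  obtain ⟨φ, hφ⟩ : ∃ φ : (Ep × Em) ≃ₗ[F] V, ∀ p, φ p = (p.1 : V) + (p.2 : V) :=
    ⟨Submodule.prodEquivOfIsCompl Ep Em hcompl,
      fun p => Submodule.coe_prodEquivOfIsCompl' Ep Em hcompl p⟩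
  refine ⟨finrank F Ep, finrank F Em, Submodule.finrank_add_eq_of_isCompl hcompl, ?_, ?_⟩
  · obtain ⟨B, hB⟩ : ∃ B : Basis (Fin (finrank F Ep) ⊕ Fin (finrank F Em)) F V,
        B = ((Module.finBasis F Ep).prod (Module.finBasis F Em)).map φ := ⟨_, rfl⟩
    have e1 : ∀ i, X (B (Sum.inl i)) = w • B (Sum.inl i) := by
      intro i
      have h3 : B (Sum.inl i) = ((Module.finBasis F Ep) i : V) := by
        rw [hB, Basis.map_apply, hφ, Basis.prod_apply_inl_fst, Basis.prod_apply_inl_snd]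
        simp
      rw [h3]
      exact (hp _).1 (Submodule.coe_mem _)
    have e2 : ∀ i, X (B (Sum.inr i)) = -w • B (Sum.inr i) := by
      intro i
      have h3 : B (Sum.inr i) = ((Module.finBasis F Em) i : V) := by
        rw [hB, Basis.map_apply, hφ, Basis.prod_apply_inr_fst, Basis.prod_apply_inr_snd]
        simp
      rw [h3]
      exact (hm _).1 (Submodule.coe_mem _)
    have e3 : LinearMap.toMatrix B B X =
        Matrix.diagonal (Sum.elim (fun _ => w) (fun _ => -w)) := by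
      ext i j
      rw [LinearMap.toMatrix_apply, Matrix.diagonal_apply]
      rcases j with j | j
      · rw [e1, map_smul, Finsupp.smul_apply, Basis.repr_self_apply, smul_eq_mul]
        by_cases hij : i = Sum.inl j
        · subst hij; simp
        · rw [if_neg hij, if_neg (fun h => hij h.symm), mul_zero]
      · rw [e2, map_smul, Finsupp.smul_apply, Basis.repr_self_apply, smul_eq_mul]
        by_cases hij : i = Sum.inr j
        · subst hij; simp
        · rw [if_neg hij, if_neg (fun h => hij h.symm), mul_zero]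
    rw [← LinearMap.det_toMatrix B, e3, Matrix.det_diagonal, Fintype.prod_sum_type]
    simp
  · intro a' b' ha hb
    have hg1 : Good (w • LinearMap.id : Ep →ₗ[F] Ep) (w * w) :=
      good_scalar _ w (fun u => rfl) a' ha
    have hg2 : Good ((-w) • LinearMap.id : Em →ₗ[F] Em) (w * w) := by
      have := good_scalar ((-w) • LinearMap.id : Em →ₗ[F] Em) (-w) (fun u => rfl) b' hb
      rwa [neg_mul_neg] at this
    apply good_of_equiv X _ _ φ ?_ (w * w) hg1 hg2
    rintro a b
    rw [hφ, hφ, map_add, (hp _).1 a.2, (hm _).1 b.2]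
    rfl

theorem symp_expand (m : ℕ) (a c : Fin m ⊕ Fin m → F) :
    Cfsg.sympForm m F a c =
      ∑ i, (a (Sum.inr i) * c (Sum.inl i) - a (Sum.inl i) * c (Sum.inr i)) := by
  rw [Cfsg.sympForm, Matrix.J, Matrix.fromBlocks_mulVec]
  simp only [dotProduct, Fintype.sum_sum_type, Sum.elim_inl, Sum.elim_inr, Matrix.zero_mulVec,
    Matrix.neg_mulVec, Matrix.one_mulVec, zero_add, add_zero, Pi.neg_apply, Function.comp_apply]
  rw [← Finset.sum_add_distrib]
  apply Finset.sum_congr rfl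
  intro i _
  ring

/-- From the plane decomposition: coordinates in which `X` is a similarity of the standard
symplectic form, also after rescaling the first coordinates of the planes. -/
theorem good_sim {V : Type v} [AddCommGroup V] [Module F V] [FiniteDimensional F V]
    (X : V →ₗ[F] V) (μ : F) (hG : Good X μ) {m : ℕ} (hV : finrank F V = 2 * m) :
    ∃ S : V ≃ₗ[F] (Fin m ⊕ Fin m → F), ∀ (w : Fin m → F) (u v : V),
      Cfsg.sympForm m F (Matrix.diagonal (Sum.elim w 1) *ᵥ S (X u))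
          (Matrix.diagonal (Sum.elim w 1) *ᵥ S (X v)) =
        μ * Cfsg.sympForm m F (Matrix.diagonal (Sum.elim w 1) *ᵥ S u)
          (Matrix.diagonal (Sum.elim w 1) *ᵥ S v) := by
  classical
  obtain ⟨κ, _, b, α, β, γ, θ, h1, h2, h3⟩ := hG
  have hcard : Fintype.card κ = m := by
    have := Module.finrank_eq_card_basis b
    rw [hV, Fintype.card_sum] at this
    omega
  obtain ⟨e₀⟩ : Nonempty (κ ≃ Fin m) := ⟨Fintype.equivFinOfCardEq hcard⟩
  have hcl : ∀ (u : V) (i : κ), b.repr (X u) (Sum.inl i) =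
      α i * b.repr u (Sum.inl i) + β i * b.repr u (Sum.inr i) := by
    intro u i
    have h4 : (b.coord (Sum.inl i)) ∘ₗ X =
        α i • b.coord (Sum.inl i) + β i • b.coord (Sum.inr i) := by
      apply b.ext
      rintro (j | j)
      · by_cases hji : j = i
        · subst hji; simp [h1, Basis.coord_apply]
        · simp [h1, Basis.coord_apply, Finsupp.single_apply, hji]
      · by_cases hji : j = i
        · subst hji; simp [h2, Basis.coord_apply]
        · simp [h2, Basis.coord_apply, Finsupp.single_apply, hji]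
    have h5 := LinearMap.congr_fun h4 u
    simpa [Basis.coord_apply] using h5
  have hcr : ∀ (u : V) (i : κ), b.repr (X u) (Sum.inr i) =
      γ i * b.repr u (Sum.inl i) + θ i * b.repr u (Sum.inr i) := by
    intro u i
    have h4 : (b.coord (Sum.inr i)) ∘ₗ X =
        γ i • b.coord (Sum.inl i) + θ i • b.coord (Sum.inr i) := by
      apply b.ext
      rintro (j | j)
      · by_cases hji : j = i
        · subst hji; simp [h1, Basis.coord_apply]
        · simp [h1, Basis.coord_apply, Finsupp.single_apply, hji]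
      · by_cases hji : j = i
        · subst hji; simp [h2, Basis.coord_apply]
        · simp [h2, Basis.coord_apply, Finsupp.single_apply, hji]
    have h5 := LinearMap.congr_fun h4 u
    simpa [Basis.coord_apply] using h5
  obtain ⟨S, hSl, hSr⟩ : ∃ S : V ≃ₗ[F] (Fin m ⊕ Fin m → F),
      (∀ u i, S u (Sum.inl i) = b.repr u (Sum.inl (e₀.symm i))) ∧
      (∀ u i, S u (Sum.inr i) = b.repr u (Sum.inr (e₀.symm i))) :=
    ⟨b.equivFun.trans (LinearEquiv.funCongrLeft F F (Equiv.sumCongr e₀ e₀).symm),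
      fun u i => rfl, fun u i => rfl⟩
  refine ⟨S, ?_⟩
  intro w u v
  rw [symp_expand, symp_expand, Finset.mul_sum]
  apply Finset.sum_congr rfl
  intro i _
  simp only [Matrix.mulVec_diagonal, Sum.elim_inl, Sum.elim_inr, Pi.one_apply, one_mul, hSl, hSr,
    hcl, hcr]
  rw [← h3 (e₀.symm i)]
  ring

/-- From a plane decomposition to a conjugate inside the similarity group of `f`, with a
conjugating matrix of determinant one. -/
theorem conj_of_good {n m : ℕ} (hnm : n = 2 * m) (hm : 1 ≤ m)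
    (f : (Fin n → F) → (Fin n → F) → F) (hf : Cfsg.Geo.IsSymplecticForm f)
    (x : Matrix.SpecialLinearGroup (Fin n) F) (μ : F) (hμ : μ ≠ 0)
    (hG : Good (Matrix.toLin' (x : Matrix (Fin n) (Fin n) F)) μ) :
    ∃ P : Matrix.SpecialLinearGroup (Fin n) F,
      P⁻¹ * x * P ∈ ((Cfsg.Geo.similarityGroup f).comap
        (Matrix.SpecialLinearGroup.toGL : Matrix.SpecialLinearGroup (Fin n) F →* GL (Fin n) F)) := by
  classical
  have hV : finrank F (Fin n → F) = 2 * m := by
    rw [Module.finrank_fintype_fun_eq_card, Fintype.card_fin, hnm]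
  obtain ⟨T, hT⟩ := Cfsg.Agent.Lib.helper13.symp_basis_equiv
    (Cfsg.Agent.Lib.helper4.fB f hf.bilinear) (fun v => hf.alternating v)
    (Cfsg.Agent.Lib.helper4.fB_nondeg f hf) hV
  have hT' : ∀ u v, f u v = -Cfsg.sympForm m F (T u) (T v) := fun u v => hT u v
  obtain ⟨S, hS⟩ := good_sim _ μ hG hV
  obtain ⟨c₀, hc₀⟩ : ∃ c₀ : F, c₀ = LinearMap.det
      ((T.symm : (Fin m ⊕ Fin m → F) →ₗ[F] (Fin n → F)) ∘ₗ
        (S : (Fin n → F) →ₗ[F] (Fin m ⊕ Fin m → F))) := ⟨_, rfl⟩
  have hc₀0 : c₀ ≠ 0 := by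
    have h1 : ((S.trans T.symm : (Fin n → F) ≃ₗ[F] (Fin n → F)) : (Fin n → F) →ₗ[F] (Fin n → F))
        = (T.symm : (Fin m ⊕ Fin m → F) →ₗ[F] (Fin n → F)) ∘ₗ
          (S : (Fin n → F) →ₗ[F] (Fin m ⊕ Fin m → F)) := rfl
    rw [hc₀, ← h1]
    exact (LinearEquiv.isUnit_det' _).ne_zero
  obtain ⟨w, hw⟩ : ∃ w : Fin m → F, w = Function.update (fun _ => (1 : F)) ⟨0, hm⟩ c₀⁻¹ :=
    ⟨_, rfl⟩
  have hwprod : ∏ j, Sum.elim w (1 : Fin m → F) j = c₀⁻¹ := by
    rw [Fintype.prod_sum_type]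
    simp only [Sum.elim_inl, Sum.elim_inr, Pi.one_apply, Finset.prod_const_one, mul_one]
    rw [hw, Finset.prod_update_of_mem (Finset.mem_univ _)]
    simp
  obtain ⟨Pl, hPl⟩ : ∃ Pl : (Fin n → F) →ₗ[F] (Fin n → F),
      Pl = (T.symm : (Fin m ⊕ Fin m → F) →ₗ[F] (Fin n → F)) ∘ₗ
        Matrix.toLin' (Matrix.diagonal (Sum.elim w 1)) ∘ₗ
          (S : (Fin n → F) →ₗ[F] (Fin m ⊕ Fin m → F)) := ⟨_, rfl⟩
  have hPlapp : ∀ u, T (Pl u) = Matrix.diagonal (Sum.elim w 1) *ᵥ S u := by
    intro u; rw [hPl]; simp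
  have hdet : LinearMap.det Pl = 1 := by
    have e1 : Pl = ((T.symm : (Fin m ⊕ Fin m → F) →ₗ[F] (Fin n → F)) ∘ₗ
        Matrix.toLin' (Matrix.diagonal (Sum.elim w 1)) ∘ₗ
          (T.symm.symm : (Fin n → F) →ₗ[F] (Fin m ⊕ Fin m → F))) ∘ₗ
        ((T.symm : (Fin m ⊕ Fin m → F) →ₗ[F] (Fin n → F)) ∘ₗ
          (S : (Fin n → F) →ₗ[F] (Fin m ⊕ Fin m → F))) := by
      rw [hPl]; ext u; simp
    rw [e1, LinearMap.det_comp, LinearMap.det_conj, LinearMap.det_toLin', Matrix.det_diagonal,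
      hwprod, ← hc₀, inv_mul_cancel₀ hc₀0]
  obtain ⟨Pm, hPm⟩ : ∃ Pm : Matrix.SpecialLinearGroup (Fin n) F,
      (Pm : Matrix (Fin n) (Fin n) F) = LinearMap.toMatrix' Pl :=
    ⟨⟨LinearMap.toMatrix' Pl, by rw [LinearMap.det_toMatrix', hdet]⟩, rfl⟩
  have hPmv : ∀ u, (Pm : Matrix (Fin n) (Fin n) F) *ᵥ u = Pl u := by
    intro u
    rw [hPm, ← Matrix.toLin'_apply, Matrix.toLin'_toMatrix']
  have hkey : ∀ u v, f (Pl ((x : Matrix (Fin n) (Fin n) F) *ᵥ u))
      (Pl ((x : Matrix (Fin n) (Fin n) F) *ᵥ v)) = μ * f (Pl u) (Pl v) := by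
    intro u v
    rw [hT', hT', hPlapp, hPlapp, hPlapp, hPlapp]
    have h3 := hS w u v
    simp only [Matrix.toLin'_apply] at h3
    rw [h3]; ring
  refine ⟨Pm⁻¹, ?_⟩
  rw [inv_inv, Subgroup.mem_comap]
  have e2 : ∀ u, ((Matrix.SpecialLinearGroup.toGL (Pm * x * Pm⁻¹) : GL (Fin n) F) :
      Matrix (Fin n) (Fin n) F) *ᵥ u =
      Pl ((x : Matrix (Fin n) (Fin n) F) *ᵥ (((Pm⁻¹ : Matrix.SpecialLinearGroup (Fin n) F) :
        Matrix (Fin n) (Fin n) F) *ᵥ u)) := by
    intro u
    rw [← hPmv, Matrix.mulVec_mulVec, Matrix.mulVec_mulVec]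
    rfl
  have e3 : ∀ u, Pl (((Pm⁻¹ : Matrix.SpecialLinearGroup (Fin n) F) :
      Matrix (Fin n) (Fin n) F) *ᵥ u) = u := by
    intro u
    rw [← hPmv, Matrix.mulVec_mulVec, ← Matrix.SpecialLinearGroup.coe_mul, mul_inv_cancel,
      Matrix.SpecialLinearGroup.coe_one, Matrix.one_mulVec]
  show ∃ c : Fˣ, ∀ u v : Fin n → F,
    f (((Matrix.SpecialLinearGroup.toGL (Pm * x * Pm⁻¹) : GL (Fin n) F) :
      Matrix (Fin n) (Fin n) F) *ᵥ u)
    (((Matrix.SpecialLinearGroup.toGL (Pm * x * Pm⁻¹) : GL (Fin n) F) :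
      Matrix (Fin n) (Fin n) F) *ᵥ v) = (c : F) * f u v
  refine ⟨Units.mk0 μ hμ, ?_⟩
  intro u v
  rw [e2, e2, hkey, e3, e3]
  rfl

/-- The matrix `w • diag(-1, 1, …, 1)` has no conjugate in the similarity group. -/
theorem not_conj (h2 : (2 : F) ≠ 0) {n : ℕ} (hn : 3 ≤ n)
    (f : (Fin n → F) → (Fin n → F) → F) (hf : Cfsg.Geo.IsSymplecticForm f) (w : F) (hw : w ≠ 0)
    (x : Matrix.SpecialLinearGroup (Fin n) F)
    (hx : ∀ y : Fin n → F, (x : Matrix (Fin n) (Fin n) F) *ᵥ y =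
      fun i => (if i = (⟨0, by omega⟩ : Fin n) then -w else w) * y i)
    (P : Matrix.SpecialLinearGroup (Fin n) F)
    (hP : P⁻¹ * x * P ∈ ((Cfsg.Geo.similarityGroup f).comap
      (Matrix.SpecialLinearGroup.toGL : Matrix.SpecialLinearGroup (Fin n) F →* GL (Fin n) F))) :
    False := by
  classical
  rw [Subgroup.mem_comap] at hP
  have hP' : ∃ c : Fˣ, ∀ u v : Fin n → F,
      f (((Matrix.SpecialLinearGroup.toGL (P⁻¹ * x * P) : GL (Fin n) F) :
        Matrix (Fin n) (Fin n) F) *ᵥ u)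
      (((Matrix.SpecialLinearGroup.toGL (P⁻¹ * x * P) : GL (Fin n) F) :
        Matrix (Fin n) (Fin n) F) *ᵥ v) = (c : F) * f u v := hP
  obtain ⟨c, hc⟩ := hP'
  obtain ⟨Pi', hPi⟩ : ∃ Q : Matrix (Fin n) (Fin n) F,
      Q = ((P⁻¹ : Matrix.SpecialLinearGroup (Fin n) F) : Matrix (Fin n) (Fin n) F) := ⟨_, rfl⟩
  have hQP : Pi' * (P : Matrix (Fin n) (Fin n) F) = 1 := by
    rw [hPi, ← Matrix.SpecialLinearGroup.coe_mul, inv_mul_cancel, Matrix.SpecialLinearGroup.coe_one]
  have hPQ : (P : Matrix (Fin n) (Fin n) F) * Pi' = 1 := by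
    rw [hPi, ← Matrix.SpecialLinearGroup.coe_mul, mul_inv_cancel, Matrix.SpecialLinearGroup.coe_one]
  obtain ⟨g, hg⟩ : ∃ g : (Fin n → F) → (Fin n → F) → F,
      ∀ u v, g u v = f (Pi' *ᵥ u) (Pi' *ᵥ v) := ⟨_, fun _ _ => rfl⟩
  have hgx : ∀ u v, g ((x : Matrix (Fin n) (Fin n) F) *ᵥ u)
      ((x : Matrix (Fin n) (Fin n) F) *ᵥ v) = (c : F) * g u v := by
    have e : ∀ u, Pi' *ᵥ ((x : Matrix (Fin n) (Fin n) F) *ᵥ u) =
        ((Matrix.SpecialLinearGroup.toGL (P⁻¹ * x * P) : GL (Fin n) F) :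
          Matrix (Fin n) (Fin n) F) *ᵥ (Pi' *ᵥ u) := by
      intro u
      have e' : ((Matrix.SpecialLinearGroup.toGL (P⁻¹ * x * P) : GL (Fin n) F) :
          Matrix (Fin n) (Fin n) F) = Pi' * (x : Matrix (Fin n) (Fin n) F) *
            (P : Matrix (Fin n) (Fin n) F) := by rw [hPi]; rfl
      rw [e', Matrix.mulVec_mulVec, Matrix.mulVec_mulVec, Matrix.mul_assoc, Matrix.mul_assoc, hPQ,
        Matrix.mul_one]
    intro u v
    rw [hg, hg, e, e, hc]
  have hg_add_r : ∀ u v v', g u (v + v') = g u v + g u v' := by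
    intro u v v'; rw [hg, hg, hg, Matrix.mulVec_add, hf.bilinear.add_right]
  have hg_smul_r : ∀ (a : F) u v, g u (a • v) = a * g u v := by
    intro a u v; rw [hg, hg, Matrix.mulVec_smul, hf.bilinear.smul_right]
  have hg_add_l : ∀ u u' v, g (u + u') v = g u v + g u' v := by
    intro u u' v; rw [hg, hg, hg, Matrix.mulVec_add, hf.bilinear.add_left]
  have hg_smul_l : ∀ (a : F) u v, g (a • u) v = a * g u v := by
    intro a u v; rw [hg, hg, Matrix.mulVec_smul, hf.bilinear.smul_left]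
  have hg_alt : ∀ u, g u u = 0 := by
    intro u; rw [hg]; exact hf.alternating _
  have hg_nd : ∀ v : Fin n → F, v ≠ 0 → ∃ y, g v y ≠ 0 := by
    intro v hv
    have h1 : Pi' *ᵥ v ≠ 0 := by
      intro h
      apply hv
      have h3 := congrArg (fun t => (P : Matrix (Fin n) (Fin n) F) *ᵥ t) h
      simp only [Matrix.mulVec_mulVec, Matrix.mulVec_zero, hPQ, Matrix.one_mulVec] at h3
      exact h3
    obtain ⟨y', hy'⟩ := (hf.nondegenerate _ h1).2
    refine ⟨(P : Matrix (Fin n) (Fin n) F) *ᵥ y', ?_⟩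
    rw [hg, Matrix.mulVec_mulVec, hQP, Matrix.one_mulVec]
    exact hy'
  obtain ⟨i0, hi0⟩ : ∃ i0 : Fin n, i0 = ⟨0, by omega⟩ := ⟨_, rfl⟩
  rw [← hi0] at hx
  obtain ⟨e0, he0⟩ : ∃ e0 : Fin n → F, e0 = Pi.single i0 1 := ⟨_, rfl⟩
  have hxe0 : (x : Matrix (Fin n) (Fin n) F) *ᵥ e0 = (-w) • e0 := by
    rw [hx]; funext i
    by_cases hi : i = i0
    · subst hi; simp [he0]
    · simp [he0, hi]
  have hxH : ∀ y : Fin n → F, y i0 = 0 → (x : Matrix (Fin n) (Fin n) F) *ᵥ y = w • y := by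
    intro y hy; rw [hx]; funext i
    by_cases hi : i = i0
    · subst hi; simp [hy]
    · simp [hi]
  have hdec : ∀ y : Fin n → F, y = y i0 • e0 + Function.update y i0 0 := by
    intro y; funext i
    by_cases hi : i = i0
    · subst hi; simp [he0]
    · simp [he0, hi]
  have hupd : ∀ y : Fin n → F, (Function.update y i0 0) i0 = 0 := fun y =>
    Function.update_self _ _ _
  have he0ne : e0 ≠ 0 := by
    rw [he0]; intro h
    have h3 := congrFun h i0
    simp at h3
  by_cases hcw : (c : F) = -(w * w)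
  · have hiso : ∀ y y' : Fin n → F, y i0 = 0 → y' i0 = 0 → g y y' = 0 := by
      intro y y' hy hy'
      have h3 := hgx y y'
      rw [hxH y hy, hxH y' hy', hg_smul_l, hg_smul_r, hcw] at h3
      have h4 : (2 * (w * w)) * g y y' = 0 := by linear_combination h3
      exact (mul_eq_zero.1 h4).resolve_left (mul_ne_zero h2 (mul_ne_zero hw hw))
    obtain ⟨e1, he1⟩ : ∃ e1 : Fin n → F, e1 = Pi.single (⟨1, by omega⟩ : Fin n) 1 := ⟨_, rfl⟩
    obtain ⟨e2, he2⟩ : ∃ e2 : Fin n → F, e2 = Pi.single (⟨2, by omega⟩ : Fin n) 1 := ⟨_, rfl⟩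
    have h10 : e1 i0 = 0 := by
      rw [he1, hi0]; simp [Pi.single_apply, Fin.ext_iff]
    have h20 : e2 i0 = 0 := by
      rw [he2, hi0]; simp [Pi.single_apply, Fin.ext_iff]
    have hzero : ∀ v : Fin n → F, v i0 = 0 → g v e0 = 0 → v = 0 := by
      intro v hv hve
      by_contra hne
      obtain ⟨y, hy⟩ := hg_nd v hne
      apply hy
      rw [hdec y, hg_add_r, hg_smul_r, hve, mul_zero, zero_add]
      exact hiso _ _ hv (hupd y)
    have hv : (g e2 e0) • e1 - (g e1 e0) • e2 = 0 := by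
      apply hzero
      · simp [h10, h20]
      · rw [sub_eq_add_neg, ← neg_smul, hg_add_l, hg_smul_l, hg_smul_l]; ring
    have h12 : e1 (⟨2, by omega⟩ : Fin n) = 0 := by
      rw [he1]; simp [Pi.single_apply, Fin.ext_iff]
    have h22 : e2 (⟨2, by omega⟩ : Fin n) = 1 := by
      rw [he2]; simp [Pi.single_apply, Fin.ext_iff]
    have h11 : e1 (⟨1, by omega⟩ : Fin n) = 1 := by
      rw [he1]; simp [Pi.single_apply, Fin.ext_iff]
    have ha : g e1 e0 = 0 := by
      have h3 := congrFun hv ⟨2, by omega⟩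
      simp only [Pi.sub_apply, Pi.smul_apply, smul_eq_mul, h12, h22, Pi.zero_apply, mul_zero,
        mul_one, zero_sub, neg_eq_zero] at h3
      exact h3
    have he1z : e1 = 0 := hzero e1 h10 ha
    have h3 := congrFun he1z ⟨1, by omega⟩
    rw [h11] at h3
    exact one_ne_zero h3
  · have hz : ∀ y, g e0 y = 0 := by
      intro y
      rw [hdec y, hg_add_r, hg_smul_r, hg_alt, mul_zero, zero_add]
      have h3 := hgx e0 (Function.update y i0 0)
      rw [hxe0, hxH _ (hupd y), hg_smul_l, hg_smul_r] at h3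
      have h4 : ((c : F) + w * w) * g e0 (Function.update y i0 0) = 0 := by
        linear_combination (-1 : F) * h3
      exact (mul_eq_zero.1 h4).resolve_left (fun h => hcw (eq_neg_of_add_eq_zero_left h))
    obtain ⟨y, hy⟩ := hg_nd e0 he0ne
    exact hy (hz y)

/-! ### arithmetic -/

theorem two_part (N : ℕ) (hN : N ≠ 0) : ∃ u, N = 2 ^ padicValNat 2 N * u ∧ Odd u := by
  obtain ⟨a, ha⟩ : ∃ a, a = padicValNat 2 N := ⟨_, rfl⟩
  have h0 : 2 ^ a ∣ N := ha ▸ pow_padicValNat_dvd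
  obtain ⟨u, hu⟩ := h0
  rw [← ha]
  refine ⟨u, hu, ?_⟩
  rw [← Nat.not_even_iff_odd]
  rintro ⟨w, rfl⟩
  have h1 : 2 ^ (a + 1) ∣ N := ⟨w, by rw [hu]; ring⟩
  rw [padicValNat_dvd_iff_le hN] at h1
  omega

theorem no_root [Fintype F] {q n : ℕ} (hq : Fintype.card F = q) (h2 : (2 : F) ≠ 0) (hn : n ≠ 0)
    (hcond : padicValNat 2 (q - 1) ≤ padicValNat 2 n) (w : F) (hw : w ^ n = -1) : False := by
  have hw0 : w ≠ 0 := by
    rintro rfl
    rw [zero_pow hn] at hw
    exact one_ne_zero (neg_eq_zero.1 hw.symm)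
  have hq1 : q - 1 ≠ 0 := by
    have := Fintype.one_lt_card (α := F)
    omega
  obtain ⟨s, hs, hsodd⟩ := two_part (q - 1) hq1
  have hTn : 2 ^ padicValNat 2 (q - 1) ∣ n := (padicValNat_dvd_iff_le hn).2 hcond
  obtain ⟨T, hTdef⟩ : ∃ T, T = 2 ^ padicValNat 2 (q - 1) := ⟨_, rfl⟩
  rw [← hTdef] at hs hTn
  obtain ⟨n', hn'⟩ := hTn
  have h1 : w ^ (q - 1) = 1 := by
    rw [← hq]; exact FiniteField.pow_card_sub_one_eq_one w hw0
  have h3 : w ^ (n * s) = 1 := by
    have e : n * s = (q - 1) * n' := by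
      calc n * s = T * n' * s := by rw [hn']
        _ = (T * s) * n' := by ring
        _ = (q - 1) * n' := by rw [← hs]
    rw [e, pow_mul, h1, one_pow]
  rw [pow_mul, hw, Odd.neg_one_pow hsodd] at h3
  apply h2
  linear_combination (-1 : F) * h3

theorem exists_root [Fintype F] {q n : ℕ} (hq : Fintype.card F = q) (hn : n ≠ 0)
    (hcond : padicValNat 2 n < padicValNat 2 (q - 1)) :
    ∃ w : F, w ≠ 0 ∧ w ^ n = -1 ∧ (2 : F) ≠ 0 := by
  classical
  have hq1 : q - 1 ≠ 0 := by
    intro h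
    rw [h] at hcond
    simp at hcond
  obtain ⟨n', hn', hn'odd⟩ := two_part n hn
  obtain ⟨a, ha⟩ : ∃ a, a = padicValNat 2 n := ⟨_, rfl⟩
  rw [← ha] at hn' hcond
  have h2T : 2 ^ (a + 1) ∣ q - 1 := (padicValNat_dvd_iff_le hq1).2 (by omega)
  obtain ⟨s, hs⟩ := h2T
  have hs0 : 0 < s := by
    rcases Nat.eq_zero_or_pos s with h | h
    · rw [h, mul_zero] at hs; exact absurd hs hq1
    · exact h
  have h2 : (2 : F) ≠ 0 := by
    intro h
    have : CharP F 2 := CharTwo.of_one_ne_zero_of_two_eq_zero one_ne_zero h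
    obtain ⟨k, -, hk⟩ := FiniteField.card F 2
    rw [hq] at hk
    have h3 : Even q := by
      rw [hk]
      exact (Nat.even_pow' k.pos.ne').2 even_two
    have h4 : Even (q - 1) := by
      rw [hs, pow_succ]
      exact ⟨2 ^ a * s, by ring⟩
    have hq0 : 1 ≤ q := by omega
    obtain ⟨t, ht⟩ := h3
    obtain ⟨t', ht'⟩ := h4
    omega
  obtain ⟨γ, hγ⟩ := IsCyclic.exists_generator (α := Fˣ)
  have hord : orderOf γ = q - 1 := by
    rw [orderOf_eq_card_of_forall_mem_zpowers hγ, Nat.card_eq_fintype_card, Fintype.card_units, hq]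
  have hT0 : 0 < 2 ^ a := by positivity
  have h1 : (γ ^ s) ^ (2 ^ a) ≠ 1 := by
    intro h
    rw [← pow_mul] at h
    have h3 := orderOf_dvd_of_pow_eq_one h
    rw [hord, hs] at h3
    have h4 := Nat.le_of_dvd (by positivity) h3
    have h5 : 2 ^ (a + 1) * s = 2 * (s * 2 ^ a) := by rw [pow_succ]; ring
    have h6 : 0 < s * 2 ^ a := by positivity
    omega
  have h3 : ((γ ^ s) ^ (2 ^ a)) * ((γ ^ s) ^ (2 ^ a)) = 1 := by
    rw [← pow_add, ← pow_mul]
    have e : s * (2 ^ a + 2 ^ a) = q - 1 := by rw [hs, pow_succ]; ring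
    rw [e, ← hord]
    exact pow_orderOf_eq_one γ
  have h4 : (((γ ^ s) ^ (2 ^ a) : Fˣ) : F) = -1 := by
    have h5 : (((γ ^ s) ^ (2 ^ a) : Fˣ) : F) * (((γ ^ s) ^ (2 ^ a) : Fˣ) : F) = 1 := by
      rw [← Units.val_mul, h3, Units.val_one]
    rcases mul_self_eq_one_iff.1 h5 with h6 | h6
    · exact absurd (Units.ext h6) h1
    · exact h6
  refine ⟨((γ ^ s : Fˣ) : F), Units.ne_zero _, ?_, h2⟩
  rw [hn', pow_mul, ← Units.val_pow_eq_pow_val, h4, Odd.neg_one_pow hn'odd]

end Cfsg.Agent.Lib.helper13.SI
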