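import Mathlib
import Cfsg.Agent.Lib.helper13.MaxTS

/-!
# Witt's theorem for totally singular subspaces, by reflections

Two totally singular subspaces of the same dimension are interchanged by a product of
reflections; stabilisers of totally singular subspaces contain elements of prescribed spinor norm.
-/

set_option autoImplicit false

namespace Cfsg.Agent.Lib.helper13

section TSMove

variable {F : Type*} [Field F] {ι : Type} [Fintype ι] [DecidableEq ι]

/-- two singular vectors with non-zero inner product are interchanged by a reflection -/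
lemma ts_swap_refl (Q : QuadraticForm F (ι → F)) (u w : ι → F) (hu : Q u = 0) (hw : Q w = 0)
    (huw : QuadraticMap.polar (⇑Q) u w ≠ 0) :
    Q (u - w) ≠ 0 ∧ (Cfsg.reflectionMatrix (⇑Q) (u - w)).mulVec u = w ∧
      ∀ x : ι → F, QuadraticMap.polar (⇑Q) u x = 0 → QuadraticMap.polar (⇑Q) w x = 0 →
        (Cfsg.reflectionMatrix (⇑Q) (u - w)).mulVec x = x := by
  have hQ : Q (u - w) = - QuadraticMap.polar (⇑Q) u w := by
    rw [Q_sub, hu, hw]
    ring
  refine ⟨by rw [hQ]; exact neg_ne_zero.mpr huw, ?_, ?_⟩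
  · rw [refl_mulVec, hQ, QuadraticMap.polar_sub_left, polar_self_eq, hu,
      QuadraticMap.polar_comm (⇑Q) w u, mul_zero, zero_sub,
      inv_mul_cancel₀ (neg_ne_zero.mpr huw), one_smul]
    abel
  · intro x h1 h2
    rw [refl_mulVec, QuadraticMap.polar_sub_left, h1, h2, sub_zero, mul_zero, zero_smul, sub_zero]

/-- if `U ≠ W` are totally singular of the same dimension, some product of reflections fixes
`U ∩ W` pointwise and moves a vector of `U` to a vector of `W` outside `U` -/
lemma ts_step (Q : QuadraticForm F (ι → F)) (hQ : (QuadraticMap.polarBilin Q).Nondegenerate)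
    (U W : Submodule F (ι → F)) (hU : ∀ u ∈ U, Q u = 0) (hW : ∀ w ∈ W, Q w = 0)
    (hfin : Module.finrank F ↥U = Module.finrank F ↥W) (hne : U ≠ W) :
    ∃ g ∈ reflGroup Q, (∀ x ∈ U ⊓ W, (mat Q g).mulVec x = x) ∧
      ∃ u ∈ U, (mat Q g).mulVec u ∈ W ∧ (mat Q g).mulVec u ∉ U := by
  by_cases hA : ∃ u ∈ U, ∃ w ∈ W, QuadraticMap.polar (⇑Q) u w ≠ 0
  · obtain ⟨u, huU, w, hwW, huw⟩ := hA
    obtain ⟨h1, h2, h3⟩ := ts_swap_refl Q u w (hU u huU) (hW w hwW) huw
    refine ⟨reflEl Q (u - w), reflEl_mem Q _ h1, ?_, u, huU, ?_, ?_⟩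
    · intro x hx
      rw [mat_reflEl Q _ h1]
      exact h3 x (ts_polar_zero Q U hU u x huU hx.1) (ts_polar_zero Q W hW w x hwW hx.2)
    · rw [mat_reflEl Q _ h1, h2]
      exact hwW
    · rw [mat_reflEl Q _ h1, h2]
      intro hwU
      exact huw (ts_polar_zero Q U hU u w huU hwU)
  · push Not at hA
    have hUW : ¬ U ≤ W := by
      intro hle
      exact hne (Submodule.eq_of_le_of_finrank_eq hle hfin)
    have hWU : ¬ W ≤ U := by
      intro hle
      exact hne (Submodule.eq_of_le_of_finrank_eq hle hfin.symm).symm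
    obtain ⟨u, huU, huW⟩ := SetLike.not_le_iff_exists.mp hUW
    obtain ⟨w, hwW, hwU⟩ := SetLike.not_le_iff_exists.mp hWU
    have hsep : ∀ z : ι → F, z ∉ U ⊓ W →
        ∃ a ∈ orthSub Q (U ⊓ W), QuadraticMap.polar (⇑Q) a z ≠ 0 := by
      intro z hz
      by_contra hcon
      push Not at hcon
      apply hz
      rw [← orthSub_orthSub Q hQ (U ⊓ W), mem_orthSub]
      exact hcon
    obtain ⟨a, ha, hau⟩ := hsep u (fun h => huW h.2)
    obtain ⟨b, hb, hbw⟩ := hsep w (fun h => hwU h.1)
    obtain ⟨y₀, hy₀, hy₀u, hy₀w⟩ : ∃ y₀ ∈ orthSub Q (U ⊓ W),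
        QuadraticMap.polar (⇑Q) y₀ u ≠ 0 ∧ QuadraticMap.polar (⇑Q) y₀ w ≠ 0 := by
      by_cases h1 : QuadraticMap.polar (⇑Q) a w = 0
      · by_cases h2 : QuadraticMap.polar (⇑Q) b u = 0
        · refine ⟨a + b, Submodule.add_mem _ ha hb, ?_, ?_⟩
          · rw [QuadraticMap.polar_add_left, h2, add_zero]
            exact hau
          · rw [QuadraticMap.polar_add_left, h1, zero_add]
            exact hbw
        · exact ⟨b, hb, h2, hbw⟩
      · exact ⟨a, ha, hau, h1⟩
    have huD : u ∈ orthSub Q (U ⊓ W) := by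
      rw [mem_orthSub]
      intro x hx
      exact ts_polar_zero Q U hU x u hx.1 huU
    obtain ⟨y, hy, hQy, hyu, hyw⟩ : ∃ y ∈ orthSub Q (U ⊓ W), Q y ≠ 0 ∧
        QuadraticMap.polar (⇑Q) y u ≠ 0 ∧ QuadraticMap.polar (⇑Q) y w ≠ 0 := by
      by_cases hQy₀ : Q y₀ = 0
      · refine ⟨y₀ + u, Submodule.add_mem _ hy₀ huD, ?_, ?_, ?_⟩
        · have h5 : Q (y₀ + u) = Q y₀ + Q u + QuadraticMap.polar (⇑Q) y₀ u := by
            unfold QuadraticMap.polar
            ring
          rw [h5, hQy₀, hU u huU, zero_add, zero_add]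
          exact hy₀u
        · rw [QuadraticMap.polar_add_left, polar_self_eq, hU u huU, mul_zero, add_zero]
          exact hy₀u
        · rw [QuadraticMap.polar_add_left, hA u huU w hwW, add_zero]
          exact hy₀w
      · exact ⟨y₀, hy₀, hQy₀, hy₀u, hy₀w⟩
    obtain ⟨u', hu'⟩ : ∃ u' : ι → F, u' = (Cfsg.reflectionMatrix (⇑Q) y).mulVec u := ⟨_, rfl⟩
    have hQu' : Q u' = 0 := by
      rw [hu', refl_pres Q y hQy, hU u huU]
    have hu'w : QuadraticMap.polar (⇑Q) u' w ≠ 0 := by
      rw [hu', refl_mulVec, QuadraticMap.polar_sub_left, QuadraticMap.polar_smul_left,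
        hA u huU w hwW, zero_sub, neg_ne_zero, smul_eq_mul]
      exact mul_ne_zero (mul_ne_zero (inv_ne_zero hQy) hyu) hyw
    obtain ⟨h1, h2, h3⟩ := ts_swap_refl Q u' w hQu' (hW w hwW) hu'w
    refine ⟨reflEl Q (u' - w) * reflEl Q y,
      (reflGroup Q).mul_mem (reflEl_mem Q _ h1) (reflEl_mem Q y hQy), ?_, u, huU, ?_, ?_⟩
    · intro x hx
      have hyx0 : QuadraticMap.polar (⇑Q) y x = 0 := by
        rw [QuadraticMap.polar_comm]
        exact (mem_orthSub Q _ y).mp hy x hx
      have hyx : (Cfsg.reflectionMatrix (⇑Q) y).mulVec x = x := by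
        rw [refl_mulVec, hyx0, mul_zero, zero_smul, sub_zero]
      rw [mat_mul, ← Matrix.mulVec_mulVec, mat_reflEl Q _ h1, mat_reflEl Q y hQy, hyx]
      apply h3 x
      · rw [hu', refl_mulVec, QuadraticMap.polar_sub_left, QuadraticMap.polar_smul_left,
          ts_polar_zero Q U hU u x huU hx.1, hyx0, smul_zero, sub_zero]
      · exact ts_polar_zero Q W hW w x hwW hx.2
    · rw [mat_mul, ← Matrix.mulVec_mulVec, mat_reflEl Q _ h1, mat_reflEl Q y hQy, ← hu', h2]
      exact hwW
    · rw [mat_mul, ← Matrix.mulVec_mulVec, mat_reflEl Q _ h1, mat_reflEl Q y hQy, ← hu', h2]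
      exact hwU

/-- **Witt's theorem for totally singular subspaces**: two totally singular subspaces of the
same dimension are interchanged by a product of reflections. -/
theorem ts_move (Q : QuadraticForm F (ι → F)) (hQ : (QuadraticMap.polarBilin Q).Nondegenerate)
    (U W : Submodule F (ι → F)) (hU : ∀ u ∈ U, Q u = 0) (hW : ∀ w ∈ W, Q w = 0)
    (hfin : Module.finrank F ↥U = Module.finrank F ↥W) :
    ∃ g ∈ reflGroup Q, imgSub Q g U = W := by
  have key : ∀ d : ℕ, ∀ U : Submodule F (ι → F), (∀ u ∈ U, Q u = 0) →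
      Module.finrank F ↥U = Module.finrank F ↥W →
      Module.finrank F ↥U - Module.finrank F ↥(U ⊓ W) ≤ d →
      ∃ g ∈ reflGroup Q, imgSub Q g U = W := by
    intro d
    induction d with
    | zero =>
      intro U hU hfin hd
      have h1 : U ⊓ W = U := Submodule.eq_of_le_of_finrank_le inf_le_left (by omega)
      have h2 : U ≤ W := by
        rw [← h1]
        exact inf_le_right
      exact ⟨1, (reflGroup Q).one_mem, by
        rw [imgSub_one]
        exact Submodule.eq_of_le_of_finrank_eq h2 hfin⟩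
    | succ d ih =>
      intro U hU hfin hd
      by_cases hne : U = W
      · exact ⟨1, (reflGroup Q).one_mem, by rw [imgSub_one]; exact hne⟩
      · obtain ⟨g₁, hg₁, hfix, u, huU, huW, huU'⟩ := ts_step Q hQ U W hU hW hfin hne
        have hlt : Module.finrank F ↥(U ⊓ W) < Module.finrank F ↥(imgSub Q g₁ U ⊓ W) := by
          have h1 : U ⊓ W < (U ⊓ W) ⊔ Submodule.span F {(mat Q g₁).mulVec u} := by
            refine lt_of_le_of_ne le_sup_left ?_
            intro heq
            have h3 : (mat Q g₁).mulVec u ∈ U ⊓ W := by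
              rw [heq]
              exact Submodule.mem_sup_right (Submodule.mem_span_singleton_self _)
            exact huU' h3.1
          have h2 : (U ⊓ W) ⊔ Submodule.span F {(mat Q g₁).mulVec u}
              ≤ imgSub Q g₁ U ⊓ W := by
            apply sup_le
            · intro x hx
              exact ⟨(mem_imgSub Q g₁ U x).mpr ⟨x, hx.1, hfix x hx⟩, hx.2⟩
            · rw [Submodule.span_singleton_le_iff_mem]
              exact ⟨(mem_imgSub Q g₁ U _).mpr ⟨u, huU, rfl⟩, huW⟩
          exact lt_of_lt_of_le (Submodule.finrank_lt_finrank_of_lt h1)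
            (Submodule.finrank_mono h2)
        obtain ⟨g₂, hg₂, himg⟩ := ih (imgSub Q g₁ U) (imgSub_ts Q g₁ U hU)
          (by rw [imgSub_finrank]; exact hfin) (by rw [imgSub_finrank]; omega)
        exact ⟨g₂ * g₁, (reflGroup Q).mul_mem hg₂ hg₁, by rw [imgSub_mul]; exact himg⟩
  exact key _ U hU hfin le_rfl

/-- a reflection fixing pointwise a totally singular subspace of less than half the dimension -/
lemma ts_adj_refl (Q : QuadraticForm F (ι → F))
    (hQ : (QuadraticMap.polarBilin Q).Nondegenerate) (W : Submodule F (ι → F))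
    (hk : 2 * Module.finrank F ↥W < Fintype.card ι) :
    ∃ w : ι → F, Q w ≠ 0 ∧ imgSub Q (reflEl Q w) W = W := by
  have h1 : ∃ w ∈ orthSub Q W, Q w ≠ 0 := by
    by_contra hcon
    push Not at hcon
    have h2 := ts_le_orthSub Q (orthSub Q W) hcon
    rw [orthSub_orthSub Q hQ] at h2
    have h3 := Submodule.finrank_mono h2
    rw [finrank_orthSub Q hQ] at h3
    omega
  obtain ⟨w, hw, hQw⟩ := h1
  refine ⟨w, hQw, ?_⟩
  apply Submodule.eq_of_le_of_finrank_eq
  · intro x hx
    obtain ⟨a, ha, rfl⟩ := (mem_imgSub _ _ _ x).mp hx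
    rw [mat_reflEl Q w hQw, refl_mulVec, QuadraticMap.polar_comm,
      (mem_orthSub Q W w).mp hw a ha, mul_zero, zero_smul, sub_zero]
    exact ha
  · exact imgSub_finrank _ _ _

/-- a product of two reflections with prescribed product of norms stabilising a non-zero totally
singular subspace -/
lemma ts_adj_scale (Q : QuadraticForm F (ι → F))
    (hQ : (QuadraticMap.polarBilin Q).Nondegenerate) (W : Submodule F (ι → F))
    (hW : ∀ w ∈ W, Q w = 0) (hW0 : W ≠ ⊥) (t : F) (ht : t ≠ 0) :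
    ∃ v₁ v₂ : ι → F, Q v₁ ≠ 0 ∧ Q v₂ ≠ 0 ∧ Q v₁ * Q v₂ = t ∧
      imgSub Q (reflEl Q v₁ * reflEl Q v₂) W = W := by
  obtain ⟨e, heW, he0⟩ := (Submodule.ne_bot_iff W).mp hW0
  have hQe : Q e = 0 := hW e heW
  obtain ⟨y₀, hy₀⟩ : ∃ y₀, QuadraticMap.polar (⇑Q) e y₀ ≠ 0 := by
    by_contra hcon
    push Not at hcon
    exact he0 (hQ.1 e hcon)
  obtain ⟨y, hy⟩ : ∃ y, y = (QuadraticMap.polar (⇑Q) e y₀)⁻¹ • y₀ := ⟨_, rfl⟩
  have hey : QuadraticMap.polar (⇑Q) e y = 1 := by
    rw [hy, QuadraticMap.polar_smul_right, smul_eq_mul, inv_mul_cancel₀ hy₀]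
  obtain ⟨f, hf⟩ : ∃ f, f = y - Q y • e := ⟨_, rfl⟩
  have hQf : Q f = 0 := by
    rw [hf, Q_sub, QuadraticMap.map_smul, hQe, QuadraticMap.polar_smul_right,
      QuadraticMap.polar_comm (⇑Q) y e, hey]
    simp
  have hef : QuadraticMap.polar (⇑Q) e f = 1 := by
    rw [hf, QuadraticMap.polar_sub_right, QuadraticMap.polar_smul_right, polar_self_eq, hQe, hey]
    simp
  have hQv : ∀ s : F, Q (e - s • f) = -s := by
    intro s
    rw [Q_sub, QuadraticMap.map_smul, hQe, hQf, QuadraticMap.polar_smul_right, hef]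
    simp
  have hv1 : Q (e - (1 : F) • f) ≠ 0 := by
    rw [hQv]
    exact neg_ne_zero.mpr one_ne_zero
  have hv2 : Q (e - t • f) ≠ 0 := by
    rw [hQv]
    exact neg_ne_zero.mpr ht
  refine ⟨e - (1 : F) • f, e - t • f, hv1, hv2, by rw [hQv, hQv]; ring, ?_⟩
  apply Submodule.eq_of_le_of_finrank_eq
  · intro x hx
    obtain ⟨a, ha, rfl⟩ := (mem_imgSub _ _ _ x).mp hx
    have hea : QuadraticMap.polar (⇑Q) e a = 0 := ts_polar_zero Q W hW e a heW ha
    have key : (mat Q (reflEl Q (e - (1 : F) • f) * reflEl Q (e - t • f))).mulVec a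
        = a + ((t - 1) * QuadraticMap.polar (⇑Q) f a) • e := by
      rw [mat_mul, ← Matrix.mulVec_mulVec, mat_reflEl Q _ hv1, mat_reflEl Q _ hv2,
        refl_mulVec Q (e - t • f), hQv, refl_mulVec, hQv]
      simp only [QuadraticMap.polar_sub_left, QuadraticMap.polar_sub_right,
        QuadraticMap.polar_smul_left, QuadraticMap.polar_smul_right, hea, hef, polar_self_eq,
        hQe, hQf, QuadraticMap.polar_comm (⇑Q) f e, smul_eq_mul]
      funext i
      simp only [Pi.add_apply, Pi.sub_apply, Pi.smul_apply, smul_eq_mul]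
      field_simp
      ring
    rw [key]
    exact W.add_mem ha (W.smul_mem _ heW)
  · exact imgSub_finrank _ _ _

/-- an even product of reflections carrying `U` to a non-zero totally singular subspace `W` can
be corrected to an element of the commutator subgroup carrying `U` to `W` -/
theorem ts_omega_of_even [Fintype F] (h : Fintype.card F ≠ 2 ∨ Fintype.card ι ≠ 4)
    (Q : QuadraticForm F (ι → F)) (hQ : (QuadraticMap.polarBilin Q).Nondegenerate)
    (U W : Submodule F (ι → F)) (hW : ∀ w ∈ W, Q w = 0) (hW0 : W ≠ ⊥)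
    (vs : List (ι → F)) (hvs : ∀ v ∈ vs, Q v ≠ 0) (hev : Even vs.length)
    (himg : imgSub Q (vs.map (reflEl Q)).prod U = W) :
    ∃ g : ↥(Cfsg.isometryGroup F ⇑Q), g ∈ Cfsg.Omega F ⇑Q ∧ imgSub Q g U = W := by
  have hN : (vs.map (fun v => Q v)).prod ≠ 0 := by
    apply List.prod_ne_zero
    intro h0
    obtain ⟨v, hv, hv0⟩ := List.mem_map.mp h0
    exact hvs v hv hv0
  obtain ⟨v₁, v₂, h1, h2, h3, h4⟩ := ts_adj_scale Q hQ W hW hW0 _ hN
  have hvs' : ∀ v ∈ v₁ :: v₂ :: vs, Q v ≠ 0 := by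
    intro v hv
    rcases List.mem_cons.mp hv with rfl | hv
    · exact h1
    · rcases List.mem_cons.mp hv with rfl | hv
      · exact h2
      · exact hvs v hv
  refine ⟨((v₁ :: v₂ :: vs).map (reflEl Q)).prod, ?_, ?_⟩
  · rw [omega_iff_list h Q hQ _ hvs']
    refine ⟨?_, fun _ => ?_⟩
    · rw [List.length_cons, List.length_cons]
      obtain ⟨c, hc⟩ := hev
      exact ⟨c + 1, by omega⟩
    · rw [List.map_cons, List.map_cons, List.prod_cons, List.prod_cons, ← mul_assoc, h3]
      exact ⟨_, rfl⟩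
  · rw [List.map_cons, List.map_cons, List.prod_cons, List.prod_cons, ← mul_assoc, imgSub_mul,
      himg, h4]

end TSMove

end Cfsg.Agent.Lib.helper13
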