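import Mathlib

set_option autoImplicit false

namespace Cfsg.Agent.Lib.helper13

open Polynomial

section SelfAdj

universe u v

variable {F : Type u} [Field F]

/-- there is a left-nondegenerate bilinear form for which `T` is self-adjoint -/
def HasSAForm {V : Type v} [AddCommGroup V] [Module F V] (T : Module.End F V) : Prop :=
  ∃ B : V →ₗ[F] V →ₗ[F] F, (∀ x, (∀ y, B x y = 0) → x = 0) ∧ ∀ x y, B (T x) y = B x (T y)

lemma hasSAForm_of_isCompl {V : Type v} [AddCommGroup V] [Module F V] (T : Module.End F V)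
    (V₁ V₂ : Submodule F V) (h : IsCompl V₁ V₂)
    (h₁ : ∀ x ∈ V₁, T x ∈ V₁) (h₂ : ∀ x ∈ V₂, T x ∈ V₂)
    (H₁ : HasSAForm (T.restrict h₁)) (H₂ : HasSAForm (T.restrict h₂)) : HasSAForm T := by
  obtain ⟨B₁, hB₁, hB₁'⟩ := H₁
  obtain ⟨B₂, hB₂, hB₂'⟩ := H₂
  let e := Submodule.prodEquivOfIsCompl V₁ V₂ h
  have he : ∀ (a : V₁) (b : V₂), e (a, b) = (a : V) + (b : V) := fun a b => rfl
  let π₁ : V →ₗ[F] V₁ := (LinearMap.fst F V₁ V₂) ∘ₗ (e.symm : V →ₗ[F] V₁ × V₂)
  let π₂ : V →ₗ[F] V₂ := (LinearMap.snd F V₁ V₂) ∘ₗ (e.symm : V →ₗ[F] V₁ × V₂)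
  have hπ₁ : ∀ (a : V₁) (b : V₂), π₁ (e (a, b)) = a := by
    intro a b
    show (e.symm (e (a, b))).1 = a
    rw [LinearEquiv.symm_apply_apply]
  have hπ₂ : ∀ (a : V₁) (b : V₂), π₂ (e (a, b)) = b := by
    intro a b
    show (e.symm (e (a, b))).2 = b
    rw [LinearEquiv.symm_apply_apply]
  have hT : ∀ (a : V₁) (b : V₂), T (e (a, b)) = e (T.restrict h₁ a, T.restrict h₂ b) := by
    intro a b
    rw [he, he, map_add]
    rfl
  refine ⟨B₁.compl₁₂ π₁ π₁ + B₂.compl₁₂ π₂ π₂, ?_, ?_⟩
  · intro x hx
    obtain ⟨⟨a, b⟩, rfl⟩ := e.surjective x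
    have hx' : ∀ (c : V₁) (d : V₂), B₁ a c + B₂ b d = 0 := by
      intro c d
      have := hx (e (c, d))
      simpa only [LinearMap.add_apply, LinearMap.compl₁₂_apply, hπ₁, hπ₂] using this
    have a0 : a = 0 := hB₁ a (fun c => by simpa using hx' c 0)
    have b0 : b = 0 := hB₂ b (fun d => by simpa using hx' 0 d)
    rw [a0, b0]
    exact map_zero e
  · intro x y
    obtain ⟨⟨a, b⟩, rfl⟩ := e.surjective x
    obtain ⟨⟨c, d⟩, rfl⟩ := e.surjective y
    simp only [LinearMap.add_apply, LinearMap.compl₁₂_apply, hT, hπ₁, hπ₂, hB₁', hB₂']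

lemma cyclic_split {V : Type v} [AddCommGroup V] [Module F V] [FiniteDimensional F V]
    (T : Module.End F V) (v : V) (lam : Module.Dual F V) (m : F[X]) (hm : m.Monic)
    (hmT : aeval T m = 0) (hd : 1 ≤ m.natDegree)
    (hN : ∀ h : F[X], (∀ r : F[X], lam (aeval T (r * h) v) = 0) → m ∣ h) :
    ∃ (W U : Submodule F V) (hW : ∀ x ∈ W, T x ∈ W) (_ : ∀ x ∈ U, T x ∈ U),
      IsCompl W U ∧ HasSAForm (T.restrict hW) ∧ W ≠ ⊥ := by
  classical
  let ev : F[X] →ₗ[F] V := (LinearMap.applyₗ v).comp (aeval T).toLinearMap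
  have hev : ∀ h, ev h = aeval T h v := fun h => rfl
  have hmul : ∀ (r h : F[X]) (x : V), aeval T (r * h) x = aeval T r (aeval T h x) := by
    intro r h x
    rw [map_mul]
    rfl
  have hdvd : ∀ h, m ∣ h → aeval T h = 0 := by
    rintro h ⟨k, rfl⟩
    rw [map_mul, hmT, zero_mul]
  have hm1 : m ≠ 1 := by
    intro h
    rw [h] at hd
    simp at hd
  let U : Submodule F V :=
    { carrier := {u | ∀ r : F[X], lam (aeval T r u) = 0}
      add_mem' := by
        intro a b ha hb r
        rw [map_add, map_add, ha r, hb r, add_zero]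
      zero_mem' := by
        intro r
        rw [map_zero, map_zero]
      smul_mem' := by
        intro c a ha r
        rw [map_smul, map_smul, ha r, smul_zero] }
  have hWinv : ∀ x ∈ LinearMap.range ev, T x ∈ LinearMap.range ev := by
    rintro _ ⟨h, rfl⟩
    refine ⟨X * h, ?_⟩
    rw [hev, hev, hmul, aeval_X]
  have hUinv : ∀ x ∈ U, T x ∈ U := by
    intro x hx r
    have := hx (r * X)
    rwa [hmul, aeval_X] at this
  have hdisj : Disjoint (LinearMap.range ev) U := by
    rw [Submodule.disjoint_def]
    rintro _ ⟨h, rfl⟩ hU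
    have : m ∣ h := hN h (fun r => by rw [hmul]; exact hU r)
    rw [hev, hdvd h this]
    rfl
  obtain ⟨d, hdd⟩ : ∃ d, d = m.natDegree := ⟨_, rfl⟩
  have hW_dim : d ≤ Module.finrank F (LinearMap.range ev) := by
    have hli : LinearIndependent F (fun k : Fin d => ev (X ^ (k : ℕ))) := by
      rw [Fintype.linearIndependent_iff]
      intro c hc
      have h1 : ev (∑ k : Fin d, C (c k) * X ^ (k : ℕ)) = 0 := by
        rw [map_sum, ← hc]
        apply Finset.sum_congr rfl
        intro k _
        rw [← smul_eq_C_mul, map_smul]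
      have h2 : m ∣ ∑ k : Fin d, C (c k) * X ^ (k : ℕ) := by
        apply hN
        intro r
        rw [hmul, ← hev, h1, map_zero, map_zero]
      have h3 : (∑ k : Fin d, C (c k) * X ^ (k : ℕ)) = 0 := by
        apply Polynomial.eq_zero_of_dvd_of_degree_lt h2
        rw [Polynomial.degree_eq_natDegree hm.ne_zero, ← hdd]
        exact Polynomial.degree_sum_fin_lt c
      intro k
      have h4 := congrArg (fun q : F[X] => q.coeff k) h3
      simp only [Polynomial.finsetSum_coeff, coeff_C_mul, coeff_X_pow, coeff_zero] at h4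
      rw [Finset.sum_eq_single k] at h4
      · simpa using h4
      · intro j _ hjk
        have : (k : ℕ) ≠ (j : ℕ) := fun h => hjk (Fin.ext h.symm)
        simp [this]
      · intro h
        exact absurd (Finset.mem_univ k) h
    have h4 := finrank_span_eq_card hli
    rw [Fintype.card_fin] at h4
    rw [← h4]
    apply Submodule.finrank_mono
    rw [Submodule.span_le]
    rintro _ ⟨k, rfl⟩
    exact ⟨_, rfl⟩
  have hU_dim : Module.finrank F V ≤ Module.finrank F U + d := by
    let Λ : V →ₗ[F] (Fin d → F) :=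
      LinearMap.pi (fun k : Fin d => (lam ∘ₗ (aeval T (X ^ (k : ℕ) : F[X]) : V →ₗ[F] V) : V →ₗ[F] F))
    have hΛ : ∀ u (k : Fin d), Λ u k = lam (aeval T (X ^ (k : ℕ) : F[X]) u) := fun u k => rfl
    have hker : LinearMap.ker Λ ≤ U := by
      intro u hu r
      rw [LinearMap.mem_ker] at hu
      have hk : ∀ k : Fin d, lam (aeval T (X ^ (k : ℕ) : F[X]) u) = 0 := by
        intro k
        rw [← hΛ, hu]
        rfl
      have h1 : aeval T r = aeval T (r %ₘ m) := by
        conv_lhs => rw [← Polynomial.modByMonic_add_div r m]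
        rw [map_add, map_mul, hmT, zero_mul, add_zero]
      rw [h1]
      have hdeg : (r %ₘ m).natDegree < d := by
        rw [hdd]
        exact Polynomial.natDegree_modByMonic_lt r hm hm1
      rw [Polynomial.as_sum_range' (r %ₘ m) d hdeg, map_sum, LinearMap.sum_apply, map_sum]
      apply Finset.sum_eq_zero
      intro k hk'
      rw [← Polynomial.C_mul_X_pow_eq_monomial, ← smul_eq_C_mul, map_smul, LinearMap.smul_apply,
        map_smul]
      have := hk ⟨k, Finset.mem_range.mp hk'⟩
      simp only at this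
      rw [this, smul_zero]
    have h2 := LinearMap.finrank_range_add_finrank_ker Λ
    have h3 : Module.finrank F (LinearMap.range Λ) ≤ d := by
      have := Submodule.finrank_le (LinearMap.range Λ)
      simpa using this
    have h4 := Submodule.finrank_mono hker
    omega
  have hsup : LinearMap.range ev ⊔ U = ⊤ := by
    apply Submodule.eq_top_of_finrank_eq
    have := Submodule.finrank_sup_add_finrank_inf_eq (LinearMap.range ev) U
    rw [hdisj.eq_bot, finrank_bot, add_zero] at this
    have h5 := Submodule.finrank_le (LinearMap.range ev ⊔ U)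
    omega
  have hcompl : IsCompl (LinearMap.range ev) U := ⟨hdisj, codisjoint_iff.mpr hsup⟩
  refine ⟨LinearMap.range ev, U, hWinv, hUinv, hcompl, ?_, ?_⟩
  · obtain ⟨s, hs⟩ := LinearMap.exists_rightInverse_of_surjective ev.rangeRestrict
      (LinearMap.range_rangeRestrict ev)
    have hs' : ∀ w : LinearMap.range ev, ev (s w) = (w : V) := by
      intro w
      have := LinearMap.congr_fun hs w
      exact congrArg Subtype.val this
    have hrep : ∀ (g₁ g₂ : F[X]), ev g₁ = ev g₂ → ∀ w : LinearMap.range ev,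
        aeval T g₁ (w : V) = aeval T g₂ (w : V) := by
      intro g₁ g₂ h12 w
      obtain ⟨r, hr⟩ := w.2
      rw [← hr, hev, ← hmul, ← hmul, mul_comm, mul_comm g₂, hmul, hmul, ← hev, ← hev, h12]
    let BW : LinearMap.range ev →ₗ[F] LinearMap.range ev →ₗ[F] F :=
      LinearMap.mk₂ F (fun w₁ w₂ => lam (aeval T (s w₁) (w₂ : V)))
        (by intro a b c; simp [map_add])
        (by intro c a b; simp [map_smul])
        (by intro a b c; simp [map_add])
        (by intro c a b; simp [map_smul])
    have hBW : ∀ w₁ w₂, BW w₁ w₂ = lam (aeval T (s w₁) (w₂ : V)) := fun w₁ w₂ => rfl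
    refine ⟨BW, ?_, ?_⟩
    · intro w₁ hw₁
      have h1 : m ∣ s w₁ := by
        apply hN
        intro r
        have := hw₁ ⟨ev r, r, rfl⟩
        rw [hBW] at this
        rw [mul_comm, hmul]
        exact this
      apply Subtype.ext
      rw [← hs' w₁, hev, hdvd _ h1]
      rfl
    · intro w₁ w₂
      rw [hBW, hBW]
      have h1 : ev (s (T.restrict hWinv w₁)) = ev (X * s w₁) := by
        rw [hs', hev, hmul, aeval_X, ← hev, hs']
        rfl
      rw [hrep _ _ h1 w₂, mul_comm, hmul, aeval_X]
      rfl
  · intro hbot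
    rw [hbot, finrank_bot] at hW_dim
    omega

theorem hasSAForm_all : ∀ (n : ℕ) (V : Type v) [AddCommGroup V] [Module F V]
    [FiniteDimensional F V] (T : Module.End F V), Module.finrank F V = n → HasSAForm T := by
  intro n
  induction n using Nat.strong_induction_on with
  | _ n ih =>
    intro V _ _ _ T hn
    classical
    rcases subsingleton_or_nontrivial V with hsub | hnt
    · exact ⟨0, fun x _ => Subsingleton.elim x 0, fun x y => by simp⟩
    have hint : IsIntegral F T := Algebra.IsIntegral.isIntegral T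
    obtain ⟨m, hmdef⟩ : ∃ m, m = minpoly F T := ⟨_, rfl⟩
    have hm_monic : m.Monic := by rw [hmdef]; exact minpoly.monic hint
    have hmT : aeval T m = 0 := by rw [hmdef]; exact minpoly.aeval F T
    have hm_min : ∀ h : F[X], aeval T h = 0 → m ∣ h := by
      intro h hh
      rw [hmdef]
      exact minpoly.dvd F T hh
    have hm_nu : ¬ IsUnit m := by rw [hmdef]; exact minpoly.not_isUnit F T
    have hm0 : m ≠ 0 := hm_monic.ne_zero
    have hd : 1 ≤ m.natDegree := by
      by_contra hlt
      have h0 : m.natDegree = 0 := by omega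
      have h1 : m = 1 := (Polynomial.Monic.natDegree_eq_zero hm_monic).mp h0
      rw [h1] at hm_nu
      exact hm_nu isUnit_one
    have ihsub : ∀ (S : Submodule F V) (hS : ∀ x ∈ S, T x ∈ S), Module.finrank F S < n →
        HasSAForm (T.restrict hS) :=
      fun S hS hlt => ih _ hlt S (T.restrict hS) rfl
    by_cases hsplit : ∃ a b : F[X], m = a * b ∧ IsCoprime a b ∧ ¬ IsUnit a ∧ ¬ IsUnit b
    · obtain ⟨a, b, hab, hcop, ha, hb⟩ := hsplit
      have hinvker : ∀ g : F[X], ∀ x ∈ LinearMap.ker (aeval T g),
          T x ∈ LinearMap.ker (aeval T g) := by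
        intro g x hx
        rw [LinearMap.mem_ker] at hx ⊢
        have h1 : aeval T g (T x) = aeval T (g * X) x := by
          rw [map_mul, aeval_X]; rfl
        have h2 : T (aeval T g x) = aeval T (X * g) x := by
          rw [map_mul, aeval_X]; rfl
        rw [h1, mul_comm, ← h2, hx, map_zero]
      have hc : IsCompl (LinearMap.ker (aeval T a)) (LinearMap.ker (aeval T b)) := by
        refine ⟨Polynomial.disjoint_ker_aeval_of_isCoprime T hcop, ?_⟩
        rw [codisjoint_iff, Polynomial.sup_ker_aeval_eq_ker_aeval_mul_of_coprime T hcop, ← hab, hmT]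
        exact LinearMap.ker_zero
      have hlt : ∀ g : F[X], ¬ m ∣ g → Module.finrank F (LinearMap.ker (aeval T g)) < n := by
        intro g hg
        rw [← hn]
        apply Submodule.finrank_lt
        intro htop
        exact hg (hm_min g (LinearMap.ker_eq_top.mp htop))
      have ha0 : a ≠ 0 := by
        rintro rfl
        rw [zero_mul] at hab
        exact hm0 hab
      have hb0 : b ≠ 0 := by
        rintro rfl
        rw [mul_zero] at hab
        exact hm0 hab
      have ha' : ¬ m ∣ a := by
        intro h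
        rw [hab] at h
        obtain ⟨k, hk⟩ := h
        have h1 : a * 1 = a * (b * k) := by rw [mul_one, ← mul_assoc]; exact hk
        have h2 := mul_left_cancel₀ ha0 h1
        exact hb (IsUnit.of_mul_eq_one _ h2.symm)
      have hb' : ¬ m ∣ b := by
        intro h
        rw [hab] at h
        obtain ⟨k, hk⟩ := h
        have h1 : b * 1 = b * (a * k) := by
          rw [mul_one, ← mul_assoc, mul_comm b a]; exact hk
        have h2 := mul_left_cancel₀ hb0 h1
        exact ha (IsUnit.of_mul_eq_one _ h2.symm)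
      exact hasSAForm_of_isCompl T _ _ hc (hinvker a) (hinvker b)
        (ihsub _ _ (hlt a ha')) (ihsub _ _ (hlt b hb'))
    · push Not at hsplit
      obtain ⟨p, hp, hpm⟩ := WfDvdMonoid.exists_irreducible_factor hm_nu hm0
      have hfin : FiniteMultiplicity p m := FiniteMultiplicity.of_not_isUnit hp.not_isUnit hm0
      obtain ⟨c, hc1, hc2⟩ := hfin.exists_eq_pow_mul_and_not_dvd
      obtain ⟨e, he⟩ : ∃ e, e = multiplicity p m := ⟨_, rfl⟩
      rw [← he] at hc1
      have hcop : IsCoprime (p ^ e) c := ((hp.coprime_iff_not_dvd).mpr hc2).pow_left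
      have he1 : e ≠ 0 := by
        rintro rfl
        rw [pow_zero, one_mul] at hc1
        rw [hc1] at hpm
        exact hc2 hpm
      have hpe_nu : ¬ IsUnit (p ^ e) := by
        rw [isUnit_pow_iff he1]
        exact hp.not_isUnit
      have hcu : IsUnit c := hsplit (p ^ e) c hc1 hcop hpe_nu
      have hdvd_of : ∀ h, p ^ e ∣ h → m ∣ h := by
        intro h hh
        rw [hc1]
        exact (IsUnit.mul_right_dvd hcu).mpr hh
      have hpeT : aeval T (p ^ e) = 0 := by
        obtain ⟨c', hc'⟩ := hcu.exists_right_inv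
        have : p ^ e = m * c' := by rw [hc1, mul_assoc, hc', mul_one]
        rw [this, map_mul, hmT, zero_mul]
      have hp0 : p ≠ 0 := hp.ne_zero
      have hpe1 : aeval T (p ^ (e - 1)) ≠ 0 := by
        intro h
        have h1 := hm_min _ h
        rw [hc1] at h1
        have h2 : p ^ e ∣ p ^ (e - 1) := dvd_of_mul_right_dvd h1
        rw [pow_dvd_pow_iff hp0 hp.not_isUnit] at h2
        omega
      obtain ⟨v, hv⟩ : ∃ v, aeval T (p ^ (e - 1)) v ≠ 0 := by
        by_contra hcon
        push Not at hcon
        exact hpe1 (LinearMap.ext hcon)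
      obtain ⟨lam, hlam⟩ : ∃ lam : Module.Dual F V, lam (aeval T (p ^ (e - 1)) v) ≠ 0 := by
        by_contra hcon
        push Not at hcon
        exact hv ((Module.forall_dual_apply_eq_zero_iff F _).mp hcon)
      have hN : ∀ h : F[X], (∀ r : F[X], lam (aeval T (r * h) v) = 0) → m ∣ h := by
        intro h hh
        apply hdvd_of
        by_contra hnd
        have hex : ∃ j, ¬ p ^ (j + 1) ∣ h :=
          ⟨e - 1, by rwa [Nat.sub_add_cancel (Nat.one_le_iff_ne_zero.mpr he1)]⟩
        obtain ⟨j, hj⟩ : ∃ j, j = Nat.find hex := ⟨_, rfl⟩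
        have hj1 : ¬ p ^ (j + 1) ∣ h := by rw [hj]; exact Nat.find_spec hex
        have hj2 : p ^ j ∣ h := by
          rcases Nat.eq_zero_or_pos j with h0 | hpos
          · rw [h0, pow_zero]; exact one_dvd _
          · have := Nat.find_min hex (m := j - 1) (by omega)
            rw [not_not, Nat.sub_add_cancel hpos] at this
            exact this
        have hje : j ≤ e - 1 := by
          rw [hj]
          exact Nat.find_min' hex (by rwa [Nat.sub_add_cancel (Nat.one_le_iff_ne_zero.mpr he1)])
        obtain ⟨h', rfl⟩ := hj2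
        have hph' : ¬ p ∣ h' := by
          intro hd'
          apply hj1
          rw [pow_succ]
          exact mul_dvd_mul_left _ hd'
        obtain ⟨x, y, hxy⟩ := (hp.coprime_iff_not_dvd).mpr hph'
        have e1 : p ^ (e - 1) * p = p ^ e := by
          rw [← pow_succ, Nat.sub_add_cancel (Nat.one_le_iff_ne_zero.mpr he1)]
        have e2 : p ^ (e - 1 - j) * p ^ j = p ^ (e - 1) := by
          rw [← pow_add, Nat.sub_add_cancel hje]
        have hid : p ^ (e - 1) = x * p ^ e + (y * p ^ (e - 1 - j)) * (p ^ j * h') := by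
          calc p ^ (e - 1) = p ^ (e - 1) * (x * p + y * h') := by rw [hxy, mul_one]
            _ = x * (p ^ (e - 1) * p) + y * (p ^ (e - 1 - j) * p ^ j) * h' := by rw [e2]; ring
            _ = x * p ^ e + (y * p ^ (e - 1 - j)) * (p ^ j * h') := by rw [e1]; ring
        apply hlam
        rw [hid, map_add, LinearMap.add_apply, map_mul _ x, hpeT, mul_zero, LinearMap.zero_apply,
          zero_add]
        exact hh _
      obtain ⟨W, U, hW, hU, hcompl, hWform, hW0⟩ := cyclic_split T v lam m hm_monic hmT hd hN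
      have hlt : Module.finrank F U < n := by
        have h1 := Submodule.finrank_add_eq_of_isCompl hcompl
        have h2 : 0 < Module.finrank F W := by
          rw [Module.finrank_pos_iff, Submodule.nontrivial_iff_ne_bot]
          exact hW0
        omega
      exact hasSAForm_of_isCompl T W U hcompl hW hU hWform (ihsub U hU hlt)

/-- every square matrix over a field is conjugate to its transpose -/
theorem isConj_transpose {ι : Type*} [Fintype ι] [DecidableEq ι] (A : Matrix ι ι F) :
    IsConj A A.transpose := by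
  classical
  obtain ⟨B, hB, hB'⟩ := hasSAForm_all (F := F) _ (ι → F) (Matrix.toLin' A) rfl
  obtain ⟨S, hS⟩ : ∃ S : Matrix ι ι F, S = LinearMap.toMatrix₂' F B := ⟨_, rfl⟩
  have hBS : ∀ u v : ι → F, B u v = u ⬝ᵥ S.mulVec v := by
    intro u v
    rw [hS, ← Matrix.toLinearMap₂'_apply', Matrix.toLinearMap₂'_toMatrix']
  have hdet : S.det ≠ 0 := by
    intro h0
    obtain ⟨u, hu, hu0⟩ := Matrix.exists_vecMul_eq_zero_iff.mpr h0
    apply hu
    apply hB
    intro y
    rw [hBS, Matrix.dotProduct_mulVec, hu0, zero_dotProduct]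
  have hcomm : A.transpose * S = S * A := by
    ext i j
    have h1 := hB' (Pi.single i 1) (Pi.single j 1)
    rw [hBS, hBS, Matrix.toLin'_apply, Matrix.toLin'_apply,
      ← Matrix.vecMul_transpose A (Pi.single i 1), ← Matrix.dotProduct_mulVec, Matrix.mulVec_mulVec,
      Matrix.mulVec_mulVec, Matrix.mulVec_single_one, Matrix.mulVec_single_one,
      single_one_dotProduct, single_one_dotProduct] at h1
    exact h1
  refine ⟨(Matrix.GeneralLinearGroup.mkOfDetNeZero S hdet : (Matrix ι ι F)ˣ), ?_⟩
  show S * A = A.transpose * S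
  exact hcomm.symm

end SelfAdj

end Cfsg.Agent.Lib.helper13
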